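import Mathlib
import Cfsg.Prelude.Def_GeometricClasses
import Cfsg.Prelude.Def_Classical

set_option autoImplicit false

/-!
# Definitions for CALL S88 (helper35; row S5988: `PΩ⁺_{2d}(q)` on ELLIPTIC `m`-spaces, all `q`)

`InvEll Q x m`: the matrix `x` leaves invariant some elliptic `m`-space of the quadratic form `Q`
(a subspace of dimension `m` on which the polar form is nondegenerate and which is not of plus
type).  `AllEll Q r m`: every element of order `r` of `PΩ(Q)` (an `x ∈ Ω(Q)` with `x ^ r` scalar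
and `x` not scalar) fixes an elliptic `m`-space.
-/

namespace Cfsg.Agent.Helper35.S88

open Module Cfsg Cfsg.Geo
open scoped MatrixGroups

variable {ι : Type} [Fintype ι] [DecidableEq ι] {F : Type*} [Field F]

/-- `x` fixes an elliptic `m`-space of `Q`. -/
def InvEll (Q : (ι → F) → F) (x : Matrix ι ι F) (m : ℕ) : Prop :=
  ∃ W : Submodule F (ι → F),
    (Module.finrank F ↥W = m ∧ Cfsg.Geo.IsNondegenerateOn (QuadraticMap.polar Q) W ∧
      ¬ Cfsg.Geo.IsPlusTypeOn Q W) ∧ W.map (Matrix.toLin' x) ≤ W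

/-- every element of order `r` of `PΩ(Q)` fixes an elliptic `m`-space. -/
def AllEll (Q : (ι → F) → F) (r m : ℕ) : Prop :=
  ∀ x : GL ι F, x ∈ Cfsg.Geo.omegaGL Q →
    (∃ z : F, ((x ^ r : GL ι F) : Matrix ι ι F) = z • (1 : Matrix ι ι F)) →
    (∀ z : F, (x : Matrix ι ι F) ≠ z • (1 : Matrix ι ι F)) →
    InvEll Q (x : Matrix ι ι F) m

end Cfsg.Agent.Helper35.S88
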