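import Mathlib
import Cfsg.Prelude.Def_GeometricClasses
import Cfsg.Prelude.Def_Classical
import Cfsg.Agent.Helper58.TSDefs
import Cfsg.Agent.Helper43.PrimeOrdO3
import Cfsg.Agent.Helper33.OType
import Cfsg.Agent.Helper43.OTDefs
import Cfsg.Agent.Helper47.HTHTIB
import Cfsg.Agent.Helper98.TBSPLIT
import Cfsg.Agent.Helper31.TBPRODTS
import Cfsg.Agent.Helper31.TBPRODND
import Cfsg.Agent.Helper93.TBTYPEPROD

set_option autoImplicit false

/-!
# Sub-CALL TB (helper43) of CALL TS (helper58), piece FULL (`tb_full`), helper35: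
glue a standard plus/minus space of dimension `2 k₀` and defect `ε₀` to a block.
-/

namespace Cfsg.Agent.Helper35.TB

open Module Polynomial Cfsg Cfsg.Geo Cfsg.Agent.Helper58.TS
open Cfsg.Agent.Helper43 Cfsg.Agent.Helper43.OrthEven Cfsg.Agent.Helper43.CycFactors
  Cfsg.Agent.Helper43.PrimeOrdMat
open scoped MatrixGroups

universe u

section lvl2

variable {F : Type u} [Field F] [Fintype F]

/-- a monic quadratic `t ^ 2 + t + ζ` without roots over a finite field -/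
theorem tb_exists_zeta : ∃ ζ : F, ∀ t : F, t ^ 2 + t + ζ ≠ 0 := by
  by_contra hcon
  push Not at hcon
  have hsurj : Function.Surjective (fun t : F => t ^ 2 + t) := by
    intro y
    obtain ⟨t, ht⟩ := hcon (-y)
    exact ⟨t, by show t ^ 2 + t = y; linear_combination ht⟩
  have hinj := Finite.injective_iff_surjective.2 hsurj
  have h1 : (fun t : F => t ^ 2 + t) 0 = (fun t : F => t ^ 2 + t) (-1) := by
    show (0 : F) ^ 2 + 0 = (-1) ^ 2 + (-1)
    ring
  have h2 := hinj h1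
  have h3 : (1 : F) = 0 := by linear_combination h2
  exact one_ne_zero h3

/-- a totally singular subspace of a space with nondegenerate polar form has at most half the
dimension -/
theorem tb_ts_le {V : Type u} [AddCommGroup V] [Module F V] [FiniteDimensional F V]
    (Q : QuadraticForm F V) (hnd : PolarNondeg Q) (U : Submodule F V) (hU : ∀ u ∈ U, Q u = 0) :
    2 * finrank F U ≤ finrank F V := by
  have hh := Cfsg.Agent.Helper43.OT.isHerm_ph Q
  have hC : Cfsg.Agent.Helper90.HT.HNondegOn (Cfsg.Agent.Helper43.OT.ph Q) (⊤ : Submodule F V) :=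
    fun v _ hv => hnd v (fun w => hv w trivial)
  have hTI : Cfsg.Agent.Helper90.HT.HTI (Cfsg.Agent.Helper43.OT.ph Q) U := by
    intro u hu v hv
    rw [Cfsg.Agent.Helper43.OT.ph_apply, QuadraticMap.polar, hU _ (U.add_mem hu hv), hU u hu,
      hU v hv]
    simp
  have h := Cfsg.Agent.Helper47.HT5953.ht_bound (RingHom.id F) (Cfsg.Agent.Helper43.OT.ph Q) hh ⊤ U
    hC le_top hTI
  rw [finrank_top] at h
  exact h

/-- the fixed part: a standard space of dimension `2 k₀` and type defect `ε₀` -/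
theorem tb_fixed_space (k₀ ε₀ : ℕ) (hε : ε₀ ≤ 1) (hεk : ε₀ ≤ k₀) :
    ∃ (V₀ : Type u) (_ : AddCommGroup V₀) (_ : Module F V₀) (_ : FiniteDimensional F V₀)
      (Q₀ : QuadraticForm F V₀), PolarNondeg Q₀ ∧ finrank F V₀ = 2 * k₀ ∧
      (HasTS Q₀ k₀ ↔ ε₀ = 0) ∧
      ∀ U : Submodule F V₀, (∀ u ∈ U, Q₀ u = 0) → finrank F U + ε₀ ≤ k₀ := by
  classical
  rcases Nat.eq_zero_or_pos ε₀ with h0 | h1
  · subst h0
    have hnd : PolarNondeg (plusQF k₀ F) :=
      polarNondeg_of_nondegenerate _ (plusQF_nondeg k₀)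
    have hdim : finrank F (Fin k₀ ⊕ Fin k₀ → F) = 2 * k₀ := by
      rw [Module.finrank_fintype_fun_eq_card, Fintype.card_sum, Fintype.card_fin]
      ring
    refine ⟨Fin k₀ ⊕ Fin k₀ → F, inferInstance, inferInstance, inferInstance, plusQF k₀ F, hnd,
      hdim, ⟨fun _ => rfl, fun _ => hasTS_plus k₀⟩, ?_⟩
    intro U hU
    have h := tb_ts_le (plusQF k₀ F) hnd U hU
    omega
  · have hε1 : ε₀ = 1 := by omega
    subst hε1
    obtain ⟨ζ, hζ⟩ := tb_exists_zeta (F := F)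
    have hac := Cfsg.Agent.S2617.aniso ζ hζ
    have hnd : PolarNondeg (minusQF (k₀ - 1) F 1 ζ) :=
      polarNondeg_of_nondegenerate _ (minusQF_nondeg (k₀ - 1) 1 ζ hac)
    have hdim : finrank F ((Fin (k₀ - 1) ⊕ Fin (k₀ - 1)) ⊕ Fin 2 → F) = 2 * k₀ := by
      rw [Module.finrank_fintype_fun_eq_card, Fintype.card_sum, Fintype.card_sum, Fintype.card_fin,
        Fintype.card_fin]
      omega
    have hno : ¬ HasTS (minusQF (k₀ - 1) F 1 ζ) k₀ := not_hasTS_minus hεk 1 ζ hac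
    refine ⟨(Fin (k₀ - 1) ⊕ Fin (k₀ - 1)) ⊕ Fin 2 → F, inferInstance, inferInstance, inferInstance,
      minusQF (k₀ - 1) F 1 ζ, hnd, hdim, ⟨fun h => absurd h hno, fun h => absurd h one_ne_zero⟩, ?_⟩
    intro U hU
    by_contra hcon
    exact hno ⟨U, by omega, hU⟩

/-- FULL [M-L]: glue a fixed space of dimension `2 k₀` and type defect `ε₀` to a block. -/
theorem tb_full (r : ℕ) [Fact r.Prime] (hrF : (r : F) ≠ 0) {V₁ : Type u} [AddCommGroup V₁]
    [Module F V₁] [FiniteDimensional F V₁] (Q₁ : QuadraticForm F V₁) (T₁ : Module.End F V₁)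
    (hnd : PolarNondeg Q₁) (hT : ∀ v, Q₁ (T₁ v) = Q₁ v) (hcyc : aeval T₁ (cyclotomic r F) = 0)
    (l : ℕ) (hl : 1 ≤ l) (hV₁ : finrank F V₁ = 2 * l) (k₀ ε₀ : ℕ) (hε : ε₀ ≤ 1) (hεk : ε₀ ≤ k₀) :
    ∃ (V' : Type u) (_ : AddCommGroup V') (_ : Module F V') (_ : FiniteDimensional F V')
      (Q' : QuadraticForm F V') (T : Module.End F V'),
      PolarNondeg Q' ∧ finrank F V' = 2 * (k₀ + l) ∧
      (HasTS Q' (k₀ + l) ↔ (ε₀ = 0 ↔ HasTS Q₁ l)) ∧ (∀ v, Q' (T v) = Q' v) ∧ T ^ r = 1 ∧ T ≠ 1 ∧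
      ∀ W : Submodule F V', W.map T ≤ W → (∀ w ∈ W, Q' w = 0) →
        ∃ (w : ℕ) (U₁ : Submodule F V₁), U₁.map T₁ ≤ U₁ ∧ (∀ u ∈ U₁, Q₁ u = 0) ∧ w + ε₀ ≤ k₀ ∧
          finrank F W = w + finrank F U₁ := by
  classical
  have hrp : r.Prime := Fact.out
  obtain ⟨V₀, _, _, _, Q₀, hnd₀, hdim₀, htype₀, hbound₀⟩ := tb_fixed_space (F := F) k₀ ε₀ hε hεk
  obtain ⟨T, hTdef⟩ : ∃ T : Module.End F (V₀ × V₁), T = (1 : Module.End F V₀).prodMap T₁ :=
    ⟨_, rfl⟩
  have hTapp : ∀ v : V₀ × V₁, T v = (v.1, T₁ v.2) := by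
    intro v
    rw [hTdef]
    rfl
  -- `X ^ r - 1` kills `T`
  have hXr : (X ^ r - 1 : F[X]) = cyclotomic r F * (X - 1) :=
    (cyclotomic_prime_mul_X_sub_one F r).symm
  have hT₁r : aeval T₁ (X ^ r - 1 : F[X]) = 0 := by
    rw [hXr, map_mul, hcyc, zero_mul]
  have hTr : T ^ r = 1 := by
    have h1 : aeval T (X ^ r - 1 : F[X]) = 0 := by
      rw [hTdef, Cfsg.Agent.Helper98.TB.tb_aeval_prod, hT₁r]
      have h2 : aeval (1 : Module.End F V₀) (X ^ r - 1 : F[X]) = 0 := by simp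
      rw [h2]
      exact LinearMap.prodMap_zero
    have h3 : aeval T (X ^ r - 1 : F[X]) = T ^ r - 1 := by simp
    rw [h3] at h1
    exact sub_eq_zero.mp h1
  have hTne : T ≠ 1 := by
    intro h1
    have hT₁ : T₁ = 1 := by
      apply LinearMap.ext
      intro v
      have h2 := hTapp (0, v)
      rw [h1] at h2
      exact (congrArg Prod.snd h2).symm
    rw [hT₁] at hcyc
    have hnt : Nontrivial V₁ := by
      apply Module.nontrivial_of_finrank_pos (R := F)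
      omega
    obtain ⟨v, hv⟩ := exists_ne (0 : V₁)
    have hev : (1 : Module.End F V₁).HasEigenvector 1 v :=
      ⟨Module.End.mem_eigenspace_iff.mpr (by simp), hv⟩
    have h5 := Module.End.aeval_apply_of_hasEigenvector hev (p := cyclotomic r F)
    rw [hcyc, eval_one_cyclotomic_prime, LinearMap.zero_apply] at h5
    rcases smul_eq_zero.mp h5.symm with h6 | h6
    · exact hrF h6
    · exact hv h6
  have hcop : IsCoprime (X - 1 : F[X]) (cyclotomic r F) := by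
    have hirr : Irreducible (X - 1 : F[X]) := by
      have := irreducible_X_sub_C (1 : F)
      rwa [map_one] at this
    exact (hirr.coprime_iff_not_dvd).mpr (X_sub_one_not_dvd_cyclotomic hrp hrF)
  refine ⟨V₀ × V₁, inferInstance, inferInstance, inferInstance, Q₀.prod Q₁, T,
    Cfsg.Agent.Helper31.TB.tb_prod_nd Q₀ Q₁ hnd₀ hnd, ?_, ?_, ?_, hTr, hTne, ?_⟩
  · rw [Module.finrank_prod, hdim₀, hV₁]
    ring
  · rw [Cfsg.Agent.Helper93.TB.tb_type_prod Q₀ Q₁ hnd₀ hnd k₀ l hdim₀ hV₁, htype₀]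
  · intro v
    rw [hTapp, QuadraticMap.prod_apply, QuadraticMap.prod_apply, hT]
  · intro W hWT hW
    obtain ⟨Ua, Ub, -, hUb, hWeq⟩ := Cfsg.Agent.Helper98.TB.tb_split (1 : Module.End F V₀) T₁
      (X - 1) (cyclotomic r F) hcop (by simp) hcyc W (by rw [← hTdef]; exact hWT)
    rw [hWeq] at hW
    obtain ⟨hUa0, hUb0, hfin⟩ := Cfsg.Agent.Helper31.TB.tb_prod_ts Q₀ Q₁ Ua Ub hW
    refine ⟨finrank F Ua, Ub, hUb, hUb0, hbound₀ Ua hUa0, ?_⟩
    rw [hWeq]
    exact hfin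

end lvl2

end Cfsg.Agent.Helper35.TB
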