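import Mathlib
import Cfsg.Prelude.Def_GeometricClasses
import Cfsg.Prelude.Def_Classical
import Cfsg.Agent.Helper33.OType
import Cfsg.Agent.Helper43.UniMinus
import Cfsg.Agent.Helper43.OrthPlane
import Cfsg.Agent.Helper31.TBPRODND
import Cfsg.Agent.Helper93.TBTYPEPROD
import Cfsg.Agent.Helper35.TBFULL

set_option autoImplicit false

/-!
# CALL EL (row S5988), piece SUBT (helper35): type freedom in a nondegenerate even-dimensional
quadratic space, ALL characteristics.

* `el_iso_of_type` : two quadratic spaces over a finite field with nondegenerate polar forms, the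
  same dimension `2 k` and the same type are isometric;
* `el_sub` : a nondegenerate subspace `K` of dimension `2 k` contains nondegenerate subspaces of
  every even dimension `0 < e < 2 k` of either type.
-/

namespace Cfsg.Agent.Helper35.EL

open Module Cfsg Cfsg.Geo
open Cfsg.Agent.Helper43 Cfsg.Agent.Helper43.OrthEven

universe u

section iso

variable {F : Type u} [Field F] [Fintype F]

/-- two quadratic spaces with nondegenerate polar forms, of the same dimension `2 k` and the same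
type, are isometric (all characteristics). -/
theorem el_iso_of_type {V V' : Type u} [AddCommGroup V] [Module F V] [FiniteDimensional F V]
    [AddCommGroup V'] [Module F V'] [FiniteDimensional F V'] (Q : QuadraticForm F V)
    (Q' : QuadraticForm F V') (hnd : PolarNondeg Q) (hnd' : PolarNondeg Q') (k : ℕ)
    (hdim : finrank F V = 2 * k) (hdim' : finrank F V' = 2 * k)
    (htype : HasTS Q k ↔ HasTS Q' k) :
    ∃ Φ : V ≃ₗ[F] V', ∀ v, Q' (Φ v) = Q v := by
  classical
  by_cases hTS : HasTS Q k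
  · have hTS' : HasTS Q' k := htype.mp hTS
    obtain ⟨Ψ, hΨ⟩ := Cfsg.Agent.Helper43.UniMinus.exists_plus_of_hasTS' hdim Q hnd hTS
    obtain ⟨Ψ', hΨ'⟩ := Cfsg.Agent.Helper43.UniMinus.exists_plus_of_hasTS' hdim' Q' hnd' hTS'
    refine ⟨Ψ.symm.trans Ψ', ?_⟩
    intro v
    rw [LinearEquiv.trans_apply, hΨ', ← hΨ, LinearEquiv.apply_symm_apply]
  · have hTS' : ¬ HasTS Q' k := fun h => hTS (htype.mpr h)
    have hk : 1 ≤ k := by
      by_contra hk0
      have hk0' : k = 0 := by omega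
      apply hTS
      rw [hk0']
      exact ⟨⊥, Nat.zero_le _, fun u hu => by rw [(Submodule.mem_bot F).1 hu, map_zero]⟩
    obtain ⟨ζ, hζ, Ψ, hΨ⟩ := exists_minus_of_not_hasTS hk hdim Q hnd hTS
    obtain ⟨Ψ', hΨ'⟩ := exists_minus_of_not_hasTS' hk hdim' Q' hnd' hTS' 1 ζ
      (Cfsg.Agent.S2617.aniso ζ hζ)
    refine ⟨Ψ.symm.trans Ψ', ?_⟩
    intro v
    rw [LinearEquiv.trans_apply, hΨ', ← hΨ, LinearEquiv.apply_symm_apply]

/-- a standard space of dimension `2 j` (`j ≥ 1`) which is of plus type iff `b`. -/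
theorem el_model (j : ℕ) (hj : 1 ≤ j) (b : Prop) :
    ∃ (V₀ : Type u) (_ : AddCommGroup V₀) (_ : Module F V₀) (_ : FiniteDimensional F V₀)
      (Q₀ : QuadraticForm F V₀), PolarNondeg Q₀ ∧ finrank F V₀ = 2 * j ∧ (HasTS Q₀ j ↔ b) := by
  classical
  by_cases hb : b
  · obtain ⟨V₀, i1, i2, i3, Q₀, hnd, hdim, htype, -⟩ :=
      Cfsg.Agent.Helper35.TB.tb_fixed_space (F := F) j 0 (by omega) (by omega)
    exact ⟨V₀, i1, i2, i3, Q₀, hnd, hdim, by rw [htype]; simp [hb]⟩
  · obtain ⟨V₀, i1, i2, i3, Q₀, hnd, hdim, htype, -⟩ :=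
      Cfsg.Agent.Helper35.TB.tb_fixed_space (F := F) j 1 (by omega) hj
    exact ⟨V₀, i1, i2, i3, Q₀, hnd, hdim, by rw [htype]; simp [hb]⟩

end iso

section sub

variable {ι : Type} [Fintype ι] [DecidableEq ι] {F : Type u} [Field F] [Fintype F]

/-- SUBT: type freedom.  A nondegenerate subspace `K` of dimension `2 k` contains a nondegenerate
subspace of every even dimension `0 < e < 2 k`, of plus type iff `b` (all characteristics). -/
theorem el_sub (Q : (ι → F) → F) (hQ : IsNondegenerateQuadraticForm Q)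
    (K : Submodule F (ι → F)) (hK : IsNondegenerateOn (QuadraticMap.polar Q) K) (k : ℕ)
    (hKdim : finrank F K = 2 * k) (e : ℕ) (hev : Even e) (he0 : 0 < e) (heK : e < 2 * k)
    (b : Prop) :
    ∃ X : Submodule F (ι → F), X ≤ K ∧ IsNondegenerateOn (QuadraticMap.polar Q) X ∧
      finrank F X = e ∧ (IsPlusTypeOn Q X ↔ b) := by
  classical
  obtain ⟨j, hj⟩ := hev
  have hj1 : 1 ≤ j := by omega
  have hjk : j < k := by omega
  obtain ⟨n, hn⟩ : ∃ n, k = j + n := ⟨k - j, by omega⟩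
  have hn1 : 1 ≤ n := by omega
  obtain ⟨QK, hQK⟩ : ∃ QK : QuadraticForm F K, QK = Cfsg.Agent.Helper33.OType.restr Q hQ K :=
    ⟨_, rfl⟩
  have hQKapp : ∀ w : K, QK w = Q (w : ι → F) := by
    intro w
    rw [hQK]
    rfl
  have hndK : PolarNondeg QK := by
    rw [hQK]
    exact Cfsg.Agent.Helper33.OType.polarNondeg_restr Q hQ K hK
  obtain ⟨X₀, _, _, _, QX, hndX, hdimX, htypeX⟩ := el_model (F := F) j hj1 b
  obtain ⟨Y₀, _, _, _, QY, hndY, hdimY, htypeY⟩ := el_model (F := F) n hn1 (HasTS QK k ↔ b)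
  have hndP : PolarNondeg (QX.prod QY) := Cfsg.Agent.Helper31.TB.tb_prod_nd QX QY hndX hndY
  have hdimP : finrank F (X₀ × Y₀) = 2 * k := by
    rw [Module.finrank_prod, hdimX, hdimY, hn]
    ring
  have htypeP : HasTS (QX.prod QY) k ↔ HasTS QK k := by
    rw [hn, Cfsg.Agent.Helper93.TB.tb_type_prod QX QY hndX hndY j n hdimX hdimY, htypeX, htypeY,
      ← hn]
    tauto
  obtain ⟨Φ, hΦ⟩ := el_iso_of_type (QX.prod QY) QK hndP hndK k hdimP hKdim htypeP
  -- the embedding of `X₀`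
  obtain ⟨L, hL⟩ : ∃ L : X₀ →ₗ[F] (ι → F),
      L = K.subtype ∘ₗ (Φ : (X₀ × Y₀) →ₗ[F] K) ∘ₗ LinearMap.inl F X₀ Y₀ := ⟨_, rfl⟩
  have hLapp : ∀ x : X₀, L x = ((Φ (x, 0) : K) : ι → F) := by
    intro x
    rw [hL]
    rfl
  have hLQ : ∀ x : X₀, Q (L x) = QX x := by
    intro x
    rw [hLapp, ← hQKapp, hΦ, QuadraticMap.prod_apply, map_zero, add_zero]
  have hLinj : Function.Injective L := by
    intro x y hxy
    rw [hLapp, hLapp] at hxy
    have h1 : Φ (x, 0) = Φ (y, 0) := Subtype.ext hxy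
    have h2 := Φ.injective h1
    exact (Prod.mk.inj h2).1
  have hLpolar : ∀ x y : X₀, QuadraticMap.polar Q (L x) (L y) = QuadraticMap.polar QX x y := by
    intro x y
    unfold QuadraticMap.polar
    rw [← map_add, hLQ, hLQ, hLQ]
  have hXK : LinearMap.range L ≤ K := by
    rintro _ ⟨x, rfl⟩
    rw [hLapp]
    exact (Φ (x, 0)).2
  have hXdim : finrank F (LinearMap.range L) = 2 * j := by
    rw [LinearMap.finrank_range_of_inj hLinj, hdimX]
  have hXnd : IsNondegenerateOn (QuadraticMap.polar Q) (LinearMap.range L) := by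
    rintro _ ⟨x, rfl⟩ hx0
    have hx : x ≠ 0 := by
      intro h
      apply hx0
      rw [h, map_zero]
    have hex : ∃ y, QuadraticMap.polar QX x y ≠ 0 := by
      by_contra hcon
      push Not at hcon
      exact hx (hndX x hcon)
    obtain ⟨y, hy⟩ := hex
    refine ⟨⟨L y, ⟨y, rfl⟩, ?_⟩, ⟨L y, ⟨y, rfl⟩, ?_⟩⟩
    · rw [hLpolar, QuadraticMap.polar_comm]
      exact hy
    · rw [hLpolar]
      exact hy
  refine ⟨LinearMap.range L, hXK, hXnd, by rw [hXdim, hj]; ring, ?_⟩
  rw [Cfsg.Agent.Helper33.OType.plus_iff_hasTS Q hQ (LinearMap.range L) hXnd hXdim, ← htypeX]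
  obtain ⟨Ψ, hΨ⟩ : ∃ Ψ : X₀ ≃ₗ[F] LinearMap.range L, ∀ x, ((Ψ x : LinearMap.range L) : ι → F) = L x :=
    ⟨LinearEquiv.ofInjective L hLinj, fun x => rfl⟩
  constructor
  · intro h
    refine hasTS_equiv QX (fun z => Cfsg.Agent.Helper33.OType.restr Q hQ (LinearMap.range L) z)
      Ψ.symm ?_ h
    intro z
    show QX (Ψ.symm z) = Q (z : ι → F)
    rw [← hLQ, ← hΨ, LinearEquiv.apply_symm_apply]
  · intro h
    refine hasTS_equiv (Cfsg.Agent.Helper33.OType.restr Q hQ (LinearMap.range L)) (fun z => QX z)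
      Ψ ?_ h
    intro z
    show Q ((Ψ z : LinearMap.range L) : ι → F) = QX z
    rw [hΨ, hLQ]

end sub

end Cfsg.Agent.Helper35.EL
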