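import Mathlib
import Cfsg.Prelude.Def_GeometricClasses
import Cfsg.Prelude.Def_Classical
import Cfsg.Agent.Helper58.TSDefs
import Cfsg.Agent.Helper45.DicksonRank
import Cfsg.Agent.Helper43.OrthEven

set_option autoImplicit false

/-!
# CALL TS (helper58), piece STDP: the standard plus form is nondegenerate of plus type
(helper35; all characteristics).
-/

namespace Cfsg.Agent.Helper35.TS5973

open Module Cfsg Cfsg.Geo Cfsg.Agent.Helper58.TS
open scoped MatrixGroups

section small

variable {ι : Type} [Fintype ι] [DecidableEq ι] {F : Type*} [Field F]

/-- bridge: a bundled quadratic form on `ι → F` with nondegenerate polar form is a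
nondegenerate quadratic form in the sense of the Prelude. -/
theorem ts_nondeg_of_bundled (Qf : QuadraticForm F (ι → F))
    (h : (QuadraticMap.polarBilin Qf).Nondegenerate) :
    IsNondegenerateQuadraticForm (⇑Qf) where
  smul c v := by
    rw [QuadraticMap.map_smul, smul_eq_mul]
    ring
  polar_bilinear :=
    { add_left := fun x y v => QuadraticMap.polar_add_left Qf x y v
      smul_left := fun c x v => by
        rw [QuadraticMap.polar_smul_left, smul_eq_mul]
      add_right := fun v x y => QuadraticMap.polar_add_right Qf v x y
      smul_right := fun c v x => by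
        rw [QuadraticMap.polar_smul_right, smul_eq_mul] }
  nondegenerate := by
    intro v hv
    constructor
    · by_contra hne
      push Not at hne
      apply hv
      apply h.1 v
      intro y
      rw [QuadraticMap.polarBilin_apply_apply, QuadraticMap.polar_comm]
      exact hne y
    · by_contra hne
      push Not at hne
      apply hv
      apply h.1 v
      intro y
      rw [QuadraticMap.polarBilin_apply_apply]
      exact hne y

/-- STDP [S-M]: the standard plus form is nondegenerate of plus type. -/
theorem ts_std_plus (d : ℕ) : IsNondegenerateQuadraticForm (Cfsg.quadFormPlus d F) ∧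
    IsPlusTypeOn (Cfsg.quadFormPlus d F) ⊤ := by
  classical
  refine ⟨?_, ?_⟩
  · have h := ts_nondeg_of_bundled (Cfsg.Agent.Helper43.plusQF d F)
      (Cfsg.Agent.Helper45.plusQF_nondeg' (F := F) d)
    rwa [Cfsg.Agent.Helper43.plusQF_coe] at h
  · refine ⟨LinearMap.range (Cfsg.Agent.S2617.emb d F), le_top, ?_, ?_⟩
    · rintro w ⟨x, rfl⟩
      simp [Cfsg.quadFormPlus, Cfsg.Agent.S2617.emb]
    · rw [LinearMap.finrank_range_of_inj (Cfsg.Agent.S2617.emb_injective d F), finrank_top,
        Module.finrank_fin_fun, Module.finrank_fintype_fun_eq_card, Fintype.card_sum,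
        Fintype.card_fin]
      ring

end small

end Cfsg.Agent.Helper35.TS5973
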