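import Mathlib
import Cfsg.Prelude.Def_GeometricClasses
import Cfsg.Prelude.Def_Classical
import Cfsg.Agent.Helper58.TSDefs
import Cfsg.Agent.Helper45.DicksonRank
import Cfsg.Agent.Helper43.OrthEven
import Cfsg.Agent.Helper35.TSSTDP

set_option autoImplicit false

/-!
# CALL TS (helper58), piece STDM: the standard minus form (anisotropic binary part) is
nondegenerate of minus type (helper35; all characteristics).
-/

namespace Cfsg.Agent.Helper35.TS5973

open Module Cfsg Cfsg.Geo Cfsg.Agent.Helper58.TS
open scoped MatrixGroups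

section small

variable {ι : Type} [Fintype ι] [DecidableEq ι] {F : Type*} [Field F]

/-- STDM [M]: the standard minus form (anisotropic binary part) is nondegenerate of minus type. -/
theorem ts_std_minus [Fintype F] (d : ℕ) (a b : F)
    (hab : ∀ x y : F, x ^ 2 + a * x * y + b * y ^ 2 = 0 → x = 0 ∧ y = 0) :
    IsNondegenerateQuadraticForm (Cfsg.quadFormMinus d F a b) ∧
      ¬ IsPlusTypeOn (Cfsg.quadFormMinus d F a b) ⊤ := by
  classical
  refine ⟨?_, ?_⟩
  · have h := ts_nondeg_of_bundled (Cfsg.Agent.Helper43.minusQF d F a b)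
      (Cfsg.Agent.Helper45.minusQF_nondeg' (F := F) d a b hab)
    rwa [Cfsg.Agent.Helper43.minusQF_coe] at h
  · rintro ⟨U, -, hts, hdim⟩
    have hfin : finrank F U = d + 1 := by
      rw [finrank_top, Module.finrank_fintype_fun_eq_card, Fintype.card_sum, Fintype.card_sum,
        Fintype.card_fin, Fintype.card_fin] at hdim
      omega
    have hno := Cfsg.Agent.Helper43.OrthEven.not_hasTS_minus (F := F) (m := d + 1) (by omega) a b hab
    apply hno
    refine ⟨U, le_of_eq hfin.symm, ?_⟩
    intro u hu
    exact hts u hu

end small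

end Cfsg.Agent.Helper35.TS5973
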