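import Mathlib
import Cfsg.Agent.Helper90.HTDefs
import Cfsg.Agent.Helper90.BGChain
import Cfsg.Agent.Helper10.HTHMAX
import Cfsg.Agent.Helper49.OTISO

set_option autoImplicit false

/-!
# CALL OT (S5972) piece LAG (helper35): totally isotropic subspaces of a nondegenerate
symmetric space of every dimension `a` with `2 a + 1 ≤ dim`.
-/

namespace Cfsg.Agent.Helper35.OT5972

open Module Polynomial Cfsg.Agent.Helper90.HT

section geom2

variable {F : Type*} [Field F] {V : Type*} [AddCommGroup V] [Module F V] [FiniteDimensional F V]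
  (h : V → V → F)

/-- LAG (uses `ht_max` with `T = 1`, `N = 1`, and ISO: the anisotropic part has dimension ≤ 2). -/
theorem ot_lag [Fintype F] (hh : IsHerm (RingHom.id F) h) (C : Submodule F V)
    (hC : HNondegOn h C) :
    ∀ a, 2 * a + 1 ≤ finrank F C → ∃ A : Submodule F V, A ≤ C ∧ HTI h A ∧ finrank F A = a := by
  intro a ha
  have hpres : HPres h (1 : Module.End F V) := fun u v => rfl
  obtain ⟨W, U, hWC, hUC, hWTI, -, -, hfin, hUmax⟩ :=
    Cfsg.Agent.Helper10.HT5953.ht_max (RingHom.id F) h hh 1 hpres 1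
      (by rw [Nat.cast_one]; exact one_ne_zero) (pow_one _) C
      (by rw [Module.End.one_eq_id, Submodule.map_id]) hC
  have hU2 : finrank F U ≤ 2 := by
    by_contra hcon
    obtain ⟨v, hvU, hv0, hvv⟩ := Cfsg.Agent.Helper49.OT5972.ot_iso h hh U (by omega)
    have hTI : HTI h (Submodule.span F {v}) := by
      intro x hx y hy
      obtain ⟨c, rfl⟩ := Submodule.mem_span_singleton.mp hx
      obtain ⟨c', rfl⟩ := Submodule.mem_span_singleton.mp hy
      rw [hh.smul_left, hh.smul_right, hvv, mul_zero, mul_zero]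
    have hbot := hUmax (Submodule.span F {v})
      (by rw [Submodule.span_singleton_le_iff_mem]; exact hvU) hTI
      (by rw [Module.End.one_eq_id, Submodule.map_id])
    have hmem : v ∈ Submodule.span F {v} := Submodule.mem_span_singleton_self v
    rw [hbot, Submodule.mem_bot] at hmem
    exact hv0 hmem
  have haW : a ≤ finrank F W := by omega
  have hd : ∀ g : F[X], Irreducible g → g ∣ (X - Polynomial.C 1 : F[X]) → g.natDegree = 1 := by
    intro g hg hgd
    rw [Cfsg.Agent.Helper90.BG.natDegree_eq_of_assoc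
      (hg.associated_of_dvd (irreducible_X_sub_C 1) hgd), natDegree_X_sub_C]
  obtain ⟨A, -, hAW, -, hAfin⟩ := Cfsg.Agent.Helper90.BG.chain_exists (1 : Module.End F V) ⊥ W
    bot_le (by rw [Submodule.map_bot]) (by rw [Module.End.one_eq_id, Submodule.map_id])
    (X - Polynomial.C 1) (X_sub_C_ne_zero 1) (fun v _ => by simp) 1 hd a
    (by rw [finrank_bot, zero_add, one_mul]; exact haW)
  refine ⟨A, hAW.trans hWC, fun x hx y hy => hWTI x (hAW hx) y (hAW hy), ?_⟩
  rw [hAfin, finrank_bot, zero_add, one_mul]

end geom2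

end Cfsg.Agent.Helper35.OT5972
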