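import Mathlib
import Cfsg.Agent.Helper94.ULag
import Cfsg.Agent.Helper94.USub
import Cfsg.Agent.Helper94.UK
import Cfsg.Agent.Helper97.UNot
import Cfsg.Agent.Helper5.UnitSU

set_option autoImplicit false
open Cfsg Cfsg.Geo Matrix
open Cfsg.Agent.Helper94
open scoped MatrixGroups

namespace Cfsg.Agent.Helper35

universe u

variable {F : Type u} [Field F] {ι : Type} [Fintype ι] [DecidableEq ι]
variable {σ : F ≃+* F} {f : (ι → F) → (ι → F) → F}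

/-- STABIN -/
theorem bu_stab_in {D : Fin 2 → Submodule F (ι → F)} (y : GL ι F)
    (h0 : ∀ v ∈ D 0, (y : Matrix ι ι F) *ᵥ v ∈ D 0) (h1 : ∀ v ∈ D 1, (y : Matrix ι ι F) *ᵥ v ∈ D 1) :
    y ∈ decompositionStabilizer D := by
  have key : ∀ W : Submodule F (ι → F), (∀ v ∈ W, (y : Matrix ι ι F) *ᵥ v ∈ W) →
      W.map (Matrix.toLin' (y : Matrix ι ι F)) = W := by
    intro W hW
    have hs : ∀ v, v ∈ W ↔ (y : Matrix ι ι F) *ᵥ v ∈ W := ustab_of_maps_to y W hW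
    apply le_antisymm
    · rintro _ ⟨v, hv, rfl⟩
      rw [Matrix.toLin'_apply]
      exact hW v hv
    · intro w hw
      refine ⟨((y⁻¹ : GL ι F) : Matrix ι ι F) *ᵥ w, ?_, ?_⟩
      · rw [SetLike.mem_coe, hs, ugl_mulVec_inv]
        exact hw
      · rw [Matrix.toLin'_apply, ugl_mulVec_inv]
  refine ⟨1, fun i => ?_⟩
  fin_cases i
  · exact key _ h0
  · exact key _ h1

/-- RED -/
theorem bu_red {D : Fin 2 → Submodule F (ι → F)} (x g : GL ι F)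
    (hy : g⁻¹ * x * g ∈ decompositionStabilizer D) :
    ((∀ a ∈ (D 0).map (Matrix.toLin' (g : Matrix ι ι F)),
        (x : Matrix ι ι F) *ᵥ a ∈ (D 0).map (Matrix.toLin' (g : Matrix ι ι F))) ∧
      (∀ b ∈ (D 1).map (Matrix.toLin' (g : Matrix ι ι F)),
        (x : Matrix ι ι F) *ᵥ b ∈ (D 1).map (Matrix.toLin' (g : Matrix ι ι F)))) ∨
    ((∀ a ∈ (D 0).map (Matrix.toLin' (g : Matrix ι ι F)),
        (x : Matrix ι ι F) *ᵥ a ∈ (D 1).map (Matrix.toLin' (g : Matrix ι ι F))) ∧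
      (∀ b ∈ (D 1).map (Matrix.toLin' (g : Matrix ι ι F)),
        (x : Matrix ι ι F) *ᵥ b ∈ (D 0).map (Matrix.toLin' (g : Matrix ι ι F)))) := by
  obtain ⟨τ, hτ⟩ := hy
  have key : ∀ i, ∀ a ∈ (D i).map (Matrix.toLin' (g : Matrix ι ι F)),
      (x : Matrix ι ι F) *ᵥ a ∈ (D (τ i)).map (Matrix.toLin' (g : Matrix ι ι F)) := by
    rintro i _ ⟨a0, ha0, rfl⟩
    have h1 : ((g⁻¹ * x * g : GL ι F) : Matrix ι ι F) *ᵥ a0 ∈ D (τ i) := by
      rw [← hτ i]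
      exact ⟨a0, ha0, by rw [Matrix.toLin'_apply]⟩
    refine ⟨((g⁻¹ * x * g : GL ι F) : Matrix ι ι F) *ᵥ a0, h1, ?_⟩
    rw [Matrix.toLin'_apply, Matrix.toLin'_apply, ugl_mul_mulVec, ugl_mul_mulVec, ugl_mulVec_inv]
  have h01 : (τ 0 = 0 ∧ τ 1 = 1) ∨ (τ 0 = 1 ∧ τ 1 = 0) := by
    have hne : τ 0 ≠ τ 1 := fun h => absurd (τ.injective h) (by decide)
    have hall : ∀ a b : Fin 2, a ≠ b → (a = 0 ∧ b = 1) ∨ (a = 1 ∧ b = 0) := by decide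
    exact hall _ _ hne
  rcases h01 with ⟨h0, h1⟩ | ⟨h0, h1⟩
  · left
    refine ⟨fun a ha => ?_, fun b hb => ?_⟩
    · have := key 0 a ha
      rwa [h0] at this
    · have := key 1 b hb
      rwa [h1] at this
  · right
    refine ⟨fun a ha => ?_, fun b hb => ?_⟩
    · have := key 0 a ha
      rwa [h0] at this
    · have := key 1 b hb
      rwa [h1] at this

/-- TSU -/
theorem bu_trans_su (h : UF σ f) {A' B' : Submodule F (ι → F)} (p' : ULagPair f A' B')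
    (hne : ∃ w ∈ A', w ≠ 0) (g₀ : GL ι F)
    (hdet : (g₀ : Matrix ι ι F).det * σ ((g₀ : Matrix ι ι F).det) = 1) :
    ∃ k : GL ι F, k ∈ isoGL f ∧ (∀ v ∈ A', (k : Matrix ι ι F) *ᵥ v ∈ A') ∧
      (∀ v ∈ B', (k : Matrix ι ι F) *ᵥ v ∈ B') ∧ k * g₀ ∈ specialLinear ι F := by
  obtain ⟨δ, hδ⟩ : ∃ δ : F, δ = (g₀ : Matrix ι ι F).det := ⟨_, rfl⟩
  rw [← hδ] at hdet
  have hδ0 : δ ≠ 0 := by
    rintro rfl
    rw [zero_mul] at hdet
    exact zero_ne_one hdet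
  have hσδ0 : σ δ ≠ 0 := (map_ne_zero σ).mpr hδ0
  have hd' : δ⁻¹ * σ δ⁻¹ = 1 := by
    rw [map_inv₀, ← mul_inv, hdet, inv_one]
  obtain ⟨l, hl0, hl⟩ := uf_hilbert90 σ h.invol h.ne_id δ⁻¹ hd'
  have hσl0 : σ l ≠ 0 := (map_ne_zero σ).mpr hl0
  obtain ⟨w, hwA, hw0⟩ := hne
  obtain ⟨v₀, hv₀B, hwv₀⟩ := h.lp_exists_ne p' hwA hw0
  obtain ⟨v, hv⟩ : ∃ v : ι → F, v = σ ((f w v₀)⁻¹) • v₀ := ⟨_, rfl⟩
  have hvB : v ∈ B' := by rw [hv]; exact B'.smul_mem _ hv₀B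
  have hwv : f w v = 1 := by
    rw [hv, h.smul_right, h.invol, inv_mul_cancel₀ hwv₀]
  have hvv : f v v = 0 := p'.isoB v hvB v hvB
  have hww : f w w = 0 := p'.isoA w hwA w hwA
  have hm : σ l * (σ l)⁻¹ = 1 := mul_inv_cancel₀ hσl0
  refine ⟨h.rot w v l (σ l)⁻¹, h.rot_isom hww hvv hwv hm, ?_, ?_, ?_⟩
  · intro x hx
    rw [h.rot_mulVec hvv hwv hm, p'.isoA x hx w hwA, mul_zero, zero_smul, add_zero]
    exact A'.add_mem hx (A'.smul_mem _ hwA)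
  · intro x hx
    rw [h.rot_mulVec hvv hwv hm, p'.isoB x hx v hvB, mul_zero, zero_smul, add_zero]
    exact B'.add_mem hx (B'.smul_mem _ hvB)
  · apply mem_SL_of_det
    rw [Units.val_mul, Matrix.det_mul, h.rot_det hwv hm, ← hδ]
    have e1 : l * (σ l)⁻¹ = δ⁻¹ := by
      nth_rewrite 1 [hl]
      rw [mul_assoc, mul_inv_cancel₀ hσl0, mul_one]
    rw [e1, inv_mul_cancel₀ hδ0]

end Cfsg.Agent.Helper35
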