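import Mathlib
import Cfsg.Agent.Helper94.ULag
import Cfsg.Agent.Helper94.USub
import Cfsg.Agent.Helper94.UK
import Cfsg.Agent.Helper97.UNot
import Cfsg.Agent.Helper5.UnitSU

set_option autoImplicit false
open Cfsg Cfsg.Geo Matrix
open Cfsg.Agent.Helper94
open scoped MatrixGroups

namespace Cfsg.Agent.Helper35

universe u

variable {F : Type u} [Field F] {ι : Type} [Fintype ι] [DecidableEq ι]
variable {σ : F ≃+* F} {f : (ι → F) → (ι → F) → F}

/-- HYPS -/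
theorem bu_lag_sub (h : UF σ f)
    (hyp : ∀ (k : ℕ) (f' : (Fin k → F) → (Fin k → F) → F), UF σ f' → Even k →
      ∃ P P' : Submodule F (Fin k → F), ULagPair f' P P')
    (U : Submodule F (ι → F)) (hU : ∀ u ∈ U, u ≠ 0 → ∃ x ∈ U, f x u ≠ 0)
    (hev : Even (Module.finrank F U)) :
    ∃ P P' : Submodule F (ι → F), P ≤ U ∧ P' ≤ U ∧ (∀ x ∈ P, ∀ y ∈ P, f x y = 0) ∧
      (∀ x ∈ P', ∀ y ∈ P', f x y = 0) ∧ (∀ x, x ∈ P → x ∈ P' → x = 0) ∧
      (∀ u ∈ U, ∃ a ∈ P, ∃ b ∈ P', u = a + b) := by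
  obtain ⟨φ, hinj, hφU, hsurj, hφ⟩ := h.sub_coords U hU
  obtain ⟨P0, P0', p⟩ := hyp (Module.finrank F U) _ hφ hev
  refine ⟨P0.map φ, P0'.map φ, ?_, ?_, ?_, ?_, ?_, ?_⟩
  · rintro _ ⟨x, -, rfl⟩
    exact hφU x
  · rintro _ ⟨x, -, rfl⟩
    exact hφU x
  · rintro _ ⟨x, hx, rfl⟩ _ ⟨y, hy, rfl⟩
    exact p.isoA x hx y hy
  · rintro _ ⟨x, hx, rfl⟩ _ ⟨y, hy, rfl⟩
    exact p.isoB x hx y hy
  · rintro _ ⟨x, hx, rfl⟩ ⟨y, hy, hxy⟩
    have e := hinj hxy
    subst e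
    rw [p.disj y hx hy, map_zero]
  · intro u hu
    obtain ⟨x, rfl⟩ := hsurj u hu
    obtain ⟨a, ha, b, hb, rfl⟩ := p.dec x
    exact ⟨φ a, ⟨a, ha, rfl⟩, φ b, ⟨b, hb, rfl⟩, map_add φ a b⟩

/-- The form on combinations of a dual pair of families. -/
theorem bu_pair_form (h : UF σ f) {m : ℕ} (a b : Fin m → ι → F)
    (haa : ∀ i j, f (a i) (a j) = 0) (hbb : ∀ i j, f (b i) (b j) = 0)
    (hab : ∀ i j, f (a i) (b j) = if i = j then 1 else 0) (c d c' d' : Fin m → F) :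
    f (∑ i, c i • a i + ∑ i, d i • b i) (∑ i, c' i • a i + ∑ i, d' i • b i)
      = ∑ i, c i * σ (d' i) + ∑ i, d i * σ (c' i) := by
  have hba : ∀ i j, f (b i) (a j) = if i = j then 1 else 0 := by
    intro i j
    rw [h.herm, hab]
    by_cases hij : i = j
    · subst hij
      simp
    · have hji : j ≠ i := fun e => hij e.symm
      simp [hij, hji]
  simp only [h.add_left, h.add_right, h.sum_left, h.sum_right, h.smul_left, h.smul_right, haa, hbb,
    hab, hba, mul_zero, Finset.sum_const_zero, add_zero, zero_add, mul_ite, mul_one,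
    Finset.sum_ite_eq, Finset.sum_ite_eq', Finset.mem_univ, if_true]

/-- TGU -/
theorem bu_trans_gu (h : UF σ f) {A B A' B' : Submodule F (ι → F)} (p : ULagPair f A B)
    (p' : ULagPair f A' B') {m : ℕ} (a b a' b' : Fin m → ι → F)
    (ha : ∀ i, a i ∈ A) (hb : ∀ i, b i ∈ B)
    (hab : ∀ i j, f (a i) (b j) = if i = j then 1 else 0)
    (hA : ∀ v ∈ A, v = ∑ i, f v (b i) • a i) (hB : ∀ v ∈ B, v = ∑ i, f v (a i) • b i)
    (ha' : ∀ i, a' i ∈ A') (hb' : ∀ i, b' i ∈ B')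
    (hab' : ∀ i j, f (a' i) (b' j) = if i = j then 1 else 0) :
    ∃ g : GL ι F, g ∈ isoGL f ∧ (∀ v ∈ A, (g : Matrix ι ι F) *ᵥ v ∈ A') ∧
      (∀ v ∈ B, (g : Matrix ι ι F) *ᵥ v ∈ B') := by
  have hexp : ∀ v : ι → F, v = ∑ i, f v (b i) • a i + ∑ i, f v (a i) • b i := by
    intro v
    obtain ⟨a0, ha0, b0, hb0, rfl⟩ := p.dec v
    have e1 : ∀ i, f (a0 + b0) (b i) = f a0 (b i) := fun i => by
      rw [h.add_left, p.isoB b0 hb0 (b i) (hb i), add_zero]
    have e2 : ∀ i, f (a0 + b0) (a i) = f b0 (a i) := fun i => by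
      rw [h.add_left, p.isoA a0 ha0 (a i) (ha i), zero_add]
    simp only [e1, e2]
    rw [← hA a0 ha0, ← hB b0 hb0]
  obtain ⟨T, hT⟩ : ∃ T : (ι → F) →ₗ[F] (ι → F),
      ∀ v, T v = ∑ i, f v (b i) • a' i + ∑ i, f v (a i) • b' i :=
    ⟨∑ i, (h.fl (b i)).smulRight (a' i) + ∑ i, (h.fl (a i)).smulRight (b' i), fun v => by
      simp [LinearMap.sum_apply, UF.fl_apply]⟩
  have hiso : ∀ v w, f (T v) (T w) = f v w := by
    intro v w
    rw [hT, hT, bu_pair_form h a' b' (fun i j => p'.isoA _ (ha' i) _ (ha' j))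
      (fun i j => p'.isoB _ (hb' i) _ (hb' j)) hab']
    conv_rhs => rw [hexp v, hexp w]
    rw [bu_pair_form h a b (fun i j => p.isoA _ (ha i) _ (ha j))
      (fun i j => p.isoB _ (hb i) _ (hb j)) hab]
  have hinj : Function.Injective T := by
    rw [injective_iff_map_eq_zero]
    intro v hv
    by_contra hv0
    obtain ⟨x, hx⟩ := h.nondeg v hv0
    apply hx
    rw [← hiso x v, hv, h.zero_right]
  obtain ⟨g, hg⟩ := Helper5.exists_GL_of_linearEquiv (LinearEquiv.ofInjectiveEndo T hinj)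
  have hg' : ∀ x, (g : Matrix ι ι F) *ᵥ x = T x := by
    intro x
    rw [hg]
    rfl
  refine ⟨g, ?_, ?_, ?_⟩
  · rw [mem_isoGL]
    intro x y
    rw [hg', hg', hiso]
  · intro v hv
    rw [hg', hT]
    have e : ∀ i, f v (a i) = 0 := fun i => p.isoA v hv _ (ha i)
    simp only [e, zero_smul, Finset.sum_const_zero, add_zero]
    exact Submodule.sum_mem _ (fun i _ => A'.smul_mem _ (ha' i))
  · intro v hv
    rw [hg', hT]
    have e : ∀ i, f v (b i) = 0 := fun i => p.isoB v hv _ (hb i)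
    simp only [e, zero_smul, Finset.sum_const_zero, zero_add]
    exact Submodule.sum_mem _ (fun i _ => B'.smul_mem _ (hb' i))

end Cfsg.Agent.Helper35
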