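import Mathlib
import Cfsg.Agent.Helper94.ULag
import Cfsg.Agent.Helper94.USub
import Cfsg.Agent.Helper94.UK
import Cfsg.Agent.Helper97.UNot
import Cfsg.Agent.Helper5.UnitSU

set_option autoImplicit false
open Cfsg Cfsg.Geo Matrix
open Cfsg.Agent.Helper94
open scoped MatrixGroups

namespace Cfsg.Agent.Helper35

universe u

variable {F : Type u} [Field F] {ι : Type} [Fintype ι] [DecidableEq ι]
variable {σ : F ≃+* F} {f : (ι → F) → (ι → F) → F}

/-- INVB -/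
theorem bu_invol_pos (h : UF σ f) (h2 : (2 : F) ≠ 0) (s : Matrix ι ι F) (hs : s * s = 1)
    (hiso : ∀ u v, f (s *ᵥ u) (s *ᵥ v) = f u v) (hev : Even (Fintype.card ι))
    (hev' : Even (Module.finrank F (LinearMap.ker (Matrix.mulVecLin (s + 1)))))
    (hyp : ∀ U : Submodule F (ι → F), (∀ u ∈ U, u ≠ 0 → ∃ x ∈ U, f x u ≠ 0) →
      Even (Module.finrank F U) →
      ∃ P P' : Submodule F (ι → F), P ≤ U ∧ P' ≤ U ∧ (∀ x ∈ P, ∀ y ∈ P, f x y = 0) ∧
        (∀ x ∈ P', ∀ y ∈ P', f x y = 0) ∧ (∀ x, x ∈ P → x ∈ P' → x = 0) ∧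
        (∀ u ∈ U, ∃ a ∈ P, ∃ b ∈ P', u = a + b)) :
    ∃ W W' : Submodule F (ι → F), ULagPair f W W' ∧ (∀ a ∈ W, s *ᵥ a ∈ W) ∧
      (∀ b ∈ W', s *ᵥ b ∈ W') := by
  obtain ⟨Vp, hVp⟩ : ∃ Vp : Submodule F (ι → F), Vp = LinearMap.ker (Matrix.mulVecLin (s - 1)) :=
    ⟨_, rfl⟩
  obtain ⟨Vm, hVm⟩ : ∃ Vm : Submodule F (ι → F), Vm = LinearMap.ker (Matrix.mulVecLin (s + 1)) :=
    ⟨_, rfl⟩
  have memp : ∀ v, v ∈ Vp ↔ s *ᵥ v = v := by
    intro v
    rw [hVp, LinearMap.mem_ker, Matrix.mulVecLin_apply, Matrix.sub_mulVec, Matrix.one_mulVec,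
      sub_eq_zero]
  have memm : ∀ v, v ∈ Vm ↔ s *ᵥ v = -v := by
    intro v
    rw [hVm, LinearMap.mem_ker, Matrix.mulVecLin_apply, Matrix.add_mulVec, Matrix.one_mulVec,
      add_eq_zero_iff_eq_neg]
  have hss : ∀ v, s *ᵥ (s *ᵥ v) = v := by
    intro v
    rw [Matrix.mulVec_mulVec, hs, Matrix.one_mulVec]
  have hdec : ∀ v, ∃ a ∈ Vp, ∃ b ∈ Vm, v = a + b := by
    intro v
    refine ⟨(2 : F)⁻¹ • (v + s *ᵥ v), ?_, (2 : F)⁻¹ • (v - s *ᵥ v), ?_, ?_⟩
    · rw [memp, Matrix.mulVec_smul, Matrix.mulVec_add, hss, add_comm]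
    · rw [memm, Matrix.mulVec_smul, Matrix.mulVec_sub, hss, ← smul_neg, neg_sub]
    · rw [← smul_add]
      have e : v + s *ᵥ v + (v - s *ᵥ v) = (2 : F) • v := by
        rw [two_smul]
        abel
      rw [e, smul_smul, inv_mul_cancel₀ h2, one_smul]
  have hdisj : ∀ v, v ∈ Vp → v ∈ Vm → v = 0 := by
    intro v hp hm
    rw [memp] at hp
    rw [memm] at hm
    have e : (2 : F) • v = 0 := by
      rw [two_smul]
      have e1 : v = -v := hp.symm.trans hm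
      nth_rewrite 1 [e1]
      exact neg_add_cancel v
    rcases smul_eq_zero.mp e with h0 | h0
    · exact absurd h0 h2
    · exact h0
  have horth : ∀ u ∈ Vp, ∀ v ∈ Vm, f u v = 0 := by
    intro u hu v hv
    have e := hiso u v
    rw [(memp u).mp hu, (memm v).mp hv, h.neg_right] at e
    have e2 : (2 : F) * f u v = 0 := by linear_combination -e
    rcases mul_eq_zero.mp e2 with h0 | h0
    · exact absurd h0 h2
    · exact h0
  have hndp : ∀ u ∈ Vp, u ≠ 0 → ∃ x ∈ Vp, f x u ≠ 0 := by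
    intro u hu hu0
    obtain ⟨x, hx⟩ := h.nondeg u hu0
    obtain ⟨a, ha, b, hb, rfl⟩ := hdec x
    refine ⟨a, ha, ?_⟩
    rw [h.add_left, h.swap_zero (horth u hu b hb), add_zero] at hx
    exact hx
  have hndm : ∀ u ∈ Vm, u ≠ 0 → ∃ x ∈ Vm, f x u ≠ 0 := by
    intro u hu hu0
    obtain ⟨x, hx⟩ := h.nondeg u hu0
    obtain ⟨a, ha, b, hb, rfl⟩ := hdec x
    refine ⟨b, hb, ?_⟩
    rw [h.add_left, horth a ha u hu, zero_add] at hx
    exact hx
  have hdim : Module.finrank F Vp + Module.finrank F Vm = Fintype.card ι := by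
    have hsup : Vp ⊔ Vm = ⊤ := by
      rw [eq_top_iff]
      intro v _
      obtain ⟨a, ha, b, hb, rfl⟩ := hdec v
      exact Submodule.add_mem_sup ha hb
    have hinf : Vp ⊓ Vm = ⊥ := by
      rw [eq_bot_iff]
      intro v hv
      exact (Submodule.mem_bot F).mpr (hdisj v hv.1 hv.2)
    have e := Submodule.finrank_sup_add_finrank_inf_eq Vp Vm
    rw [hsup, hinf, finrank_top, finrank_bot, Module.finrank_pi] at e
    omega
  have hevm : Even (Module.finrank F Vm) := by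
    rw [hVm]
    exact hev'
  have hevp : Even (Module.finrank F Vp) := by
    obtain ⟨t, ht⟩ := hev
    obtain ⟨t', ht'⟩ := hevm
    exact ⟨t - t', by omega⟩
  obtain ⟨P, P', hPU, hP'U, hPiso, hP'iso, hPdisj, hPdec⟩ := hyp Vp hndp hevp
  obtain ⟨Q, Q', hQU, hQ'U, hQiso, hQ'iso, hQdisj, hQdec⟩ := hyp Vm hndm hevm
  refine ⟨P ⊔ Q, P' ⊔ Q', ⟨?_, ?_, ?_, ?_⟩, ?_, ?_⟩
  · intro x hx y hy
    obtain ⟨a, ha, b, hb, rfl⟩ := Submodule.mem_sup.mp hx
    obtain ⟨a', ha', b', hb', rfl⟩ := Submodule.mem_sup.mp hy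
    rw [h.add_left, h.add_right, h.add_right, hPiso a ha a' ha', hQiso b hb b' hb',
      horth a (hPU ha) b' (hQU hb'), h.swap_zero (horth a' (hPU ha') b (hQU hb))]
    simp
  · intro x hx y hy
    obtain ⟨a, ha, b, hb, rfl⟩ := Submodule.mem_sup.mp hx
    obtain ⟨a', ha', b', hb', rfl⟩ := Submodule.mem_sup.mp hy
    rw [h.add_left, h.add_right, h.add_right, hP'iso a ha a' ha', hQ'iso b hb b' hb',
      horth a (hP'U ha) b' (hQ'U hb'), h.swap_zero (horth a' (hP'U ha') b (hQ'U hb))]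
    simp
  · intro x hx hx'
    obtain ⟨a, ha, b, hb, rfl⟩ := Submodule.mem_sup.mp hx
    obtain ⟨a', ha', b', hb', e⟩ := Submodule.mem_sup.mp hx'
    have e1 : a - a' = b' - b := by
      rw [sub_eq_sub_iff_add_eq_add, add_comm b' a', e, add_comm]
    have h1 : a - a' = 0 := hdisj _ (Vp.sub_mem (hPU ha) (hP'U ha')) (by
      rw [e1]
      exact Vm.sub_mem (hQ'U hb') (hQU hb))
    have h1' : b' - b = 0 := by rw [← e1, h1]
    have ha0 : a = 0 := hPdisj a ha (by rw [sub_eq_zero.mp h1]; exact ha')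
    have hb0 : b = 0 := hQdisj b hb (by rw [← sub_eq_zero.mp h1']; exact hb')
    rw [ha0, hb0, add_zero]
  · intro v
    obtain ⟨vp, hvp, vm, hvm, rfl⟩ := hdec v
    obtain ⟨a, ha, a', ha', rfl⟩ := hPdec vp hvp
    obtain ⟨b, hb, b', hb', rfl⟩ := hQdec vm hvm
    exact ⟨a + b, Submodule.add_mem_sup ha hb, a' + b', Submodule.add_mem_sup ha' hb', by abel⟩
  · intro x hx
    obtain ⟨a, ha, b, hb, rfl⟩ := Submodule.mem_sup.mp hx
    rw [Matrix.mulVec_add, (memp a).mp (hPU ha), (memm b).mp (hQU hb)]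
    exact Submodule.add_mem_sup ha (Q.neg_mem hb)
  · intro x hx
    obtain ⟨a, ha, b, hb, rfl⟩ := Submodule.mem_sup.mp hx
    rw [Matrix.mulVec_add, (memp a).mp (hP'U ha), (memm b).mp (hQ'U hb)]
    exact Submodule.add_mem_sup ha (Q'.neg_mem hb)

end Cfsg.Agent.Helper35
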