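import Mathlib
import Cfsg.Agent.Helper94.ULag
import Cfsg.Agent.Helper94.USub
import Cfsg.Agent.Helper94.UK
import Cfsg.Agent.Helper97.UNot
import Cfsg.Agent.Helper5.UnitSU
import Cfsg.Agent.Helper11.BULDIM

set_option autoImplicit false
open Cfsg Cfsg.Geo Matrix
open Cfsg.Agent.Helper94
open scoped MatrixGroups

namespace Cfsg.Agent.Helper35

universe u

variable {F : Type u} [Field F] {ι : Type} [Fintype ι] [DecidableEq ι]
variable {σ : F ≃+* F} {f : (ι → F) → (ι → F) → F}

/-- DUAL -/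
theorem bu_dual (h : UF σ f) {A B : Submodule F (ι → F)} (p : ULagPair f A B) {m : ℕ}
    (hm : Module.finrank F A = m) :
    ∃ a b : Fin m → ι → F, (∀ i, a i ∈ A) ∧ (∀ i, b i ∈ B) ∧
      (∀ i j, f (a i) (b j) = if i = j then 1 else 0) ∧
      (∀ v ∈ A, v = ∑ i, f v (b i) • a i) ∧ (∀ v ∈ B, v = ∑ i, f v (a i) • b i) := by
  have hmB : Module.finrank F B = m := by
    have h1 := Helper11.bu_lag_dim h p
    have h2 := Helper11.bu_lag_dim h p.symm
    omega
  obtain ⟨bA⟩ : Nonempty (Module.Basis (Fin m) F A) := ⟨Module.finBasisOfFinrankEq F A hm⟩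
  obtain ⟨a, ha_def⟩ : ∃ a : Fin m → ι → F, ∀ i, a i = (bA i : ι → F) := ⟨fun i => bA i, fun i => rfl⟩
  have haA : ∀ i, a i ∈ A := fun i => by rw [ha_def]; exact (bA i).2
  have hexpA : ∀ (v : ι → F) (hv : v ∈ A), v = ∑ i, bA.repr ⟨v, hv⟩ i • a i := by
    intro v hv
    have h1 := bA.sum_repr ⟨v, hv⟩
    have h2 := congrArg Subtype.val h1
    simp only [Submodule.coe_sum, Submodule.coe_smul] at h2
    conv_lhs => rw [← h2]
    exact Finset.sum_congr rfl (fun i _ => by rw [ha_def])
  obtain ⟨Φ, hΦ⟩ : ∃ Φ : B →ₗ[F] (Fin m → F), ∀ (w : B) (i : Fin m), Φ w i = f (w : ι → F) (a i) :=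
    ⟨LinearMap.pi (fun i => (h.fl (a i)).comp B.subtype), fun w i => rfl⟩
  have hinj : Function.Injective Φ := by
    rw [injective_iff_map_eq_zero]
    intro w hw
    apply Subtype.ext
    apply h.lp_zero_of_perp p.symm w.2
    intro x hx
    rw [hexpA x hx, h.sum_right]
    apply Finset.sum_eq_zero
    intro i _
    have h1 : f (w : ι → F) (a i) = 0 := by rw [← hΦ, hw]; rfl
    rw [h.smul_right, h1, mul_zero]
  have hsurj : Function.Surjective Φ := by
    apply (LinearMap.injective_iff_surjective_of_finrank_eq_finrank _).mp hinj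
    rw [hmB, Module.finrank_fin_fun]
  choose b' hb' using fun j : Fin m => hsurj (Pi.single j 1)
  have hba : ∀ i j, f (b' j : ι → F) (a i) = if i = j then 1 else 0 := by
    intro i j
    rw [← hΦ, hb', Pi.single_apply]
  have hab : ∀ i j, f (a i) (b' j : ι → F) = if i = j then 1 else 0 := by
    intro i j
    rw [h.herm, hba]
    split_ifs <;> simp
  refine ⟨a, fun j => (b' j : ι → F), haA, fun j => (b' j).2, hab, ?_, ?_⟩
  · intro v hv
    have h1 : ∀ j, f v (b' j : ι → F) = bA.repr ⟨v, hv⟩ j := by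
      intro j
      conv_lhs => rw [hexpA v hv]
      rw [h.sum_left]
      simp only [h.smul_left, hab, mul_ite, mul_one, mul_zero, Finset.sum_ite_eq', Finset.mem_univ,
        if_true]
    simp only [h1]
    exact hexpA v hv
  · intro v hv
    have hv' : ∑ i, f v (a i) • (b' i : ι → F) ∈ B :=
      Submodule.sum_mem _ (fun i _ => B.smul_mem _ (b' i).2)
    have h1 : Φ ⟨v, hv⟩ = Φ ⟨_, hv'⟩ := by
      funext j
      rw [hΦ, hΦ]
      simp only [h.sum_left, h.smul_left, hba, mul_ite, mul_one, mul_zero, Finset.sum_ite_eq,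
        Finset.mem_univ, if_true]
    exact congrArg Subtype.val (hinj h1)

end Cfsg.Agent.Helper35
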