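import Mathlib
import Cfsg.Agent.Helper31.BURK1
import Cfsg.Agent.Helper31.BUTVX
import Cfsg.Agent.Helper31.BUREFL
import Cfsg.Agent.Helper31.BUNT2
import Cfsg.Agent.Helper51.BUNT
import Cfsg.Agent.Helper51.BUDET1
import Cfsg.Agent.Helper20.BUSQ
import Cfsg.Agent.Helper72.BUIDXG
import Cfsg.Agent.Helper72.BUCARDQ
import Cfsg.Agent.Helper72.BUNSC
import Cfsg.Agent.Helper72.BUODD
import Cfsg.Agent.Helper72.BULAM
import Cfsg.Agent.Helper72.BUOM3
import Cfsg.Agent.Helper11.BUPAIR0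
import Cfsg.Agent.Helper11.BUINVA
import Cfsg.Agent.Helper11.BULDIM
import Cfsg.Agent.Helper27.BUINVDET
import Cfsg.Agent.Helper27.BUHYP0
import Cfsg.Agent.Helper84.BUPAR
import Cfsg.Agent.Helper84.BUPSI
import Cfsg.Agent.Helper35.BUMine4
import Cfsg.Agent.Helper55.BUEMB
import Cfsg.Agent.Helper55.BUCAU
import Cfsg.Agent.Helper35.BUMine
import Cfsg.Agent.Helper35.BUMine2
import Cfsg.Agent.Helper35.BUMine3

set_option autoImplicit false
open Cfsg Cfsg.Geo Matrix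
open Cfsg.Agent.Helper94 Cfsg.Agent.Helper97
open scoped MatrixGroups

namespace Cfsg.Agent.Helper35


universe u

section abstract

variable {F : Type u} [Field F] {ι : Type} [Fintype ι] [DecidableEq ι]
variable {σ : F ≃+* F} {f : (ι → F) → (ι → F) → F}

/-- A conjugate of `x` in the stabilizer of the pair gives a pair stabilized by `x`. -/
theorem bu_key (h : UF σ f) {D : Fin 2 → Submodule F (ι → F)} (p0 : ULagPair f (D 0) (D 1))
    (x g : GL ι F) (hg : g ∈ isoGL f) (hy : g⁻¹ * x * g ∈ decompositionStabilizer D) :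
    ∃ W W' : Submodule F (ι → F), ULagPair f W W' ∧
      (((∀ a ∈ W, (x : Matrix ι ι F) *ᵥ a ∈ W) ∧ (∀ b ∈ W', (x : Matrix ι ι F) *ᵥ b ∈ W')) ∨
       ((∀ a ∈ W, (x : Matrix ι ι F) *ᵥ a ∈ W') ∧ (∀ b ∈ W', (x : Matrix ι ι F) *ᵥ b ∈ W))) :=
  ⟨_, _, h.lp_map p0 hg, Helper35.bu_red x g hy⟩

/-- An isometry mapping the pair `(A, B)` into `(W, W')` conjugates an element stabilizing
`W, W'` into the stabilizer of `A, B`. -/
theorem bu_conj_in {D : Fin 2 → Submodule F (ι → F)} (p0 : ULagPair f (D 0) (D 1))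
    {W W' : Submodule F (ι → F)} (pW : ULagPair f W W') (x g : GL ι F)
    (hgA : ∀ v ∈ D 0, (g : Matrix ι ι F) *ᵥ v ∈ W) (hgB : ∀ v ∈ D 1, (g : Matrix ι ι F) *ᵥ v ∈ W')
    (hxW : ∀ a ∈ W, (x : Matrix ι ι F) *ᵥ a ∈ W) (hxW' : ∀ b ∈ W', (x : Matrix ι ι F) *ᵥ b ∈ W') :
    g⁻¹ * x * g ∈ decompositionStabilizer D := by
  have hinvA : ∀ w ∈ W, ((g⁻¹ : GL ι F) : Matrix ι ι F) *ᵥ w ∈ D 0 := by
    intro w hw
    obtain ⟨a0, ha0, b0, hb0, hab0⟩ := p0.dec (((g⁻¹ : GL ι F) : Matrix ι ι F) *ᵥ w)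
    have e : w = (g : Matrix ι ι F) *ᵥ a0 + (g : Matrix ι ι F) *ᵥ b0 := by
      rw [← mulVec_add, ← hab0, ugl_mulVec_inv]
    have hb0' : (g : Matrix ι ι F) *ᵥ b0 = 0 := by
      apply pW.disj _ _ (hgB b0 hb0)
      have e2 : (g : Matrix ι ι F) *ᵥ b0 = w - (g : Matrix ι ι F) *ᵥ a0 := by rw [e]; abel
      rw [e2]
      exact W.sub_mem hw (hgA a0 ha0)
    have hb00 : b0 = 0 := ugl_mulVec_eq_zero g hb0'
    rw [hab0, hb00, add_zero]
    exact ha0
  have hinvB : ∀ w ∈ W', ((g⁻¹ : GL ι F) : Matrix ι ι F) *ᵥ w ∈ D 1 := by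
    intro w hw
    obtain ⟨a0, ha0, b0, hb0, hab0⟩ := p0.dec (((g⁻¹ : GL ι F) : Matrix ι ι F) *ᵥ w)
    have e : w = (g : Matrix ι ι F) *ᵥ a0 + (g : Matrix ι ι F) *ᵥ b0 := by
      rw [← mulVec_add, ← hab0, ugl_mulVec_inv]
    have ha0' : (g : Matrix ι ι F) *ᵥ a0 = 0 := by
      apply pW.disj _ (hgA a0 ha0)
      have e2 : (g : Matrix ι ι F) *ᵥ a0 = w - (g : Matrix ι ι F) *ᵥ b0 := by rw [e]; abel
      rw [e2]
      exact W'.sub_mem hw (hgB b0 hb0)
    have ha00 : a0 = 0 := ugl_mulVec_eq_zero g ha0'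
    rw [hab0, ha00, zero_add]
    exact hb0
  apply Helper35.bu_stab_in
  · intro v hv
    rw [ugl_mul_mulVec, ugl_mul_mulVec]
    exact hinvA _ (hxW _ (hgA v hv))
  · intro v hv
    rw [ugl_mul_mulVec, ugl_mul_mulVec]
    exact hinvB _ (hxW' _ (hgB v hv))

end abstract

section herm

variable {F : Type u} [Field F] [Fintype F] {q n : ℕ} {σ : F ≃+* F}

theorem bu_det_norm (hs : IsSigma q σ) (g : GL (Fin n) F) (hg : g ∈ GU n F q) :
    (g : Matrix (Fin n) (Fin n) F).det * σ ((g : Matrix (Fin n) (Fin n) F).det) = 1 := by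
  have h1 := congrArg Matrix.det (hs.GU_matrix g hg)
  rw [Matrix.det_mul, Matrix.det_transpose, Matrix.det_one] at h1
  have h2 : ((g : Matrix (Fin n) (Fin n) F).map σ).det = σ ((g : Matrix (Fin n) (Fin n) F).det) :=
    (RingHom.map_det (σ : F →+* F) _).symm
  rw [← h2]
  exact h1

/-- The index of the stabilizer divides `q^(m²) ∏ (q^(2j+1) + 1)`. -/
theorem bu_index (hs : IsSigma q σ) (hF : Fintype.card F = q ^ 2) {m : ℕ} (hnm : n = 2 * m)
    (D : Fin 2 → Submodule F (Fin n → F)) (hD : IsMDecomposition m D)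
    (hDs : ∀ i, IsTotallySingularFor (hermForm n F q) (D i)) :
    (decompositionStabilizer D).relIndex (GU n F q ⊓ specialLinear (Fin n) F) ∣
      q ^ (m * m) * ∏ j ∈ Finset.range m, (q ^ (2 * j + 1) + 1) := by
  have h : UF σ (hermForm n F q) := UF.of_unitary (hs.isUnitaryForm (n := n))
  have p0 : ULagPair (hermForm n F q) (D 0) (D 1) := Helper11.bu_pair0 hD hDs
  obtain ⟨a, b, ha, hb, hab, hA, hB⟩ := Helper35.bu_dual h p0 (hD.finrank_eq 0)
  obtain ⟨ψ, hinj, hψ⟩ := Helper84.bu_psi h p0 a b ha hb hab hA hB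
  have hEH : ψ.range ≤ decompositionStabilizer D := by
    rintro _ ⟨X, rfl⟩
    exact Helper35.bu_stab_in (ψ X) (hψ X).2.1 (hψ X).2.2
  have hEK : ψ.range ≤ GU n F q := by
    rintro _ ⟨X, rfl⟩
    exact (hψ X).1
  have hnorm : (specialLinear (Fin n) F).Normal := by
    unfold specialLinear
    infer_instance
  have h1 := Helper72.bu_index_glue (GU n F q) (specialLinear (Fin n) F) (decompositionStabilizer D)
    ψ.range hnorm hEH hEK
  refine h1.trans ?_
  have h2 : ψ.range.relIndex (GU n F q) * Nat.card ψ.range = Nat.card (GU n F q) := by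
    have e1 := Subgroup.relIndex_mul_index hEK
    have e2 := Subgroup.card_mul_index ψ.range
    have e3 := Subgroup.card_mul_index (GU n F q)
    have hpos : 0 < (GU n F q).index := Nat.pos_of_ne_zero Subgroup.index_ne_zero_of_finite
    apply Nat.eq_of_mul_eq_mul_right hpos
    rw [e3, mul_assoc, mul_comm (Nat.card ψ.range), ← mul_assoc, e1, mul_comm, e2]
  have h3 : Nat.card ψ.range = ∏ i : Fin m, ((q ^ 2) ^ m - (q ^ 2) ^ (i : ℕ)) := by
    rw [← Nat.card_congr (MonoidHom.ofInjective hinj).toEquiv, Matrix.card_GL_field, hF]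
  have h4 := Helper5.card_GU hF n
  have hq2 := Helper97.two_le_of_card hF
  subst hnm
  rw [h4, Helper72.bu_card_arith q m hq2, h3] at h2
  have hP : 0 < ∏ i : Fin m, ((q ^ 2) ^ m - (q ^ 2) ^ (i : ℕ)) := by
    rw [← h3]
    exact Nat.card_pos
  have h5 : ψ.range.relIndex (GU (2 * m) F q) =
      q ^ (m * m) * ∏ j ∈ Finset.range m, (q ^ (2 * j + 1) + 1) := by
    apply Nat.eq_of_mul_eq_mul_right hP
    rw [h2, mul_comm]
  rw [h5]

/-- Necessity. -/
theorem bu_fwd (hs : IsSigma q σ) (hF : Fintype.card F = q ^ 2) {p : ℕ} [Fact p.Prime] [CharP F p]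
    {m : ℕ} (hnm : n = 2 * m) (hm : 2 ≤ m)
    (D : Fin 2 → Submodule F (Fin n → F)) (hD : IsMDecomposition m D)
    (hDs : ∀ i, IsTotallySingularFor (hermForm n F q) (D i)) (r : ℕ) (hr : r.Prime)
    (hΩ : r ∣ (decompositionStabilizer D).relIndex (GU n F q ⊓ specialLinear (Fin n) F))
    (Hall : ∀ x ∈ GU n F q ⊓ specialLinear (Fin n) F,
      (∃ z : F, ((x ^ r : GL (Fin n) F) : Matrix (Fin n) (Fin n) F) = z • (1 : Matrix (Fin n) (Fin n) F)) →
      (∀ z : F, (x : Matrix (Fin n) (Fin n) F) ≠ z • (1 : Matrix (Fin n) (Fin n) F)) →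
      ∃ g ∈ GU n F q ⊓ specialLinear (Fin n) F, g⁻¹ * x * g ∈ decompositionStabilizer D) :
    r = 2 ∧ Odd q ∧ padicValNat 2 (q + 1) ≤ padicValNat 2 n := by
  have h : UF σ (hermForm n F q) := UF.of_unitary (hs.isUnitaryForm (n := n))
  have p0 : ULagPair (hermForm n F q) (D 0) (D 1) := Helper11.bu_pair0 hD hDs
  have hpp : p.Prime := Fact.out
  have key : ∀ x ∈ GU n F q ⊓ specialLinear (Fin n) F,
      (∃ z : F, ((x ^ r : GL (Fin n) F) : Matrix (Fin n) (Fin n) F) = z • (1 : Matrix (Fin n) (Fin n) F)) →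
      (∀ z : F, (x : Matrix (Fin n) (Fin n) F) ≠ z • (1 : Matrix (Fin n) (Fin n) F)) →
      ∃ W W' : Submodule F (Fin n → F), ULagPair (hermForm n F q) W W' ∧
      (((∀ a ∈ W, (x : Matrix (Fin n) (Fin n) F) *ᵥ a ∈ W) ∧
          (∀ b ∈ W', (x : Matrix (Fin n) (Fin n) F) *ᵥ b ∈ W')) ∨
       ((∀ a ∈ W, (x : Matrix (Fin n) (Fin n) F) *ᵥ a ∈ W') ∧
          (∀ b ∈ W', (x : Matrix (Fin n) (Fin n) F) *ᵥ b ∈ W))) := by
    intro x hx h1 h2
    obtain ⟨g, hg, hy⟩ := Hall x hx h1 h2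
    exact bu_key h p0 x g hg.1 hy
  have hcard : 2 < Fintype.card (Fin n) := by rw [Fintype.card_fin]; omega
  have hne : Nonempty (Fin n) := ⟨⟨0, by omega⟩⟩
  -- r ≠ p
  have hrp : r ≠ p := by
    rintro rfl
    obtain ⟨c, hcD, hc0⟩ : ∃ c ∈ D 0, c ≠ 0 := by
      have hpos : 0 < Module.finrank F (D 0) := by rw [hD.finrank_eq 0]; omega
      obtain ⟨c, hc⟩ := Module.finrank_pos_iff_exists_ne_zero.mp hpos
      exact ⟨c.1, c.2, fun h0 => hc (Subtype.ext h0)⟩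
    obtain ⟨x, ν, hν, hxU, hxS, hxp, hxns, hxv⟩ :=
      Helper31.bu_transvection h (p := r) hc0 (hDs 0 c hcD c hcD)
    obtain ⟨W, W', pW, hst⟩ := key x ⟨hxU, hxS⟩ ⟨1, by rw [hxp, one_smul]; rfl⟩ hxns
    exact Helper31.bu_rank_one h hcard hc0 one_ne_zero hν (x : Matrix (Fin n) (Fin n) F) hxv pW hst
  by_cases hr2 : r = 2
  · subst hr2
    have h2F : (2 : F) ≠ 0 := by
      intro h0
      have h1 : ((2 : ℕ) : F) = 0 := by exact_mod_cast h0
      rw [CharP.cast_eq_zero_iff F p 2] at h1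
      exact hrp ((Nat.prime_dvd_prime_iff_eq hpp Nat.prime_two).mp h1).symm
    have hqo : Odd q := by
      rw [← Nat.not_even_iff_odd]
      intro hev
      apply h2F
      have h1 : ((Fintype.card F : ℕ) : F) = 0 := Nat.cast_card_eq_zero F
      obtain ⟨k, hk⟩ := hev
      have h3 : (2 : ℕ) ∣ Fintype.card F := by
        rw [hF, hk]
        exact ⟨2 * k * k, by ring⟩
      have h4 : (p : ℕ) ∣ 2 := by
        obtain ⟨e, -, he⟩ := FiniteField.card F p
        rw [he] at h3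
        have := Nat.Prime.dvd_of_dvd_pow Nat.prime_two h3
        exact absurd ((Nat.prime_dvd_prime_iff_eq Nat.prime_two hpp).mp this) hrp
      exact absurd ((Nat.prime_dvd_prime_iff_eq hpp Nat.prime_two).mp h4).symm hrp
    refine ⟨rfl, hqo, ?_⟩
    by_contra hlt
    push Not at hlt
    obtain ⟨l, hl1, hln⟩ := Helper72.bu_lambda (F := F) hF hqo (by omega : 0 < n) hlt
    obtain ⟨x, c, hc0, hxU, hxS, hx2, hxns, hxv⟩ :=
      Helper31.bu_reflection (n := n) hqo (by omega) h2F l hl1 hln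
    obtain ⟨W, W', pW, hst⟩ := key x ⟨hxU, hxS⟩ ⟨l ^ 2, hx2⟩ hxns
    have hl0 : l ≠ 0 := by
      rintro rfl
      rw [zero_pow (by omega)] at hl1
      exact zero_ne_one hl1
    have hμ : -2 * l ≠ 0 := mul_ne_zero (neg_ne_zero.mpr h2F) hl0
    exact Helper31.bu_rank_one h hcard hc0 hl0 hμ (x : Matrix (Fin n) (Fin n) F) hxv pW hst
  · exfalso
    have hrF : (r : F) ≠ 0 := by
      intro h0
      rw [CharP.cast_eq_zero_iff F p r] at h0
      exact hrp ((Nat.prime_dvd_prime_iff_eq hpp hr).mp h0).symm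
    have hrq : ¬ r ∣ q := by
      intro hdiv
      have h3 : r ∣ Fintype.card F := by
        rw [hF]
        exact dvd_pow hdiv (by norm_num)
      obtain ⟨e, -, he⟩ := FiniteField.card F p
      rw [he] at h3
      have := Nat.Prime.dvd_of_dvd_pow hr h3
      exact hrp ((Nat.prime_dvd_prime_iff_eq hr hpp).mp this)
    have hidx := hΩ.trans (bu_index hs hF hnm D hD hDs)
    have hprod : r ∣ ∏ j ∈ Finset.range m, (q ^ (2 * j + 1) + 1) := by
      rcases (Nat.Prime.dvd_mul hr).mp hidx with h1 | h1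
      · exact absurd (Nat.Prime.dvd_of_dvd_pow hr h1) hrq
      · exact h1
    obtain ⟨j, hj, hrj⟩ := (Prime.dvd_finsetProd_iff (Nat.Prime.prime hr) _).mp hprod
    rw [Finset.mem_range] at hj
    have hex : ∃ k, Odd k ∧ r ∣ q ^ k + 1 := ⟨2 * j + 1, ⟨j, rfl⟩, hrj⟩
    obtain ⟨k, ⟨hkodd, hrk⟩, hkmin, hkle⟩ : ∃ k, (Odd k ∧ r ∣ q ^ k + 1) ∧
        (∀ i, i < k → ¬ (Odd i ∧ r ∣ q ^ i + 1)) ∧ k ≤ 2 * j + 1 :=
      ⟨Nat.find hex, Nat.find_spec hex, fun i hi => Nat.find_min hex hi,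
        Nat.find_min' hex ⟨⟨j, rfl⟩, hrj⟩⟩
    have hkn : k < n := by omega
    have hrodd : Odd r := hr.odd_of_ne_two hr2
    obtain ⟨k', hk'odd, hk'n, a, haU, hadet, har, hafix⟩ : ∃ k', Odd k' ∧ k' < n ∧
        ∃ a : GL (Fin k') F, a ∈ GU k' F q ∧ (a : Matrix (Fin k') (Fin k') F).det = 1 ∧ a ^ r = 1 ∧
          ∀ v : Fin k' → F, (a : Matrix (Fin k') (Fin k') F) *ᵥ v = v → v = 0 := by
      by_cases hq1 : r ∣ q + 1
      · obtain ⟨a, h1, h2, h3, h4⟩ := Helper72.bu_omega3 (F := F) hF hr hr2 hq1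
        exact ⟨3, by decide, by omega, a, h1, h2, h3, h4⟩
      · have hnt : ∀ j, 0 < j → j ≤ k → r ∣ q ^ (2 * j) - 1 → j = k := fun j hj0 hjk hj =>
          Helper51.bu_nt hr hr2 hkodd hrk (fun i hi hik hdiv => hkmin i hik ⟨hi, hdiv⟩) hj0 hjk hj
        obtain ⟨a, h1, h3, h4⟩ := Helper55.bu_cauchy (F := F) hF hr hkodd hrk hnt
        exact ⟨k, hkodd, hkn, a, h1, Helper51.bu_det_one hF hr hq1 a h1 h3, h3, h4⟩
    obtain ⟨x, hxU, hxdet, hxpow, hxfix⟩ := Helper55.bu_embed (n := n) hk'n.le a haU hafix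
    have hxS : x ∈ specialLinear (Fin n) F := mem_SL_of_det (by rw [hxdet, hadet])
    have hxr : x ^ r = 1 := hxpow r har
    have hk'pos : 0 < k' := hk'odd.pos
    have hxns : ∀ z : F, (x : Matrix (Fin n) (Fin n) F) ≠ z • (1 : Matrix (Fin n) (Fin n) F) := by
      intro z hz
      rcases Helper72.bu_not_scalar (x : Matrix (Fin n) (Fin n) F) z hz with h0 | h0
      · rw [hxfix] at h0
        omega
      · rw [hxfix, Fintype.card_fin] at h0
        omega
    obtain ⟨W, W', pW, hst⟩ := key x ⟨hxU, hxS⟩ ⟨1, by rw [hxr, one_smul]; rfl⟩ hxns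
    rcases hst with ⟨hW, hW'⟩ | hsw
    · have hpar := Helper84.bu_parity h hrF x hxU hxr pW hW hW'
      rw [hxfix] at hpar
      obtain ⟨t, ht⟩ := hpar
      obtain ⟨t', ht'⟩ := hk'odd
      omega
    · exact Helper72.bu_no_swap hrodd x hxr pW hsw

/-- Sufficiency. -/
theorem bu_bwd (hs : IsSigma q σ) (hF : Fintype.card F = q ^ 2) (h2 : (2 : F) ≠ 0) (hqo : Odd q)
    {m : ℕ} (hnm : n = 2 * m) (hm : 0 < m) (hv : padicValNat 2 (q + 1) ≤ padicValNat 2 n)
    (D : Fin 2 → Submodule F (Fin n → F)) (hD : IsMDecomposition m D)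
    (hDs : ∀ i, IsTotallySingularFor (hermForm n F q) (D i))
    (x : GL (Fin n) F) (hx : x ∈ GU n F q ⊓ specialLinear (Fin n) F) (z : F)
    (hz : ((x ^ 2 : GL (Fin n) F) : Matrix (Fin n) (Fin n) F) = z • (1 : Matrix (Fin n) (Fin n) F)) :
    ∃ g ∈ GU n F q ⊓ specialLinear (Fin n) F, g⁻¹ * x * g ∈ decompositionStabilizer D := by
  have h : UF σ (hermForm n F q) := UF.of_unitary (hs.isUnitaryForm (n := n))
  have p0 : ULagPair (hermForm n F q) (D 0) (D 1) := Helper11.bu_pair0 hD hDs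
  obtain ⟨hxU, hxS⟩ := hx
  have hxx : (x : Matrix (Fin n) (Fin n) F) * (x : Matrix (Fin n) (Fin n) F) = z • 1 := by
    rw [← hz, pow_two]
    rfl
  have hn0 : 0 < n := by omega
  have hxz : ∀ v : Fin n → F, (x : Matrix (Fin n) (Fin n) F) *ᵥ ((x : Matrix (Fin n) (Fin n) F) *ᵥ v)
      = z • v := by
    intro v
    rw [Matrix.mulVec_mulVec, hxx, Matrix.smul_mulVec, Matrix.one_mulVec]
  have hz1 : z ^ (q + 1) = 1 := by
    obtain ⟨e, hee, -⟩ := h.exists_aniso (k := 0) (fun i => 0) (by rw [Fintype.card_fin]; omega)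
    have h1 := hxU ((x : Matrix (Fin n) (Fin n) F) *ᵥ e) ((x : Matrix (Fin n) (Fin n) F) *ᵥ e)
    have h3 := hxU e e
    simp only [Units.coeHom_apply] at h1 h3
    rw [hxz, h3, h.smul_left, h.smul_right, hs.pow] at h1
    have h4 : (z * z ^ q - 1) * hermForm n F q e e = 0 := by linear_combination h1
    rcases mul_eq_zero.mp h4 with h5 | h5
    · rw [pow_succ, mul_comm]
      exact sub_eq_zero.mp h5
    · exact absurd h5 hee
  obtain ⟨l, hl2, hl⟩ := Helper20.bu_sqrt hF hqo z hz1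
  have hz0 : z ≠ 0 := by
    rintro rfl
    rw [zero_pow (by omega)] at hz1
    exact zero_ne_one hz1
  have hl0 : l ≠ 0 := by
    rintro rfl
    rw [zero_pow (by norm_num)] at hl2
    exact hz0 hl2.symm
  have hss : (l⁻¹ • (x : Matrix (Fin n) (Fin n) F)) * (l⁻¹ • (x : Matrix (Fin n) (Fin n) F)) = 1 := by
    rw [Matrix.smul_mul, Matrix.mul_smul, hxx, smul_smul, smul_smul, ← hl2]
    have : l⁻¹ * l⁻¹ * l ^ 2 = 1 := by field_simp
    rw [this, one_smul]
  have hsf : ∀ u v : Fin n → F,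
      hermForm n F q ((l⁻¹ • (x : Matrix (Fin n) (Fin n) F)) *ᵥ u)
        ((l⁻¹ • (x : Matrix (Fin n) (Fin n) F)) *ᵥ v) = (l ^ (q + 1))⁻¹ * hermForm n F q u v := by
    intro u v
    have h3 := hxU u v
    simp only [Units.coeHom_apply] at h3
    rw [Matrix.smul_mulVec, Matrix.smul_mulVec, h.smul_left, h.smul_right, h3, hs.pow, pow_succ,
      inv_pow]
    field_simp
  obtain ⟨W, W', pW, hW, hW'⟩ : ∃ W W' : Submodule F (Fin n → F), ULagPair (hermForm n F q) W W' ∧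
      (∀ a ∈ W, (l⁻¹ • (x : Matrix (Fin n) (Fin n) F)) *ᵥ a ∈ W) ∧
      (∀ b ∈ W', (l⁻¹ • (x : Matrix (Fin n) (Fin n) F)) *ᵥ b ∈ W') := by
    rcases hl with hl1 | hl1
    · have hiso : ∀ u v : Fin n → F,
          hermForm n F q ((l⁻¹ • (x : Matrix (Fin n) (Fin n) F)) *ᵥ u)
            ((l⁻¹ • (x : Matrix (Fin n) (Fin n) F)) *ᵥ v) = hermForm n F q u v := by
        intro u v
        rw [hsf, hl1, inv_one, one_mul]
      have hdet : (l⁻¹ • (x : Matrix (Fin n) (Fin n) F)).det = (l ^ n)⁻¹ := by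
        rw [Matrix.det_smul, det_of_mem_SL hxS, Fintype.card_fin, mul_one, inv_pow]
      have hid := Helper27.bu_invol_det (l⁻¹ • (x : Matrix (Fin n) (Fin n) F)) hss h2
      have hev' : Even (Module.finrank F (LinearMap.ker
          (Matrix.mulVecLin (l⁻¹ • (x : Matrix (Fin n) (Fin n) F) + 1)))) := by
        by_contra hodd
        rw [Nat.not_even_iff_odd] at hodd
        rw [hodd.neg_one_pow, hdet] at hid
        have hln : l ^ n = -1 := by
          rw [inv_eq_iff_eq_inv] at hid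
          rw [hid, inv_neg_one]
        exact Helper31.bu_nt2 hn0 h2 l hl1 hln hv
      exact Helper35.bu_invol_pos h h2 _ hss hiso (by rw [Fintype.card_fin, hnm]; exact even_two_mul m) hev'
        (fun U hU hev => Helper35.bu_lag_sub h
          (fun k f' hf' hk => Helper27.bu_lag_exists hf' (by rw [Fintype.card_fin]; exact hk)) U hU hev)
    · have hneg : ∀ u v : Fin n → F,
          hermForm n F q ((l⁻¹ • (x : Matrix (Fin n) (Fin n) F)) *ᵥ u)
            ((l⁻¹ • (x : Matrix (Fin n) (Fin n) F)) *ᵥ v) = - hermForm n F q u v := by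
        intro u v
        rw [hsf, hl1, inv_neg_one, neg_one_mul]
      exact Helper11.bu_invol_neg h h2 _ hss hneg
  have hxW : ∀ a ∈ W, (x : Matrix (Fin n) (Fin n) F) *ᵥ a ∈ W := by
    intro a ha
    have h3 := W.smul_mem l (hW a ha)
    rwa [Matrix.smul_mulVec, smul_smul, mul_inv_cancel₀ hl0, one_smul] at h3
  have hxW' : ∀ b ∈ W', (x : Matrix (Fin n) (Fin n) F) *ᵥ b ∈ W' := by
    intro a ha
    have h3 := W'.smul_mem l (hW' a ha)
    rwa [Matrix.smul_mulVec, smul_smul, mul_inv_cancel₀ hl0, one_smul] at h3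
  have hdimD : Module.finrank F (D 0) = m := hD.finrank_eq 0
  have hdimW : Module.finrank F W = m := by
    have h3 := Helper11.bu_lag_dim h pW
    rw [Fintype.card_fin] at h3
    omega
  obtain ⟨a, b, ha, hb, hab, hA, hB⟩ := Helper35.bu_dual h p0 hdimD
  obtain ⟨a', b', ha', hb', hab', hA', hB'⟩ := Helper35.bu_dual h pW hdimW
  obtain ⟨g₀, hg₀, hg₀A, hg₀B⟩ := Helper35.bu_trans_gu h p0 pW a b a' b' ha hb hab hA hB ha' hb' hab'
  have hdet₀ := bu_det_norm hs g₀ hg₀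
  have hneW : ∃ w ∈ W, w ≠ 0 := by
    have hpos : 0 < Module.finrank F W := by rw [hdimW]; exact hm
    obtain ⟨c, hc⟩ := Module.finrank_pos_iff_exists_ne_zero.mp hpos
    exact ⟨c.1, c.2, fun h0 => hc (Subtype.ext h0)⟩
  obtain ⟨k, hk, hkA, hkB, hkS⟩ := Helper35.bu_trans_su h pW hneW g₀ hdet₀
  refine ⟨k * g₀, ⟨mul_mem hk hg₀, hkS⟩, ?_⟩
  apply bu_conj_in p0 pW x (k * g₀) _ _ hxW hxW'
  · intro v hv
    rw [ugl_mul_mulVec]
    exact hkA _ (hg₀A v hv)
  · intro v hv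
    rw [ugl_mul_mulVec]
    exact hkB _ (hg₀B v hv)

end herm

end Cfsg.Agent.Helper35
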