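import Cfsg.Agent.Helper74.C3EKDIV
import Cfsg.Agent.Helper39.C3EKND
import Cfsg.Agent.Helper29.C3ESIGMA
import Cfsg.Agent.Helper53.C3EFIXF
import Cfsg.Agent.Helper46.C3EDESC
import Cfsg.Agent.Helper53.C3ESIGPOW
import Cfsg.Agent.Helper39.C3ERHO
import Cfsg.Agent.Helper39.C3EEMB
import Cfsg.Agent.Helper39.C3EBRIDGE
import Cfsg.Agent.Helper83.C3ECARD
import Cfsg.Agent.Helper83.C3ECARDK
import Cfsg.Agent.Helper91.C3ECONJ
import Cfsg.Agent.Helper34.C3ETV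
import Cfsg.Agent.Helper3.C3EINV
import Cfsg.Agent.Helper34.C3EODD
import Cfsg.Agent.Helper91.C3EIDX
import Cfsg.Agent.Helper29.C3EARITH
import Cfsg.Agent.Helper53.C3EAR
import Cfsg.Agent.Helper91.C3ESQ
import Cfsg.Agent.Helper3.C3EKJ
import Cfsg.Agent.Helper83.C3ENORM
import Cfsg.Agent.Helper83.C3EJBASIS
import Cfsg.Agent.Helper72.C3EJISO
import Cfsg.Agent.Helper72.C3EJMAT
import Cfsg.Agent.Helper72.C3ER1
import Cfsg.Agent.Helper72.C3ER2
import Cfsg.Agent.Helper39.C3ER3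
import Cfsg.Agent.Helper81.C3SPHI
import Cfsg.Agent.Helper81.C3SWLIB
import Cfsg.Agent.Helper94.SpGen
import Cfsg.Agent.Helper59.TIMAXTI
import Cfsg.Agent.Helper11.TIFIX
import Cfsg.Agent.Helper51.TIORD

/-!
# S5975 assembly (helper35)
-/

set_option autoImplicit false

namespace Cfsg.Agent.Helper35

open Matrix Module

section abs

variable {F : Type*} [Field F] {K' : Type*} [Field K'] [Algebra F K'] {V : Type*}
  [AddCommGroup V] [Module F V] [Module K' V] [IsScalarTower F K' V] [FiniteDimensional F V]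

theorem c3e_lin [Finite F] [Finite K'] (T : Module.End F V)
    (hN : Cfsg.Agent.Helper98.c3_N K' T) (r : ℕ) (hr : r.Prime)
    (hk : (Module.finrank F K').Prime) (hrk : r ≠ Module.finrank F K') (hTr : T ^ r = 1) :
    ∀ (c : K') (v : V), T (c • v) = c • T v := by
  by_cases hV : Nontrivial V
  · obtain ⟨σ, hσ⟩ := Helper29.c3e_sigma T hN
    have hpow : ∀ n : ℕ, ∀ (c : K') (v : V), (T ^ n) (c • v) = (σ ^ n) c • (T ^ n) v := by
      intro n
      induction n with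
      | zero => intro c v; simp
      | succ n ih =>
        intro c v
        rw [pow_succ, Module.End.mul_apply, hσ, ih, pow_succ, Module.End.mul_apply]
        rfl
    have hσr : σ ^ r = 1 := by
      apply AlgEquiv.ext
      intro c
      obtain ⟨v, hv⟩ := exists_ne (0 : V)
      have h := hpow r c v
      rw [hTr] at h
      simp only [Module.End.one_apply] at h
      have h' : (c - (σ ^ r) c) • v = 0 := by rw [sub_smul, ← h, sub_self]
      rcases smul_eq_zero.mp h' with h0 | h0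
      · rw [AlgEquiv.one_apply]
        exact (sub_eq_zero.mp h0).symm
      · exact absurd h0 hv
    have h1 := Helper53.c3e_sigpow σ r hr hk hrk hσr
    intro c v
    rw [hσ, h1]
    rfl
  · rw [not_nontrivial_iff_subsingleton] at hV
    intro c v
    exact Subsingleton.elim _ _

theorem c3e_semi [Finite F] [Finite K'] (hp : (Module.finrank F K').Prime) (T : Module.End F V)
    (hN : Cfsg.Agent.Helper98.c3_N K' T) (hnl : ¬ ∀ (c : K') (v : V), T (c • v) = c • T v) :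
    Module.finrank F K' * Module.finrank F (LinearMap.ker (T - 1)) ≤ Module.finrank F V := by
  have hV : Nontrivial V := by
    by_contra h
    rw [not_nontrivial_iff_subsingleton] at h
    exact hnl (fun c v => Subsingleton.elim _ _)
  obtain ⟨σ, hσ⟩ := Helper29.c3e_sigma T hN
  have hσ1 : σ ≠ 1 := fun h => hnl (fun c v => by rw [hσ, h]; rfl)
  exact Helper46.c3e_desc σ (fun c hc => Helper53.c3e_fixf hp σ hσ1 c hc) T hσ

theorem c3e_key [Finite F] [Finite K'] (B : LinearMap.BilinForm F V)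
    (hnd : ∀ u, (∀ v, B u v = 0) → u = 0)
    (hsa : ∀ (c : K') (u v : V), B (c • u) v = B u (c • v))
    (hka : ∀ (c : K') (v : V), B (c • v) v = 0)
    (hk : (Module.finrank F K').Prime) (T : Module.End F V)
    (hN : Cfsg.Agent.Helper98.c3_N K' T) (hT : ∀ u v, B (T u) (T v) = B u v)
    (r : ℕ) (hr : r.Prime) (hTr : T ^ r = 1) :
    ((Module.finrank F K' ∣ Module.finrank F (LinearMap.ker (T - 1))) ∧
      ((r : F) ≠ 0 → 2 * Module.finrank F K' ∣ Module.finrank F (LinearMap.ker (T - 1)))) ∨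
    (r = Module.finrank F K' ∧
      Module.finrank F K' * Module.finrank F (LinearMap.ker (T - 1)) ≤ Module.finrank F V) := by
  by_cases hl : ∀ (c : K') (v : V), T (c • v) = c • T v
  · left
    have hW : ∀ (c : K') (w : V), w ∈ LinearMap.ker (T - 1) → c • w ∈ LinearMap.ker (T - 1) := by
      intro c w hw
      rw [LinearMap.mem_ker, LinearMap.sub_apply, Module.End.one_apply, sub_eq_zero] at hw ⊢
      rw [hl, hw]
    refine ⟨Helper74.c3e_kdiv _ hW, fun hrF => ?_⟩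
    have halt : ∀ v, B v v = 0 := fun v => by
      have := hka 1 v
      rwa [one_smul] at this
    have hfix := Cfsg.Agent.Helper11.TI5955.ti_fix B halt hnd T hT r hrF hTr
    exact Helper39.c3e_knd B hnd hsa hka _ hW hfix.2.2.2.2.1
  · right
    have hrk : r = Module.finrank F K' := by
      by_contra hne
      exact hl (c3e_lin T hN r hr hk hne hTr)
    exact ⟨hrk, c3e_semi hk T hN hl⟩

end abs

universe u

theorem c3e_glue {F : Type u} [Field F] [Fintype F] {d : ℕ} (K' : Type u) [Field K']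
    [Algebra F K'] [Module K' (Fin d ⊕ Fin d → F)] [IsScalarTower F K' (Fin d ⊕ Fin d → F)]
    [Finite K'] (K : Subalgebra F (Matrix (Fin d ⊕ Fin d) (Fin d ⊕ Fin d) F))
    (j : K' → Matrix (Fin d ⊕ Fin d) (Fin d ⊕ Fin d) F)
    (hj : ∀ (c : K') (v : Fin d ⊕ Fin d → F), c • v = j c *ᵥ v)
    (hK : ∀ x, x ∈ K ↔ ∃ c, j c = x)
    (hsa : ∀ (c : K') (u v : Fin d ⊕ Fin d → F),
      Cfsg.sympForm d F (c • u) v = Cfsg.sympForm d F u (c • v))
    (halt : ∀ (c : K') (v : Fin d ⊕ Fin d → F), Cfsg.sympForm d F (c • v) v = 0)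
    (hk : (Module.finrank F K').Prime)
    (x g : GL (Fin d ⊕ Fin d) F) (hx : x ∈ Cfsg.spGL d F) (hg : g ∈ Cfsg.spGL d F)
    (hN : g⁻¹ * x * g ∈ Cfsg.Geo.subalgebraNormalizer K) (r : ℕ) (hr : r.Prime)
    (hxr : ((x ^ r : GL (Fin d ⊕ Fin d) F) : Matrix (Fin d ⊕ Fin d) (Fin d ⊕ Fin d) F) = 1)
    (e : ℕ) (he : Module.finrank F (LinearMap.ker
      (Matrix.toLin' (x : Matrix (Fin d ⊕ Fin d) (Fin d ⊕ Fin d) F) - 1)) = e) :
    ((Module.finrank F K' ∣ e) ∧ ((r : F) ≠ 0 → 2 * Module.finrank F K' ∣ e)) ∨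
    (r = Module.finrank F K' ∧ Module.finrank F K' * e ≤ 2 * d) := by
  classical
  obtain ⟨G, hGdef⟩ : ∃ G : GL (Fin d ⊕ Fin d) F, G = g⁻¹ * x * g := ⟨_, rfl⟩
  rw [← hGdef] at hN
  have hGsp : G ∈ Cfsg.spGL d F := by
    rw [hGdef]
    exact mul_mem (mul_mem (inv_mem hg) hx) hg
  have hGr : G ^ r = 1 := by
    have hx1 : x ^ r = 1 := Units.ext (by rw [hxr]; rfl)
    have h' : g⁻¹ * x * g = g⁻¹ * x * g⁻¹⁻¹ := by rw [inv_inv]
    rw [hGdef, h', conj_pow, hx1, mul_one, inv_inv, inv_mul_cancel]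
  have hc3 := (Cfsg.Agent.Helper81.C3S.mem_normalizer_iff K' K j hj hK G).mp hN
  have hT : ∀ u v, Cfsg.Agent.Helper94.sympB d F
      (Matrix.toLin' (G : Matrix (Fin d ⊕ Fin d) (Fin d ⊕ Fin d) F) u)
      (Matrix.toLin' (G : Matrix (Fin d ⊕ Fin d) (Fin d ⊕ Fin d) F) v) =
      Cfsg.Agent.Helper94.sympB d F u v := by
    intro u v
    rw [Cfsg.Agent.Helper94.sympB_apply, Cfsg.Agent.Helper94.sympB_apply, Matrix.toLin'_apply,
      Matrix.toLin'_apply]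
    exact (Cfsg.Agent.Helper94.mem_spGL_iff G).mp hGsp u v
  have hTr : (Matrix.toLin' (G : Matrix (Fin d ⊕ Fin d) (Fin d ⊕ Fin d) F)) ^ r = 1 := by
    rw [← Matrix.toLin'_pow, ← Units.val_pow_eq_pow_val, hGr, Units.val_one, Matrix.toLin'_one]
    rfl
  have hfin : Module.finrank F (Fin d ⊕ Fin d → F) = 2 * d := by
    rw [Module.finrank_fintype_fun_eq_card, Fintype.card_sum, Fintype.card_fin]
    ring
  have hker : Module.finrank F (LinearMap.ker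
      (Matrix.toLin' (G : Matrix (Fin d ⊕ Fin d) (Fin d ⊕ Fin d) F) - 1)) = e := by
    rw [hGdef, Helper91.c3e_conj, he]
  have key := c3e_key (K' := K') (Cfsg.Agent.Helper94.sympB d F)
    (fun u hu => Cfsg.Agent.Helper13.sympForm_sep u
      (fun v => by rw [← Cfsg.Agent.Helper94.sympB_apply]; exact hu v))
    (fun c u v => by
      rw [Cfsg.Agent.Helper94.sympB_apply, Cfsg.Agent.Helper94.sympB_apply]; exact hsa c u v)
    (fun c v => by rw [Cfsg.Agent.Helper94.sympB_apply]; exact halt c v)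
    hk _ hc3 hT r hr hTr
  rw [hker, hfin] at key
  exact key

theorem c3e_index {F : Type u} [Field F] [Fintype F] {d : ℕ} (K' : Type u) [Field K']
    [Algebra F K'] [Module K' (Fin d ⊕ Fin d → F)] [IsScalarTower F K' (Fin d ⊕ Fin d → F)]
    [Finite K'] (K : Subalgebra F (Matrix (Fin d ⊕ Fin d) (Fin d ⊕ Fin d) F))
    (j : K' → Matrix (Fin d ⊕ Fin d) (Fin d ⊕ Fin d) F)
    (hj : ∀ (c : K') (v : Fin d ⊕ Fin d → F), c • v = j c *ᵥ v)
    (hK : ∀ x, x ∈ K ↔ ∃ c, j c = x)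
    (hsa : ∀ (c : K') (u v : Fin d ⊕ Fin d → F),
      Cfsg.sympForm d F (c • u) v = Cfsg.sympForm d F u (c • v))
    (halt : ∀ (c : K') (v : Fin d ⊕ Fin d → F), Cfsg.sympForm d F (c • v) v = 0)
    (hk : (Module.finrank F K').Prime) (r : ℕ) (hr : r.Prime) (hrq : ¬ r ∣ Fintype.card F)
    (hΩ : r ∣ (Cfsg.Geo.subalgebraNormalizer K).relIndex (Cfsg.spGL d F)) :
    ∃ j₁, 1 ≤ j₁ ∧ j₁ ≤ d ∧ ¬ Module.finrank F K' ∣ j₁ ∧
      r ∣ Fintype.card F ^ (2 * j₁) - 1 := by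
  classical
  haveI : Module.Finite K' (Fin d ⊕ Fin d → F) :=
    Module.Finite.of_restrictScalars_finite F K' (Fin d ⊕ Fin d → F)
  obtain ⟨φ, hφ, haltφ, hndφ⟩ := Cfsg.Agent.Helper81.C3S.exists_phi (F := F) (K := K')
    (Cfsg.Agent.Helper94.sympB d F)
    (fun c u v => by
      rw [Cfsg.Agent.Helper94.sympB_apply, Cfsg.Agent.Helper94.sympB_apply]; exact hsa c u v)
    (fun c v => by rw [Cfsg.Agent.Helper94.sympB_apply]; exact halt c v)
    (fun u hu => Cfsg.Agent.Helper13.sympForm_sep u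
      (fun v => by rw [← Cfsg.Agent.Helper94.sympB_apply]; exact hu v))
  have hfin : Module.finrank F (Fin d ⊕ Fin d → F) = 2 * d := by
    rw [Module.finrank_fintype_fun_eq_card, Fintype.card_sum, Fintype.card_fin]
    ring
  have hrank : Module.finrank F K' * Module.finrank K' (Fin d ⊕ Fin d → F) = 2 * d := by
    rw [Module.finrank_mul_finrank, hfin]
  have hev : Even (Module.finrank K' ↥(⊤ : Submodule K' (Fin d ⊕ Fin d → F))) :=
    (Cfsg.Agent.Helper59.TI5955.ti_lag φ haltφ ⊤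
      (fun v _ h => hndφ v (fun w => h w Submodule.mem_top))).1
  rw [finrank_top] at hev
  obtain ⟨m, hm⟩ := hev
  have hm' : Module.finrank K' (Fin d ⊕ Fin d → F) = 2 * m := by omega
  have hdkm : d = Module.finrank F K' * m := by
    rw [hm'] at hrank
    have : 2 * (Module.finrank F K' * m) = 2 * d := by rw [← hrank]; ring
    omega
  obtain ⟨ρ, hinj, h1, hmul, hpres⟩ := Helper39.c3e_rho φ haltφ hndφ m hm'
  have hemb := Helper39.c3e_emb K' K j hj hK φ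
    (fun u v => by rw [hφ, Cfsg.Agent.Helper94.sympB_apply]) m ρ hinj h1 hmul hpres
  have hidx := Helper91.c3e_idx (Cfsg.Geo.subalgebraNormalizer K) (Cfsg.spGL d F) r _ hΩ hemb
  rw [Helper83.c3e_card d (Helper39.c3e_bridge d) (Helper39.c3e_bridge' d), Helper83.c3e_cardk (F := F) K' m] at hidx
  have hq2 : 2 ≤ Fintype.card F := Fintype.one_lt_card
  obtain ⟨j₁, h1, h2, h3, h4⟩ := Helper29.c3e_arith (Fintype.card F) (Module.finrank F K') m r hq2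
    hk.two_le hr hrq (by rw [← hdkm]; exact hidx)
  exact ⟨j₁, h1, by rw [hdkm]; exact h2, h3, h4⟩

theorem c3e_fwd {F : Type u} [Field F] [Fintype F] {p : ℕ} [Fact p.Prime] [CharP F p] (d : ℕ)
    (hd : 2 ≤ d) (K' : Type u) [Field K']
    [Algebra F K'] [Module K' (Fin d ⊕ Fin d → F)] [IsScalarTower F K' (Fin d ⊕ Fin d → F)]
    [Finite K'] (K : Subalgebra F (Matrix (Fin d ⊕ Fin d) (Fin d ⊕ Fin d) F))
    (j : K' → Matrix (Fin d ⊕ Fin d) (Fin d ⊕ Fin d) F)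
    (hj : ∀ (c : K') (v : Fin d ⊕ Fin d → F), c • v = j c *ᵥ v)
    (hK : ∀ x, x ∈ K ↔ ∃ c, j c = x)
    (hsa : ∀ (c : K') (u v : Fin d ⊕ Fin d → F),
      Cfsg.sympForm d F (c • u) v = Cfsg.sympForm d F u (c • v))
    (halt : ∀ (c : K') (v : Fin d ⊕ Fin d → F), Cfsg.sympForm d F (c • v) v = 0)
    (hk : (Module.finrank F K').Prime) (r : ℕ) [Fact r.Prime]
    (hΩ : r ∣ (Cfsg.Geo.subalgebraNormalizer K).relIndex (Cfsg.spGL d F))
    (hall : ∀ x ∈ Cfsg.spGL d F,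
      (∃ z : F, ((x ^ r : GL (Fin d ⊕ Fin d) F) : Matrix (Fin d ⊕ Fin d) (Fin d ⊕ Fin d) F) =
        z • (1 : Matrix (Fin d ⊕ Fin d) (Fin d ⊕ Fin d) F)) →
      (∀ z : F, (x : Matrix (Fin d ⊕ Fin d) (Fin d ⊕ Fin d) F) ≠
        z • (1 : Matrix (Fin d ⊕ Fin d) (Fin d ⊕ Fin d) F)) →
      ∃ g ∈ Cfsg.spGL d F, g⁻¹ * x * g ∈ Cfsg.Geo.subalgebraNormalizer K) :
    r = 2 ∧ d = 2 ∧ Module.finrank F K' = 2 ∧ Odd (Fintype.card F) := by
  classical
  have hr : r.Prime := Fact.out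
  have hp : p.Prime := Fact.out
  have hfin : Module.finrank F (Fin d ⊕ Fin d → F) = 2 * d := by
    rw [Module.finrank_fintype_fun_eq_card, Fintype.card_sum, Fintype.card_fin]
    ring
  have hnd : ∀ u, (∀ v, Cfsg.Agent.Helper94.sympB d F u v = 0) → u = 0 :=
    fun u hu => Cfsg.Agent.Helper13.sympForm_sep u
      (fun v => by rw [← Cfsg.Agent.Helper94.sympB_apply]; exact hu v)
  obtain ⟨k, hkdef⟩ : ∃ k, k = Module.finrank F K' := ⟨_, rfl⟩
  have hglue := fun (x g : GL (Fin d ⊕ Fin d) F) (hx : x ∈ Cfsg.spGL d F)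
      (hg : g ∈ Cfsg.spGL d F) (hN : g⁻¹ * x * g ∈ Cfsg.Geo.subalgebraNormalizer K)
      (hxr : ((x ^ r : GL (Fin d ⊕ Fin d) F) : Matrix (Fin d ⊕ Fin d) (Fin d ⊕ Fin d) F) = 1)
      (e : ℕ) (he : Module.finrank F (LinearMap.ker
        (Matrix.toLin' (x : Matrix (Fin d ⊕ Fin d) (Fin d ⊕ Fin d) F) - 1)) = e) =>
    c3e_glue K' K j hj hK hsa halt hk x g hx hg hN r hr hxr e he
  have hindex := fun (hrq : ¬ r ∣ Fintype.card F) =>
    c3e_index K' K j hj hK hsa halt hk r hr hrq hΩ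
  have hkd : Module.finrank F K' ∣ d := by
    have h := Helper39.c3e_knd (K' := K') (Cfsg.Agent.Helper94.sympB d F) hnd
      (fun c u v => by
        rw [Cfsg.Agent.Helper94.sympB_apply, Cfsg.Agent.Helper94.sympB_apply]; exact hsa c u v)
      (fun c v => by rw [Cfsg.Agent.Helper94.sympB_apply]; exact halt c v)
      ⊤ (fun c w _ => Submodule.mem_top)
      (fun w _ h => hnd w (fun v => h v Submodule.mem_top))
    rw [finrank_top, hfin] at h
    exact (Nat.mul_dvd_mul_iff_left (by norm_num)).mp h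
  rw [← hkdef] at hk hkd hglue hindex ⊢
  have hk2 : 2 ≤ k := hk.two_le
  have hkd' : k ≤ d := Nat.le_of_dvd (by omega) hkd
  obtain ⟨n, -, hcard⟩ := FiniteField.card F p
  by_cases hrp : r = p
  · exfalso
    obtain ⟨t, htsp, htp, htns, htfix⟩ := Helper34.c3e_tv (F := F) p d (by omega)
    obtain ⟨g, hg, hgN⟩ := hall t htsp ⟨1, by rw [hrp, htp, one_smul]⟩ htns
    rcases hglue t g htsp hg hgN (by rw [hrp]; exact htp) _ htfix with ⟨h1, -⟩ | ⟨-, h2⟩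
    · have h3 : k ∣ 2 * d := Dvd.dvd.mul_left hkd 2
      have h4 : k ∣ 2 * d - (2 * d - 1) := Nat.dvd_sub h3 h1
      have h5 : 2 * d - (2 * d - 1) = 1 := by omega
      rw [h5] at h4
      have := Nat.le_of_dvd one_pos h4
      omega
    · have : 2 * (2 * d - 1) ≤ k * (2 * d - 1) := Nat.mul_le_mul_right _ hk2
      omega
  · by_cases hr2 : r = 2
    · have hp2 : p ≠ 2 := fun h => hrp (by rw [hr2, h])
      have h2F : (2 : F) ≠ 0 := by
        intro h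
        have h' : ((2 : ℕ) : F) = 0 := by exact_mod_cast h
        have h3 : p ∣ 2 := (CharP.cast_eq_zero_iff F p 2).mp h'
        exact hp2 ((Nat.prime_dvd_prime_iff_eq hp Nat.prime_two).mp h3)
      obtain ⟨s, hssp, hs2, hsns, hsfix⟩ := Helper3.c3e_inv h2F d hd
      obtain ⟨g, hg, hgN⟩ := hall s hssp ⟨1, by rw [hr2, hs2, one_smul]⟩ hsns
      have hrF : ((r : ℕ) : F) ≠ 0 := by rw [hr2]; exact_mod_cast h2F
      rcases hglue s g hssp hg hgN (by rw [hr2]; exact hs2) _ hsfix with ⟨-, h1⟩ | ⟨h1, h2⟩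
      · exfalso
        have h1' := h1 hrF
        have h6 : 2 * d - 2 = 2 * (d - 1) := by omega
        rw [h6] at h1'
        have h3 : k ∣ d - 1 := (Nat.mul_dvd_mul_iff_left (by norm_num)).mp h1'
        have h4 : k ∣ d - (d - 1) := Nat.dvd_sub hkd h3
        have h5 : d - (d - 1) = 1 := by omega
        rw [h5] at h4
        have := Nat.le_of_dvd one_pos h4
        omega
      · have hk2' : k = 2 := by rw [← h1, hr2]
        refine ⟨hr2, ?_, hk2', ?_⟩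
        · rw [hk2'] at h2
          omega
        · rw [hcard]
          exact Odd.pow (hp.odd_of_ne_two hp2)
    · exfalso
      have hr3 : 2 < r := lt_of_le_of_ne hr.two_le (Ne.symm hr2)
      have hrq : ¬ r ∣ Fintype.card F := by
        rw [hcard]
        intro h
        exact hrp ((Nat.prime_dvd_prime_iff_eq hr hp).mp (hr.dvd_of_dvd_pow h))
      have hrF : ((r : ℕ) : F) ≠ 0 := by
        intro h
        have h3 := (CharP.cast_eq_zero_iff F p r).mp h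
        exact hrp ((Nat.prime_dvd_prime_iff_eq hp hr).mp h3).symm
      obtain ⟨hi0, hir⟩ := Cfsg.Agent.Helper51.TI5955.ord_pos r (Fintype.card F) hrq
      obtain ⟨i, hi⟩ : ∃ i, i = orderOf ((Fintype.card F : ℕ) : ZMod r) := ⟨_, rfl⟩
      rw [← hi] at hi0 hir
      obtain ⟨c, hc⟩ : ∃ c, c = if Even i then i else 2 * i := ⟨_, rfl⟩
      have hj0 : ∃ j₀, 1 ≤ j₀ ∧ c = 2 * j₀ ∧ j₀ ≤ d ∧ ¬ k ∣ j₀ ∧ (r = k → 2 * j₀ ≤ k - 1) := by
        by_cases hrk : r = k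
        · obtain ⟨j₀, h1, h2, h3⟩ := Helper53.c3e_ar2 r i c hr hr3 hi0 hir hc
          refine ⟨j₀, h1, h2, by omega, ?_, fun _ => by rw [← hrk]; exact h3⟩
          intro hdiv
          have := Nat.le_of_dvd (by omega) hdiv
          omega
        · obtain ⟨j₁, h1, h2, h3, h4⟩ := hindex hrq
          have hdiv : i ∣ 2 * j₁ := by
            rw [hi]
            exact (Cfsg.Agent.Helper51.TI5955.ord_dvd r (Fintype.card F) (2 * j₁)
              Fintype.card_pos).mp h4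
          obtain ⟨j₀, g1, g2, g3⟩ := Helper53.c3e_ar1 i c j₁ hi0 hc hdiv h1
          exact ⟨j₀, g1, g2, le_trans (Nat.le_of_dvd (by omega) g3) h2,
            fun hdv => h3 (dvd_trans hdv g3), fun h => absurd h hrk⟩
      obtain ⟨j₀, hj1, hcj, hjd, hkj, hrkj⟩ := hj0
      obtain ⟨x, hxsp, hxr, hxns, hxfix⟩ :=
        Helper34.c3e_odd (F := F) p r hr3 hrp i c hi hc d (d - j₀) (by omega) (by omega) (Helper39.c3e_bridge d)
      obtain ⟨g, hg, hgN⟩ := hall x hxsp ⟨1, by rw [hxr, one_smul]⟩ hxns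
      rcases hglue x g hxsp hg hgN hxr _ hxfix with ⟨-, h1⟩ | ⟨h1, h2⟩
      · have h1' := h1 hrF
        have h3 : k ∣ d - j₀ := (Nat.mul_dvd_mul_iff_left (by norm_num)).mp h1'
        have h4 : k ∣ d - (d - j₀) := Nat.dvd_sub hkd h3
        have h5 : d - (d - j₀) = j₀ := by omega
        rw [h5] at h4
        exact hkj h4
      · have h3 := hrkj h1
        obtain ⟨e', he'⟩ : ∃ e', d = j₀ + e' := ⟨d - j₀, by omega⟩
        have h6 : d - j₀ = e' := by omega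
        rw [h6] at h2
        have hk3 : 3 ≤ k := by rw [← h1]; omega
        obtain ⟨k', hk'⟩ : ∃ k', k = k' + 1 := ⟨k - 1, by omega⟩
        rw [hk'] at h2 h3 hkd'
        rcases Nat.eq_zero_or_pos e' with h0 | hpos
        · omega
        · have h7 : k' * 2 ≤ k' * (2 * e') := Nat.mul_le_mul_left k' (by omega)
          have h8 : (k' + 1) * (2 * e') = k' * (2 * e') + 2 * e' := by ring
          omega

theorem c3e_bwd {F : Type*} [Field F] [Fintype F] (hodd : Odd (Fintype.card F))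
    (K : Subalgebra F (Matrix (Fin 2 ⊕ Fin 2) (Fin 2 ⊕ Fin 2) F))
    (hK : Cfsg.Geo.IsFieldSubalgebra 2 K)
    (hKf : Cfsg.Geo.IsSelfAdjointFor (Cfsg.sympForm 2 F) K)
    (x : GL (Fin 2 ⊕ Fin 2) F) (hx : x ∈ Cfsg.spGL 2 F)
    (hx2 : ∃ z : F, ((x ^ 2 : GL (Fin 2 ⊕ Fin 2) F) : Matrix (Fin 2 ⊕ Fin 2) (Fin 2 ⊕ Fin 2) F) =
      z • (1 : Matrix (Fin 2 ⊕ Fin 2) (Fin 2 ⊕ Fin 2) F))
    (hns : ∀ z : F, (x : Matrix (Fin 2 ⊕ Fin 2) (Fin 2 ⊕ Fin 2) F) ≠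
      z • (1 : Matrix (Fin 2 ⊕ Fin 2) (Fin 2 ⊕ Fin 2) F)) :
    ∃ g ∈ Cfsg.spGL 2 F, g⁻¹ * x * g ∈ Cfsg.Geo.subalgebraNormalizer K := by
  classical
  have hring : ringChar F ≠ 2 := by
    intro h
    have h' := FiniteField.even_card_iff_char_two.mp h
    have := Nat.odd_iff.mp hodd
    omega
  have h2 : (2 : F) ≠ 0 := Ring.two_ne_zero hring
  obtain ⟨n₁, hn₁, hn₁'⟩ : ∃ n : F, ¬ IsSquare n ∧ (¬ IsSquare (-1 : F) → n = -1) := by
    by_cases hm : IsSquare (-1 : F)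
    · obtain ⟨a, ha⟩ := FiniteField.exists_nonsquare hring
      exact ⟨a, ha, fun h => absurd hm h⟩
    · exact ⟨-1, hm, fun _ => rfl⟩
  obtain ⟨J, hJK, hJ2, hJK'⟩ := Helper3.c3e_kj K hK h2 n₁ hn₁
  have hJsa := hKf J hJK
  obtain ⟨z, hz⟩ := hx2
  have hJ' : ∃ (J' : Matrix (Fin 2 ⊕ Fin 2) (Fin 2 ⊕ Fin 2) F) (ε : F), ε ≠ 0 ∧
      J' * J' = n₁ • (1 : Matrix (Fin 2 ⊕ Fin 2) (Fin 2 ⊕ Fin 2) F) ∧
      (∀ u v, Cfsg.sympForm 2 F (J' *ᵥ u) v = Cfsg.sympForm 2 F u (J' *ᵥ v)) ∧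
      (x : Matrix (Fin 2 ⊕ Fin 2) (Fin 2 ⊕ Fin 2) F) * J' =
        ε • (J' * (x : Matrix (Fin 2 ⊕ Fin 2) (Fin 2 ⊕ Fin 2) F)) := by
    rcases Helper91.c3e_sq 2 (by norm_num) x hx z hz with rfl | rfl
    · obtain ⟨J', h1, h2', h3⟩ := Helper72.c3e_r1 Helper72.c3e_jmat h2 n₁ x hx (by rw [hz, one_smul]) hns
      exact ⟨J', -1, neg_ne_zero.mpr one_ne_zero, h1, h2', h3⟩
    · by_cases hm : IsSquare (-1 : F)
      · obtain ⟨ι, hι⟩ := hm
        obtain ⟨J', h1, h2', h3⟩ := Helper72.c3e_r2 Helper72.c3e_jmat h2 n₁ ι hι.symm x hx hz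
        exact ⟨J', 1, one_ne_zero, h1, h2', by rw [one_smul]; exact h3⟩
      · obtain ⟨J', h1, h2', h3⟩ := Helper39.c3e_r3 Helper72.c3e_jmat h2 hm x hx hz
        exact ⟨J', 1, one_ne_zero, by rw [hn₁' hm]; exact h1, h2', by rw [one_smul]; exact h3⟩
  obtain ⟨J', ε, hε, hJ'2, hJ'sa, hcomm⟩ := hJ'
  have hn0 : n₁ ≠ 0 := fun h => hn₁ (by rw [h]; exact IsSquare.zero)
  obtain ⟨u, w, h1, h0⟩ := Helper83.c3e_jbasis n₁ hn₁ J hJ2 hJsa
  obtain ⟨u', w', h1', h0'⟩ := Helper83.c3e_jbasis n₁ hn₁ J' hJ'2 hJ'sa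
  obtain ⟨g, hg, hgJ⟩ := Helper72.c3e_jiso h2 n₁ hn0 J J' hJ2 hJ'2 hJsa hJ'sa u w u' w' h1 h0 h1' h0'
  refine ⟨g, hg, Helper83.c3e_norm K J hJK' (g⁻¹ * x * g) ε hε ?_⟩
  have hgi1 : ((g⁻¹ : GL (Fin 2 ⊕ Fin 2) F) : Matrix (Fin 2 ⊕ Fin 2) (Fin 2 ⊕ Fin 2) F) *
      (g : Matrix (Fin 2 ⊕ Fin 2) (Fin 2 ⊕ Fin 2) F) = 1 := by
    rw [← Units.val_mul, inv_mul_cancel, Units.val_one]
  have hgi2 : (g : Matrix (Fin 2 ⊕ Fin 2) (Fin 2 ⊕ Fin 2) F) *
      ((g⁻¹ : GL (Fin 2 ⊕ Fin 2) F) : Matrix (Fin 2 ⊕ Fin 2) (Fin 2 ⊕ Fin 2) F) = 1 := by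
    rw [← Units.val_mul, mul_inv_cancel, Units.val_one]
  obtain ⟨gi, hgi⟩ : ∃ gi : Matrix (Fin 2 ⊕ Fin 2) (Fin 2 ⊕ Fin 2) F,
      gi = ((g⁻¹ : GL (Fin 2 ⊕ Fin 2) F) : Matrix (Fin 2 ⊕ Fin 2) (Fin 2 ⊕ Fin 2) F) := ⟨_, rfl⟩
  rw [← hgi] at hgi1 hgi2
  have hgiJ : gi * J' = J * gi := by
    calc gi * J' = gi * J' * ((g : Matrix (Fin 2 ⊕ Fin 2) (Fin 2 ⊕ Fin 2) F) * gi) := by
          rw [hgi2, mul_one]
      _ = gi * (J' * (g : Matrix (Fin 2 ⊕ Fin 2) (Fin 2 ⊕ Fin 2) F)) * gi := by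
          simp only [mul_assoc]
      _ = gi * ((g : Matrix (Fin 2 ⊕ Fin 2) (Fin 2 ⊕ Fin 2) F) * J) * gi := by rw [hgJ]
      _ = (gi * (g : Matrix (Fin 2 ⊕ Fin 2) (Fin 2 ⊕ Fin 2) F)) * J * gi := by
          simp only [mul_assoc]
      _ = J * gi := by rw [hgi1, one_mul]
  rw [Units.val_mul, Units.val_mul, ← hgi]
  calc gi * (x : Matrix (Fin 2 ⊕ Fin 2) (Fin 2 ⊕ Fin 2) F) *
        (g : Matrix (Fin 2 ⊕ Fin 2) (Fin 2 ⊕ Fin 2) F) * J
      = gi * (x : Matrix (Fin 2 ⊕ Fin 2) (Fin 2 ⊕ Fin 2) F) *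
          ((g : Matrix (Fin 2 ⊕ Fin 2) (Fin 2 ⊕ Fin 2) F) * J) := by simp only [mul_assoc]
    _ = gi * (x : Matrix (Fin 2 ⊕ Fin 2) (Fin 2 ⊕ Fin 2) F) *
          (J' * (g : Matrix (Fin 2 ⊕ Fin 2) (Fin 2 ⊕ Fin 2) F)) := by rw [hgJ]
    _ = gi * ((x : Matrix (Fin 2 ⊕ Fin 2) (Fin 2 ⊕ Fin 2) F) * J') *
          (g : Matrix (Fin 2 ⊕ Fin 2) (Fin 2 ⊕ Fin 2) F) := by simp only [mul_assoc]
    _ = gi * (ε • (J' * (x : Matrix (Fin 2 ⊕ Fin 2) (Fin 2 ⊕ Fin 2) F))) *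
          (g : Matrix (Fin 2 ⊕ Fin 2) (Fin 2 ⊕ Fin 2) F) := by rw [hcomm]
    _ = ε • (gi * J' * (x : Matrix (Fin 2 ⊕ Fin 2) (Fin 2 ⊕ Fin 2) F) *
          (g : Matrix (Fin 2 ⊕ Fin 2) (Fin 2 ⊕ Fin 2) F)) := by
          simp only [Matrix.mul_smul, Matrix.smul_mul, mul_assoc]
    _ = ε • (J * gi * (x : Matrix (Fin 2 ⊕ Fin 2) (Fin 2 ⊕ Fin 2) F) *
          (g : Matrix (Fin 2 ⊕ Fin 2) (Fin 2 ⊕ Fin 2) F)) := by rw [hgiJ]
    _ = ε • (J * (gi * (x : Matrix (Fin 2 ⊕ Fin 2) (Fin 2 ⊕ Fin 2) F) *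
          (g : Matrix (Fin 2 ⊕ Fin 2) (Fin 2 ⊕ Fin 2) F))) := by simp only [mul_assoc]

theorem c3e_main {F : Type u} [Field F] [Fintype F] {p : ℕ} [Fact p.Prime] [CharP F p] {q : ℕ}
    (hq : Fintype.card F = q) (d : ℕ) (hd : 2 ≤ d) (k : ℕ) (hk : k.Prime)
    (K : Subalgebra F (Matrix (Fin d ⊕ Fin d) (Fin d ⊕ Fin d) F))
    (hK : Cfsg.Geo.IsFieldSubalgebra k K)
    (hKf : Cfsg.Geo.IsSelfAdjointFor (Cfsg.sympForm d F) K)
    (hKalt : ∀ a ∈ K, ∀ v : Fin d ⊕ Fin d → F, Cfsg.sympForm d F (a *ᵥ v) v = 0)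
    (r : ℕ) [Fact r.Prime]
    (hΩ : r ∣ (Cfsg.Geo.subalgebraNormalizer K).relIndex (Cfsg.spGL d F)) :
    (∀ x ∈ Cfsg.spGL d F,
      (∃ z : F, ((x ^ r : GL (Fin d ⊕ Fin d) F) : Matrix (Fin d ⊕ Fin d) (Fin d ⊕ Fin d) F) =
        z • (1 : Matrix (Fin d ⊕ Fin d) (Fin d ⊕ Fin d) F)) →
      (∀ z : F, (x : Matrix (Fin d ⊕ Fin d) (Fin d ⊕ Fin d) F) ≠
        z • (1 : Matrix (Fin d ⊕ Fin d) (Fin d ⊕ Fin d) F)) →
      ∃ g ∈ Cfsg.spGL d F, g⁻¹ * x * g ∈ Cfsg.Geo.subalgebraNormalizer K) ↔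
    (r = 2 ∧ d = 2 ∧ k = 2 ∧ Odd q) := by
  classical
  subst hq
  constructor
  · intro hall
    haveI hnt : Nontrivial K :=
      Module.nontrivial_of_finrank_pos (R := F) (by rw [hK.finrank_eq]; exact hk.pos)
    have hfield : IsField K :=
      ⟨exists_pair_ne K, fun x y => Subtype.ext (hK.comm x.1 x.2 y.1 y.2), fun {a} ha => by
        obtain ⟨y, hy, hxy⟩ := hK.inv a.1 a.2 (fun h => ha (Subtype.ext h))
        exact ⟨⟨y, hy⟩, Subtype.ext hxy⟩⟩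
    let iF : Field K := hfield.toField
    let iA : Algebra F K := Subalgebra.algebra K
    let iM : Module K (Fin d ⊕ Fin d → F) := Module.compHom (Fin d ⊕ Fin d → F)
      ((Matrix.toLinAlgEquiv' : Matrix (Fin d ⊕ Fin d) (Fin d ⊕ Fin d) F ≃ₐ[F]
        Module.End F (Fin d ⊕ Fin d → F)).toAlgHom.toRingHom.comp K.val.toRingHom)
    have hsmul : ∀ (c : K) (v : Fin d ⊕ Fin d → F), @HSMul.hSMul K (Fin d ⊕ Fin d → F)
        (Fin d ⊕ Fin d → F) (@instHSMul K (Fin d ⊕ Fin d → F) iM.toSMul) c v = c.1 *ᵥ v :=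
      fun c v => rfl
    have iT : @IsScalarTower F K (Fin d ⊕ Fin d → F) iA.toSMul iM.toSMul _ := by
      refine @IsScalarTower.mk F K (Fin d ⊕ Fin d → F) iA.toSMul iM.toSMul _ ?_
      intro c k v
      rw [hsmul, hsmul]
      exact Matrix.smul_mulVec c k.1 v
    have iFin : Finite K := inferInstance
    have hkK : (Module.finrank F K).Prime := by rw [hK.finrank_eq]; exact hk
    have h := @c3e_fwd F _ _ p _ _ d hd K iF iA iM iT iFin K (fun c => c.1) hsmul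
      (fun x => ⟨fun hx => ⟨⟨x, hx⟩, rfl⟩, fun ⟨c, hc⟩ => hc ▸ c.2⟩)
      (fun c u v => hKf c.1 c.2 u v) (fun c v => hKalt c.1 c.2 v) hkK r _ hΩ hall
    exact ⟨h.1, h.2.1, hK.finrank_eq.symm.trans h.2.2.1, h.2.2.2⟩
  · rintro ⟨rfl, rfl, rfl, hodd⟩
    intro x hx hx2 hns
    exact c3e_bwd hodd K hK hKf x hx hx2 hns

end Cfsg.Agent.Helper35
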