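import Mathlib
import Cfsg.Prelude.Def_GeometricClasses
import Cfsg.Prelude.Def_ClassicalGeometry
import Cfsg.Prelude.Def_LieClassical
import Cfsg.Agent.Helper94.SpGen

/-!
# CALL S5976 piece EMB (helper35)
-/

set_option autoImplicit false

namespace Cfsg.Agent.Helper35

open Matrix Module

/-- PIECE EMB (`Ψ` as produced by PSI with `m = d`) -/
theorem c3u_emb {F : Type*} [Field F] [Fintype F] (d : ℕ)
    (J : Matrix (Fin d ⊕ Fin d) (Fin d ⊕ Fin d) F)
    (K' : Type*) [Field K'] [Fintype K'] [Algebra F K']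
    (hK' : Fintype.card K' = Fintype.card F ^ 2) (θ : K')
    (hth2 : ∀ a b : F, algebraMap F K' a + algebraMap F K' b * θ = 0 → a = 0 ∧ b = 0)
    (Ψ : (Fin d → K') →ₗ[F] (Fin d ⊕ Fin d → F)) (hΨ : Function.Injective Ψ)
    (hΨJ : ∀ w, Ψ (θ • w) = J *ᵥ Ψ w)
    (hΨH : ∀ w w', Cfsg.hermForm d K' (Fintype.card F) w w' =
        algebraMap F K' (Cfsg.sympForm d F (Ψ w) (J *ᵥ Ψ w')) -
          θ * algebraMap F K' (Cfsg.sympForm d F (Ψ w) (Ψ w'))) :
    ∃ ρ : ↥(Cfsg.GU d K' (Fintype.card F)) →* GL (Fin d ⊕ Fin d) F, Function.Injective ρ ∧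
      (∀ A, ρ A ∈ Cfsg.spGL d F) ∧
      ∀ A, ((ρ A : GL (Fin d ⊕ Fin d) F) : Matrix (Fin d ⊕ Fin d) (Fin d ⊕ Fin d) F) * J =
        J * ((ρ A : GL (Fin d ⊕ Fin d) F) : Matrix (Fin d ⊕ Fin d) (Fin d ⊕ Fin d) F) := by
  classical
  have hfK : Module.finrank F K' = 2 := by
    have h1 := Module.card_eq_pow_finrank (K := F) (V := K')
    rw [hK'] at h1
    exact (Nat.pow_right_injective (Fintype.one_lt_card (α := F)) h1).symm
  have hfd : Module.finrank F (Fin d → K') = 2 * d := by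
    rw [Module.finrank_pi_fintype, Finset.sum_const, Finset.card_univ, Fintype.card_fin, hfK,
      smul_eq_mul, mul_comm]
  have hfin : Module.finrank F (Fin d ⊕ Fin d → F) = 2 * d := by
    rw [Module.finrank_fintype_fun_eq_card, Fintype.card_sum, Fintype.card_fin]
    ring
  have hsurj : Function.Surjective Ψ :=
    (LinearMap.injective_iff_surjective_of_finrank_eq_finrank (by rw [hfd, hfin])).mp hΨ
  obtain ⟨Ψe, hΨe⟩ : ∃ Ψe : (Fin d → K') ≃ₗ[F] (Fin d ⊕ Fin d → F), ∀ w, Ψe w = Ψ w :=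
    ⟨LinearEquiv.ofBijective Ψ ⟨hΨ, hsurj⟩, fun w => rfl⟩
  obtain ⟨M, hM⟩ : ∃ M : Matrix (Fin d) (Fin d) K' → Matrix (Fin d ⊕ Fin d) (Fin d ⊕ Fin d) F,
      ∀ A w, M A *ᵥ Ψ w = Ψ (A *ᵥ w) := by
    refine ⟨fun A => LinearMap.toMatrix'
      (Ψ ∘ₗ ((Matrix.toLin' A).restrictScalars F) ∘ₗ Ψe.symm.toLinearMap), fun A w => ?_⟩
    rw [LinearMap.toMatrix'_mulVec, LinearMap.comp_apply, LinearMap.comp_apply,
      LinearEquiv.coe_coe, ← hΨe w, LinearEquiv.symm_apply_apply, LinearMap.restrictScalars_apply,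
      Matrix.toLin'_apply]
  have hext : ∀ X Y : Matrix (Fin d ⊕ Fin d) (Fin d ⊕ Fin d) F,
      (∀ w, X *ᵥ Ψ w = Y *ᵥ Ψ w) → X = Y := by
    intro X Y h
    apply Matrix.toLin'.injective
    apply LinearMap.ext
    intro v
    obtain ⟨w, rfl⟩ := hsurj v
    rw [Matrix.toLin'_apply, Matrix.toLin'_apply]
    exact h w
  have hM1 : M 1 = 1 := by
    apply hext
    intro w
    rw [hM, Matrix.one_mulVec, Matrix.one_mulVec]
  have hMmul : ∀ A B, M (A * B) = M A * M B := by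
    intro A B
    apply hext
    intro w
    rw [hM, ← Matrix.mulVec_mulVec, ← Matrix.mulVec_mulVec, hM, hM]
  obtain ⟨Mh, hMh⟩ : ∃ Mh : Matrix (Fin d) (Fin d) K' →*
      Matrix (Fin d ⊕ Fin d) (Fin d ⊕ Fin d) F, ∀ A, Mh A = M A :=
    ⟨{ toFun := M, map_one' := hM1, map_mul' := hMmul }, fun A => rfl⟩
  have hcoe : ∀ A : ↥(Cfsg.GU d K' (Fintype.card F)),
      ((((Units.map Mh).comp (Cfsg.GU d K' (Fintype.card F)).subtype) A :
        GL (Fin d ⊕ Fin d) F) : Matrix (Fin d ⊕ Fin d) (Fin d ⊕ Fin d) F) =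
        M ((A : GL (Fin d) K') : Matrix (Fin d) (Fin d) K') := by
    intro A
    rw [MonoidHom.comp_apply, Units.coe_map, Subgroup.coe_subtype]
    exact hMh _
  refine ⟨(Units.map Mh).comp (Cfsg.GU d K' (Fintype.card F)).subtype, ?_, ?_, ?_⟩
  · intro A B hAB
    have h1 := congrArg (fun G : GL (Fin d ⊕ Fin d) F =>
      (G : Matrix (Fin d ⊕ Fin d) (Fin d ⊕ Fin d) F)) hAB
    simp only [hcoe] at h1
    apply Subtype.ext
    apply Units.ext
    apply Matrix.toLin'.injective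
    apply LinearMap.ext
    intro w
    rw [Matrix.toLin'_apply, Matrix.toLin'_apply]
    apply hΨ
    rw [← hM, ← hM, h1]
  · intro A
    rw [Cfsg.Agent.Helper94.mem_spGL_iff]
    intro u v
    obtain ⟨w, rfl⟩ := hsurj u
    obtain ⟨w', rfl⟩ := hsurj v
    rw [hcoe, hM, hM]
    have hA : Cfsg.hermForm d K' (Fintype.card F)
        (((A : GL (Fin d) K') : Matrix (Fin d) (Fin d) K') *ᵥ w)
        (((A : GL (Fin d) K') : Matrix (Fin d) (Fin d) K') *ᵥ w') =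
        Cfsg.hermForm d K' (Fintype.card F) w w' := A.2 w w'
    rw [hΨH, hΨH] at hA
    have h0 := (hth2 (Cfsg.sympForm d F (Ψ (((A : GL (Fin d) K') :
        Matrix (Fin d) (Fin d) K') *ᵥ w)) (J *ᵥ Ψ (((A : GL (Fin d) K') :
        Matrix (Fin d) (Fin d) K') *ᵥ w')) - Cfsg.sympForm d F (Ψ w) (J *ᵥ Ψ w'))
      (Cfsg.sympForm d F (Ψ w) (Ψ w') - Cfsg.sympForm d F (Ψ (((A : GL (Fin d) K') :
        Matrix (Fin d) (Fin d) K') *ᵥ w)) (Ψ (((A : GL (Fin d) K') :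
        Matrix (Fin d) (Fin d) K') *ᵥ w'))) (by
          rw [map_sub, map_sub]
          linear_combination hA)).2
    exact (sub_eq_zero.mp h0).symm
  · intro A
    rw [hcoe]
    apply hext
    intro w
    rw [← Matrix.mulVec_mulVec, ← Matrix.mulVec_mulVec, ← hΨJ, hM, hM, Matrix.mulVec_smul, hΨJ]

end Cfsg.Agent.Helper35
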