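import Mathlib
import Cfsg.Prelude.Def_GeometricClasses
import Cfsg.Prelude.Def_ClassicalGeometry
import Cfsg.Prelude.Def_LieClassical
import Cfsg.Agent.Helper94.SpGen

/-!
# CALL S5976 piece LAG (helper35)
-/

set_option autoImplicit false

namespace Cfsg.Agent.Helper35

open Matrix Module

/-- PIECE LAG (`Ψ` as produced by PSI for an orthonormal family inside `W`) -/
theorem c3u_lag {F : Type*} [Field F] [Fintype F] (d : ℕ)
    (J : Matrix (Fin d ⊕ Fin d) (Fin d ⊕ Fin d) F)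
    (W : Submodule F (Fin d ⊕ Fin d → F)) (m : ℕ) (hm : Module.finrank F W = 2 * m)
    (T : GL (Fin d ⊕ Fin d) F) (hT : T ∈ Cfsg.spGL d F)
    (hTJ : (T : Matrix (Fin d ⊕ Fin d) (Fin d ⊕ Fin d) F) * J =
      J * (T : Matrix (Fin d ⊕ Fin d) (Fin d ⊕ Fin d) F))
    (hTW : ∀ w ∈ W, (T : Matrix (Fin d ⊕ Fin d) (Fin d ⊕ Fin d) F) *ᵥ w ∈ W)
    (hne : ∃ w ∈ W, (T : Matrix (Fin d ⊕ Fin d) (Fin d ⊕ Fin d) F) *ᵥ w ≠ w)
    (r : ℕ) (hr : r.Prime)
    (hTr : ((T ^ r : GL (Fin d ⊕ Fin d) F) : Matrix (Fin d ⊕ Fin d) (Fin d ⊕ Fin d) F) = 1)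
    (K' : Type*) [Field K'] [Fintype K'] [Algebra F K']
    (hK' : Fintype.card K' = Fintype.card F ^ 2) (θ : K')
    (hth1 : ∀ c : K', ∃ a b : F, c = algebraMap F K' a + algebraMap F K' b * θ)
    (Ψ : (Fin m → K') →ₗ[F] (Fin d ⊕ Fin d → F)) (hΨ : Function.Injective Ψ)
    (hΨW : ∀ w, Ψ w ∈ W)
    (hΨJ : ∀ w, Ψ (θ • w) = J *ᵥ Ψ w)
    (hΨH : ∀ w w', Cfsg.hermForm m K' (Fintype.card F) w w' =
        algebraMap F K' (Cfsg.sympForm d F (Ψ w) (J *ᵥ Ψ w')) -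
          θ * algebraMap F K' (Cfsg.sympForm d F (Ψ w) (Ψ w'))) :
    r ∣ Nat.card ↥(Cfsg.GU m K' (Fintype.card F)) := by
  classical
  -- `finrank F K' = 2`
  have hfK : Module.finrank F K' = 2 := by
    have h1 := Module.card_eq_pow_finrank (K := F) (V := K')
    rw [hK'] at h1
    exact (Nat.pow_right_injective (Fintype.one_lt_card (α := F)) h1).symm
  have hfd : Module.finrank F (Fin m → K') = 2 * m := by
    rw [Module.finrank_pi_fintype, Finset.sum_const, Finset.card_univ, Fintype.card_fin, hfK,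
      smul_eq_mul, mul_comm]
  -- range Ψ = W
  have hrange : LinearMap.range Ψ = W := by
    apply Submodule.eq_of_le_of_finrank_eq
    · rintro _ ⟨w, rfl⟩
      exact hΨW w
    · rw [LinearMap.finrank_range_of_inj hΨ, hfd, hm]
  have hsurj : ∀ v ∈ W, ∃ w, Ψ w = v := by
    intro v hv
    rw [← hrange] at hv
    exact hv
  -- the transported map
  have hex : ∀ w, ∃ w', Ψ w' = (T : Matrix (Fin d ⊕ Fin d) (Fin d ⊕ Fin d) F) *ᵥ Ψ w :=
    fun w => hsurj _ (hTW _ (hΨW w))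
  choose A₀ hA₀ using hex
  have hΨc : ∀ (a b : F) (w : Fin m → K'),
      Ψ ((algebraMap F K' a + algebraMap F K' b * θ) • w) = a • Ψ w + b • (J *ᵥ Ψ w) := by
    intro a b w
    have e1 : (algebraMap F K' a + algebraMap F K' b * θ) • w = a • w + b • (θ • w) := by
      rw [add_smul, mul_smul, algebraMap_smul, algebraMap_smul]
    rw [e1, map_add, map_smul, map_smul, hΨJ]
  have hJT : ∀ v, J *ᵥ ((T : Matrix (Fin d ⊕ Fin d) (Fin d ⊕ Fin d) F) *ᵥ v) =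
      (T : Matrix (Fin d ⊕ Fin d) (Fin d ⊕ Fin d) F) *ᵥ (J *ᵥ v) := by
    intro v
    rw [Matrix.mulVec_mulVec, Matrix.mulVec_mulVec, hTJ]
  obtain ⟨AL, hAL⟩ : ∃ AL : (Fin m → K') →ₗ[K'] (Fin m → K'), ∀ w, AL w = A₀ w := by
    refine ⟨{ toFun := A₀, map_add' := ?_, map_smul' := ?_ }, fun w => rfl⟩
    · intro w₁ w₂
      apply hΨ
      rw [hA₀, map_add, map_add, Matrix.mulVec_add, hA₀, hA₀]
    · intro c w
      obtain ⟨a, b, rfl⟩ := hth1 c
      apply hΨ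
      rw [RingHom.id_apply, hA₀, hΨc, hΨc, hA₀, Matrix.mulVec_add, Matrix.mulVec_smul,
        Matrix.mulVec_smul, hJT]
  obtain ⟨A, hAdef⟩ : ∃ A : Matrix (Fin m) (Fin m) K', A = LinearMap.toMatrix' AL := ⟨_, rfl⟩
  have hA : ∀ w, Ψ (A *ᵥ w) = (T : Matrix (Fin d ⊕ Fin d) (Fin d ⊕ Fin d) F) *ᵥ Ψ w := by
    intro w
    rw [hAdef, LinearMap.toMatrix'_mulVec, hAL, hA₀]
  have hpow : ∀ (k : ℕ) (w : Fin m → K'), Ψ ((A ^ k) *ᵥ w) =
      ((T ^ k : GL (Fin d ⊕ Fin d) F) : Matrix (Fin d ⊕ Fin d) (Fin d ⊕ Fin d) F) *ᵥ Ψ w := by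
    intro k
    induction k with
    | zero =>
      intro w
      rw [pow_zero, pow_zero, Matrix.one_mulVec, Units.val_one, Matrix.one_mulVec]
    | succ k ih =>
      intro w
      rw [pow_succ, pow_succ, ← Matrix.mulVec_mulVec, ih, hA, Units.val_mul,
        Matrix.mulVec_mulVec]
  have hAr : A ^ r = 1 := by
    apply Matrix.toLin'.injective
    apply LinearMap.ext
    intro w
    rw [Matrix.toLin'_apply, Matrix.toLin'_one, LinearMap.id_apply]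
    apply hΨ
    rw [hpow, hTr, Matrix.one_mulVec]
  obtain ⟨s, hs⟩ : ∃ s, r = s + 1 := ⟨r - 1, by have := hr.pos; omega⟩
  obtain ⟨G, hG⟩ : ∃ G : GL (Fin m) K', (G : Matrix (Fin m) (Fin m) K') = A :=
    ⟨⟨A, A ^ s, by rw [← pow_succ', ← hs, hAr], by rw [← pow_succ, ← hs, hAr]⟩, rfl⟩
  have hGmem : G ∈ Cfsg.GU m K' (Fintype.card F) := by
    intro u v
    change Cfsg.hermForm m K' (Fintype.card F) ((G : Matrix (Fin m) (Fin m) K') *ᵥ u)
      ((G : Matrix (Fin m) (Fin m) K') *ᵥ v) = Cfsg.hermForm m K' (Fintype.card F) u v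
    rw [hG, hΨH, hΨH, hA, hA, hJT, (Cfsg.Agent.Helper94.mem_spGL_iff T).mp hT,
      (Cfsg.Agent.Helper94.mem_spGL_iff T).mp hT]
  have hGr : (⟨G, hGmem⟩ : ↥(Cfsg.GU m K' (Fintype.card F))) ^ r = 1 := by
    apply Subtype.ext
    apply Units.ext
    rw [Subgroup.coe_pow, Units.val_pow_eq_pow_val, hG, hAr]
    rfl
  have hG1 : (⟨G, hGmem⟩ : ↥(Cfsg.GU m K' (Fintype.card F))) ≠ 1 := by
    intro h
    have h1 : G = 1 := congrArg Subtype.val h
    have hA1 : A = 1 := by rw [← hG, h1]; rfl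
    obtain ⟨w₀, hw₀, hw₀'⟩ := hne
    obtain ⟨w, rfl⟩ := hsurj w₀ hw₀
    apply hw₀'
    rw [← hA, hA1, Matrix.one_mulVec]
  have hord := orderOf_eq_prime hGr hG1 (hp := ⟨hr⟩)
  rw [← hord]
  exact orderOf_dvd_natCard _

end Cfsg.Agent.Helper35
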