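import Mathlib
import Cfsg.Prelude.Def_GeometricClasses
import Cfsg.Prelude.Def_ClassicalGeometry
import Cfsg.Prelude.Def_LieClassical
import Cfsg.Agent.Helper94.SpSwap

/-!
# CALL S5976 piece PSI (helper35, double)
-/

set_option autoImplicit false

namespace Cfsg.Agent.Helper35

open Matrix Module Cfsg Cfsg.Agent.Helper94

/-- PIECE PSI (the three TH facts are hypotheses) -/
theorem c3u_psi {F : Type*} [Field F] [Fintype F] (d : ℕ) (n : F)
    (J : Matrix (Fin d ⊕ Fin d) (Fin d ⊕ Fin d) F)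
    (hJ2 : J * J = n • (1 : Matrix (Fin d ⊕ Fin d) (Fin d ⊕ Fin d) F))
    (hJs : ∀ u v, Cfsg.sympForm d F (J *ᵥ u) v = - Cfsg.sympForm d F u (J *ᵥ v))
    (m : ℕ) (e : Fin m → (Fin d ⊕ Fin d → F))
    (he1 : ∀ i j, Cfsg.sympForm d F (e i) (J *ᵥ e j) = if i = j then 1 else 0)
    (he0 : ∀ i j, Cfsg.sympForm d F (e i) (e j) = 0)
    (K' : Type*) [Field K'] [Algebra F K'] (θ : K') (hθ : θ * θ = algebraMap F K' n)
    (hth1 : ∀ c : K', ∃ a b : F, c = algebraMap F K' a + algebraMap F K' b * θ)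
    (hth2 : ∀ a b : F, algebraMap F K' a + algebraMap F K' b * θ = 0 → a = 0 ∧ b = 0)
    (hth3 : θ ^ Fintype.card F = -θ) :
    ∃ Ψ : (Fin m → K') →ₗ[F] (Fin d ⊕ Fin d → F), Function.Injective Ψ ∧
      (∀ w, Ψ (θ • w) = J *ᵥ Ψ w) ∧
      (∀ w, Ψ w ∈ Submodule.span F (Set.range e ∪ Set.range (fun i => J *ᵥ e i))) ∧
      (∀ w w', Cfsg.hermForm m K' (Fintype.card F) w w' =
        algebraMap F K' (Cfsg.sympForm d F (Ψ w) (J *ᵥ Ψ w')) -
          θ * algebraMap F K' (Cfsg.sympForm d F (Ψ w) (Ψ w'))) := by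
  classical
  -- uniqueness of coordinates
  have huniq : ∀ a₁ b₁ a₂ b₂ : F, algebraMap F K' a₁ + algebraMap F K' b₁ * θ =
      algebraMap F K' a₂ + algebraMap F K' b₂ * θ → a₁ = a₂ ∧ b₁ = b₂ := by
    intro a₁ b₁ a₂ b₂ h
    have h0 := hth2 (a₁ - a₂) (b₁ - b₂) (by
      rw [map_sub, map_sub]
      linear_combination h)
    exact ⟨sub_eq_zero.mp h0.1, sub_eq_zero.mp h0.2⟩
  choose a b hab using hth1
  have hadd : ∀ c c' : K', a (c + c') = a c + a c' ∧ b (c + c') = b c + b c' := by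
    intro c c'
    apply huniq
    rw [← hab (c + c'), map_add, map_add]
    nth_rewrite 1 [hab c, hab c']
    ring
  have hsmul : ∀ (s : F) (c : K'), a (s • c) = s * a c ∧ b (s • c) = s * b c := by
    intro s c
    apply huniq
    rw [← hab (s • c), map_mul, map_mul, Algebra.smul_def]
    nth_rewrite 1 [hab c]
    ring
  have hθmul : ∀ c : K', a (θ * c) = n * b c ∧ b (θ * c) = a c := by
    intro c
    apply huniq
    rw [← hab (θ * c), map_mul]
    nth_rewrite 1 [hab c]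
    linear_combination (algebraMap F K' (b c)) * hθ
  obtain ⟨α, hα⟩ : ∃ α : K' →ₗ[F] F, ∀ c, α c = a c :=
    ⟨{ toFun := a, map_add' := fun c c' => (hadd c c').1,
       map_smul' := fun s c => (hsmul s c).1 }, fun c => rfl⟩
  obtain ⟨β, hβ⟩ : ∃ β : K' →ₗ[F] F, ∀ c, β c = b c :=
    ⟨{ toFun := b, map_add' := fun c c' => (hadd c c').2,
       map_smul' := fun s c => (hsmul s c).2 }, fun c => rfl⟩
  have hc : ∀ c : K', c = algebraMap F K' (α c) + algebraMap F K' (β c) * θ := by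
    intro c
    rw [hα, hβ]
    exact hab c
  have hαθ : ∀ c : K', α (θ * c) = n * β c := fun c => by rw [hα, hβ]; exact (hθmul c).1
  have hβθ : ∀ c : K', β (θ * c) = α c := fun c => by rw [hα, hβ]; exact (hθmul c).2
  have hconj : ∀ c : K', c ^ Fintype.card F =
      algebraMap F K' (α c) - algebraMap F K' (β c) * θ := by
    intro c
    have h1 : (FiniteField.frobeniusAlgHom F K') c = c ^ Fintype.card F := rfl
    have h3 : (FiniteField.frobeniusAlgHom F K') θ = θ ^ Fintype.card F := rfl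
    rw [← h1]
    nth_rewrite 1 [hc c]
    rw [map_add, map_mul, AlgHom.commutes, AlgHom.commutes, h3, hth3]
    ring
  have hJJ : ∀ v, J *ᵥ (J *ᵥ v) = n • v := by
    intro v
    rw [Matrix.mulVec_mulVec, hJ2, Matrix.smul_mulVec, Matrix.one_mulVec]
  have hJeJe : ∀ i j, sympForm d F (J *ᵥ e i) (J *ᵥ e j) = 0 := by
    intro i j
    rw [hJs, hJJ, sf_smul_right, he0, mul_zero, neg_zero]
  have hJee : ∀ i j, sympForm d F (J *ᵥ e i) (e j) = if i = j then -1 else 0 := by
    intro i j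
    rw [sf_swap, he1 j i]
    by_cases hij : i = j
    · simp [hij]
    · simp [hij, Ne.symm hij]
  obtain ⟨Ψ, hΨ⟩ : ∃ Ψ : (Fin m → K') →ₗ[F] (Fin d ⊕ Fin d → F),
      ∀ w, Ψ w = ∑ i, (α (w i) • e i + β (w i) • (J *ᵥ e i)) := by
    refine ⟨∑ i, ((α ∘ₗ LinearMap.proj i).smulRight (e i) +
      (β ∘ₗ LinearMap.proj i).smulRight (J *ᵥ e i)), fun w => ?_⟩
    simp [LinearMap.sum_apply]
  have hP1 : ∀ w j, sympForm d F (Ψ w) (e j) = - β (w j) := by
    intro w j
    rw [hΨ, sf_sum_left]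
    simp [sf_add_left, sf_smul_left, he0, hJee]
  have hP2 : ∀ w j, sympForm d F (Ψ w) (J *ᵥ e j) = α (w j) := by
    intro w j
    rw [hΨ, sf_sum_left]
    simp [sf_add_left, sf_smul_left, he1, hJeJe]
  have hG : ∀ w w', sympForm d F (Ψ w) (Ψ w') =
      ∑ i, (α (w i) * β (w' i) - β (w i) * α (w' i)) := by
    intro w w'
    rw [hΨ w', sf_sum_right]
    apply Finset.sum_congr rfl
    intro i _
    rw [sf_add_right, sf_smul_right, sf_smul_right, hP1, hP2]
    ring
  have hΨJ : ∀ w, Ψ (θ • w) = J *ᵥ Ψ w := by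
    intro w
    rw [hΨ, hΨ, Matrix.mulVec_sum]
    apply Finset.sum_congr rfl
    intro i _
    rw [Pi.smul_apply, smul_eq_mul, hαθ, hβθ, Matrix.mulVec_add, Matrix.mulVec_smul,
      Matrix.mulVec_smul, hJJ, mul_smul, smul_comm (β (w i)) n, add_comm]
  refine ⟨Ψ, ?_, hΨJ, ?_, ?_⟩
  · rw [injective_iff_map_eq_zero]
    intro w hw
    funext j
    have h1 := hP1 w j
    have h2 := hP2 w j
    rw [hw, sf_zero_left] at h1 h2
    rw [hc (w j), ← h2, neg_eq_zero.mp h1.symm, map_zero, zero_mul, add_zero]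
    rfl
  · intro w
    rw [hΨ]
    apply Submodule.sum_mem
    intro i _
    apply Submodule.add_mem
    · exact Submodule.smul_mem _ _ (Submodule.subset_span (Or.inl ⟨i, rfl⟩))
    · exact Submodule.smul_mem _ _ (Submodule.subset_span (Or.inr ⟨i, rfl⟩))
  · intro w w'
    rw [← hΨJ w', hG, hG, map_sum, map_sum, Finset.mul_sum, ← Finset.sum_sub_distrib]
    unfold Cfsg.hermForm
    apply Finset.sum_congr rfl
    intro i _
    rw [hconj (w' i), Pi.smul_apply, smul_eq_mul, hαθ, hβθ, map_sub, map_sub, map_mul, map_mul,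
      map_mul, map_mul, map_mul]
    nth_rewrite 1 [hc (w i)]
    linear_combination (-(algebraMap F K' (β (w i)) * algebraMap F K' (β (w' i)))) * hθ

end Cfsg.Agent.Helper35
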