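import Mathlib
import Cfsg.Prelude.Def_GeometricClasses
import Cfsg.Prelude.Def_ClassicalGeometry
import Cfsg.Agent.Helper94.SpGen

/-!
# CALL S5976 piece R3 (helper35)
-/

set_option autoImplicit false

namespace Cfsg.Agent.Helper35

open Matrix Module

/-- PIECE R3: `x² = -1` makes `x` skew-adjoint -/
theorem c3u_r3 {F : Type*} [Field F] (d : ℕ) (x : GL (Fin d ⊕ Fin d) F)
    (hx : x ∈ Cfsg.spGL d F)
    (hx2 : ((x ^ 2 : GL (Fin d ⊕ Fin d) F) : Matrix (Fin d ⊕ Fin d) (Fin d ⊕ Fin d) F) =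
      (-1 : F) • 1) :
    ∀ u v, Cfsg.sympForm d F ((x : Matrix (Fin d ⊕ Fin d) (Fin d ⊕ Fin d) F) *ᵥ u) v =
      - Cfsg.sympForm d F u ((x : Matrix (Fin d ⊕ Fin d) (Fin d ⊕ Fin d) F) *ᵥ v) := by
  intro u v
  have hxx : (x : Matrix (Fin d ⊕ Fin d) (Fin d ⊕ Fin d) F) *ᵥ
      ((x : Matrix (Fin d ⊕ Fin d) (Fin d ⊕ Fin d) F) *ᵥ v) = -v := by
    rw [Matrix.mulVec_mulVec, ← Units.val_mul, ← pow_two, hx2, Matrix.smul_mulVec,
      Matrix.one_mulVec, neg_one_smul]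
  have h1 := (Cfsg.Agent.Helper94.mem_spGL_iff x).mp hx u
    ((x : Matrix (Fin d ⊕ Fin d) (Fin d ⊕ Fin d) F) *ᵥ v)
  rw [hxx] at h1
  rw [← h1, Cfsg.Agent.Helper94.sf_neg_right, neg_neg]

end Cfsg.Agent.Helper35
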