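import Cfsg.Agent.Helper35.C3EAsm
import Cfsg.Agent.Helper13.TIBad
import Cfsg.Agent.Helper5.UnitCard
import Cfsg.Agent.Helper33.C3USKEW
import Cfsg.Agent.Helper31.C3UONB1
import Cfsg.Agent.Helper33.C3UONB
import Cfsg.Agent.Helper31.C3UTH
import Cfsg.Agent.Helper35.C3UPSI
import Cfsg.Agent.Helper35.C3UEMB
import Cfsg.Agent.Helper35.C3ULAG
import Cfsg.Agent.Helper94.C3UISO
import Cfsg.Agent.Helper31.C3UR1
import Cfsg.Agent.Helper6.C3UR2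
import Cfsg.Agent.Helper35.C3UR3
import Cfsg.Agent.Helper6.C3UARITH
import Cfsg.Agent.Helper6.C3UAR3
import Cfsg.Agent.Helper78.C3UAR4

/-!
# S5976 assembly (helper35)
-/

set_option autoImplicit false

namespace Cfsg.Agent.Helper35

open Matrix Module

universe u

theorem c3u_onb' {F : Type*} [Field F] [Fintype F] (h2 : (2 : F) ≠ 0) (d : ℕ) (n : F)
    (hn : ¬ IsSquare n) (J : Matrix (Fin d ⊕ Fin d) (Fin d ⊕ Fin d) F)
    (hJ2 : J * J = n • (1 : Matrix (Fin d ⊕ Fin d) (Fin d ⊕ Fin d) F))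
    (hJs : ∀ u v, Cfsg.sympForm d F (J *ᵥ u) v = - Cfsg.sympForm d F u (J *ᵥ v))
    (W : Submodule F (Fin d ⊕ Fin d → F)) (hJW : ∀ w ∈ W, J *ᵥ w ∈ W)
    (hWnd : ∀ w ∈ W, (∀ w' ∈ W, Cfsg.sympForm d F w w' = 0) → w = 0) (m : ℕ)
    (hm : Module.finrank F W = 2 * m) :
    ∃ e : Fin m → (Fin d ⊕ Fin d → F), (∀ i, e i ∈ W) ∧
      (∀ i j, Cfsg.sympForm d F (e i) (J *ᵥ e j) = if i = j then 1 else 0) ∧
      (∀ i j, Cfsg.sympForm d F (e i) (e j) = 0) :=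
  Helper33.c3u_onb d n J hJ2 hJs (fun W' a b c => Helper31.c3u_onb1 h2 d n hn J hJ2 hJs W' a b c) W hJW hWnd m hm

theorem c3u_glue {F : Type u} [Field F] [Fintype F] {d : ℕ} (K' : Type u) [Field K']
    [Algebra F K'] [Module K' (Fin d ⊕ Fin d → F)] [IsScalarTower F K' (Fin d ⊕ Fin d → F)]
    [Finite K'] (K : Subalgebra F (Matrix (Fin d ⊕ Fin d) (Fin d ⊕ Fin d) F))
    (j : K' → Matrix (Fin d ⊕ Fin d) (Fin d ⊕ Fin d) F)
    (hj : ∀ (c : K') (v : Fin d ⊕ Fin d → F), c • v = j c *ᵥ v)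
    (hK : ∀ x, x ∈ K ↔ ∃ c, j c = x) (hk : Module.finrank F K' = 2)
    (θ : K') (J : Matrix (Fin d ⊕ Fin d) (Fin d ⊕ Fin d) F) (hθJ : j θ = J)
    (x g : GL (Fin d ⊕ Fin d) F) (hx : x ∈ Cfsg.spGL d F) (hg : g ∈ Cfsg.spGL d F)
    (hN : g⁻¹ * x * g ∈ Cfsg.Geo.subalgebraNormalizer K) (r : ℕ) (hr : r.Prime) (hr2 : r ≠ 2)
    (hxr : ((x ^ r : GL (Fin d ⊕ Fin d) F) : Matrix (Fin d ⊕ Fin d) (Fin d ⊕ Fin d) F) = 1) :
    ∃ T : GL (Fin d ⊕ Fin d) F, T ∈ Cfsg.spGL d F ∧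
      ((T ^ r : GL (Fin d ⊕ Fin d) F) : Matrix (Fin d ⊕ Fin d) (Fin d ⊕ Fin d) F) = 1 ∧
      (T : Matrix (Fin d ⊕ Fin d) (Fin d ⊕ Fin d) F) * J =
        J * (T : Matrix (Fin d ⊕ Fin d) (Fin d ⊕ Fin d) F) ∧
      Module.finrank F (LinearMap.ker
        (Matrix.toLin' (T : Matrix (Fin d ⊕ Fin d) (Fin d ⊕ Fin d) F) - 1)) =
        Module.finrank F (LinearMap.ker
          (Matrix.toLin' (x : Matrix (Fin d ⊕ Fin d) (Fin d ⊕ Fin d) F) - 1)) ∧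
      (∀ (c : K') (w : Fin d ⊕ Fin d → F),
        w ∈ LinearMap.ker (Matrix.toLin' (T : Matrix (Fin d ⊕ Fin d) (Fin d ⊕ Fin d) F) - 1) →
        c • w ∈ LinearMap.ker
          (Matrix.toLin' (T : Matrix (Fin d ⊕ Fin d) (Fin d ⊕ Fin d) F) - 1)) := by
  classical
  obtain ⟨G, hGdef⟩ : ∃ G : GL (Fin d ⊕ Fin d) F, G = g⁻¹ * x * g := ⟨_, rfl⟩
  rw [← hGdef] at hN
  have hGsp : G ∈ Cfsg.spGL d F := by
    rw [hGdef]
    exact mul_mem (mul_mem (inv_mem hg) hx) hg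
  have hGr : G ^ r = 1 := by
    have hx1 : x ^ r = 1 := Units.ext (by rw [hxr]; rfl)
    have h' : g⁻¹ * x * g = g⁻¹ * x * g⁻¹⁻¹ := by rw [inv_inv]
    rw [hGdef, h', conj_pow, hx1, mul_one, inv_inv, inv_mul_cancel]
  have hc3 := (Cfsg.Agent.Helper81.C3S.mem_normalizer_iff K' K j hj hK G).mp hN
  have hTr : (Matrix.toLin' (G : Matrix (Fin d ⊕ Fin d) (Fin d ⊕ Fin d) F)) ^ r = 1 := by
    rw [← Matrix.toLin'_pow, ← Units.val_pow_eq_pow_val, hGr, Units.val_one, Matrix.toLin'_one]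
    rfl
  have hl := c3e_lin (K' := K') _ hc3 r hr (by rw [hk]; exact Nat.prime_two)
    (by rw [hk]; exact hr2) hTr
  refine ⟨G, hGsp, by rw [hGr]; rfl, ?_, by rw [hGdef, Helper91.c3e_conj], ?_⟩
  · apply Cfsg.Agent.Helper81.C3S.wlib_mat_ext
    intro v
    have h1 := hl θ v
    rw [hj θ v, hθJ, Matrix.toLin'_apply, Matrix.toLin'_apply, hj θ, hθJ] at h1
    rw [← Matrix.mulVec_mulVec, ← Matrix.mulVec_mulVec]
    exact h1
  · intro c w hw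
    rw [LinearMap.mem_ker, LinearMap.sub_apply, Module.End.one_apply, sub_eq_zero] at hw ⊢
    rw [hl, hw]

theorem c3u_index {F : Type*} [Field F] [Fintype F] (h2 : (2 : F) ≠ 0) {d : ℕ}
    (K : Subalgebra F (Matrix (Fin d ⊕ Fin d) (Fin d ⊕ Fin d) F)) (n : F) (hn : ¬ IsSquare n)
    (J : Matrix (Fin d ⊕ Fin d) (Fin d ⊕ Fin d) F)
    (hJ2 : J * J = n • (1 : Matrix (Fin d ⊕ Fin d) (Fin d ⊕ Fin d) F))
    (hJs : ∀ u v, Cfsg.sympForm d F (J *ᵥ u) v = - Cfsg.sympForm d F u (J *ᵥ v))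
    (hJsp : ∀ y, y ∈ K ↔ ∃ a b : F, y = a • (1 : Matrix (Fin d ⊕ Fin d) (Fin d ⊕ Fin d) F) + b • J)
    (K' : Type*) [Field K'] [Fintype K'] [Algebra F K']
    (hK' : Fintype.card K' = Fintype.card F ^ 2) (θ : K') (hθ : θ * θ = algebraMap F K' n)
    (r : ℕ) (hr : r.Prime) (hrq : ¬ r ∣ Fintype.card F)
    (hΩ : r ∣ (Cfsg.Geo.subalgebraNormalizer K).relIndex (Cfsg.spGL d F)) :
    ∃ j₁, 1 ≤ j₁ ∧ j₁ ≤ d ∧ ((Odd j₁ ∧ r ∣ Fintype.card F ^ j₁ - 1) ∨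
      (Even j₁ ∧ r ∣ Fintype.card F ^ j₁ + 1)) := by
  classical
  have hfin : Module.finrank F (Fin d ⊕ Fin d → F) = 2 * d := by
    rw [Module.finrank_fintype_fun_eq_card, Fintype.card_sum, Fintype.card_fin]
    ring
  obtain ⟨e, -, he1, he0⟩ := c3u_onb' h2 d n hn J hJ2 hJs ⊤ (fun w _ => Submodule.mem_top)
    (fun w _ h => Cfsg.Agent.Helper13.sympForm_sep w (fun v => h v Submodule.mem_top)) d
    (by rw [finrank_top, hfin])
  obtain ⟨hth1, hth2, hth3⟩ := Helper31.c3u_th n hn K' hK' θ hθ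
  obtain ⟨Ψ, hΨ, hΨJ, -, hΨH⟩ := Helper35.c3u_psi d n J hJ2 hJs d e he1 he0 K' θ hθ hth1 hth2 hth3
  obtain ⟨ρ, hinj, hsp, hcomm⟩ := Helper35.c3u_emb d J K' hK' θ hth2 Ψ hΨ hΨJ hΨH
  have hmem : ∀ A, ρ A ∈ Cfsg.Geo.subalgebraNormalizer K ⊓ Cfsg.spGL d F := fun A =>
    ⟨Helper83.c3e_norm K J hJsp (ρ A) 1 one_ne_zero (by rw [one_smul]; exact hcomm A), hsp A⟩
  have hdvd : Nat.card ↥(Cfsg.GU d K' (Fintype.card F)) ∣
      Nat.card ↥(Cfsg.Geo.subalgebraNormalizer K ⊓ Cfsg.spGL d F) :=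
    Subgroup.card_dvd_of_injective (ρ.codRestrict _ hmem)
      (fun a b hab => hinj (by
        have := congrArg Subtype.val hab
        simpa using this))
  have hidx := Helper91.c3e_idx (Cfsg.Geo.subalgebraNormalizer K) (Cfsg.spGL d F) r _ hΩ hdvd
  rw [Helper83.c3e_card d (Helper39.c3e_bridge d) (Helper39.c3e_bridge' d), Cfsg.Agent.Helper5.card_GU hK' d] at hidx
  exact Helper6.c3u_arith (Fintype.card F) d r Fintype.one_lt_card hr hrq hidx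

theorem c3u_claimB {F : Type*} [Field F] [Fintype F] {p : ℕ} [Fact p.Prime] [CharP F p]
    (h2 : (2 : F) ≠ 0) (d : ℕ) (n : F) (hn : ¬ IsSquare n)
    (J : Matrix (Fin d ⊕ Fin d) (Fin d ⊕ Fin d) F)
    (hJ2 : J * J = n • (1 : Matrix (Fin d ⊕ Fin d) (Fin d ⊕ Fin d) F))
    (hJs : ∀ u v, Cfsg.sympForm d F (J *ᵥ u) v = - Cfsg.sympForm d F u (J *ᵥ v))
    (K' : Type*) [Field K'] [Fintype K'] [Algebra F K']
    (hK' : Fintype.card K' = Fintype.card F ^ 2) (θ : K') (hθ : θ * θ = algebraMap F K' n)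
    (r : ℕ) [Fact r.Prime] (hr3 : 2 < r) (hrp : r ≠ p) (i c m : ℕ)
    (hi : i = orderOf ((Fintype.card F : ℕ) : ZMod r)) (hi4 : Odd i ∨ 4 ∣ i)
    (hc : c = if Even i then i else 2 * i) (hcm : c = 2 * m) (hm1 : 1 ≤ m) (hmd : m ≤ d)
    (T : GL (Fin d ⊕ Fin d) F) (hTsp : T ∈ Cfsg.spGL d F)
    (hTr : ((T ^ r : GL (Fin d ⊕ Fin d) F) : Matrix (Fin d ⊕ Fin d) (Fin d ⊕ Fin d) F) = 1)
    (hTJ : (T : Matrix (Fin d ⊕ Fin d) (Fin d ⊕ Fin d) F) * J =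
      J * (T : Matrix (Fin d ⊕ Fin d) (Fin d ⊕ Fin d) F))
    (hfix : Module.finrank F (LinearMap.ker
      (Matrix.toLin' (T : Matrix (Fin d ⊕ Fin d) (Fin d ⊕ Fin d) F) - 1)) = 2 * (d - m)) :
    False := by
  classical
  have hr : r.Prime := Fact.out
  have hp : p.Prime := Fact.out
  obtain ⟨k, -, hcard⟩ := FiniteField.card F p
  have hrq : ¬ r ∣ Fintype.card F := by
    rw [hcard]
    intro h
    exact hrp ((Nat.prime_dvd_prime_iff_eq hr hp).mp (hr.dvd_of_dvd_pow h))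
  have hrF : ((r : ℕ) : F) ≠ 0 := by
    intro h
    have h3 := (CharP.cast_eq_zero_iff F p r).mp h
    exact hrp ((Nat.prime_dvd_prime_iff_eq hp hr).mp h3).symm
  obtain ⟨hi0, -⟩ := Cfsg.Agent.Helper51.TI5955.ord_pos r (Fintype.card F) hrq
  rw [← hi] at hi0
  have hfin : Module.finrank F (Fin d ⊕ Fin d → F) = 2 * d := by
    rw [Module.finrank_fintype_fun_eq_card, Fintype.card_sum, Fintype.card_fin]
    ring
  have hnd : ∀ u, (∀ v, Cfsg.Agent.Helper94.sympB d F u v = 0) → u = 0 :=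
    fun u hu => Cfsg.Agent.Helper13.sympForm_sep u
      (fun v => by rw [← Cfsg.Agent.Helper94.sympB_apply]; exact hu v)
  have halt : ∀ v, Cfsg.Agent.Helper94.sympB d F v v = 0 := fun v => by
    rw [Cfsg.Agent.Helper94.sympB_apply]; exact Cfsg.Agent.Helper94.sf_self v
  have hT : ∀ u v, Cfsg.Agent.Helper94.sympB d F
      (Matrix.toLin' (T : Matrix (Fin d ⊕ Fin d) (Fin d ⊕ Fin d) F) u)
      (Matrix.toLin' (T : Matrix (Fin d ⊕ Fin d) (Fin d ⊕ Fin d) F) v) =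
      Cfsg.Agent.Helper94.sympB d F u v := by
    intro u v
    rw [Cfsg.Agent.Helper94.sympB_apply, Cfsg.Agent.Helper94.sympB_apply, Matrix.toLin'_apply,
      Matrix.toLin'_apply]
    exact (Cfsg.Agent.Helper94.mem_spGL_iff T).mp hTsp u v
  have hTr' : (Matrix.toLin' (T : Matrix (Fin d ⊕ Fin d) (Fin d ⊕ Fin d) F)) ^ r = 1 := by
    rw [← Matrix.toLin'_pow, ← Units.val_pow_eq_pow_val, hTr, Matrix.toLin'_one]
    rfl
  obtain ⟨hmap, hcompl, -, -, -, hndr⟩ := Cfsg.Agent.Helper11.TI5955.ti_fix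
    (Cfsg.Agent.Helper94.sympB d F) halt hnd _ hT r hrF hTr'
  obtain ⟨W, hWdef⟩ : ∃ W : Submodule F (Fin d ⊕ Fin d → F), W = LinearMap.range
      (Matrix.toLin' (T : Matrix (Fin d ⊕ Fin d) (Fin d ⊕ Fin d) F) - 1) := ⟨_, rfl⟩
  rw [← hWdef] at hmap hcompl hndr
  have hWJ : ∀ w ∈ W, J *ᵥ w ∈ W := by
    intro w hw
    rw [hWdef] at hw ⊢
    obtain ⟨v, rfl⟩ := hw
    refine ⟨J *ᵥ v, ?_⟩
    simp only [LinearMap.sub_apply, Module.End.one_apply, Matrix.toLin'_apply]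
    rw [Matrix.mulVec_sub, Matrix.mulVec_mulVec, Matrix.mulVec_mulVec, hTJ]
  have hWT : ∀ w ∈ W, (T : Matrix (Fin d ⊕ Fin d) (Fin d ⊕ Fin d) F) *ᵥ w ∈ W := by
    intro w hw
    have := hmap (Submodule.mem_map_of_mem hw)
    rwa [Matrix.toLin'_apply] at this
  have hWnd : ∀ w ∈ W, (∀ w' ∈ W, Cfsg.sympForm d F w w' = 0) → w = 0 := by
    intro w hw h
    exact hndr w hw (fun w' hw' => by rw [Cfsg.Agent.Helper94.sympB_apply]; exact h w' hw')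
  have hfinW : Module.finrank F W = 2 * m := by
    have h1 := LinearMap.finrank_range_add_finrank_ker
      (Matrix.toLin' (T : Matrix (Fin d ⊕ Fin d) (Fin d ⊕ Fin d) F) - 1)
    rw [hfin, hfix, ← hWdef] at h1
    omega
  have hne : ∃ w ∈ W, (T : Matrix (Fin d ⊕ Fin d) (Fin d ⊕ Fin d) F) *ᵥ w ≠ w := by
    have hWne : W ≠ ⊥ := by
      intro h0
      rw [h0, finrank_bot] at hfinW
      omega
    obtain ⟨w, hw, hw0⟩ := (Submodule.ne_bot_iff W).mp hWne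
    refine ⟨w, hw, fun hTw => hw0 ?_⟩
    have hker : w ∈ LinearMap.ker
        (Matrix.toLin' (T : Matrix (Fin d ⊕ Fin d) (Fin d ⊕ Fin d) F) - 1) := by
      rw [LinearMap.mem_ker, LinearMap.sub_apply, Module.End.one_apply, sub_eq_zero,
        Matrix.toLin'_apply]
      exact hTw
    have := hcompl.disjoint.le_bot (show w ∈ _ ⊓ W from ⟨hker, hw⟩)
    exact (Submodule.mem_bot F).mp this
  obtain ⟨e, heW, he1, he0⟩ := c3u_onb' h2 d n hn J hJ2 hJs W hWJ hWnd m hfinW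
  obtain ⟨hth1, hth2, hth3⟩ := Helper31.c3u_th n hn K' hK' θ hθ
  obtain ⟨Ψ, hΨ, hΨJ, hΨsp, hΨH⟩ := Helper35.c3u_psi d n J hJ2 hJs m e he1 he0 K' θ hθ hth1 hth2 hth3
  have hΨW : ∀ w, Ψ w ∈ W := fun w => (Submodule.span_le.mpr (by
    rintro v (⟨i, rfl⟩ | ⟨i, rfl⟩)
    · exact heW i
    · exact hWJ _ (heW i))) (hΨsp w)
  have hdiv := Helper35.c3u_lag d J W m hfinW T hTsp hTJ hWT hne r hr hTr K' hK' θ hth1 Ψ hΨ hΨW hΨJ hΨH
  rw [Cfsg.Agent.Helper5.card_GU hK' m] at hdiv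
  exact Helper78.c3u_ar4 r (Fintype.card F) i c m hr3 Fintype.card_pos hrq hi hi0 hi4 hc hcm hdiv

theorem c3u_fwd {F : Type u} [Field F] [Fintype F] {p : ℕ} [Fact p.Prime] [CharP F p]
    (h2 : (2 : F) ≠ 0) (d : ℕ)
    (hd : 2 ≤ d) (K' : Type u) [Field K']
    [Algebra F K'] [Module K' (Fin d ⊕ Fin d → F)] [IsScalarTower F K' (Fin d ⊕ Fin d → F)]
    [Finite K'] (K : Subalgebra F (Matrix (Fin d ⊕ Fin d) (Fin d ⊕ Fin d) F))
    (j : K' → Matrix (Fin d ⊕ Fin d) (Fin d ⊕ Fin d) F)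
    (hj : ∀ (c : K') (v : Fin d ⊕ Fin d → F), c • v = j c *ᵥ v)
    (hK : ∀ x, x ∈ K ↔ ∃ c, j c = x) (hk : Module.finrank F K' = 2)
    (n : F) (hn : ¬ IsSquare n) (θ : K') (hθ : θ * θ = algebraMap F K' n)
    (J : Matrix (Fin d ⊕ Fin d) (Fin d ⊕ Fin d) F) (hθJ : j θ = J)
    (hJ2 : J * J = n • (1 : Matrix (Fin d ⊕ Fin d) (Fin d ⊕ Fin d) F))
    (hJs : ∀ u v, Cfsg.sympForm d F (J *ᵥ u) v = - Cfsg.sympForm d F u (J *ᵥ v))
    (hJsp : ∀ y, y ∈ K ↔ ∃ a b : F, y = a • (1 : Matrix (Fin d ⊕ Fin d) (Fin d ⊕ Fin d) F) + b • J)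
    (r : ℕ) [Fact r.Prime]
    (hΩ : r ∣ (Cfsg.Geo.subalgebraNormalizer K).relIndex (Cfsg.spGL d F))
    (hall : ∀ x ∈ Cfsg.spGL d F,
      (∃ z : F, ((x ^ r : GL (Fin d ⊕ Fin d) F) : Matrix (Fin d ⊕ Fin d) (Fin d ⊕ Fin d) F) =
        z • (1 : Matrix (Fin d ⊕ Fin d) (Fin d ⊕ Fin d) F)) →
      (∀ z : F, (x : Matrix (Fin d ⊕ Fin d) (Fin d ⊕ Fin d) F) ≠
        z • (1 : Matrix (Fin d ⊕ Fin d) (Fin d ⊕ Fin d) F)) →
      ∃ g ∈ Cfsg.spGL d F, g⁻¹ * x * g ∈ Cfsg.Geo.subalgebraNormalizer K) :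
    r = 2 := by
  classical
  have hr : r.Prime := Fact.out
  have hp : p.Prime := Fact.out
  letI : Fintype K' := Fintype.ofFinite K'
  have hK' : Fintype.card K' = Fintype.card F ^ 2 := by
    rw [Module.card_eq_pow_finrank (K := F) (V := K'), hk]
  have hp2 : p ≠ 2 := by
    intro h
    apply h2
    have h' : ((2 : ℕ) : F) = 0 := by
      rw [← h]
      exact CharP.cast_eq_zero F p
    exact_mod_cast h'
  by_contra hr2
  by_cases hrp : r = p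
  · obtain ⟨t, htsp, htp, htns, htfix⟩ := Helper34.c3e_tv (F := F) p d (by omega)
    obtain ⟨g, hg, hgN⟩ := hall t htsp ⟨1, by rw [hrp, htp, one_smul]⟩ htns
    obtain ⟨T, -, -, -, hTfix, hTK⟩ := c3u_glue K' K j hj hK hk θ J hθJ t g htsp hg hgN r hr hr2
      (by rw [hrp]; exact htp)
    have hdiv := Helper74.c3e_kdiv (K' := K') (LinearMap.ker
      (Matrix.toLin' (T : Matrix (Fin d ⊕ Fin d) (Fin d ⊕ Fin d) F) - 1)) hTK
    rw [hk, hTfix, htfix] at hdiv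
    omega
  · have hr3 : 2 < r := lt_of_le_of_ne hr.two_le (Ne.symm hr2)
    obtain ⟨k, -, hcard⟩ := FiniteField.card F p
    have hrq : ¬ r ∣ Fintype.card F := by
      rw [hcard]
      intro h
      exact hrp ((Nat.prime_dvd_prime_iff_eq hr hp).mp (hr.dvd_of_dvd_pow h))
    obtain ⟨hi0, -⟩ := Cfsg.Agent.Helper51.TI5955.ord_pos r (Fintype.card F) hrq
    obtain ⟨i, hi⟩ : ∃ i, i = orderOf ((Fintype.card F : ℕ) : ZMod r) := ⟨_, rfl⟩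
    rw [← hi] at hi0
    obtain ⟨c, hc⟩ : ∃ c, c = if Even i then i else 2 * i := ⟨_, rfl⟩
    obtain ⟨j₁, hj1, hjd, hj₁⟩ := c3u_index h2 K n hn J hJ2 hJs hJsp K' hK' θ hθ r hr hrq hΩ
    have h4 := Helper6.c3u_ar3 r (Fintype.card F) d i j₁ hr3 Fintype.card_pos hi hi0 hj1 hjd hj₁
    have hm : ∃ m, c = 2 * m ∧ 1 ≤ m ∧ m ≤ d := by
      rcases h4 with ⟨ho, hid⟩ | ⟨⟨a, ha⟩, hid⟩
      · refine ⟨i, ?_, hi0, hid⟩
        rw [hc, if_neg (Nat.not_even_iff_odd.mpr ho)]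
      · refine ⟨2 * a, ?_, by omega, by omega⟩
        have he : Even i := ⟨2 * a, by omega⟩
        rw [hc, if_pos he]
        omega
    obtain ⟨m, hcm, hm1, hmd⟩ := hm
    have hi4 : Odd i ∨ 4 ∣ i := h4.imp (fun h => h.1) (fun h => h.1)
    obtain ⟨x, hxsp, hxr, hxns, hxfix⟩ :=
      Helper34.c3e_odd (F := F) p r hr3 hrp i c hi hc d (d - m) (by omega) (by omega) (Helper39.c3e_bridge d)
    obtain ⟨g, hg, hgN⟩ := hall x hxsp ⟨1, by rw [hxr, one_smul]⟩ hxns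
    obtain ⟨T, hTsp, hTr, hTJ, hTfix, -⟩ := c3u_glue K' K j hj hK hk θ J hθJ x g hxsp hg hgN r hr
      hr2 hxr
    exact c3u_claimB h2 d n hn J hJ2 hJs K' hK' θ hθ r hr3 hrp i c m hi hi4 hc hcm hm1 hmd T hTsp
      hTr hTJ (by rw [hTfix, hxfix])

theorem c3u_bwd {F : Type*} [Field F] [Fintype F] (hodd : Odd (Fintype.card F)) (d : ℕ)
    (hd : 1 ≤ d) (K : Subalgebra F (Matrix (Fin d ⊕ Fin d) (Fin d ⊕ Fin d) F))
    (hK : Cfsg.Geo.IsFieldSubalgebra 2 K)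
    (hKf : Cfsg.Geo.IsAdjointClosedFor (Cfsg.sympForm d F) K)
    (hKns : ¬ Cfsg.Geo.IsSelfAdjointFor (Cfsg.sympForm d F) K)
    (x : GL (Fin d ⊕ Fin d) F) (hx : x ∈ Cfsg.spGL d F)
    (hx2 : ∃ z : F, ((x ^ 2 : GL (Fin d ⊕ Fin d) F) : Matrix (Fin d ⊕ Fin d) (Fin d ⊕ Fin d) F) =
      z • (1 : Matrix (Fin d ⊕ Fin d) (Fin d ⊕ Fin d) F)) :
    ∃ g ∈ Cfsg.spGL d F, g⁻¹ * x * g ∈ Cfsg.Geo.subalgebraNormalizer K := by
  classical
  have hring : ringChar F ≠ 2 := by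
    intro h
    have h' := FiniteField.even_card_iff_char_two.mp h
    have := Nat.odd_iff.mp hodd
    omega
  have h2 : (2 : F) ≠ 0 := Ring.two_ne_zero hring
  obtain ⟨n₁, hn₁, hn₁'⟩ : ∃ n : F, ¬ IsSquare n ∧ (¬ IsSquare (-1 : F) → n = -1) := by
    by_cases hm : IsSquare (-1 : F)
    · obtain ⟨a, ha⟩ := FiniteField.exists_nonsquare hring
      exact ⟨a, ha, fun h => absurd hm h⟩
    · exact ⟨-1, hm, fun _ => rfl⟩
  obtain ⟨J, hJK, hJ2, hJK'⟩ := Helper3.c3e_kj K hK h2 n₁ hn₁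
  have hJs := Helper33.c3u_skew h2 d K hKf hKns n₁ hn₁ J hJK hJ2 hJK'
  obtain ⟨z, hz⟩ := hx2
  have hJ' : ∃ (J' : Matrix (Fin d ⊕ Fin d) (Fin d ⊕ Fin d) F) (ε : F), ε ≠ 0 ∧
      J' * J' = n₁ • (1 : Matrix (Fin d ⊕ Fin d) (Fin d ⊕ Fin d) F) ∧
      (∀ u v, Cfsg.sympForm d F (J' *ᵥ u) v = - Cfsg.sympForm d F u (J' *ᵥ v)) ∧
      (x : Matrix (Fin d ⊕ Fin d) (Fin d ⊕ Fin d) F) * J' =
        ε • (J' * (x : Matrix (Fin d ⊕ Fin d) (Fin d ⊕ Fin d) F)) := by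
    rcases Helper91.c3e_sq d hd x hx z hz with rfl | rfl
    · obtain ⟨J', h1, h2', h3⟩ := Helper31.c3u_r1 h2 d n₁ x hx (by rw [hz, one_smul])
      exact ⟨J', 1, one_ne_zero, h1, h2', by rw [one_smul]; exact h3⟩
    · by_cases hm : IsSquare (-1 : F)
      · obtain ⟨ι, hι⟩ := hm
        obtain ⟨J', h1, h2', h3⟩ := Helper6.c3u_r2 h2 d n₁ ι hι.symm x hx hz
        exact ⟨J', -1, neg_ne_zero.mpr one_ne_zero, h1, h2', h3⟩
      · refine ⟨(x : Matrix (Fin d ⊕ Fin d) (Fin d ⊕ Fin d) F), 1, one_ne_zero, ?_,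
          Helper35.c3u_r3 d x hx hz, by rw [one_smul]⟩
        rw [hn₁' hm, ← hz, pow_two, Units.val_mul]
  obtain ⟨J', ε, hε, hJ'2, hJ's, hcomm⟩ := hJ'
  have hfin : Module.finrank F (Fin d ⊕ Fin d → F) = 2 * d := by
    rw [Module.finrank_fintype_fun_eq_card, Fintype.card_sum, Fintype.card_fin]
    ring
  obtain ⟨e, -, he1, he0⟩ := c3u_onb' h2 d n₁ hn₁ J hJ2 hJs ⊤ (fun w _ => Submodule.mem_top)
    (fun w _ h => Cfsg.Agent.Helper13.sympForm_sep w (fun v => h v Submodule.mem_top)) d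
    (by rw [finrank_top, hfin])
  obtain ⟨e', -, he1', he0'⟩ := c3u_onb' h2 d n₁ hn₁ J' hJ'2 hJ's ⊤ (fun w _ => Submodule.mem_top)
    (fun w _ h => Cfsg.Agent.Helper13.sympForm_sep w (fun v => h v Submodule.mem_top)) d
    (by rw [finrank_top, hfin])
  obtain ⟨g, hg, hgJ⟩ := Helper94.c3u_iso d n₁ J J' hJ2 hJ'2 hJs hJ's e e' he1 he0 he1' he0'
  refine ⟨g, hg, Helper83.c3e_norm K J hJK' (g⁻¹ * x * g) ε hε ?_⟩
  have hgi1 : ((g⁻¹ : GL (Fin d ⊕ Fin d) F) : Matrix (Fin d ⊕ Fin d) (Fin d ⊕ Fin d) F) *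
      (g : Matrix (Fin d ⊕ Fin d) (Fin d ⊕ Fin d) F) = 1 := by
    rw [← Units.val_mul, inv_mul_cancel, Units.val_one]
  have hgi2 : (g : Matrix (Fin d ⊕ Fin d) (Fin d ⊕ Fin d) F) *
      ((g⁻¹ : GL (Fin d ⊕ Fin d) F) : Matrix (Fin d ⊕ Fin d) (Fin d ⊕ Fin d) F) = 1 := by
    rw [← Units.val_mul, mul_inv_cancel, Units.val_one]
  obtain ⟨gi, hgi⟩ : ∃ gi : Matrix (Fin d ⊕ Fin d) (Fin d ⊕ Fin d) F,
      gi = ((g⁻¹ : GL (Fin d ⊕ Fin d) F) : Matrix (Fin d ⊕ Fin d) (Fin d ⊕ Fin d) F) := ⟨_, rfl⟩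
  rw [← hgi] at hgi1 hgi2
  have hgiJ : gi * J' = J * gi := by
    calc gi * J' = gi * J' * ((g : Matrix (Fin d ⊕ Fin d) (Fin d ⊕ Fin d) F) * gi) := by
          rw [hgi2, mul_one]
      _ = gi * (J' * (g : Matrix (Fin d ⊕ Fin d) (Fin d ⊕ Fin d) F)) * gi := by
          simp only [mul_assoc]
      _ = gi * ((g : Matrix (Fin d ⊕ Fin d) (Fin d ⊕ Fin d) F) * J) * gi := by rw [hgJ]
      _ = (gi * (g : Matrix (Fin d ⊕ Fin d) (Fin d ⊕ Fin d) F)) * J * gi := by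
          simp only [mul_assoc]
      _ = J * gi := by rw [hgi1, one_mul]
  rw [Units.val_mul, Units.val_mul, ← hgi]
  calc gi * (x : Matrix (Fin d ⊕ Fin d) (Fin d ⊕ Fin d) F) *
        (g : Matrix (Fin d ⊕ Fin d) (Fin d ⊕ Fin d) F) * J
      = gi * (x : Matrix (Fin d ⊕ Fin d) (Fin d ⊕ Fin d) F) *
          ((g : Matrix (Fin d ⊕ Fin d) (Fin d ⊕ Fin d) F) * J) := by simp only [mul_assoc]
    _ = gi * (x : Matrix (Fin d ⊕ Fin d) (Fin d ⊕ Fin d) F) *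
          (J' * (g : Matrix (Fin d ⊕ Fin d) (Fin d ⊕ Fin d) F)) := by rw [hgJ]
    _ = gi * ((x : Matrix (Fin d ⊕ Fin d) (Fin d ⊕ Fin d) F) * J') *
          (g : Matrix (Fin d ⊕ Fin d) (Fin d ⊕ Fin d) F) := by simp only [mul_assoc]
    _ = gi * (ε • (J' * (x : Matrix (Fin d ⊕ Fin d) (Fin d ⊕ Fin d) F))) *
          (g : Matrix (Fin d ⊕ Fin d) (Fin d ⊕ Fin d) F) := by rw [hcomm]
    _ = ε • (gi * J' * (x : Matrix (Fin d ⊕ Fin d) (Fin d ⊕ Fin d) F) *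
          (g : Matrix (Fin d ⊕ Fin d) (Fin d ⊕ Fin d) F)) := by
          simp only [Matrix.mul_smul, Matrix.smul_mul, mul_assoc]
    _ = ε • (J * gi * (x : Matrix (Fin d ⊕ Fin d) (Fin d ⊕ Fin d) F) *
          (g : Matrix (Fin d ⊕ Fin d) (Fin d ⊕ Fin d) F)) := by rw [hgiJ]
    _ = ε • (J * (gi * (x : Matrix (Fin d ⊕ Fin d) (Fin d ⊕ Fin d) F) *
          (g : Matrix (Fin d ⊕ Fin d) (Fin d ⊕ Fin d) F))) := by simp only [mul_assoc]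

theorem c3u_main {F : Type u} [Field F] [Fintype F] {p : ℕ} [Fact p.Prime] [CharP F p] {q : ℕ}
    (hq : Fintype.card F = q) (hodd : Odd q) (d : ℕ) (hd : 2 ≤ d)
    (K : Subalgebra F (Matrix (Fin d ⊕ Fin d) (Fin d ⊕ Fin d) F))
    (hK : Cfsg.Geo.IsFieldSubalgebra 2 K)
    (hKf : Cfsg.Geo.IsAdjointClosedFor (Cfsg.sympForm d F) K)
    (hKns : ¬ Cfsg.Geo.IsSelfAdjointFor (Cfsg.sympForm d F) K)
    (r : ℕ) [Fact r.Prime]
    (hΩ : r ∣ (Cfsg.Geo.subalgebraNormalizer K).relIndex (Cfsg.spGL d F)) :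
    (∀ x ∈ Cfsg.spGL d F,
      (∃ z : F, ((x ^ r : GL (Fin d ⊕ Fin d) F) : Matrix (Fin d ⊕ Fin d) (Fin d ⊕ Fin d) F) =
        z • (1 : Matrix (Fin d ⊕ Fin d) (Fin d ⊕ Fin d) F)) →
      (∀ z : F, (x : Matrix (Fin d ⊕ Fin d) (Fin d ⊕ Fin d) F) ≠
        z • (1 : Matrix (Fin d ⊕ Fin d) (Fin d ⊕ Fin d) F)) →
      ∃ g ∈ Cfsg.spGL d F, g⁻¹ * x * g ∈ Cfsg.Geo.subalgebraNormalizer K) ↔ r = 2 := by
  classical
  subst hq
  have hring : ringChar F ≠ 2 := by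
    intro h
    have h' := FiniteField.even_card_iff_char_two.mp h
    have := Nat.odd_iff.mp hodd
    omega
  have h2 : (2 : F) ≠ 0 := Ring.two_ne_zero hring
  constructor
  · intro hall
    obtain ⟨n, hn⟩ := FiniteField.exists_nonsquare hring
    obtain ⟨J, hJK, hJ2, hJsp⟩ := Helper3.c3e_kj K hK h2 n hn
    have hJs := Helper33.c3u_skew h2 d K hKf hKns n hn J hJK hJ2 hJsp
    haveI hnt : Nontrivial K :=
      Module.nontrivial_of_finrank_pos (R := F) (by rw [hK.finrank_eq]; norm_num)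
    have hfield : IsField K :=
      ⟨exists_pair_ne K, fun x y => Subtype.ext (hK.comm x.1 x.2 y.1 y.2), fun {a} ha => by
        obtain ⟨y, hy, hxy⟩ := hK.inv a.1 a.2 (fun h => ha (Subtype.ext h))
        exact ⟨⟨y, hy⟩, Subtype.ext hxy⟩⟩
    let iF : Field K := hfield.toField
    let iA : Algebra F K := Subalgebra.algebra K
    let iM : Module K (Fin d ⊕ Fin d → F) := Module.compHom (Fin d ⊕ Fin d → F)
      ((Matrix.toLinAlgEquiv' : Matrix (Fin d ⊕ Fin d) (Fin d ⊕ Fin d) F ≃ₐ[F]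
        Module.End F (Fin d ⊕ Fin d → F)).toAlgHom.toRingHom.comp K.val.toRingHom)
    have hsmul : ∀ (c : K) (v : Fin d ⊕ Fin d → F), @HSMul.hSMul K (Fin d ⊕ Fin d → F)
        (Fin d ⊕ Fin d → F) (@instHSMul K (Fin d ⊕ Fin d → F) iM.toSMul) c v = c.1 *ᵥ v :=
      fun c v => rfl
    have iT : @IsScalarTower F K (Fin d ⊕ Fin d → F) iA.toSMul iM.toSMul _ := by
      refine @IsScalarTower.mk F K (Fin d ⊕ Fin d → F) iA.toSMul iM.toSMul _ ?_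
      intro c k v
      rw [hsmul, hsmul]
      exact Matrix.smul_mulVec c k.1 v
    have iFin : Finite K := inferInstance
    have hθ : (⟨J, hJK⟩ : K) * ⟨J, hJK⟩ = algebraMap F K n := by
      apply Subtype.ext
      change J * J = algebraMap F (Matrix (Fin d ⊕ Fin d) (Fin d ⊕ Fin d) F) n
      rw [hJ2, Algebra.algebraMap_eq_smul_one]
    exact @c3u_fwd F _ _ p _ _ h2 d hd K iF iA iM iT iFin K (fun c => c.1) hsmul
      (fun x => ⟨fun hx => ⟨⟨x, hx⟩, rfl⟩, fun ⟨c, hc⟩ => hc ▸ c.2⟩)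
      hK.finrank_eq n hn ⟨J, hJK⟩ hθ J rfl hJ2 hJs hJsp r _ hΩ hall
  · rintro rfl
    intro x hx hx2 _
    exact c3u_bwd hodd d (by omega) K hK hKf hKns x hx hx2

end Cfsg.Agent.Helper35
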