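import Mathlib
import Cfsg.Prelude.Def_GeometricClasses
import Cfsg.Agent.Helper14.C6eDEC
import Cfsg.Agent.Helper14.C6eSUMLE
set_option autoImplicit false
open Cfsg Cfsg.Geo Matrix Module

namespace Cfsg.Agent.Helper35

/-- An invertible matrix mapping `S` into `S'` shows `dim S ≤ dim S'`. -/
theorem c6e_finrank_le {F : Type*} [Field F] {n : ℕ} (M : Matrix (Fin n) (Fin n) F)
    (hM : IsUnit M) (S S' : Submodule F (Fin n → F)) (h : ∀ v ∈ S, M *ᵥ v ∈ S') :
    finrank F S ≤ finrank F S' := by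
  have hinj : Function.Injective (Matrix.toLin' M) := by
    intro v w hvw
    rw [Matrix.toLin'_apply, Matrix.toLin'_apply] at hvw
    exact Matrix.mulVec_injective_of_isUnit hM hvw
  rw [(Submodule.equivMapOfInjective (Matrix.toLin' M) hinj S).finrank_eq]
  apply Submodule.finrank_mono
  rintro _ ⟨v, hv, rfl⟩
  rw [Matrix.toLin'_apply]
  exact h v hv

/-- `a ^ r = 1` from `u⁻¹ g u = a g`, `g ^ r = 1`, `[a, g] = 1`. -/
theorem c6e_a_pow {G : Type*} [Group G] (g a u : G) (r : ℕ) (hg : g ^ r = 1) (hag : Commute a g)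
    (hu : u⁻¹ * g * u = a * g) : a ^ r = 1 := by
  have h1 : (a * g) ^ r = 1 := by
    rw [← hu]
    have h2 : u⁻¹ * g * u = u⁻¹ * g * (u⁻¹)⁻¹ := by rw [inv_inv]
    rw [h2, conj_pow, hg, mul_one, mul_inv_cancel]
  rw [hag.mul_pow, hg, mul_one] at h1
  exact h1

/-- The eigenspace of an invertible matrix for the eigenvalue zero is trivial. -/
theorem c6e_eig_zero {F : Type*} [Field F] {n : ℕ} (g : GL (Fin n) F) :
    finrank F (Module.End.eigenspace (Matrix.toLin' (g : Matrix (Fin n) (Fin n) F)) 0) = 0 := by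
  have h1 : Module.End.eigenspace (Matrix.toLin' (g : Matrix (Fin n) (Fin n) F)) 0 = ⊥ := by
    rw [eq_bot_iff]
    intro v hv
    rw [Module.End.mem_eigenspace_iff, zero_smul, Matrix.toLin'_apply] at hv
    have h2 : v = 0 := by
      have h3 := Matrix.mulVec_injective_of_isUnit g.isUnit
        (hv.trans (Matrix.mulVec_zero (g : Matrix (Fin n) (Fin n) F)).symm)
      exact h3
    exact (Submodule.mem_bot F).mpr h2
  rw [h1, finrank_bot]

/-- Triangular numbers. -/
theorem c6e_tri (k : ℕ) :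
    (∑ j ∈ Finset.range (k + 1), j) + (∑ j ∈ Finset.range k, j) = k * k := by
  induction k with
  | zero => simp
  | succ k ih =>
    have h1 := Finset.sum_range_succ (fun j => j) (k + 1)
    have h2 := Finset.sum_range_succ (fun j => j) k
    nlinarith

/-- The triangular exponent map is injective on each half of `range r`. -/
theorem c6e_tri_inj {F : Type*} [Field F] {r : ℕ} (hr : r.Prime) (hr5 : 5 ≤ r) (ξ : F)
    (hξ : IsPrimitiveRoot ξ r) (k k' : ℕ) (hk : k < r) (hk' : k' < r)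
    (hside : (2 * k + 1 ≤ r ∧ 2 * k' + 1 ≤ r) ∨ (r < 2 * k + 1 ∧ r < 2 * k' + 1))
    (h : ξ ^ (∑ j ∈ Finset.range (k + 1), j) = ξ ^ (∑ j ∈ Finset.range (k' + 1), j)) : k = k' := by
  have hξ0 : ξ ≠ 0 := hξ.ne_zero (by omega)
  -- 2 S(k+1) = (k+1) k
  have e1 : (∑ j ∈ Finset.range (k + 1), j) * 2 = (k + 1) * k := by
    rw [Finset.sum_range_id_mul_two]; simp
  have e2 : (∑ j ∈ Finset.range (k' + 1), j) * 2 = (k' + 1) * k' := by
    rw [Finset.sum_range_id_mul_two]; simp
  obtain ⟨s, hs⟩ : ∃ s, s = ∑ j ∈ Finset.range (k + 1), j := ⟨_, rfl⟩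
  obtain ⟨t, ht⟩ : ∃ t, t = ∑ j ∈ Finset.range (k' + 1), j := ⟨_, rfl⟩
  rw [← hs] at e1 h
  rw [← ht] at e2 h
  -- r ∣ s - t as integers
  have hdvd : (r : ℤ) ∣ (s : ℤ) - (t : ℤ) := by
    rcases le_total s t with hst | hst
    · have h1 : ξ ^ (t - s) = 1 := by
        have h2 : ξ ^ s * ξ ^ (t - s) = ξ ^ s * 1 := by
          rw [← pow_add, Nat.add_sub_cancel' hst, mul_one, h]
        exact mul_left_cancel₀ (pow_ne_zero s hξ0) h2
      have h3 := hξ.dvd_of_pow_eq_one _ h1
      have h4 : ((t - s : ℕ) : ℤ) = (t : ℤ) - (s : ℤ) := by push_cast [hst]; ring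
      have h5 : (r : ℤ) ∣ ((t - s : ℕ) : ℤ) := Int.natCast_dvd_natCast.mpr h3
      rw [h4] at h5
      have h6 : (s : ℤ) - (t : ℤ) = -((t : ℤ) - (s : ℤ)) := by ring
      rw [h6]
      exact (dvd_neg).mpr h5
    · have h1 : ξ ^ (s - t) = 1 := by
        have h2 : ξ ^ t * ξ ^ (s - t) = ξ ^ t * 1 := by
          rw [← pow_add, Nat.add_sub_cancel' hst, mul_one, h]
        exact mul_left_cancel₀ (pow_ne_zero t hξ0) h2
      have h3 := hξ.dvd_of_pow_eq_one _ h1
      have h4 : ((s - t : ℕ) : ℤ) = (s : ℤ) - (t : ℤ) := by push_cast [hst]; ring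
      have h5 : (r : ℤ) ∣ ((s - t : ℕ) : ℤ) := Int.natCast_dvd_natCast.mpr h3
      rw [h4] at h5
      exact h5
  have hdvd2 : (r : ℤ) ∣ ((k : ℤ) - (k' : ℤ)) * ((k : ℤ) + (k' : ℤ) + 1) := by
    have h1 : ((k : ℤ) - (k' : ℤ)) * ((k : ℤ) + (k' : ℤ) + 1) = ((s : ℤ) - (t : ℤ)) * 2 := by
      have e1' : (s : ℤ) * 2 = ((k : ℤ) + 1) * (k : ℤ) := by exact_mod_cast e1
      have e2' : (t : ℤ) * 2 = ((k' : ℤ) + 1) * (k' : ℤ) := by exact_mod_cast e2
      linear_combination e2' - e1'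
    rw [h1]
    exact Dvd.dvd.mul_right hdvd 2
  have hrp : Prime (r : ℤ) := Nat.prime_iff_prime_int.mp hr
  rcases hrp.dvd_or_dvd hdvd2 with h1 | h1
  · have h2 : (k : ℤ) - (k' : ℤ) = 0 := by
      apply Int.eq_zero_of_abs_lt_dvd h1
      rw [abs_lt]
      constructor <;> omega
    omega
  · have h2 : (r : ℤ) ∣ ((k + k' + 1 : ℕ) : ℤ) := by
      have : ((k + k' + 1 : ℕ) : ℤ) = (k : ℤ) + (k' : ℤ) + 1 := by push_cast; ring
      rw [this]
      exact h1
    have h3 : r ∣ k + k' + 1 := Int.natCast_dvd_natCast.mp h2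
    obtain ⟨q, hq⟩ := h3
    rcases hside with ⟨ha, hb⟩ | ⟨ha, hb⟩
    · have hq0 : 0 < q := by
        rcases Nat.eq_zero_or_pos q with h0 | h0
        · rw [h0] at hq; omega
        · exact h0
      have hq2 : q < 2 := by
        by_contra hq2
        have : r * 2 ≤ r * q := Nat.mul_le_mul_left r (by omega)
        omega
      have hq1 : q = 1 := by omega
      rw [hq1, mul_one] at hq
      omega
    · exfalso
      have hq1 : 1 < q := by
        by_contra hq2
        have : q ≤ 1 := by omega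
        have : r * q ≤ r * 1 := Nat.mul_le_mul_left r this
        omega
      have hq2 : q < 2 := by
        by_contra hq3
        have : r * 2 ≤ r * q := Nat.mul_le_mul_left r (by omega)
        omega
      omega

theorem c6e_order_r_noncomm {F : Type*} [Field F] {n r : ℕ} (hr : r.Prime) (hr5 : 5 ≤ r)
    (g a u : GL (Fin n) F) (hg : g ^ r = 1) (hag : Commute a g) (hu : u⁻¹ * g * u = a * g)
    (ξ : F) (hξ : IsPrimitiveRoot ξ r) (hua : (u * a * u⁻¹ : GL (Fin n) F).val = ξ • a.val)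
    (hbound : ∀ μ : F,
      r * finrank F (Module.End.eigenspace (Matrix.toLin' (a : Matrix (Fin n) (Fin n) F)) μ) ≤ n)
    (c : F) :
    2 * finrank F (Module.End.eigenspace (Matrix.toLin' (g : Matrix (Fin n) (Fin n) F)) c) ≤ n := by
  classical
  by_cases hc0 : c = 0
  · rw [hc0, c6e_eig_zero]
    omega
  have hξ0 : ξ ≠ 0 := hξ.ne_zero (by omega)
  have har : a ^ r = 1 := c6e_a_pow g a u r hg hag hu
  have hAG : (a : Matrix (Fin n) (Fin n) F) * (g : Matrix (Fin n) (Fin n) F) =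
      (g : Matrix (Fin n) (Fin n) F) * (a : Matrix (Fin n) (Fin n) F) := by
    rw [← Units.val_mul, ← Units.val_mul, hag.eq]
  have hGU : (g : Matrix (Fin n) (Fin n) F) * (u : Matrix (Fin n) (Fin n) F) =
      (u : Matrix (Fin n) (Fin n) F) * (a : Matrix (Fin n) (Fin n) F) *
        (g : Matrix (Fin n) (Fin n) F) := by
    rw [← Units.val_mul, ← Units.val_mul, ← Units.val_mul]
    congr 1
    calc g * u = u * (u⁻¹ * g * u) := by group
      _ = u * a * g := by rw [hu]; group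
  have hAU : (a : Matrix (Fin n) (Fin n) F) * (u : Matrix (Fin n) (Fin n) F) =
      ξ⁻¹ • ((u : Matrix (Fin n) (Fin n) F) * (a : Matrix (Fin n) (Fin n) F)) := by
    have h1 : (u : Matrix (Fin n) (Fin n) F) * (a : Matrix (Fin n) (Fin n) F) =
        ξ • ((a : Matrix (Fin n) (Fin n) F) * (u : Matrix (Fin n) (Fin n) F)) := by
      have h2 : u * a = (u * a * u⁻¹) * u := by group
      rw [← Units.val_mul, h2, Units.val_mul, hua, Matrix.smul_mul]
    rw [h1, smul_smul, inv_mul_cancel₀ hξ0, one_smul]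
  have hAr : (Matrix.toLin' (a : Matrix (Fin n) (Fin n) F)) ^ r = 1 := by
    rw [← Matrix.toLin'_pow, ← Units.val_pow_eq_pow_val, har, Units.val_one, Matrix.toLin'_one]
    rfl
  obtain ⟨W, hW⟩ : ∃ W : Submodule F (Fin n → F),
      W = Module.End.eigenspace (Matrix.toLin' (g : Matrix (Fin n) (Fin n) F)) c := ⟨_, rfl⟩
  have hWinv : ∀ w ∈ W, Matrix.toLin' (a : Matrix (Fin n) (Fin n) F) w ∈ W := by
    intro w hw
    rw [hW, Module.End.mem_eigenspace_iff, Matrix.toLin'_apply] at hw ⊢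
    rw [Matrix.toLin'_apply, Matrix.mulVec_mulVec, ← hAG, ← Matrix.mulVec_mulVec, hw,
      Matrix.mulVec_smul]
  have hdec := Helper14.c6e_decomp hr.pos _ hAr ξ hξ W hWinv
  have hstep : ∀ (lam mu : F) (v : Fin n → F),
      v ∈ Module.End.eigenspace (Matrix.toLin' (a : Matrix (Fin n) (Fin n) F)) lam →
      v ∈ Module.End.eigenspace (Matrix.toLin' (g : Matrix (Fin n) (Fin n) F)) mu →
      (u : Matrix (Fin n) (Fin n) F) *ᵥ v ∈
        Module.End.eigenspace (Matrix.toLin' (a : Matrix (Fin n) (Fin n) F)) (ξ⁻¹ * lam) ∧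
      (u : Matrix (Fin n) (Fin n) F) *ᵥ v ∈
        Module.End.eigenspace (Matrix.toLin' (g : Matrix (Fin n) (Fin n) F)) (lam * mu) := by
    intro lam mu v hva hvg
    rw [Module.End.mem_eigenspace_iff, Matrix.toLin'_apply] at hva hvg
    constructor
    · rw [Module.End.mem_eigenspace_iff, Matrix.toLin'_apply, Matrix.mulVec_mulVec, hAU,
        Matrix.smul_mulVec, ← Matrix.mulVec_mulVec, hva, Matrix.mulVec_smul, smul_smul]
    · rw [Module.End.mem_eigenspace_iff, Matrix.toLin'_apply, Matrix.mulVec_mulVec, hGU,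
        ← Matrix.mulVec_mulVec, ← Matrix.mulVec_mulVec, hvg, Matrix.mulVec_smul, hva,
        Matrix.mulVec_smul, Matrix.mulVec_smul, smul_smul, mul_comm]
  have hind : ∀ k i : ℕ, ∀ v : Fin n → F,
      v ∈ Module.End.eigenspace (Matrix.toLin' (a : Matrix (Fin n) (Fin n) F)) (ξ ^ k) →
      v ∈ Module.End.eigenspace (Matrix.toLin' (g : Matrix (Fin n) (Fin n) F)) c →
      ((u : Matrix (Fin n) (Fin n) F) ^ i) *ᵥ v ∈
        Module.End.eigenspace (Matrix.toLin' (a : Matrix (Fin n) (Fin n) F))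
          (ξ ^ k * ξ⁻¹ ^ i) ∧
      ((u : Matrix (Fin n) (Fin n) F) ^ i) *ᵥ v ∈
        Module.End.eigenspace (Matrix.toLin' (g : Matrix (Fin n) (Fin n) F))
          (c * ξ ^ (k * i) * ξ⁻¹ ^ (∑ j ∈ Finset.range i, j)) := by
    intro k i
    induction i with
    | zero =>
      intro v hva hvg
      simp only [pow_zero, mul_one, Matrix.one_mulVec, Nat.mul_zero, Finset.range_zero,
        Finset.sum_empty]
      exact ⟨hva, hvg⟩
    | succ i ih =>
      intro v hva hvg
      obtain ⟨h1, h2⟩ := ih v hva hvg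
      obtain ⟨h3, h4⟩ := hstep _ _ _ h1 h2
      rw [pow_succ' (u : Matrix (Fin n) (Fin n) F) i, ← Matrix.mulVec_mulVec]
      constructor
      · convert h3 using 2
        ring
      · convert h4 using 2
        rw [Finset.sum_range_succ, Nat.mul_succ, pow_add, pow_add]
        ring
  have hkey : ∀ k : ℕ,
      finrank F (W ⊓ Module.End.eigenspace (Matrix.toLin' (a : Matrix (Fin n) (Fin n) F))
        (ξ ^ k) : Submodule F (Fin n → F)) ≤
      finrank F (Module.End.eigenspace (Matrix.toLin' (a : Matrix (Fin n) (Fin n) F)) 1 ⊓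
        Module.End.eigenspace (Matrix.toLin' (g : Matrix (Fin n) (Fin n) F))
          (c * ξ ^ (∑ j ∈ Finset.range (k + 1), j)) : Submodule F (Fin n → F)) := by
    intro k
    apply c6e_finrank_le ((u : Matrix (Fin n) (Fin n) F) ^ k) (u.isUnit.pow k)
    intro v hv
    obtain ⟨hvW, hvA⟩ := Submodule.mem_inf.mp hv
    rw [hW] at hvW
    obtain ⟨h1, h2⟩ := hind k k v hvA hvW
    refine Submodule.mem_inf.mpr ⟨?_, ?_⟩
    · convert h1 using 2
      rw [← mul_pow, mul_inv_cancel₀ hξ0, one_pow]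
    · convert h2 using 2
      rw [← c6e_tri k, pow_add, mul_assoc, mul_assoc]
      congr 1
      rw [← mul_pow, mul_inv_cancel₀ hξ0, one_pow, mul_one]
  have hsum : ∑ k ∈ Finset.range r,
      finrank F (Module.End.eigenspace (Matrix.toLin' (a : Matrix (Fin n) (Fin n) F)) 1 ⊓
        Module.End.eigenspace (Matrix.toLin' (g : Matrix (Fin n) (Fin n) F))
          (c * ξ ^ (∑ j ∈ Finset.range (k + 1), j)) : Submodule F (Fin n → F)) ≤
      2 * finrank F (Module.End.eigenspace (Matrix.toLin' (a : Matrix (Fin n) (Fin n) F)) 1) := by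
    rw [← Finset.sum_filter_add_sum_filter_not (Finset.range r) (fun k => 2 * k + 1 ≤ r)]
    have h1 := Helper14.c6e_sum_le (Matrix.toLin' (g : Matrix (Fin n) (Fin n) F))
      (Module.End.eigenspace (Matrix.toLin' (a : Matrix (Fin n) (Fin n) F)) 1)
      ((Finset.range r).filter (fun k => 2 * k + 1 ≤ r))
      (fun k => c * ξ ^ (∑ j ∈ Finset.range (k + 1), j)) (by
        intro k hk k' hk' h
        rw [Finset.mem_coe, Finset.mem_filter, Finset.mem_range] at hk hk'
        exact c6e_tri_inj hr hr5 ξ hξ k k' hk.1 hk'.1 (Or.inl ⟨hk.2, hk'.2⟩)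
          (mul_left_cancel₀ hc0 h))
    have h2 := Helper14.c6e_sum_le (Matrix.toLin' (g : Matrix (Fin n) (Fin n) F))
      (Module.End.eigenspace (Matrix.toLin' (a : Matrix (Fin n) (Fin n) F)) 1)
      ((Finset.range r).filter (fun k => ¬ 2 * k + 1 ≤ r))
      (fun k => c * ξ ^ (∑ j ∈ Finset.range (k + 1), j)) (by
        intro k hk k' hk' h
        rw [Finset.mem_coe, Finset.mem_filter, Finset.mem_range] at hk hk'
        exact c6e_tri_inj hr hr5 ξ hξ k k' hk.1 hk'.1
          (Or.inr ⟨not_le.mp hk.2, not_le.mp hk'.2⟩) (mul_left_cancel₀ hc0 h))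
    linarith
  have hb := hbound 1
  have h3 := Finset.sum_le_sum (fun k (_ : k ∈ Finset.range r) => hkey k)
  rw [← hW]
  have h4 : finrank F W ≤
      2 * finrank F (Module.End.eigenspace (Matrix.toLin' (a : Matrix (Fin n) (Fin n) F)) 1) :=
    le_trans hdec (le_trans h3 hsum)
  nlinarith

end Cfsg.Agent.Helper35
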