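import Mathlib
set_option autoImplicit false

namespace Cfsg.Agent.Helper35

section c6ePolar

variable {G : Type*} [Group G]

/-- Left multiplicativity of the commutator when one factor is central. -/
theorem c6e_cm_mul_left (a b c : G)
    (hz : ∀ x : G, x * (b * c * b⁻¹ * c⁻¹) = (b * c * b⁻¹ * c⁻¹) * x) :
    (a * b) * c * (a * b)⁻¹ * c⁻¹ = (a * c * a⁻¹ * c⁻¹) * (b * c * b⁻¹ * c⁻¹) := by
  calc (a * b) * c * (a * b)⁻¹ * c⁻¹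
      = a * (b * c * b⁻¹ * c⁻¹) * (c * a⁻¹ * c⁻¹) := by group
    _ = (b * c * b⁻¹ * c⁻¹) * a * (c * a⁻¹ * c⁻¹) := by rw [hz a]
    _ = (b * c * b⁻¹ * c⁻¹) * (a * c * a⁻¹ * c⁻¹) := by group
    _ = (a * c * a⁻¹ * c⁻¹) * (b * c * b⁻¹ * c⁻¹) := (hz _).symm

/-- Right multiplicativity of the commutator when one factor is central. -/
theorem c6e_cm_mul_right (a b c : G)
    (hz : ∀ x : G, x * (a * c * a⁻¹ * c⁻¹) = (a * c * a⁻¹ * c⁻¹) * x) :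
    a * (b * c) * a⁻¹ * (b * c)⁻¹ = (a * b * a⁻¹ * b⁻¹) * (a * c * a⁻¹ * c⁻¹) := by
  calc a * (b * c) * a⁻¹ * (b * c)⁻¹
      = a * b * a⁻¹ * (a * c * a⁻¹ * c⁻¹) * b⁻¹ := by group
    _ = a * b * a⁻¹ * ((a * c * a⁻¹ * c⁻¹) * b⁻¹) := by rw [mul_assoc]
    _ = a * b * a⁻¹ * (b⁻¹ * (a * c * a⁻¹ * c⁻¹)) := by rw [hz b⁻¹]
    _ = (a * b * a⁻¹ * b⁻¹) * (a * c * a⁻¹ * c⁻¹) := by group

/-- Commutator with an inverse on the right. -/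
theorem c6e_cm_inv_right (a b : G)
    (hz : ∀ x : G, x * (a * b * a⁻¹ * b⁻¹) = (a * b * a⁻¹ * b⁻¹) * x) :
    a * b⁻¹ * a⁻¹ * b⁻¹⁻¹ = (a * b * a⁻¹ * b⁻¹)⁻¹ := by
  have h1 := c6e_cm_mul_right a b⁻¹ b hz
  have h2 : a * (b⁻¹ * b) * a⁻¹ * (b⁻¹ * b)⁻¹ = 1 := by group
  rw [h2] at h1
  exact eq_inv_of_mul_eq_one_left h1.symm

/-- Commutator with an inverse on the left. -/
theorem c6e_cm_inv_left (a b : G)
    (hz : ∀ x : G, x * (a * b * a⁻¹ * b⁻¹) = (a * b * a⁻¹ * b⁻¹) * x) :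
    a⁻¹ * b * a⁻¹⁻¹ * b⁻¹ = (a * b * a⁻¹ * b⁻¹)⁻¹ := by
  have h1 := c6e_cm_mul_left a⁻¹ a b hz
  have h2 : (a⁻¹ * a) * b * (a⁻¹ * a)⁻¹ * b⁻¹ = 1 := by group
  rw [h2] at h1
  exact eq_inv_of_mul_eq_one_left h1.symm

/-- The coprime lemma: if conjugation by `g` fixes `N w` modulo the centre, `N w` is central. -/
theorem c6e_coprime (M Z : Subgroup G) (hZc : ∀ z ∈ Z, ∀ x : G, x * z = z * x)
    (m ϖ : ℕ) (hcop : Nat.Coprime m ϖ) (hexp : ∀ x ∈ M, x ^ m ∈ Z) (g : G) (hgϖ : g ^ ϖ = 1)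
    (w : G) (hu : w⁻¹ * g * w * g⁻¹ ∈ M)
    (hs : g * (w⁻¹ * g * w * g⁻¹) * g⁻¹ * (w⁻¹ * g * w * g⁻¹)⁻¹ ∈ Z) :
    w⁻¹ * g * w * g⁻¹ ∈ Z := by
  obtain ⟨u, hudef⟩ : ∃ u : G, u = w⁻¹ * g * w * g⁻¹ := ⟨_, rfl⟩
  rw [← hudef] at hu hs ⊢
  obtain ⟨s, hsdef⟩ : ∃ s : G, s = g * u * g⁻¹ * u⁻¹ := ⟨_, rfl⟩
  rw [← hsdef] at hs
  have hgu : g * u * g⁻¹ = s * u := by rw [hsdef]; group
  have hgw : g * w * g⁻¹ = w * u := by rw [hudef]; group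
  have hsu : Commute s u := (hZc s hs u).symm
  have key : ∀ k : ℕ, ∃ t ∈ Z, g ^ k * w * (g ^ k)⁻¹ = w * u ^ k * t := by
    intro k
    induction k with
    | zero => exact ⟨1, Z.one_mem, by simp⟩
    | succ k ih =>
      obtain ⟨t, ht, hk⟩ := ih
      refine ⟨s ^ k * t, Z.mul_mem (Z.pow_mem hs k) ht, ?_⟩
      have h1 : g ^ (k + 1) * w * (g ^ (k + 1))⁻¹ = g * (g ^ k * w * (g ^ k)⁻¹) * g⁻¹ := by
        rw [pow_succ']
        group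
      have h2 : g * (w * u ^ k * t) * g⁻¹ = (g * w * g⁻¹) * (g * u * g⁻¹) ^ k * (g * t * g⁻¹) := by
        rw [conj_pow]
        group
      have h3 : g * t * g⁻¹ = t := by
        rw [hZc t ht g, mul_assoc, mul_inv_cancel, mul_one]
      rw [h1, hk, h2, hgw, hgu, h3, hsu.mul_pow, pow_succ]
      have h4 : u ^ k * s ^ k = s ^ k * u ^ k := ((hsu.pow_pow k k).eq).symm
      calc w * u * (s ^ k * u ^ k) * t = w * u * s ^ k * u ^ k * t := by group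
        _ = w * (u * s ^ k) * u ^ k * t := by group
        _ = w * (s ^ k * u) * u ^ k * t := by rw [(hsu.pow_left k).eq]
        _ = w * s ^ k * (u * u ^ k) * t := by group
        _ = w * s ^ k * (u ^ k * u) * t := by rw [(Commute.pow_right (Commute.refl u) k).eq]
        _ = w * (s ^ k * u ^ k) * u * t := by group
        _ = w * (u ^ k * s ^ k) * u * t := by rw [h4]
        _ = w * u ^ k * (s ^ k * u) * t := by group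
        _ = w * u ^ k * (u * s ^ k) * t := by rw [(hsu.pow_left k).eq]
        _ = w * (u ^ k * u) * (s ^ k * t) := by group
  obtain ⟨t, ht, hk⟩ := key ϖ
  rw [hgϖ] at hk
  have hupow : u ^ ϖ ∈ Z := by
    have h1 : u ^ ϖ = t⁻¹ := by
      have h2 : w * (u ^ ϖ * t) = w * 1 := by
        rw [mul_one, ← mul_assoc, ← hk]
        group
      have h3 := mul_left_cancel h2
      exact eq_inv_of_mul_eq_one_left h3
    rw [h1]
    exact Z.inv_mem ht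
  have hum : u ^ m ∈ Z := hexp u hu
  have hbez := Nat.gcd_eq_gcd_ab m ϖ
  rw [hcop] at hbez
  have h5 : u = (u ^ m) ^ (Nat.gcdA m ϖ) * (u ^ ϖ) ^ (Nat.gcdB m ϖ) := by
    rw [← zpow_natCast u m, ← zpow_natCast u ϖ, ← zpow_mul, ← zpow_mul, ← zpow_add, ← hbez]
    simp
  rw [h5]
  exact Z.mul_mem (Z.zpow_mem hum _) (Z.zpow_mem hupow _)

/-- From a trivial commutator to commutation. -/
theorem c6e_comm_of_cm (a b : G) (h : a * b * a⁻¹ * b⁻¹ = 1) : a * b = b * a := by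
  calc a * b = (a * b * a⁻¹ * b⁻¹) * (b * a) := by group
    _ = b * a := by rw [h, one_mul]

/-- From commutation to a trivial commutator. -/
theorem c6e_cm_of_comm (a b : G) (h : a * b = b * a) : a * b * a⁻¹ * b⁻¹ = 1 := by
  rw [h]
  group

/-- Cancelling a central factor in a commutation relation. -/
theorem c6e_central_cancel (z p q : G) (hz : ∀ x : G, x * z = z * x)
    (h : z * p * (z * q) = z * q * (z * p)) : p * q = q * p := by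
  have h1 : z * p * (z * q) = z * z * (p * q) := by
    calc z * p * (z * q) = z * (p * z) * q := by group
      _ = z * (z * p) * q := by rw [hz p]
      _ = z * z * (p * q) := by group
  have h2 : z * q * (z * p) = z * z * (q * p) := by
    calc z * q * (z * p) = z * (q * z) * p := by group
      _ = z * (z * q) * p := by rw [hz q]
      _ = z * z * (q * p) := by group
  rw [h1, h2] at h
  exact mul_left_cancel h

theorem c6e_polar (M Z : Subgroup G) (hZM : Z ≤ M)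
    (hZc : ∀ z ∈ Z, ∀ x : G, x * z = z * x)
    (hcomm : ∀ x ∈ M, ∀ y ∈ M, x * y * x⁻¹ * y⁻¹ ∈ Z)
    (hcent : ∀ h ∈ M, (∀ x ∈ M, x * h = h * x) → h ∈ Z)
    (m ϖ : ℕ) (hcop : Nat.Coprime m ϖ) (hodd : Odd ϖ)
    (hexp : ∀ x ∈ M, x ^ m ∈ Z)
    (g : G) (hgM : ∀ x, x ∈ M ↔ g * x * g⁻¹ ∈ M) (hgϖ : g ^ ϖ = 1)
    (hH : ∀ x ∈ M, Commute (x⁻¹ * g * x * g⁻¹) (g * (x⁻¹ * g * x * g⁻¹) * g⁻¹)) :
    ∀ y ∈ M, y⁻¹ * g * y * g⁻¹ ∈ Z := by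
  have hφM : ∀ x ∈ M, g * x * g⁻¹ ∈ M := fun x hx => (hgM x).mp hx
  have hψM : ∀ x ∈ M, g⁻¹ * x * g ∈ M := by
    intro x hx
    apply (hgM _).mpr
    have h1 : g * (g⁻¹ * x * g) * g⁻¹ = x := by group
    rw [h1]
    exact hx
  have hNM : ∀ x ∈ M, x⁻¹ * g * x * g⁻¹ ∈ M := by
    intro x hx
    have h1 : x⁻¹ * g * x * g⁻¹ = x⁻¹ * (g * x * g⁻¹) := by group
    rw [h1]
    exact M.mul_mem (M.inv_mem hx) (hφM x hx)
  have hcz : ∀ a ∈ M, ∀ b ∈ M, ∀ x : G,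
      x * (a * b * a⁻¹ * b⁻¹) = (a * b * a⁻¹ * b⁻¹) * x :=
    fun a ha b hb x => hZc _ (hcomm a ha b hb) x
  have hgz : ∀ z ∈ Z, g * z * g⁻¹ = z := by
    intro z hz
    rw [hZc z hz g, mul_assoc, mul_inv_cancel, mul_one]
  have hinv : ∀ a ∈ M, ∀ b ∈ M,
      (g * a * g⁻¹) * (g * b * g⁻¹) * (g * a * g⁻¹)⁻¹ * (g * b * g⁻¹)⁻¹ = a * b * a⁻¹ * b⁻¹ := by
    intro a ha b hb
    have h1 : (g * a * g⁻¹) * (g * b * g⁻¹) * (g * a * g⁻¹)⁻¹ * (g * b * g⁻¹)⁻¹ =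
        g * (a * b * a⁻¹ * b⁻¹) * g⁻¹ := by group
    rw [h1]
    exact hgz _ (hcomm a ha b hb)
  -- polarisation
  have hP : ∀ a ∈ M, ∀ b ∈ M,
      Commute a (g * a * g⁻¹) → Commute b (g * b * g⁻¹) →
      Commute (a * b) ((g * a * g⁻¹) * (g * b * g⁻¹)) →
      (a * (g * b * g⁻¹) * a⁻¹ * (g * b * g⁻¹)⁻¹) * (b * (g * a * g⁻¹) * b⁻¹ * (g * a * g⁻¹)⁻¹)
        = 1 := by
    intro a ha b hb hca hcb hcab
    obtain ⟨a', ha'⟩ : ∃ a' : G, a' = g * a * g⁻¹ := ⟨_, rfl⟩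
    obtain ⟨b', hb'⟩ : ∃ b' : G, b' = g * b * g⁻¹ := ⟨_, rfl⟩
    rw [← ha'] at hca hcab ⊢
    rw [← hb'] at hcb hcab ⊢
    have ha'M : a' ∈ M := ha' ▸ hφM a ha
    have hb'M : b' ∈ M := hb' ▸ hφM b hb
    have h1 : (a * b) * (a' * b') * (a * b)⁻¹ * (a' * b')⁻¹ = 1 := c6e_cm_of_comm _ _ hcab.eq
    rw [c6e_cm_mul_left a b (a' * b') (hcz b hb _ (M.mul_mem ha'M hb'M)),
      c6e_cm_mul_right a a' b' (hcz a ha b' hb'M),
      c6e_cm_mul_right b a' b' (hcz b hb b' hb'M),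
      c6e_cm_of_comm a a' hca.eq, c6e_cm_of_comm b b' hcb.eq, one_mul, mul_one] at h1
    exact h1
  intro y hy
  obtain ⟨v, hv⟩ : ∃ v : G, v = y⁻¹ * g * y * g⁻¹ := ⟨_, rfl⟩
  rw [← hv]
  have hvM : v ∈ M := hv ▸ hNM y hy
  obtain ⟨A, hA⟩ : ∃ A : G, A = g⁻¹ * v * g := ⟨_, rfl⟩
  obtain ⟨B, hB⟩ : ∃ B : G, B = g * v * g⁻¹ := ⟨_, rfl⟩
  have hAM : A ∈ M := hA ▸ hψM v hvM
  have hBM : B ∈ M := hB ▸ hφM v hvM
  have hgA : g * A * g⁻¹ = v := by rw [hA]; group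
  obtain ⟨h, hh⟩ : ∃ h : G, h = B * A⁻¹ := ⟨_, rfl⟩
  have hhM : h ∈ M := hh ▸ M.mul_mem hBM (M.inv_mem hAM)
  have hcv : Commute v B := by
    have := hH y hy
    rw [← hv, ← hB] at this
    exact this
  -- Step Q: ψ(h) h⁻¹ is central in M
  have hQ : g⁻¹ * h * g * h⁻¹ ∈ Z := by
    apply hcent _ (M.mul_mem (hψM h hhM) (M.inv_mem hhM))
    intro x hx
    obtain ⟨a, ha⟩ : ∃ a : G, a = x⁻¹ * g * x * g⁻¹ := ⟨_, rfl⟩
    have haM : a ∈ M := ha ▸ hNM x hx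
    have hca : Commute a (g * a * g⁻¹) := by
      have := hH x hx
      rw [← ha] at this
      exact this
    have hcab : Commute (a * v) ((g * a * g⁻¹) * (g * v * g⁻¹)) := by
      -- N(x y) = z * (a * v) with z central
      obtain ⟨z, hz⟩ : ∃ z : G, z = y⁻¹ * a * y⁻¹⁻¹ * a⁻¹ := ⟨_, rfl⟩
      have hzZ : z ∈ Z := hz ▸ hcomm _ (M.inv_mem hy) a haM
      have hNxy : (x * y)⁻¹ * g * (x * y) * g⁻¹ = z * (a * v) := by
        rw [hz, ha, hv]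
        group
      have hφNxy : g * ((x * y)⁻¹ * g * (x * y) * g⁻¹) * g⁻¹ =
          z * ((g * a * g⁻¹) * (g * v * g⁻¹)) := by
        rw [hNxy]
        have h1 : g * (z * (a * v)) * g⁻¹ = (g * z * g⁻¹) * ((g * a * g⁻¹) * (g * v * g⁻¹)) := by
          group
        rw [h1, hgz z hzZ]
      have h0 := (hH (x * y) (M.mul_mem hx hy)).eq
      rw [hφNxy, hNxy] at h0
      exact c6e_central_cancel z _ _ (hZc z hzZ) h0
    have h1 := hP a haM v hvM hca (hB ▸ hcv) hcab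
    rw [← hB] at h1
    -- cm(a, h) = 1
    have h2 : a * h * a⁻¹ * h⁻¹ = 1 := by
      rw [hh, c6e_cm_mul_right a B A⁻¹ (hcz a haM _ (M.inv_mem hAM)),
        c6e_cm_inv_right a A (hcz a haM A hAM)]
      have h3 : a * A * a⁻¹ * A⁻¹ = (v * (g * a * g⁻¹) * v⁻¹ * (g * a * g⁻¹)⁻¹)⁻¹ := by
        rw [← hinv a haM A hAM, hgA]
        group
      rw [h3, inv_inv]
      exact h1
    -- cm(g x g⁻¹, h) = cm(x, h)
    have h4 : (g * x * g⁻¹) * h * (g * x * g⁻¹)⁻¹ * h⁻¹ = x * h * x⁻¹ * h⁻¹ := by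
      have h5 : g * x * g⁻¹ = x * a := by rw [ha]; group
      rw [h5, c6e_cm_mul_left x a h (hcz a haM h hhM), h2, mul_one]
    -- cm(x, ψ h) = cm(g x g⁻¹, h)
    have h6 : x * (g⁻¹ * h * g) * x⁻¹ * (g⁻¹ * h * g)⁻¹ = x * h * x⁻¹ * h⁻¹ := by
      rw [← hinv x hx _ (hψM h hhM)]
      have h7 : g * (g⁻¹ * h * g) * g⁻¹ = h := by group
      rw [h7, h4]
    apply c6e_comm_of_cm
    rw [c6e_cm_mul_right x (g⁻¹ * h * g) h⁻¹ (hcz x hx _ (M.inv_mem hhM)),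
      c6e_cm_inv_right x h (hcz x hx h hhM), h6, mul_inv_cancel]
  -- N(w) ≡ h for w = v * A
  obtain ⟨w, hw⟩ : ∃ w : G, w = v * A := ⟨_, rfl⟩
  have hwM : w ∈ M := hw ▸ M.mul_mem hvM hAM
  have hNw : w⁻¹ * g * w * g⁻¹ =
      ((v⁻¹ * B * v⁻¹⁻¹ * B⁻¹) * (A⁻¹ * B * A⁻¹⁻¹ * B⁻¹)) * h := by
    have h1 : w⁻¹ * g * w * g⁻¹ = A⁻¹ * (v⁻¹ * B * v⁻¹⁻¹ * B⁻¹) * (B * A * B⁻¹) * h := by
      rw [hw, hh, hB, hA]
      group
    have h2 : A⁻¹ * (v⁻¹ * B * v⁻¹⁻¹ * B⁻¹) = (v⁻¹ * B * v⁻¹⁻¹ * B⁻¹) * A⁻¹ :=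
      hcz _ (M.inv_mem hvM) B hBM A⁻¹
    rw [h1, h2]
    group
  obtain ⟨z', hz'⟩ : ∃ z' : G, z' = (v⁻¹ * B * v⁻¹⁻¹ * B⁻¹) * (A⁻¹ * B * A⁻¹⁻¹ * B⁻¹) := ⟨_, rfl⟩
  have hz'Z : z' ∈ Z := hz' ▸ Z.mul_mem (hcomm _ (M.inv_mem hvM) B hBM)
    (hcomm _ (M.inv_mem hAM) B hBM)
  rw [← hz'] at hNw
  -- φ(h) h⁻¹ ∈ Z
  have hφh : g * h * g⁻¹ * h⁻¹ ∈ Z := by
    obtain ⟨t, ht⟩ : ∃ t : G, t = g⁻¹ * h * g * h⁻¹ := ⟨_, rfl⟩
    have htZ : t ∈ Z := ht ▸ hQ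
    have h1 : g⁻¹ * h * g = t * h := by rw [ht]; group
    have h2 : g * h * g⁻¹ * h⁻¹ = t⁻¹ := by
      have h3 : h = g * (g⁻¹ * h * g) * g⁻¹ := by group
      have h4 : h = t * (g * h * g⁻¹) := by
        conv_lhs => rw [h3, h1]
        have h5 : g * (t * h) * g⁻¹ = (g * t * g⁻¹) * (g * h * g⁻¹) := by group
        rw [h5, hgz t htZ]
      have h6 : t * (g * h * g⁻¹ * h⁻¹) = 1 := by
        calc t * (g * h * g⁻¹ * h⁻¹) = (t * (g * h * g⁻¹)) * h⁻¹ := by group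
          _ = h * h⁻¹ := by rw [← h4]
          _ = 1 := mul_inv_cancel h
      exact eq_inv_of_mul_eq_one_right h6
    rw [h2]
    exact Z.inv_mem htZ
  -- Lemma L for w
  have hNwZ : w⁻¹ * g * w * g⁻¹ ∈ Z := by
    apply c6e_coprime M Z hZc m ϖ hcop hexp g hgϖ w (hNM w hwM)
    rw [hNw]
    have h1 : g * (z' * h) * g⁻¹ * (z' * h)⁻¹ = (g * z' * g⁻¹) * (g * h * g⁻¹ * h⁻¹) * z'⁻¹ := by
      group
    rw [h1, hgz z' hz'Z]
    exact Z.mul_mem (Z.mul_mem hz'Z hφh) (Z.inv_mem hz'Z)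
  have hhZ : h ∈ Z := by
    have h1 : h = z'⁻¹ * (w⁻¹ * g * w * g⁻¹) := by rw [hNw]; group
    rw [h1]
    exact Z.mul_mem (Z.inv_mem hz'Z) hNwZ
  -- φ²(v) = s v
  have he : (g ^ 2) * v * (g ^ 2)⁻¹ = h * v := by
    have hBh : B = h * A := by rw [hh]; group
    have h1 : (g ^ 2) * v * (g ^ 2)⁻¹ = g * B * g⁻¹ := by
      rw [hB, pow_two, mul_inv_rev]
      simp only [mul_assoc]
    have h2 : g * (h * A) * g⁻¹ = (g * h * g⁻¹) * (g * A * g⁻¹) := by group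
    rw [h1, hBh, h2, hgz h hhZ, hgA]
  have hek : ∀ k : ℕ, (g ^ 2) ^ k * v * ((g ^ 2) ^ k)⁻¹ = h ^ k * v := by
    intro k
    induction k with
    | zero => simp
    | succ k ih =>
      have h1 : (g ^ 2) ^ (k + 1) * v * ((g ^ 2) ^ (k + 1))⁻¹ =
          (g ^ 2) * ((g ^ 2) ^ k * v * ((g ^ 2) ^ k)⁻¹) * (g ^ 2)⁻¹ := by
        rw [pow_succ']
        group
      have h2 : (g ^ 2) * (h ^ k * v) * (g ^ 2)⁻¹ =
          ((g ^ 2) * h ^ k * (g ^ 2)⁻¹) * ((g ^ 2) * v * (g ^ 2)⁻¹) := by group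
      have h3 : (g ^ 2) * h ^ k * (g ^ 2)⁻¹ = h ^ k := by
        rw [hZc (h ^ k) (Z.pow_mem hhZ k) (g ^ 2), mul_assoc, mul_inv_cancel, mul_one]
      rw [h1, ih, h2, h3, he, pow_succ]
      group
  obtain ⟨k, hk⟩ := hodd
  have hgk : (g ^ 2) ^ k = g⁻¹ := by
    rw [← pow_mul]
    have h1 : g ^ (2 * k) * g = 1 := by
      rw [← pow_succ, ← hk]
      exact hgϖ
    exact eq_inv_of_mul_eq_one_left h1
  have h7 := hek k
  rw [hgk, inv_inv] at h7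
  -- g⁻¹ v g = h^k v  ⇒  φ(v) v⁻¹ ∈ Z
  have h8 : g * v * g⁻¹ * v⁻¹ = (h ^ k)⁻¹ := by
    have h9 : v = g * (g⁻¹ * v * g) * g⁻¹ := by group
    have h10 : v = h ^ k * (g * v * g⁻¹) := by
      conv_lhs => rw [h9, h7]
      have h11 : g * (h ^ k * v) * g⁻¹ = (g * h ^ k * g⁻¹) * (g * v * g⁻¹) := by group
      rw [h11, hgz _ (Z.pow_mem hhZ k)]
    have h12 : h ^ k * (g * v * g⁻¹ * v⁻¹) = 1 := by
      calc h ^ k * (g * v * g⁻¹ * v⁻¹) = (h ^ k * (g * v * g⁻¹)) * v⁻¹ := by group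
        _ = v * v⁻¹ := by rw [← h10]
        _ = 1 := mul_inv_cancel v
    exact eq_inv_of_mul_eq_one_right h12
  have hfin : y⁻¹ * g * y * g⁻¹ ∈ Z := by
    apply c6e_coprime M Z hZc m ϖ hcop hexp g hgϖ y (hNM y hy)
    rw [← hv, h8]
    exact Z.inv_mem (Z.pow_mem hhZ k)
  rw [hv]
  exact hfin

end c6ePolar

end Cfsg.Agent.Helper35
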