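import Cfsg.Agent.Helper35.C6eT
import Cfsg.Agent.Helper35.C6eO1
import Cfsg.Agent.Helper35.C6eP
import Cfsg.Agent.Helper14.C6eEIG
import Cfsg.Agent.Helper80.C6eINT
import Cfsg.Agent.Helper51.C6eFIX
import Cfsg.Agent.Helper14.C6eORD0
set_option autoImplicit false
open Cfsg Cfsg.Geo Matrix Module
open scoped commutatorElement

namespace Cfsg.Agent.Helper35


/-- The assembled eigenspace bounds. -/
theorem c6e_main {F : Type*} [Field F] [Fintype F] {n r ϖ : ℕ} (R : Subgroup (GL (Fin n) F))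
    (hr : r.Prime) (hR : IsPGroup r R) (hZ : Nat.card (Subgroup.center R) = r)
    (hext : commutator R = Subgroup.center R)
    (hirr : ActsAbsolutelyIrreducibly (matrixSet R)) (g : GL (Fin n) F)
    (hg : g ∈ subgroupNormalizer (R ⊔ scalars (Fin n) F)) (hϖ : ϖ.Prime) (hord : orderOf g = ϖ)
    (hns : g ∉ scalars (Fin n) F) (c : F) :
    (ϖ = 2 → 4 * finrank F (Module.End.eigenspace (Matrix.toLin' (g : Matrix (Fin n) (Fin n) F)) c)
      ≤ 3 * n) ∧
    (ϖ = 3 → 3 * finrank F (Module.End.eigenspace (Matrix.toLin' (g : Matrix (Fin n) (Fin n) F)) c)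
      ≤ 2 * n) ∧
    (3 < ϖ → 2 * finrank F (Module.End.eigenspace (Matrix.toLin' (g : Matrix (Fin n) (Fin n) F)) c)
      ≤ n) ∧
    (ϖ = 3 → ¬ 3 ∣ n →
      2 * finrank F (Module.End.eigenspace (Matrix.toLin' (g : Matrix (Fin n) (Fin n) F)) c) ≤ n) := by
  classical
  have hn0 : n ≠ 0 := by
    rintro rfl
    exact hns (c6e_deg_zero g)
  have : NeZero n := ⟨hn0⟩
  obtain ⟨M, hM⟩ : ∃ M : Subgroup (GL (Fin n) F), M = R ⊔ scalars (Fin n) F := ⟨_, rfl⟩
  have hRM : R ≤ M := by rw [hM]; exact le_sup_left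
  have hZM : scalars (Fin n) F ≤ M := by rw [hM]; exact le_sup_right
  have hgM : ∀ x, x ∈ M ↔ g * x * g⁻¹ ∈ M := by
    have h1 : g ∈ Subgroup.normalizer ((R ⊔ scalars (Fin n) F : Subgroup (GL (Fin n) F)) :
        Set (GL (Fin n) F)) := hg
    rw [Subgroup.mem_normalizer_iff] at h1
    rw [hM]
    exact h1
  have hγM : ∀ x ∈ M, x⁻¹ * g * x * g⁻¹ ∈ M := by
    intro x hx
    have h1 : x⁻¹ * g * x * g⁻¹ = x⁻¹ * (g * x * g⁻¹) := by group
    rw [h1]
    exact M.mul_mem (M.inv_mem hx) ((hgM x).mp hx)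
  have hZc : ∀ z ∈ scalars (Fin n) F, ∀ x : GL (Fin n) F, x * z = z * x :=
    fun z hz x => (Helper97.scalars_comm hz x).symm
  have hgϖ : g ^ ϖ = 1 := by rw [← hord]; exact pow_orderOf_eq_one g
  -- a non-trivial `γ`
  obtain ⟨x0, hx0R, hx0⟩ : ∃ x ∈ R, x⁻¹ * g * x * g⁻¹ ≠ 1 := by
    by_contra hcon
    push Not at hcon
    apply hns
    apply c6e_cent R hirr
    intro x hx
    have h1 := hcon x hx
    calc x * g = x * (x⁻¹ * g * x * g⁻¹) * g := by rw [h1, mul_one]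
      _ = g * x := by group
  obtain ⟨d, hd⟩ : ∃ d : ℕ, d = finrank F
      (Module.End.eigenspace (Matrix.toLin' (g : Matrix (Fin n) (Fin n) F)) c) := ⟨_, rfl⟩
  rw [← hd]
  -- scalar case
  have K1 : ∀ x : GL (Fin n) F, x⁻¹ * g * x * g⁻¹ ∈ scalars (Fin n) F → x⁻¹ * g * x * g⁻¹ ≠ 1 →
      2 * d ≤ n := by
    intro x hxs hx1
    have h1 := Helper80.c6e_inter g x c
    rw [c6e_eig_scalar _ hxs hx1, bot_inf_eq, finrank_bot, ← hd] at h1
    exact h1
  -- non-scalar case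
  have K2 : ∀ a ∈ M, a ∉ scalars (Fin n) F → ∀ μ : F,
      r * finrank F (Module.End.eigenspace (Matrix.toLin' (a : Matrix (Fin n) (Fin n) F)) μ) ≤ n := by
    intro a haM has μ
    obtain ⟨z, -, ξ, hξ1, hξr, hc⟩ := c6e_twist R hZ hext hirr a (hM ▸ haM) has
    exact Helper14.c6e_eig_bound hr a z ξ hξ1 hξr hc μ
  -- non-commuting case
  have K3 : ∀ x ∈ M, ¬ Commute (x⁻¹ * g * x * g⁻¹) (g * (x⁻¹ * g * x * g⁻¹) * g⁻¹) →
      2 * d ≤ n := by
    intro x hx hnc
    have h1 := Helper80.c6e_inter g x c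
    have h2 := c6e_eig_noncomm R hZ hext hirr (x⁻¹ * g * x * g⁻¹)
      (g * (x⁻¹ * g * x * g⁻¹) * g⁻¹) (hM ▸ hγM x hx) (hM ▸ (hgM _).mp (hγM x hx)) hnc
    rw [h2, finrank_bot, ← hd] at h1
    exact h1
  -- the general bound
  have GB : 2 * r * d ≤ (r + 1) * n := by
    by_cases hs : x0⁻¹ * g * x0 * g⁻¹ ∈ scalars (Fin n) F
    · have h1 := K1 x0 hs hx0
      nlinarith [hr.pos]
    · have h1 := Helper80.c6e_inter g x0 c
      have h2 := K2 _ (hγM x0 (hRM hx0R)) hs 1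
      have h3 := Submodule.finrank_mono (inf_le_left :
        (Module.End.eigenspace
            (Matrix.toLin' ((x0⁻¹ * g * x0 * g⁻¹ : GL (Fin n) F) : Matrix (Fin n) (Fin n) F)) 1 ⊓
          Module.End.eigenspace
            (Matrix.toLin' ((g * (x0⁻¹ * g * x0 * g⁻¹) * g⁻¹ : GL (Fin n) F) :
              Matrix (Fin n) (Fin n) F)) 1 : Submodule F (Fin n → F)) ≤ _)
      rw [← hd] at h1
      nlinarith [hr.pos]
  -- the coprime odd case
  have COP : Odd ϖ → ϖ ≠ r → 2 * d ≤ n := by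
    intro hodd hne
    by_cases hH : ∀ x ∈ M, Commute (x⁻¹ * g * x * g⁻¹) (g * (x⁻¹ * g * x * g⁻¹) * g⁻¹)
    · have hcop : Nat.Coprime (Nat.card R) ϖ := by
        have : Fact r.Prime := ⟨hr⟩
        obtain ⟨k, hk⟩ := (IsPGroup.iff_card (p := r)).mp hR
        rw [hk]
        exact Nat.Coprime.pow_left k ((Nat.coprime_primes hr hϖ).mpr (Ne.symm hne))
      have h1 := c6e_polar M (scalars (Fin n) F) hZM hZc
        (fun x hx y hy => c6e_comm_mem R hZ hext hirr x y (hM ▸ hx) (hM ▸ hy))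
        (fun h _ hh => c6e_cent R hirr h (fun x hx => hh x (hRM hx)))
        (Nat.card R) ϖ hcop hodd (fun x hx => c6e_pow_mem R x (hM ▸ hx)) g hgM hgϖ hH
      exact K1 x0 (h1 x0 (hRM hx0R)) hx0
    · push Not at hH
      obtain ⟨x, hx, hnc⟩ := hH
      exact K3 x hx hnc
  -- the case `ϖ = r ≥ 5`
  have ORD : ϖ = r → 5 ≤ r → 2 * d ≤ n := by
    intro he h5
    by_cases hsc : ∃ x ∈ M, x⁻¹ * g * x * g⁻¹ ∈ scalars (Fin n) F ∧ x⁻¹ * g * x * g⁻¹ ≠ 1
    · obtain ⟨x, -, hxs, hx1⟩ := hsc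
      exact K1 x hxs hx1
    · push Not at hsc
      obtain ⟨u, huM, hu1, hug⟩ := Helper51.c6e_fixed M (scalars (Fin n) F) hZM hZc hr
        (hM ▸ c6e_index R hr hR) g hgM (he ▸ hgϖ) ⟨x0, hRM hx0R, hx0⟩
      obtain ⟨a, ha⟩ : ∃ a : GL (Fin n) F, a = u⁻¹ * g * u * g⁻¹ := ⟨_, rfl⟩
      rw [← ha] at hu1 hug
      have haM : a ∈ M := ha ▸ hγM u huM
      have has : a ∉ scalars (Fin n) F := by
        intro h
        exact hu1 (ha ▸ hsc u huM (ha ▸ h))
      have hbound := K2 a haM has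
      have hu : u⁻¹ * g * u = a * g := by rw [ha]; group
      have hgr : g ^ r = 1 := he ▸ hgϖ
      obtain ⟨ξ, hξr, hc⟩ := c6e_comm_M R hZ hext hirr u a (hM ▸ huM) (hM ▸ haM)
      have h1 : 2 * finrank F
          (Module.End.eigenspace (Matrix.toLin' (g : Matrix (Fin n) (Fin n) F)) c) ≤ n := by
        by_cases hξ1 : ξ = 1
        · rw [hξ1, one_smul] at hc
          have h2 : u * a * u⁻¹ = a := Units.ext hc
          have hua : Commute u a := by
            show u * a = a * u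
            calc u * a = u * a * u⁻¹ * u := by group
              _ = a * u := by rw [h2]
          obtain ⟨z, -, ζ, hζ1, hζr, -⟩ := c6e_twist R hZ hext hirr a (hM ▸ haM) has
          exact Helper14.c6e_order_r_comm hr h5 g a u hgr hug.symm hu hua hbound ζ
            (c6e_primitive hr ζ hζ1 hζr) c
        · exact c6e_order_r_noncomm hr h5 g a u hgr hug.symm hu ξ
            (c6e_primitive hr ξ hξ1 hξr) hc hbound c
      rw [← hd] at h1
      exact h1
  have hr2 := hr.two_le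
  refine ⟨?_, ?_, ?_, ?_⟩
  · intro _
    nlinarith
  · intro h3
    by_cases hr3 : r = 2
    · have h1 := COP (by rw [h3]; decide) (by rw [h3, hr3]; decide)
      omega
    · have hr3' : 3 ≤ r := by omega
      nlinarith
  · intro h3
    have hodd : Odd ϖ := hϖ.odd_of_ne_two (by omega)
    by_cases he : ϖ = r
    · have h5 : 5 ≤ r := by
        rcases Nat.lt_or_ge r 5 with h | h
        · have h4 : r = 4 := by omega
          rw [h4] at hr
          exact absurd hr (by decide)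
        · exact h
      exact ORD he h5
    · exact COP hodd he
  · intro h3 hdvd
    have hrn := c6e_dvd R hr hZ hext hirr
    have hne : ϖ ≠ r := by
      rintro rfl
      exact hdvd (h3 ▸ hrn)
    exact COP (by rw [h3]; decide) hne

end Cfsg.Agent.Helper35
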