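import Mathlib
import Cfsg.Prelude.Def_GeometricClasses
import Cfsg.Agent.Helper97.Basic
set_option autoImplicit false
open Cfsg Cfsg.Geo Matrix Module
open scoped commutatorElement

namespace Cfsg.Agent.Helper35

variable {F : Type*} [Field F] {n : ℕ}

/-- The centraliser of an absolutely irreducible group consists of scalars. -/
theorem c6e_cent (R : Subgroup (GL (Fin n) F)) (hirr : ActsAbsolutelyIrreducibly (matrixSet R))
    (h : GL (Fin n) F) (hh : ∀ x ∈ R, x * h = h * x) : h ∈ scalars (Fin n) F := by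
  rw [Helper97.scalar_mem_scalars_iff]
  apply hirr.2
  rintro _ ⟨s, hs, rfl⟩
  rw [← Units.val_mul, ← Units.val_mul, hh s hs]

/-- Commutators of `R` are scalars of order dividing `r`. -/
theorem c6e_comm_R [NeZero n] (R : Subgroup (GL (Fin n) F)) {r : ℕ}
    (hZ : Nat.card (Subgroup.center R) = r) (hext : commutator R = Subgroup.center R)
    (hirr : ActsAbsolutelyIrreducibly (matrixSet R)) (x y : GL (Fin n) F) (hx : x ∈ R)
    (hy : y ∈ R) :
    ∃ ξ : F, ξ ^ r = 1 ∧
      (x * y * x⁻¹ * y⁻¹ : GL (Fin n) F).val = ξ • (1 : Matrix (Fin n) (Fin n) F) := by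
  have h1 : (⁅(⟨x, hx⟩ : R), ⟨y, hy⟩⁆ : R) ∈ Subgroup.center R := by
    rw [← hext, _root_.commutator_def]
    exact Subgroup.commutator_mem_commutator (Subgroup.mem_top _) (Subgroup.mem_top _)
  have hval : ((⁅(⟨x, hx⟩ : R), ⟨y, hy⟩⁆ : R) : GL (Fin n) F) = x * y * x⁻¹ * y⁻¹ := by
    rw [commutatorElement_def]
    rfl
  have h2 : (x * y * x⁻¹ * y⁻¹ : GL (Fin n) F) ∈ scalars (Fin n) F := by
    apply c6e_cent R hirr
    intro s hs
    have h3 := congrArg Subtype.val (Subgroup.mem_center_iff.mp h1 ⟨s, hs⟩)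
    rw [Subgroup.coe_mul, Subgroup.coe_mul, hval] at h3
    exact h3
  obtain ⟨ξ, hξ⟩ := (Helper97.scalar_mem_scalars_iff _).mp h2
  refine ⟨ξ, ?_, hξ⟩
  have h4 : (⟨⁅(⟨x, hx⟩ : R), ⟨y, hy⟩⁆, h1⟩ : Subgroup.center R) ^ r = 1 := by
    rw [← hZ]
    exact pow_card_eq_one'
  have h5 : (x * y * x⁻¹ * y⁻¹ : GL (Fin n) F) ^ r = 1 := by
    have h6 := congrArg (fun z : Subgroup.center R => ((z : R) : GL (Fin n) F)) h4
    simp only [Subgroup.coe_pow, Subgroup.coe_one] at h6
    rw [← hval]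
    exact h6
  have h7 := congrArg (fun z : GL (Fin n) F => (z : Matrix (Fin n) (Fin n) F)) h5
  simp only [Units.val_pow_eq_pow_val, Units.val_one] at h7
  rw [hξ, smul_pow, one_pow] at h7
  have h8 := congrFun (congrFun h7 0) 0
  simpa using h8

/-- Conjugation inside `R ⊔ scalars` multiplies by a scalar of order dividing `r`. -/
theorem c6e_comm_M [NeZero n] (R : Subgroup (GL (Fin n) F)) {r : ℕ}
    (hZ : Nat.card (Subgroup.center R) = r) (hext : commutator R = Subgroup.center R)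
    (hirr : ActsAbsolutelyIrreducibly (matrixSet R)) (x y : GL (Fin n) F)
    (hx : x ∈ R ⊔ scalars (Fin n) F) (hy : y ∈ R ⊔ scalars (Fin n) F) :
    ∃ ξ : F, ξ ^ r = 1 ∧ (x * y * x⁻¹ : GL (Fin n) F).val = ξ • y.val := by
  obtain ⟨xR, hxR, s, hs, rfl⟩ := Subgroup.mem_sup_of_normal_right.mp hx
  obtain ⟨yR, hyR, t, ht, rfl⟩ := Subgroup.mem_sup_of_normal_right.mp hy
  obtain ⟨ξ, hξ, hc⟩ := c6e_comm_R R hZ hext hirr xR yR hxR hyR
  refine ⟨ξ, hξ, ?_⟩
  have h1 : xR * s * (yR * t) * (xR * s)⁻¹ = (xR * yR * xR⁻¹ * yR⁻¹) * (yR * t) := by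
    have e1 : s * (yR * t) = (yR * t) * s := Helper97.scalars_comm hs _
    have e2 : t * xR⁻¹ = xR⁻¹ * t := Helper97.scalars_comm ht _
    calc xR * s * (yR * t) * (xR * s)⁻¹ = xR * (s * (yR * t)) * s⁻¹ * xR⁻¹ := by group
      _ = xR * ((yR * t) * s) * s⁻¹ * xR⁻¹ := by rw [e1]
      _ = xR * yR * (t * xR⁻¹) := by group
      _ = xR * yR * (xR⁻¹ * t) := by rw [e2]
      _ = (xR * yR * xR⁻¹ * yR⁻¹) * (yR * t) := by group
  rw [h1, Units.val_mul, hc, Matrix.smul_mul, Matrix.one_mul]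

/-- Commutators of `R ⊔ scalars` are scalar. -/
theorem c6e_comm_mem [NeZero n] (R : Subgroup (GL (Fin n) F)) {r : ℕ}
    (hZ : Nat.card (Subgroup.center R) = r) (hext : commutator R = Subgroup.center R)
    (hirr : ActsAbsolutelyIrreducibly (matrixSet R)) (x y : GL (Fin n) F)
    (hx : x ∈ R ⊔ scalars (Fin n) F) (hy : y ∈ R ⊔ scalars (Fin n) F) :
    x * y * x⁻¹ * y⁻¹ ∈ scalars (Fin n) F := by
  obtain ⟨ξ, -, hc⟩ := c6e_comm_M R hZ hext hirr x y hx hy
  rw [Helper97.scalar_mem_scalars_iff]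
  refine ⟨ξ, ?_⟩
  rw [Units.val_mul, hc, Matrix.smul_mul, ← Units.val_mul, mul_inv_cancel, Units.val_one]

/-- A non-scalar element of `R ⊔ scalars` is twisted by some element of `R`. -/
theorem c6e_twist [NeZero n] (R : Subgroup (GL (Fin n) F)) {r : ℕ}
    (hZ : Nat.card (Subgroup.center R) = r) (hext : commutator R = Subgroup.center R)
    (hirr : ActsAbsolutelyIrreducibly (matrixSet R)) (y : GL (Fin n) F)
    (hy : y ∈ R ⊔ scalars (Fin n) F) (hys : y ∉ scalars (Fin n) F) :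
    ∃ z ∈ R, ∃ ξ : F, ξ ≠ 1 ∧ ξ ^ r = 1 ∧ (z * y * z⁻¹ : GL (Fin n) F).val = ξ • y.val := by
  by_contra hcon
  apply hys
  apply c6e_cent R hirr
  intro z hz
  obtain ⟨ξ, hξ, hc⟩ := c6e_comm_M R hZ hext hirr z y (Subgroup.mem_sup_left hz) hy
  by_cases h1 : ξ = 1
  · rw [h1, one_smul] at hc
    have h2 : z * y * z⁻¹ = y := Units.ext hc
    calc z * y = z * y * z⁻¹ * z := by group
      _ = y * z := by rw [h2]
  · exact absurd ⟨z, hz, ξ, h1, hξ, hc⟩ hcon

/-- `R` is not scalar. -/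
theorem c6e_not_scalar (R : Subgroup (GL (Fin n) F)) {r : ℕ} (hr : r.Prime)
    (hZ : Nat.card (Subgroup.center R) = r) (hext : commutator R = Subgroup.center R) :
    ∃ y ∈ R, y ∉ scalars (Fin n) F := by
  by_contra hcon
  push Not at hcon
  have hab : ∀ a b : R, a * b = b * a := by
    intro a b
    apply Subtype.ext
    rw [Subgroup.coe_mul, Subgroup.coe_mul]
    exact Helper97.scalars_comm (hcon a a.2) b
  have h1 : commutator R = ⊥ := by
    rw [_root_.commutator_def, Subgroup.commutator_eq_bot_iff_le_centralizer]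
    intro a _ b _
    exact hab b a
  rw [h1] at hext
  rw [← hext] at hZ
  have h2 : Nat.card (⊥ : Subgroup R) = 1 := Subgroup.card_bot
  rw [h2] at hZ
  exact hr.one_lt.ne hZ

/-- The prime `r` divides the degree. -/
theorem c6e_dvd [NeZero n] (R : Subgroup (GL (Fin n) F)) {r : ℕ} (hr : r.Prime)
    (hZ : Nat.card (Subgroup.center R) = r) (hext : commutator R = Subgroup.center R)
    (hirr : ActsAbsolutelyIrreducibly (matrixSet R)) : r ∣ n := by
  obtain ⟨y, hyR, hys⟩ := c6e_not_scalar R hr hZ hext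
  obtain ⟨z, hz, ξ, hξ1, hξr, hc⟩ :=
    c6e_twist R hZ hext hirr y (Subgroup.mem_sup_left hyR) hys
  have h1 := congrArg Matrix.det hc
  rw [Units.val_mul, Units.val_mul, Matrix.det_mul, Matrix.det_mul, Matrix.det_smul,
    Fintype.card_fin] at h1
  have h2 : (z : Matrix (Fin n) (Fin n) F).det * ((z⁻¹ : GL (Fin n) F) :
      Matrix (Fin n) (Fin n) F).det = 1 := by
    rw [← Matrix.det_mul, ← Units.val_mul, mul_inv_cancel, Units.val_one, Matrix.det_one]
  have h3 : (y : Matrix (Fin n) (Fin n) F).det ≠ 0 := by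
    have := y.isUnit
    rw [Matrix.isUnit_iff_isUnit_det] at this
    exact this.ne_zero
  have h4 : ξ ^ n = 1 := by
    have h5 : (y : Matrix (Fin n) (Fin n) F).det = ξ ^ n * (y : Matrix (Fin n) (Fin n) F).det := by
      calc (y : Matrix (Fin n) (Fin n) F).det
          = (z : Matrix (Fin n) (Fin n) F).det * (y : Matrix (Fin n) (Fin n) F).det *
            ((z⁻¹ : GL (Fin n) F) : Matrix (Fin n) (Fin n) F).det := by
            rw [mul_right_comm, h2, one_mul]
        _ = ξ ^ n * (y : Matrix (Fin n) (Fin n) F).det := h1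
    have h6 : (ξ ^ n - 1) * (y : Matrix (Fin n) (Fin n) F).det = 0 := by
      rw [sub_mul, one_mul, ← h5, sub_self]
    rcases mul_eq_zero.mp h6 with h | h
    · exact sub_eq_zero.mp h
    · exact absurd h h3
  have : Fact r.Prime := ⟨hr⟩
  have h7 : orderOf ξ = r := orderOf_eq_prime hξr hξ1
  rw [← h7]
  exact orderOf_dvd_of_pow_eq_one h4

/-- The index of the scalars in `R ⊔ scalars` is a power of `r`. -/
theorem c6e_index [Finite F] (R : Subgroup (GL (Fin n) F)) {r : ℕ} (hr : r.Prime)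
    (hR : IsPGroup r R) :
    ∃ k, (scalars (Fin n) F).relIndex (R ⊔ scalars (Fin n) F) = r ^ k := by
  have : Fact r.Prime := ⟨hr⟩
  rw [Subgroup.relIndex_sup_right]
  exact hR.index _

/-- Powers land in the scalars. -/
theorem c6e_pow_mem [Finite F] (R : Subgroup (GL (Fin n) F)) (x : GL (Fin n) F)
    (hx : x ∈ R ⊔ scalars (Fin n) F) : x ^ Nat.card R ∈ scalars (Fin n) F := by
  obtain ⟨xR, hxR, s, hs, rfl⟩ := Subgroup.mem_sup_of_normal_right.mp hx
  have h1 : Commute xR s := (Helper97.scalars_comm hs xR).symm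
  rw [h1.mul_pow]
  have h2 : xR ^ Nat.card R = 1 := by
    have h3 : (⟨xR, hxR⟩ : R) ^ Nat.card R = 1 := pow_card_eq_one'
    have h4 := congrArg Subtype.val h3
    simp only [Subgroup.coe_pow, Subgroup.coe_one] at h4
    exact h4
  rw [h2, one_mul]
  exact Subgroup.pow_mem _ hs _

end Cfsg.Agent.Helper35
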