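import Cfsg.Agent.Helper35.C6eS
set_option autoImplicit false
open Cfsg Cfsg.Geo Matrix Module
open scoped commutatorElement

namespace Cfsg.Agent.Helper35

variable {F : Type*} [Field F] {n : ℕ}

/-- A non-identity scalar fixes no non-zero vector. -/
theorem c6e_eig_scalar (a : GL (Fin n) F) (ha : a ∈ scalars (Fin n) F) (ha1 : a ≠ 1) :
    Module.End.eigenspace (Matrix.toLin' (a : Matrix (Fin n) (Fin n) F)) 1 = ⊥ := by
  obtain ⟨s, hs⟩ := (Helper97.scalar_mem_scalars_iff a).mp ha
  have hs1 : s ≠ 1 := by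
    rintro rfl
    apply ha1
    apply Units.ext
    rw [hs, one_smul]
    rfl
  rw [eq_bot_iff]
  intro v hv
  rw [Module.End.mem_eigenspace_iff, hs, Matrix.toLin'_apply, Matrix.smul_mulVec,
    Matrix.one_mulVec, one_smul] at hv
  have h1 : (s - 1) • v = 0 := by rw [sub_smul, one_smul, hv, sub_self]
  rcases smul_eq_zero.mp h1 with h | h
  · exact absurd (sub_eq_zero.mp h) hs1
  · exact (Submodule.mem_bot F).mpr h

/-- Two non-commuting elements of `R ⊔ scalars` have no common non-zero fixed vector. -/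
theorem c6e_eig_noncomm [NeZero n] (R : Subgroup (GL (Fin n) F)) {r : ℕ}
    (hZ : Nat.card (Subgroup.center R) = r) (hext : commutator R = Subgroup.center R)
    (hirr : ActsAbsolutelyIrreducibly (matrixSet R)) (a b : GL (Fin n) F)
    (ha : a ∈ R ⊔ scalars (Fin n) F) (hb : b ∈ R ⊔ scalars (Fin n) F) (hab : ¬ Commute a b) :
    (Module.End.eigenspace (Matrix.toLin' (a : Matrix (Fin n) (Fin n) F)) 1 ⊓
      Module.End.eigenspace (Matrix.toLin' (b : Matrix (Fin n) (Fin n) F)) 1 :
        Submodule F (Fin n → F)) = ⊥ := by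
  obtain ⟨ξ, -, hc⟩ := c6e_comm_M R hZ hext hirr a b ha hb
  have hξ1 : ξ ≠ 1 := by
    rintro rfl
    apply hab
    rw [one_smul] at hc
    have h2 : a * b * a⁻¹ = b := Units.ext hc
    show a * b = b * a
    calc a * b = a * b * a⁻¹ * a := by group
      _ = b * a := by rw [h2]
  rw [eq_bot_iff]
  intro v hv
  obtain ⟨hva, hvb⟩ := Submodule.mem_inf.mp hv
  rw [Module.End.mem_eigenspace_iff, Matrix.toLin'_apply, one_smul] at hva hvb
  have hva' : ((a⁻¹ : GL (Fin n) F) : Matrix (Fin n) (Fin n) F) *ᵥ v = v := by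
    conv_lhs => rw [← hva]
    rw [Matrix.mulVec_mulVec, ← Units.val_mul, inv_mul_cancel, Units.val_one, Matrix.one_mulVec]
  have h1 : ((a * b * a⁻¹ : GL (Fin n) F) : Matrix (Fin n) (Fin n) F) *ᵥ v = v := by
    rw [Units.val_mul, Units.val_mul, ← Matrix.mulVec_mulVec, ← Matrix.mulVec_mulVec, hva', hvb,
      hva]
  rw [hc, Matrix.smul_mulVec, hvb] at h1
  have h2 : (ξ - 1) • v = 0 := by rw [sub_smul, one_smul, h1, sub_self]
  rcases smul_eq_zero.mp h2 with h | h
  · exact absurd (sub_eq_zero.mp h) hξ1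
  · exact (Submodule.mem_bot F).mpr h

/-- A prime-order root of unity different from one is primitive. -/
theorem c6e_primitive {r : ℕ} (hr : r.Prime) (ξ : F) (hξ1 : ξ ≠ 1) (hξr : ξ ^ r = 1) :
    IsPrimitiveRoot ξ r := by
  have : Fact r.Prime := ⟨hr⟩
  have h7 : orderOf ξ = r := orderOf_eq_prime hξr hξ1
  rw [← h7]
  exact IsPrimitiveRoot.orderOf ξ

/-- In degree zero everything is scalar. -/
theorem c6e_deg_zero (g : GL (Fin 0) F) : g ∈ scalars (Fin 0) F := by
  rw [Helper97.scalar_mem_scalars_iff]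
  exact ⟨1, Subsingleton.elim _ _⟩

end Cfsg.Agent.Helper35
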