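import Mathlib
import Cfsg.Agent.Helper32.HallHigman
import Cfsg.Agent.Helper1.PPrimeCore

set_option autoImplicit false

/-!
# The dual of Hall–Higman 1.2.3 (helper35)

In a finite `p`-solvable group `X` with `O_p(X) = 1`, `C_X(O_{p'}(X)) ≤ O_{p'}(X)`
(`ffd_centralizer_pPrimeCore_le`).
-/

namespace Cfsg.Agent.Helper35

open Cfsg.Agent.Helper32

/-- Let `K` be a normal `p'`-subgroup of `X` and `D₁` a normal subgroup of `X` centralizing `K` with
`|D₁ : D₁ ∩ K|` a power of `p`.  If `O_p(X) = 1` then `D₁ ≤ K`. -/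
theorem ffd_le_of_centralizes {p : ℕ} [hp : Fact p.Prime] {X : Type*} [Group X]
    [Finite X] (hred : Cfsg.pCore p X = ⊥) (K D₁ : Subgroup X) [K.Normal] [hD₁ : D₁.Normal]
    (hK : (Nat.card K).Coprime p) (hcent : D₁ ≤ Subgroup.centralizer (K : Set X))
    (hpow : ∃ k : ℕ, K.relIndex D₁ = p ^ k) : D₁ ≤ K := by
  obtain ⟨k, hk⟩ := hpow
  have hN'card : Nat.card (K.subgroupOf D₁) ∣ Nat.card K :=
    Subgroup.card_comap_dvd_of_injective K D₁.subtype D₁.subtype_injective
  have hN'cop : (Nat.card (K.subgroupOf D₁)).Coprime p :=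
    Nat.Coprime.coprime_dvd_left hN'card hK
  have hcop' : Nat.Coprime (Nat.card (K.subgroupOf D₁)) (K.subgroupOf D₁).index := by
    have : (K.subgroupOf D₁).index = p ^ k := hk
    rw [this]
    exact Nat.Coprime.pow_right k hN'cop
  obtain ⟨P', hP'⟩ := Subgroup.exists_right_complement'_of_coprime hcop'
  have hcardP' : Nat.card P' = p ^ k := by
    have h1 := hP'.card_mul_card
    have h2 := (K.subgroupOf D₁).card_mul_index
    have h3 : 0 < Nat.card (K.subgroupOf D₁) := Nat.card_pos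
    have h4 : (K.subgroupOf D₁).index = p ^ k := hk
    rw [← h4]
    exact Nat.eq_of_mul_eq_mul_left h3 (h1.trans h2.symm)
  obtain ⟨P, hP⟩ : ∃ P : Subgroup X, P = P'.map D₁.subtype := ⟨_, rfl⟩
  have hPcard : Nat.card P = p ^ k := by
    rw [hP, Subgroup.card_map_of_injective D₁.subtype_injective, hcardP']
  have hPD₁ : P ≤ D₁ := by
    rw [hP]
    rintro x ⟨y, -, rfl⟩
    exact y.2
  have hPpow : ∀ x ∈ P, x ^ (p ^ k) = 1 := by
    intro x hx
    have : (⟨x, hx⟩ : P) ^ Nat.card P = 1 := pow_card_eq_one'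
    rw [hPcard] at this
    exact congrArg Subtype.val this
  have hdecomp : ∀ y ∈ D₁, ∃ n ∈ K, ∃ x ∈ P, y = n * x := by
    intro y hy
    obtain ⟨⟨n, x⟩, hnx⟩ := hP'.2 ⟨y, hy⟩
    refine ⟨(n : D₁), n.2, (x : D₁), ?_, ?_⟩
    · rw [hP]; exact Subgroup.mem_map_of_mem D₁.subtype x.2
    · have := congrArg Subtype.val hnx
      simpa using this.symm
  have hPn : P.Normal := by
    constructor
    intro x hx g
    have hy : g * x * g⁻¹ ∈ D₁ := hD₁.conj_mem x (hPD₁ hx) g
    obtain ⟨n, hn, x', hx', hnx⟩ := hdecomp _ hy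
    have hcomm : Commute n x' := by
      have := Subgroup.mem_centralizer_iff.1 (hcent (hPD₁ hx')) n hn
      exact this
    have h1 : (g * x * g⁻¹) ^ (p ^ k) = 1 := by
      rw [conj_pow, hPpow x hx]; group
    rw [hnx, hcomm.mul_pow, hPpow x' hx', mul_one] at h1
    have h2 : n ^ Nat.card K = 1 := by
      have : (⟨n, hn⟩ : K) ^ Nat.card K = 1 := pow_card_eq_one'
      exact congrArg Subtype.val this
    have hn1 : n = 1 := eq_one_of_pow_coprime h1 h2 (Nat.Coprime.pow_left k hK.symm)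
    rw [hnx, hn1, one_mul]
    exact hx'
  have hPp : IsPGroup p P := IsPGroup.of_card hPcard
  have hPbot : P = ⊥ := by
    have := le_pCore' (p := p) P hPp
    rw [hred] at this
    exact le_bot_iff.1 this
  intro y hy
  obtain ⟨n, hn, x, hx, hnx⟩ := hdecomp y hy
  rw [hPbot, Subgroup.mem_bot] at hx
  rw [hnx, hx, mul_one]
  exact hn

/-- Dual of Hall–Higman 1.2.3: in a finite `p`-solvable group with `O_p(X) = 1`,
`C_X(O_{p'}(X)) ≤ O_{p'}(X)`. -/
theorem ffd_centralizer_pPrimeCore_le {p : ℕ} [hp : Fact p.Prime] {X : Type*} [Group X]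
    [Finite X] (hX : Cfsg.IsPSolvable p X) (hred : Cfsg.pCore p X = ⊥) :
    Subgroup.centralizer (Cfsg.pPrimeCore p X : Set X) ≤ Cfsg.pPrimeCore p X := by
  obtain ⟨K, hKdef⟩ : ∃ K : Subgroup X, K = Cfsg.pPrimeCore p X := ⟨_, rfl⟩
  rw [← hKdef]
  have hKn : K.Normal := hKdef ▸ Cfsg.Agent.Helper1.pPrimeCore_normal p
  have hKcop : (Nat.card K).Coprime p := hKdef ▸ Cfsg.Agent.Helper1.pPrimeCore_coprime p
  by_contra hcon
  obtain ⟨C, hCdef⟩ : ∃ C : Subgroup X, C = Subgroup.centralizer (K : Set X) := ⟨_, rfl⟩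
  rw [← hCdef] at hcon
  have hCn : C.Normal := hCdef ▸ Subgroup.normal_centralizer
  have hπ : Function.Surjective (QuotientGroup.mk' K) := QuotientGroup.mk'_surjective K
  have hker : (QuotientGroup.mk' K).ker = K := QuotientGroup.ker_mk' K
  have hMn : (C.map (QuotientGroup.mk' K)).Normal := Subgroup.Normal.map hCn _ hπ
  have hM : C.map (QuotientGroup.mk' K) ≠ ⊥ := by
    intro h
    rw [Subgroup.map_eq_bot_iff, hker] at h
    exact hcon h
  obtain ⟨Db, hDbn, hDbM, hDbne, hDb⟩ := exists_normal_le_of_isPSolvable hp.out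
    (isPSolvable_quotient hp.out hX K) (C.map (QuotientGroup.mk' K)) hM
  apply hDbne
  rw [eq_bot_iff]
  intro d hd
  obtain ⟨c, hcC, rfl⟩ := Subgroup.mem_map.1 (hDbM hd)
  rw [Subgroup.mem_bot]
  change (c : X ⧸ K) = 1
  rw [QuotientGroup.eq_one_iff]
  have hDn : (Db.comap (QuotientGroup.mk' K)).Normal := hDbn.comap _
  rcases hDb with hDbp | hDbp'
  · obtain ⟨D₁, hD₁⟩ : ∃ D₁ : Subgroup X, D₁ = Db.comap (QuotientGroup.mk' K) ⊓ C := ⟨_, rfl⟩
    have hD₁n : D₁.Normal := hD₁ ▸ Subgroup.normal_inf_normal _ _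
    have hpow : ∃ k : ℕ, K.relIndex D₁ = p ^ k := by
      have h1 : K.relIndex D₁ = Nat.card (D₁.map (QuotientGroup.mk' K)) := by
        have h0 := Subgroup.relIndex_ker (K := D₁) (QuotientGroup.mk' K)
        rw [hker] at h0
        exact h0
      have h2 : D₁.map (QuotientGroup.mk' K) ≤ Db := by
        rw [hD₁]
        rintro _ ⟨y, hy, rfl⟩
        exact (Subgroup.mem_inf.1 hy).1
      rw [h1]
      exact IsPGroup.iff_card.mp (hDbp.to_le h2)
    have := ffd_le_of_centralizes hred K D₁ hKcop (by rw [hD₁, hCdef]; exact inf_le_right) hpow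
    exact this (by rw [hD₁]; exact Subgroup.mem_inf.2 ⟨Subgroup.mem_comap.2 hd, hcC⟩)
  · have h2 : (Nat.card (Db.comap (QuotientGroup.mk' K))).Coprime p := by
      rw [Cfsg.Agent.Helper1.card_comap_mk']
      exact Nat.Coprime.mul_left hDbp' hKcop
    have h3 := Cfsg.Agent.Helper1.le_pPrimeCore hDn h2
    rw [← hKdef] at h3
    exact h3 (Subgroup.mem_comap.2 hd)

end Cfsg.Agent.Helper35
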