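import Mathlib
import Cfsg.Agent.Helper35.FFDual
import Cfsg.Agent.Helper22.Fitting
import Cfsg.Agent.Helper22.Transport
import Cfsg.Agent.Helper10.Thompson
import Cfsg.Agent.Helper10.Offender
import Cfsg.Agent.Helper10.PCore
import Cfsg.Agent.Helper1.PPrimeCore

set_option autoImplicit false

/-!
# Bridge from a normal elementary abelian subgroup `V` of `G` to the faithful setting (helper35)

The Kurzweil–Stellmacher structure theory for failure of factorization (helper10: `S0611`–`S0617`,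
`Helper10.offender_card_mul`) is formulated for subgroups `V, H` of one group with
`H ∩ C(V) = 1`.  For a normal elementary abelian `V ⊴ G` we map `G` to the holomorph
`V ⋊ Aut(V)` (`ffbHom`), whose kernel is `C_G(V)`; the image of any subgroup acts faithfully on the
copy `ffbV` of `V`, best offenders on `V` map to best offenders on `ffbV`, and the hypothesis
`C_H(O_{p'}(H)) ≤ O_{p'}(H)` holds for images of normal subgroups when `G` is `p`-solvable and
`O_p(G / C_G(V)) = 1`.
-/

namespace Cfsg.Agent.Helper35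

open scoped commutatorElement

section

variable {G : Type*} [Group G] (V : Subgroup G) [V.Normal]

/-- The holomorph of `V`. -/
abbrev FFHol : Type _ := ↥V ⋊[MonoidHom.id (MulAut ↥V)] MulAut ↥V

/-- The map `G → V ⋊ Aut(V)` induced by conjugation on `V`. -/
def ffbHom : G →* FFHol V := SemidirectProduct.inr.comp MulAut.conjNormal

/-- The copy of `V` inside its holomorph. -/
def ffbV : Subgroup (FFHol V) := (SemidirectProduct.inl : ↥V →* FFHol V).range

theorem ffbHom_eq_one_iff (x : G) : ffbHom V x = 1 ↔ x ∈ Subgroup.centralizer (V : Set G) := by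
  rw [ffbHom, MonoidHom.comp_apply, ← map_one (SemidirectProduct.inr : MulAut ↥V →* FFHol V),
    SemidirectProduct.inr_injective.eq_iff, Subgroup.mem_centralizer_iff]
  constructor
  · intro h v hv
    have h1 := congrArg (fun f : MulAut ↥V => ((f ⟨v, hv⟩ : ↥V) : G)) h
    simp only [MulAut.conjNormal_apply, MulAut.one_apply] at h1
    calc v * x = (x * v * x⁻¹) * x := by rw [h1]
      _ = x * v := by group
  · intro h
    ext v
    rw [MulAut.conjNormal_apply, MulAut.one_apply]
    calc x * (v : G) * x⁻¹ = ((v : G) * x) * x⁻¹ := by rw [h v v.2]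
      _ = v := by group

theorem ffbHom_ker : (ffbHom V).ker = Subgroup.centralizer (V : Set G) := by
  ext x
  rw [MonoidHom.mem_ker, ffbHom_eq_one_iff]

theorem ffbHom_conj (g : G) (v : ↥V) :
    ffbHom V g * SemidirectProduct.inl v * (ffbHom V g)⁻¹ =
      (SemidirectProduct.inl (MulAut.conjNormal g v) : FFHol V) := by
  have := SemidirectProduct.inl_aut (φ := MonoidHom.id (MulAut ↥V)) (MulAut.conjNormal g) v
  rw [MonoidHom.id_apply] at this
  rw [this, ffbHom, MonoidHom.comp_apply, map_inv]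

instance ffbV_normal : (ffbV V).Normal := by
  rw [ffbV, SemidirectProduct.range_inl_eq_ker_rightHom]
  exact MonoidHom.normal_ker _

omit [V.Normal] in
theorem ffbV_elemAb {p : ℕ} (hV : Cfsg.IsElementaryAbelian p V) :
    Cfsg.IsElementaryAbelian p (ffbV V) := by
  rw [Cfsg.Agent.Helper10.elemAb_iff] at hV ⊢
  constructor
  · rintro _ ⟨a, rfl⟩ _ ⟨b, rfl⟩
    rw [← map_mul, ← map_mul]
    congr 1
    exact Subtype.ext (hV.1 a a.2 b b.2)
  · rintro _ ⟨a, rfl⟩
    rw [← map_pow]
    have : a ^ p = 1 := Subtype.ext (by simpa using hV.2 a a.2)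
    rw [this, map_one]

theorem ffb_inl_mem_centralizer_iff (B : Subgroup G) (v : ↥V) :
    (SemidirectProduct.inl v : FFHol V) ∈ Subgroup.centralizer ((B.map (ffbHom V) : Subgroup _) : Set (FFHol V)) ↔
      (v : G) ∈ Subgroup.centralizer (B : Set G) := by
  rw [Subgroup.mem_centralizer_iff, Subgroup.mem_centralizer_iff]
  constructor
  · intro h b hb
    have h1 := h (ffbHom V b) (Subgroup.mem_map_of_mem _ hb)
    have h2 : ffbHom V b * SemidirectProduct.inl v * (ffbHom V b)⁻¹ =
        (SemidirectProduct.inl v : FFHol V) := by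
      rw [h1]; group
    rw [ffbHom_conj, SemidirectProduct.inl_injective.eq_iff] at h2
    have h3 := congrArg (Subtype.val : ↥V → G) h2
    rw [MulAut.conjNormal_apply] at h3
    calc b * (v : G) = (b * (v : G) * b⁻¹) * b := by group
      _ = (v : G) * b := by rw [h3]
  · rintro h _ ⟨b, hb, rfl⟩
    have h2 : ffbHom V b * SemidirectProduct.inl v * (ffbHom V b)⁻¹ =
        (SemidirectProduct.inl v : FFHol V) := by
      rw [ffbHom_conj]
      congr 1
      apply Subtype.ext
      rw [MulAut.conjNormal_apply, h b hb]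
      group
    calc ffbHom V b * SemidirectProduct.inl v
        = ffbHom V b * SemidirectProduct.inl v * (ffbHom V b)⁻¹ * ffbHom V b := by group
      _ = SemidirectProduct.inl v * ffbHom V b := by rw [h2]

theorem ffb_card_fix (B : Subgroup G) :
    Nat.card ↥(ffbV V ⊓ Subgroup.centralizer ((B.map (ffbHom V) : Subgroup _) : Set (FFHol V))) =
      Nat.card ↥(V ⊓ Subgroup.centralizer (B : Set G)) := by
  symm
  refine Nat.card_congr (Equiv.ofBijective
    (fun x : ↥(V ⊓ Subgroup.centralizer (B : Set G)) =>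
      (⟨SemidirectProduct.inl ⟨x.1, x.2.1⟩, ⟨⟨_, rfl⟩,
        (ffb_inl_mem_centralizer_iff V B ⟨x.1, x.2.1⟩).mpr x.2.2⟩⟩ :
        ↥(ffbV V ⊓ Subgroup.centralizer ((B.map (ffbHom V) : Subgroup _) : Set (FFHol V))))) ⟨?_, ?_⟩)
  · intro x y hxy
    have h1 := congrArg Subtype.val hxy
    simp only [SemidirectProduct.inl_injective.eq_iff] at h1
    exact Subtype.ext (congrArg (Subtype.val : ↥V → G) h1)
  · rintro ⟨_, ⟨v, rfl⟩, hv⟩
    exact ⟨⟨v.1, v.2, (ffb_inl_mem_centralizer_iff V B v).mp hv⟩, rfl⟩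

theorem ffb_faithful (H : Subgroup G) :
    H.map (ffbHom V) ⊓ Subgroup.centralizer ((ffbV V : Subgroup _) : Set (FFHol V)) = ⊥ := by
  rw [eq_bot_iff]
  rintro _ ⟨⟨h, -, rfl⟩, hc⟩
  rw [Subgroup.mem_bot, ffbHom_eq_one_iff, Subgroup.mem_centralizer_iff]
  intro v hv
  have h1 := (Subgroup.mem_centralizer_iff.mp hc) (SemidirectProduct.inl ⟨v, hv⟩) ⟨_, rfl⟩
  have h2 : ffbHom V h * SemidirectProduct.inl ⟨v, hv⟩ * (ffbHom V h)⁻¹ =
      (SemidirectProduct.inl ⟨v, hv⟩ : FFHol V) := by
    rw [← h1]; group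
  rw [ffbHom_conj, SemidirectProduct.inl_injective.eq_iff] at h2
  have h3 := congrArg (Subtype.val : ↥V → G) h2
  rw [MulAut.conjNormal_apply] at h3
  calc v * h = (h * v * h⁻¹) * h := by rw [h3]
    _ = h * v := by group

omit [V.Normal] in
theorem ffb_finite [Finite G] : Finite (FFHol V) :=
  Finite.of_equiv _ (SemidirectProduct.equivProd (φ := MonoidHom.id (MulAut ↥V))).symm

theorem ffb_card_map [Finite G] (B : Subgroup G) :
    Nat.card (B.map (ffbHom V)) * Nat.card ↥(Subgroup.centralizer (V : Set G) ⊓ B) = Nat.card B := by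
  have h1 := Subgroup.relIndex_ker (K := B) (ffbHom V)
  rw [ffbHom_ker] at h1
  rw [← h1]
  have h2 := Subgroup.card_mul_index ((Subgroup.centralizer (V : Set G)).subgroupOf B)
  rw [← Subgroup.inf_subgroupOf_right, Cfsg.Agent.Helper1.card_subgroupOf_of_le inf_le_right] at h2
  rw [mul_comm]
  rw [Subgroup.inf_subgroupOf_right] at h2
  exact h2

theorem ffb_bestOffender [Finite G] {p : ℕ} {A : Subgroup G}
    (hA : Cfsg.IsBestOffenderOn p V A) :
    Cfsg.IsBestOffenderOn p (ffbV V) (A.map (ffbHom V)) := by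
  refine ⟨?_, ?_, ?_⟩
  · intro B' hB'
    obtain ⟨B, hB⟩ : ∃ B : Subgroup G, B = A ⊓ B'.comap (ffbHom V) := ⟨_, rfl⟩
    have hBA : B ≤ A := hB ▸ inf_le_left
    have hBmap : B.map (ffbHom V) = B' := by
      ext y
      constructor
      · rintro ⟨b, hb, rfl⟩
        rw [hB] at hb
        exact hb.2
      · intro hy
        obtain ⟨a, ha, rfl⟩ := hB' hy
        exact ⟨a, by rw [hB]; exact ⟨ha, hy⟩, rfl⟩
    have hCB : Subgroup.centralizer (V : Set G) ⊓ B = Subgroup.centralizer (V : Set G) ⊓ A := by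
      apply le_antisymm (inf_le_inf_left _ hBA)
      rintro x ⟨hxC, hxA⟩
      refine ⟨hxC, ?_⟩
      rw [hB]
      refine ⟨hxA, ?_⟩
      refine Subgroup.mem_comap.mpr ?_
      rw [(ffbHom_eq_one_iff V x).mpr hxC]
      exact Subgroup.one_mem _
    have e1 := ffb_card_map V B
    have e2 := ffb_card_map V A
    rw [hCB] at e1
    have h0 := hA.1 B hBA
    rw [← hBmap, ffb_card_fix, ffb_card_fix]
    have hpos : 0 < Nat.card ↥(Subgroup.centralizer (V : Set G) ⊓ A) := Nat.card_pos
    apply Nat.le_of_mul_le_mul_right _ hpos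
    calc Nat.card ↥(B.map (ffbHom V)) * Nat.card ↥(V ⊓ Subgroup.centralizer (B : Set G)) *
          Nat.card ↥(Subgroup.centralizer (V : Set G) ⊓ A)
        = Nat.card B * Nat.card ↥(V ⊓ Subgroup.centralizer (B : Set G)) := by rw [← e1]; ring
      _ ≤ Nat.card A * Nat.card ↥(V ⊓ Subgroup.centralizer (A : Set G)) := h0
      _ = Nat.card ↥(A.map (ffbHom V)) * Nat.card ↥(V ⊓ Subgroup.centralizer (A : Set G)) *
          Nat.card ↥(Subgroup.centralizer (V : Set G) ⊓ A) := by rw [← e2]; ring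
  · rw [← Subgroup.map_commutator]
    rintro _ ⟨x, hx, rfl⟩
    rw [(ffbHom_eq_one_iff V x).mpr (hA.2.1 hx)]
    exact Subgroup.one_mem _
  · rintro _ ⟨a, ha, rfl⟩
    rw [← map_pow, (ffbHom_eq_one_iff V (a ^ p)).mpr (hA.2.2 a ha)]
    exact Subgroup.one_mem _

theorem ffb_hS3 [Finite G] {p : ℕ} (J : Subgroup G)
    (hgen : J = ⨆ A : {A : Subgroup G // A ≤ J ∧ Cfsg.IsBestOffenderOn p V A}, (A : Subgroup G)) :
    J.map (ffbHom V) = ⨆ A : {A : Subgroup (FFHol V) // A ≤ J.map (ffbHom V) ∧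
      Cfsg.IsBestOffenderOn p (ffbV V) A}, (A : Subgroup (FFHol V)) := by
  apply le_antisymm
  · have h1 : J.map (ffbHom V) = (⨆ A : {A : Subgroup G // A ≤ J ∧
        Cfsg.IsBestOffenderOn p V A}, (A : Subgroup G)).map (ffbHom V) :=
      congrArg (Subgroup.map (ffbHom V)) hgen
    have h2 : (⨆ A : {A : Subgroup G // A ≤ J ∧
        Cfsg.IsBestOffenderOn p V A}, (A : Subgroup G)).map (ffbHom V) ≤
        ⨆ A : {A : Subgroup (FFHol V) // A ≤ J.map (ffbHom V) ∧
          Cfsg.IsBestOffenderOn p (ffbV V) A}, (A : Subgroup (FFHol V)) := by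
      rw [Subgroup.map_iSup]
      apply iSup_le
      rintro ⟨A, hAJ, hA⟩
      exact le_iSup_of_le
        (⟨A.map (ffbHom V), Subgroup.map_mono hAJ, ffb_bestOffender V hA⟩ :
          {A : Subgroup (FFHol V) // A ≤ J.map (ffbHom V) ∧ Cfsg.IsBestOffenderOn p (ffbV V) A})
        le_rfl
    exact le_trans (le_of_eq h1) h2
  · apply iSup_le
    rintro ⟨A, hA, -⟩
    exact hA

end

/-- The condition `C(O_{p'}) ≤ O_{p'}` is invariant under isomorphism. -/
theorem ffb_hS1_equiv {p : ℕ} {A B : Type*} [Group A] [Group B] (e : A ≃* B)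
    (h : Subgroup.centralizer (Cfsg.pPrimeCore p A : Set A) ≤ Cfsg.pPrimeCore p A) :
    Subgroup.centralizer (Cfsg.pPrimeCore p B : Set B) ≤ Cfsg.pPrimeCore p B := by
  intro x hx
  have h1 : e.symm x ∈ Subgroup.centralizer (Cfsg.pPrimeCore p A : Set A) := by
    rw [Subgroup.mem_centralizer_iff]
    intro y hy
    have hy' : e y ∈ Cfsg.pPrimeCore p B := by
      rw [← Cfsg.Agent.Helper22.pPrimeCore_map_equiv p e]
      exact Subgroup.mem_map_of_mem _ hy
    have h2 := Subgroup.mem_centralizer_iff.mp hx (e y) hy'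
    apply e.injective
    rw [map_mul, map_mul, MulEquiv.apply_symm_apply]
    exact h2
  have h3 := h h1
  rw [← Cfsg.Agent.Helper22.pPrimeCore_map_equiv p e]
  exact ⟨e.symm x, h3, e.apply_symm_apply x⟩

section

variable {G : Type*} [Group G] [Finite G] (V : Subgroup G) [V.Normal]

theorem ffb_hS1 {p : ℕ} [hp : Fact p.Prime] (J : Subgroup G) [J.Normal]
    (hsep : Cfsg.IsPSolvable p G)
    (hOp : ∀ P : Subgroup G, P.Normal →
      (∀ x ∈ P, ∃ k : ℕ, x ^ (p ^ k) ∈ Subgroup.centralizer (V : Set G)) →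
      P ≤ Subgroup.centralizer (V : Set G)) :
    Subgroup.centralizer (Cfsg.pPrimeCore p ↥(J.map (ffbHom V)) : Set ↥(J.map (ffbHom V))) ≤
      Cfsg.pPrimeCore p ↥(J.map (ffbHom V)) := by
  have hπ : Function.Surjective (QuotientGroup.mk' (ffbHom V).ker) :=
    QuotientGroup.mk'_surjective _
  -- O_p(G / C) = 1
  have hQ : Cfsg.pCore p (G ⧸ (ffbHom V).ker) = ⊥ := by
    rw [eq_bot_iff]
    have hOpg : IsPGroup p (Cfsg.pCore p (G ⧸ (ffbHom V).ker)) :=
      Cfsg.Agent.Helper32.pCore_isPGroup' p _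
    have hPn : ((Cfsg.pCore p (G ⧸ (ffbHom V).ker)).comap (QuotientGroup.mk' (ffbHom V).ker)).Normal :=
      (Cfsg.Agent.Helper10.pCore_normal p _).comap _
    have hP := hOp _ hPn (by
      intro x hx
      obtain ⟨k, hk⟩ := hOpg ⟨QuotientGroup.mk' (ffbHom V).ker x, hx⟩
      refine ⟨k, ?_⟩
      have hk' : (QuotientGroup.mk' (ffbHom V).ker x) ^ (p ^ k) = 1 := congrArg Subtype.val hk
      rw [← map_pow, ← MonoidHom.mem_ker, QuotientGroup.ker_mk', ffbHom_ker] at hk'
      exact hk')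
    intro y hy
    obtain ⟨x, rfl⟩ := hπ y
    have hx := hP (Subgroup.mem_comap.mpr hy)
    rw [← ffbHom_ker, ← QuotientGroup.ker_mk' (ffbHom V).ker, MonoidHom.mem_ker] at hx
    rw [Subgroup.mem_bot]
    exact hx
  have hXn : (J.map (QuotientGroup.mk' (ffbHom V).ker)).Normal :=
    Subgroup.Normal.map inferInstance _ hπ
  have hXcore : Cfsg.pCore p ↥(J.map (QuotientGroup.mk' (ffbHom V).ker)) = ⊥ := by
    have h := Cfsg.Agent.Helper22.pCore_map_subtype_le p hXn.isSubnormal
    rw [hQ, le_bot_iff] at h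
    exact (Subgroup.map_eq_bot_iff_of_injective _ (Subgroup.subtype_injective _)).mp h
  have hXsol : Cfsg.IsPSolvable p ↥(J.map (QuotientGroup.mk' (ffbHom V).ker)) :=
    Cfsg.Agent.Helper32.isPSolvable_subgroup hp.out
      (Cfsg.Agent.Helper32.isPSolvable_quotient hp.out hsep _) _
  have hS1X := ffd_centralizer_pPrimeCore_le hXsol hXcore
  have hmap : (J.map (QuotientGroup.mk' (ffbHom V).ker)).map (QuotientGroup.kerLift (ffbHom V)) =
      J.map (ffbHom V) := by
    rw [Subgroup.map_map]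
    congr 1
  have key : ∀ (H₁ H₂ : Subgroup (FFHol V)), H₁ = H₂ →
      Subgroup.centralizer (Cfsg.pPrimeCore p ↥H₁ : Set ↥H₁) ≤ Cfsg.pPrimeCore p ↥H₁ →
      Subgroup.centralizer (Cfsg.pPrimeCore p ↥H₂ : Set ↥H₂) ≤ Cfsg.pPrimeCore p ↥H₂ := by
    rintro H₁ H₂ rfl h
    exact h
  exact key _ _ hmap (ffb_hS1_equiv
    ((J.map (QuotientGroup.mk' (ffbHom V).ker)).equivMapOfInjective
      (QuotientGroup.kerLift (ffbHom V)) (QuotientGroup.kerLift_injective (ffbHom V))) hS1X)

end

end Cfsg.Agent.Helper35
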