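import Mathlib
import Cfsg.Agent.Helper10.SL2Gen
import Cfsg.Agent.Helper5.SLCard

set_option autoImplicit false

/-!
# Facts on groups isomorphic to `SL(2, p)`, `p ∈ {2, 3}` (helper35)

For a group `E ≃* SL(2, ZMod p)` with `p = 2` or `p = 3`:
* `E` is generated by two elements of order `p`;
* the Sylow `p`-subgroups have order `p`;
* a normal subgroup containing an element of order `p` is everything;
* an automorphism of `q`-power order, `q ≥ 5` prime, is trivial;
* `E` does not have exponent `p`.
-/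

namespace Cfsg.Agent.Helper35

open scoped Pointwise
open Cfsg.Agent.Helper24

section

variable {E : Type*} [Group E] [Finite E] {p : ℕ} [Fact p.Prime]

omit [Finite E] in
theorem ffx_card (e : E ≃* Matrix.SpecialLinearGroup (Fin 2) (ZMod p)) :
    Nat.card E = p * (p ^ 2 - 1) := by
  rw [Nat.card_congr e.toEquiv, Cfsg.Agent.Helper5.card_SL2, ZMod.card]

omit [Finite E] in
/-- Two generators of order `p`. -/
theorem ffx_gen_pair (e : E ≃* Matrix.SpecialLinearGroup (Fin 2) (ZMod p)) :
    ∃ a b : E, a ≠ 1 ∧ b ≠ 1 ∧ a ^ p = 1 ∧ b ^ p = 1 ∧ Subgroup.closure {a, b} = ⊤ := by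
  have h10 : (1 : ZMod p) ≠ 0 := one_ne_zero
  have hu1 : uM (1 : ZMod p) ≠ 1 := by
    intro h
    have := congrArg (fun m : SL2 (ZMod p) => m 0 1) h
    simp at this
  have hv1 : vM (1 : ZMod p) ≠ 1 := by
    intro h
    have := congrArg (fun m : SL2 (ZMod p) => m 1 0) h
    simp at this
  have hup : uM (1 : ZMod p) ^ p = 1 := by
    rw [uM_pow, ZMod.natCast_self, zero_mul, uM_zero]
  have hvp : vM (1 : ZMod p) ^ p = 1 := by
    rw [vM_pow, ZMod.natCast_self, zero_mul, vM_zero]
  refine ⟨e.symm (uM 1), e.symm (vM 1), ?_, ?_, ?_, ?_, ?_⟩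
  · intro h
    apply hu1
    have := congrArg e h
    rwa [MulEquiv.apply_symm_apply, map_one] at this
  · intro h
    apply hv1
    have := congrArg e h
    rwa [MulEquiv.apply_symm_apply, map_one] at this
  · rw [← map_pow, hup, map_one]
  · rw [← map_pow, hvp, map_one]
  · rw [eq_top_iff]
    intro x _
    have hx : e x ∈ Subgroup.closure {uM (1 : ZMod p), vM (1 : ZMod p)} :=
      Cfsg.Agent.Helper10.sl2gen_top_of_uM_vM _ h10 h10
        (Subgroup.subset_closure (by simp)) (Subgroup.subset_closure (by simp)) (e x)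
    have h2 : (Subgroup.closure {uM (1 : ZMod p), vM (1 : ZMod p)}).map e.symm.toMonoidHom =
        Subgroup.closure {e.symm (uM 1), e.symm (vM 1)} := by
      rw [MonoidHom.map_closure]
      congr 1
      ext y
      simp [Set.image_pair]
    rw [← h2]
    exact ⟨e x, hx, by simp⟩

/-- `E` does not have exponent `p`. -/
theorem ffx_not_exp (h23 : p = 2 ∨ p = 3) (e : E ≃* Matrix.SpecialLinearGroup (Fin 2) (ZMod p)) :
    ∃ x : E, x ^ p ≠ 1 := by
  have key : (uM (1 : ZMod p) * vM 1) ^ p ≠ 1 := by
    intro h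
    rcases h23 with h2 | h3
    · subst h2
      have := congrArg (fun m : SL2 (ZMod 2) => m 1 1) h
      simp [pow_succ] at this
    · subst h3
      have := congrArg (fun m : SL2 (ZMod 3) => m 0 1) h
      simp [pow_succ] at this
      have h8 : ((8 : ℕ) : ZMod 3) = 0 := by
        rw [← this]
        push_cast
        ring
      rw [ZMod.natCast_eq_zero_iff] at h8
      omega
  refine ⟨e.symm (uM 1 * vM 1), ?_⟩
  intro h
  apply key
  have := congrArg e h
  rwa [map_pow, MulEquiv.apply_symm_apply, map_one] at this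

theorem ffx_sylow_card (h23 : p = 2 ∨ p = 3)
    (e : E ≃* Matrix.SpecialLinearGroup (Fin 2) (ZMod p)) (P : Sylow p E) :
    Nat.card P = p := by
  obtain ⟨k, hk⟩ := P.2.exists_card_eq
  have hidx := (P : Subgroup E).card_mul_index
  have hnd := P.not_dvd_index
  rw [ffx_card e, hk] at hidx
  rw [hk]
  rcases h23 with h2 | h3
  · subst h2
    rcases k with _ | _ | k
    · exfalso
      apply hnd
      simp only [pow_zero, one_mul] at hidx
      rw [hidx]
      decide
    · simp
    · exfalso
      have : 2 ^ (k + 1 + 1) * (P : Subgroup E).index = 4 * (2 ^ k * (P : Subgroup E).index) := by ring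
      rw [this] at hidx
      norm_num at hidx
      omega
  · subst h3
    rcases k with _ | _ | k
    · exfalso
      apply hnd
      simp only [pow_zero, one_mul] at hidx
      rw [hidx]
      decide
    · simp
    · exfalso
      have : 3 ^ (k + 1 + 1) * (P : Subgroup E).index = 9 * (3 ^ k * (P : Subgroup E).index) := by ring
      rw [this] at hidx
      norm_num at hidx
      omega

omit [Finite E] [Fact p.Prime] in
theorem ffx_mem_smul_sylow (S : Sylow p E) (g y : E) :
    y ∈ ((g • S : Sylow p E) : Subgroup E) ↔ g⁻¹ * y * g ∈ (S : Subgroup E) := by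
  rw [Sylow.coe_subgroup_smul, Subgroup.mem_pointwise_smul_iff_inv_smul_mem]
  simp only [MulAut.smul_def, MulAut.inv_apply, MulAut.conj_symm_apply]

/-- An element of order `p` generates a Sylow `p`-subgroup. -/
theorem ffx_zpowers_sylow (h23 : p = 2 ∨ p = 3)
    (e : E ≃* Matrix.SpecialLinearGroup (Fin 2) (ZMod p)) {t : E} (ht1 : t ≠ 1) (htp : t ^ p = 1) :
    ∃ P : Sylow p E, (P : Subgroup E) = Subgroup.zpowers t := by
  have hp : p.Prime := Fact.out
  have hpg : IsPGroup p (Subgroup.zpowers t) := by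
    rintro ⟨x, hx⟩
    obtain ⟨i, rfl⟩ := Subgroup.mem_zpowers_iff.mp hx
    refine ⟨1, Subtype.ext ?_⟩
    show (t ^ i) ^ p ^ 1 = 1
    rw [pow_one, ← zpow_natCast, ← zpow_mul, mul_comm, zpow_mul, zpow_natCast, htp, one_zpow]
  obtain ⟨P, hP⟩ := hpg.exists_le_sylow
  refine ⟨P, ?_⟩
  symm
  apply Subgroup.eq_of_le_of_card_ge hP
  rw [ffx_sylow_card h23 e P, Nat.card_zpowers, orderOf_eq_prime htp ht1]

/-- A normal subgroup containing an element of order `p` is everything. -/
theorem ffx_normal_top (h23 : p = 2 ∨ p = 3)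
    (e : E ≃* Matrix.SpecialLinearGroup (Fin 2) (ZMod p)) (N : Subgroup E) [hN : N.Normal]
    {t : E} (htN : t ∈ N) (ht1 : t ≠ 1) (htp : t ^ p = 1) : N = ⊤ := by
  obtain ⟨Pt, hPt⟩ := ffx_zpowers_sylow h23 e ht1 htp
  have key : ∀ x : E, x ≠ 1 → x ^ p = 1 → x ∈ N := by
    intro x hx1 hxp
    obtain ⟨Px, hPx⟩ := ffx_zpowers_sylow h23 e hx1 hxp
    obtain ⟨g, hg⟩ := MulAction.exists_smul_eq E Pt Px
    have h1 : x ∈ ((g • Pt : Sylow p E) : Subgroup E) := by
      rw [hg, hPx]
      exact Subgroup.mem_zpowers x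
    rw [ffx_mem_smul_sylow, hPt] at h1
    have h2 : g⁻¹ * x * g ∈ N := (Subgroup.zpowers_le.mpr htN) h1
    have h3 := hN.conj_mem _ h2 g
    have e1 : g * (g⁻¹ * x * g) * g⁻¹ = x := by group
    rwa [e1] at h3
  obtain ⟨a, b, ha1, hb1, hap, hbp, hgen⟩ := ffx_gen_pair e
  rw [eq_top_iff, ← hgen, Subgroup.closure_le]
  intro y hy
  rcases hy with rfl | rfl
  · exact key _ ha1 hap
  · exact key _ hb1 hbp

theorem ffx_card_sylow_le (h23 : p = 2 ∨ p = 3)
    (e : E ≃* Matrix.SpecialLinearGroup (Fin 2) (ZMod p)) : Nat.card (Sylow p E) ≤ 4 := by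
  obtain ⟨P⟩ : Nonempty (Sylow p E) := inferInstance
  have h1 := P.card_dvd_index
  have h2 := card_sylow_modEq_one p E
  have hidx := (P : Subgroup E).card_mul_index
  rw [ffx_card e, ffx_sylow_card h23 e P] at hidx
  rcases h23 with h2' | h3
  · subst h2'
    have hi : (P : Subgroup E).index = 3 := by norm_num at hidx; omega
    rw [hi] at h1
    have := Nat.le_of_dvd (by norm_num) h1
    omega
  · subst h3
    have hi : (P : Subgroup E).index = 8 := by norm_num at hidx; omega
    rw [hi] at h1
    unfold Nat.ModEq at h2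
    have h8 : Nat.card (Sylow 3 E) ∣ 2 ^ 3 := by simpa using h1
    obtain ⟨j, hj, hn⟩ := (Nat.dvd_prime_pow Nat.prime_two).mp h8
    rw [hn] at h2 ⊢
    interval_cases j <;> simp_all

/-- An automorphism of `q`-power order, `q ≥ 5`, is trivial. -/
theorem ffx_aut_trivial (h23 : p = 2 ∨ p = 3)
    (e : E ≃* Matrix.SpecialLinearGroup (Fin 2) (ZMod p)) {q : ℕ} (hq : q.Prime) (hq5 : 5 ≤ q)
    (β : MulAut E) (k : ℕ) (hβ : β ^ (q ^ k) = 1) : β = 1 := by
  classical
  have hp : p.Prime := Fact.out
  -- β fixes every Sylow p-subgroup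
  have hfix : ∀ P : Sylow p E, β • P = P := by
    have hσ : (MulAction.toPermHom (MulAut E) (Sylow p E) β) ^ (q ^ k) = 1 := by
      rw [← map_pow, hβ, map_one]
    have h1 : orderOf (MulAction.toPermHom (MulAut E) (Sylow p E) β) ∣ q ^ k :=
      orderOf_dvd_of_pow_eq_one hσ
    have h2 : orderOf (MulAction.toPermHom (MulAut E) (Sylow p E) β) ∣ 24 := by
      have h3 := orderOf_dvd_natCard (MulAction.toPermHom (MulAut E) (Sylow p E) β)
      rw [Nat.card_perm] at h3
      have h4 : (Nat.card (Sylow p E)).factorial ∣ Nat.factorial 4 :=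
        Nat.factorial_dvd_factorial (ffx_card_sylow_le h23 e)
      exact dvd_trans h3 h4
    have hcop : Nat.Coprime (q ^ k) 24 := by
      apply Nat.Coprime.pow_left
      rw [Nat.Prime.coprime_iff_not_dvd hq]
      intro hd
      have hd' : q ∣ 2 ^ 3 * 3 := by simpa using hd
      rcases (Nat.Prime.dvd_mul hq).mp hd' with h | h
      · have := Nat.le_of_dvd (by norm_num) (hq.dvd_of_dvd_pow h)
        omega
      · have := Nat.le_of_dvd (by norm_num) h
        omega
    have h5 : orderOf (MulAction.toPermHom (MulAut E) (Sylow p E) β) = 1 :=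
      Nat.eq_one_of_dvd_coprimes hcop h1 h2
    rw [orderOf_eq_one_iff] at h5
    intro P
    have := congrArg (fun σ : Equiv.Perm (Sylow p E) => σ P) h5
    exact this
  -- β² fixes every element of order p
  have hsq : ∀ t : E, t ≠ 1 → t ^ p = 1 → β (β t) = t := by
    intro t ht1 htp
    obtain ⟨P, hP⟩ := ffx_zpowers_sylow h23 e ht1 htp
    have h1 : β t ∈ ((β • P : Sylow p E) : Subgroup E) := by
      rw [Sylow.pointwise_smul_def]
      have : t ∈ (P : Subgroup E) := by rw [hP]; exact Subgroup.mem_zpowers t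
      exact Subgroup.smul_mem_pointwise_smul t β _ this
    rw [hfix P, hP, mem_zpowers_iff_mem_range_orderOf, orderOf_eq_prime htp ht1] at h1
    obtain ⟨i, hi, hit⟩ := Finset.mem_image.mp h1
    rw [Finset.mem_range] at hi
    have hβ1 : β t ≠ 1 := by
      intro h
      apply ht1
      have := congrArg β.symm h
      rwa [MulEquiv.symm_apply_apply, map_one] at this
    have hcases : β t = t ∨ β t = t⁻¹ := by
      have hi3 : i < 3 := by rcases h23 with h | h <;> omega
      interval_cases i
      · simp at hit; exact absurd hit.symm hβ1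
      · left; simpa using hit.symm
      · right
        have h3 : p = 3 := by rcases h23 with h | h <;> omega
        rw [h3] at htp
        rw [← hit]
        have : t ^ 2 * t = 1 := by rw [← pow_succ]; exact htp
        exact eq_inv_of_mul_eq_one_left this
    rcases hcases with h | h
    · rw [h, h]
    · rw [h, map_inv, h, inv_inv]
  have hodd : Odd (q ^ k) := by
    apply Odd.pow
    rcases hq.eq_two_or_odd' with h | h
    · omega
    · exact h
  obtain ⟨m, hm⟩ := hodd
  have hpow : ∀ (γ : MulAut E) (t : E), γ t = t → ∀ n : ℕ, (γ ^ n) t = t := by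
    intro γ t ht n
    induction n with
    | zero => simp
    | succ n ih =>
      rw [pow_succ, MulAut.mul_apply, ht, ih]
  have hβeq : β = (β ^ 2) ^ (m + 1) := by
    rw [← pow_mul]
    have : 2 * (m + 1) = q ^ k + 1 := by omega
    rw [this, pow_succ, hβ, one_mul]
  have hone : ∀ t : E, t ≠ 1 → t ^ p = 1 → β t = t := by
    intro t ht1 htp
    have h2 : (β ^ 2) t = t := by
      rw [pow_two, MulAut.mul_apply]
      exact hsq t ht1 htp
    have := hpow (β ^ 2) t h2 (m + 1)
    rw [← hβeq] at this
    exact this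
  obtain ⟨a, b, ha1, hb1, hap, hbp, hgen⟩ := ffx_gen_pair e
  have hle : Subgroup.closure {a, b} ≤ (β.toMonoidHom).eqLocus (MonoidHom.id E) := by
    rw [Subgroup.closure_le]
    intro y hy
    rcases hy with rfl | rfl
    · exact hone _ ha1 hap
    · exact hone _ hb1 hbp
  rw [hgen] at hle
  ext x
  exact hle (Subgroup.mem_top x)

end

end Cfsg.Agent.Helper35
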