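import Mathlib
import Cfsg.Agent.Helper35.FFX1

set_option autoImplicit false

/-!
# A `q`-group permuting commuting copies of `SL(2, p)` (helper35)

`𝓔` is a set of pairwise commuting subgroups of `Γ`, each isomorphic to `SL(2, p)`
(`p ∈ {2, 3}`), all contained in `H'`; `B` is a `q`-subgroup (`q ≥ 5`) permuting `𝓔` by
conjugation.  Then for every `E ∈ 𝓔` and `e ∈ E` there is a `B`-fixed element of `H'` of the
form `e * c` with `c` in the join of the other members of `𝓔` (the "diagonal" element), and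
consequently `E ≤ ⟨T', C_{H'}(B)⟩` whenever `T' ∩ E` contains an element of order `p`.
-/

namespace Cfsg.Agent.Helper35

open scoped Pointwise

section

variable {Γ : Type*} [Group Γ]

/-- Reindexing a noncommutative product over a finite type along a permutation. -/
theorem ffx_noncommProd_equiv {ι : Type*} [Fintype ι] (σ : ι ≃ ι) (f : ι → Γ)
    (comm : ((Finset.univ : Finset ι) : Set ι).Pairwise (Function.onFun Commute f))
    (comm' : ((Finset.univ : Finset ι) : Set ι).Pairwise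
      (Function.onFun Commute (fun i => f (σ i)))) :
    Finset.univ.noncommProd (fun i => f (σ i)) comm' = Finset.univ.noncommProd f comm := by
  unfold Finset.noncommProd
  congr 1
  conv_rhs => rw [← Multiset.map_univ_val_equiv σ, Multiset.map_map]
  rfl

/-- The data of the situation. -/
structure FFXData (p q : ℕ) (𝓔 : Set (Subgroup Γ)) (H' B : Subgroup Γ) : Prop where
  h23 : p = 2 ∨ p = 3
  hq5 : 5 ≤ q
  hiso : ∀ E ∈ 𝓔, Nonempty (↥E ≃* Matrix.SpecialLinearGroup (Fin 2) (ZMod p))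
  hcomm : ∀ E ∈ 𝓔, ∀ E' ∈ 𝓔, E ≠ E' → ∀ x ∈ E, ∀ y ∈ E', x * y = y * x
  hle : ∀ E ∈ 𝓔, E ≤ H'
  hB : IsPGroup q B
  hBE : ∀ b ∈ B, ∀ E ∈ 𝓔, E.map (MulAut.conj b).toMonoidHom ∈ 𝓔

theorem ffx_mem_normalizer_of_map_eq {E : Subgroup Γ} {b : Γ}
    (h : E.map (MulAut.conj b).toMonoidHom = E) : b ∈ Subgroup.normalizer (E : Set Γ) := by
  rw [Subgroup.mem_normalizer_iff]
  intro x
  constructor
  · intro hx
    rw [← h]
    exact ⟨x, hx, rfl⟩
  · intro hx
    rw [← h] at hx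
    obtain ⟨y, hy, hyb⟩ := hx
    have hyb' : b * y * b⁻¹ = b * x * b⁻¹ := hyb
    have : y = x := by
      calc y = b⁻¹ * (b * y * b⁻¹) * b := by group
        _ = b⁻¹ * (b * x * b⁻¹) * b := by rw [hyb']
        _ = x := by group
    rwa [← this]

variable [Finite Γ] {p q : ℕ} [Fact p.Prime] [Fact q.Prime] {𝓔 : Set (Subgroup Γ)}
  {H' B : Subgroup Γ}

/-- The stabilizer in `B` of a component centralizes it. -/
theorem ffx_stab_centralizes (d : FFXData p q 𝓔 H' B) {E : Subgroup Γ} (hE : E ∈ 𝓔) {b : Γ}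
    (hb : b ∈ B) (hbN : b ∈ Subgroup.normalizer (E : Set Γ)) : ∀ x ∈ E, b * x * b⁻¹ = x := by
  obtain ⟨e⟩ := d.hiso E hE
  obtain ⟨N, hN⟩ : ∃ N : Subgroup Γ, N = Subgroup.normalizer (E : Set Γ) := ⟨_, rfl⟩
  have hEN : E ≤ N := hN ▸ Subgroup.le_normalizer
  have hnorm : (E.subgroupOf N).Normal := by
    rw [hN]
    exact Subgroup.normal_in_normalizer
  have e₁ : ↥(E.subgroupOf N) ≃* Matrix.SpecialLinearGroup (Fin 2) (ZMod p) :=
    (Subgroup.subgroupOfEquivOfLe hEN).trans e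
  obtain ⟨k, hk⟩ := d.hB ⟨b, hb⟩
  have hbk : b ^ (q ^ k) = 1 := by
    have := congrArg Subtype.val hk
    simpa using this
  have hbN' : b ∈ N := hN ▸ hbN
  have hβ : (MulAut.conjNormal (⟨b, hbN'⟩ : ↥N) : MulAut ↥(E.subgroupOf N)) ^ (q ^ k) = 1 := by
    rw [← map_pow]
    have : (⟨b, hbN'⟩ : ↥N) ^ (q ^ k) = 1 := Subtype.ext (by simpa using hbk)
    rw [this, map_one]
  have hβ1 := ffx_aut_trivial d.h23 e₁ (Fact.out : q.Prime) d.hq5 _ k hβ
  intro x hx
  have h2 := congrArg (fun γ : MulAut ↥(E.subgroupOf N) =>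
    (((γ ⟨⟨x, hEN hx⟩, hx⟩ : ↥(E.subgroupOf N)) : ↥N) : Γ)) hβ1
  simpa [MulAut.conjNormal_apply] using h2

/-- Existence of a `B`-fixed element with prescribed `E`-component. -/
theorem ffx_exists_fixed (d : FFXData p q 𝓔 H' B) {E : Subgroup Γ} (hE : E ∈ 𝓔) {e' : Γ}
    (he' : e' ∈ E) :
    ∃ dd ∈ H' ⊓ Subgroup.centralizer (B : Set Γ), ∃ c ∈ sSup (𝓔 \ {E}), dd = e' * c := by
  classical
  have hq : q.Prime := Fact.out
  have hp : p.Prime := Fact.out
  have : Fintype ↥B := Fintype.ofFinite _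
  obtain ⟨e⟩ := d.hiso E hE
  obtain ⟨F, hF⟩ : ∃ F : Finset ↥B, F = Finset.univ.filter
    (fun b : ↥B => (b : Γ) ∈ Subgroup.normalizer (E : Set Γ)) := ⟨_, rfl⟩
  -- the number of stabilizing elements is a power of `q`
  have hFcard : ∃ s : ℕ, F.card = q ^ s := by
    obtain ⟨s, hs⟩ := (d.hB.to_subgroup ((Subgroup.normalizer (E : Set Γ)).subgroupOf B)).exists_card_eq
    refine ⟨s, ?_⟩
    rw [← hs, hF, Nat.card_eq_fintype_card, Fintype.card_subtype]
    rfl
  obtain ⟨s, hs⟩ := hFcard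
  have hcop : (Nat.card ↥E).Coprime F.card := by
    rw [hs, ffx_card e]
    apply Nat.Coprime.pow_right
    rw [Nat.coprime_comm, Nat.Prime.coprime_iff_not_dvd hq]
    intro hd
    have h5 := d.hq5
    rcases d.h23 with h | h
    · subst h
      have hd' : q ∣ 2 * 3 := by
        norm_num at hd ⊢
        exact hd
      rcases (Nat.Prime.dvd_mul hq).mp hd' with h | h
      · have := Nat.le_of_dvd (by norm_num) h
        omega
      · have := Nat.le_of_dvd (by norm_num) h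
        omega
    · subst h
      have hd' : q ∣ 2 ^ 3 * 3 := by
        norm_num at hd ⊢
        exact hd
      rcases (Nat.Prime.dvd_mul hq).mp hd' with h | h
      · have := Nat.le_of_dvd (by norm_num) (hq.dvd_of_dvd_pow h)
        omega
      · have := Nat.le_of_dvd (by norm_num) h
        omega
  obtain ⟨e₀, he₀⟩ := (powCoprime hcop).surjective ⟨e', he'⟩
  have he₀' : (e₀ : Γ) ^ F.card = e' := by
    have := congrArg Subtype.val he₀
    simpa using this
  obtain ⟨f, hf⟩ : ∃ f : ↥B → Γ, f = fun b : ↥B => (b : Γ) * (e₀ : Γ) * (b : Γ)⁻¹ := ⟨_, rfl⟩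
  have hfmem : ∀ b : ↥B, f b ∈ E.map (MulAut.conj (b : Γ)).toMonoidHom := by
    intro b
    rw [hf]
    exact ⟨e₀, e₀.2, rfl⟩
  have hfstab : ∀ b : ↥B, (b : Γ) ∈ Subgroup.normalizer (E : Set Γ) → f b = e₀ := by
    intro b hb
    rw [hf]
    exact ffx_stab_centralizes d hE b.2 hb _ e₀.2
  have hcomm_f : ∀ b b' : ↥B, Commute (f b) (f b') := by
    intro b b'
    by_cases h : E.map (MulAut.conj (b : Γ)).toMonoidHom = E.map (MulAut.conj (b' : Γ)).toMonoidHom
    · have h1 : E.map (MulAut.conj ((b : Γ)⁻¹ * (b' : Γ))).toMonoidHom = E := by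
        ext y
        constructor
        · rintro ⟨x, hx, rfl⟩
          have h2 : (b' : Γ) * x * (b' : Γ)⁻¹ ∈ E.map (MulAut.conj (b : Γ)).toMonoidHom := by
            rw [h]
            exact ⟨x, hx, rfl⟩
          obtain ⟨z, hz, hzb⟩ := h2
          have hzb' : (b : Γ) * z * (b : Γ)⁻¹ = (b' : Γ) * x * (b' : Γ)⁻¹ := hzb
          have : (MulAut.conj ((b : Γ)⁻¹ * (b' : Γ))).toMonoidHom x = z := by
            show (b : Γ)⁻¹ * (b' : Γ) * x * ((b : Γ)⁻¹ * (b' : Γ))⁻¹ = z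
            calc (b : Γ)⁻¹ * (b' : Γ) * x * ((b : Γ)⁻¹ * (b' : Γ))⁻¹
                = (b : Γ)⁻¹ * ((b' : Γ) * x * (b' : Γ)⁻¹) * (b : Γ) := by group
              _ = (b : Γ)⁻¹ * ((b : Γ) * z * (b : Γ)⁻¹) * (b : Γ) := by rw [hzb']
              _ = z := by group
          rw [this]
          exact hz
        · intro hy
          have h2 : (b : Γ) * y * (b : Γ)⁻¹ ∈ E.map (MulAut.conj (b' : Γ)).toMonoidHom := by
            rw [← h]
            exact ⟨y, hy, rfl⟩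
          obtain ⟨z, hz, hzb⟩ := h2
          have hzb' : (b' : Γ) * z * (b' : Γ)⁻¹ = (b : Γ) * y * (b : Γ)⁻¹ := hzb
          refine ⟨z, hz, ?_⟩
          show (b : Γ)⁻¹ * (b' : Γ) * z * ((b : Γ)⁻¹ * (b' : Γ))⁻¹ = y
          calc (b : Γ)⁻¹ * (b' : Γ) * z * ((b : Γ)⁻¹ * (b' : Γ))⁻¹
              = (b : Γ)⁻¹ * ((b' : Γ) * z * (b' : Γ)⁻¹) * (b : Γ) := by group
            _ = (b : Γ)⁻¹ * ((b : Γ) * y * (b : Γ)⁻¹) * (b : Γ) := by rw [hzb']
            _ = y := by group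
      have h2 := ffx_stab_centralizes d hE (B.mul_mem (B.inv_mem b.2) b'.2)
        (ffx_mem_normalizer_of_map_eq h1) _ e₀.2
      have h3 : f b = f b' := by
        rw [hf]
        show (b : Γ) * (e₀ : Γ) * (b : Γ)⁻¹ = (b' : Γ) * (e₀ : Γ) * (b' : Γ)⁻¹
        calc (b : Γ) * (e₀ : Γ) * (b : Γ)⁻¹
            = (b : Γ) * ((b : Γ)⁻¹ * (b' : Γ) * (e₀ : Γ) * ((b : Γ)⁻¹ * (b' : Γ))⁻¹) * (b : Γ)⁻¹ := by
              rw [h2]
          _ = (b' : Γ) * (e₀ : Γ) * (b' : Γ)⁻¹ := by group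
      rw [h3]
    · exact d.hcomm _ (d.hBE b b.2 E hE) _ (d.hBE b' b'.2 E hE) h _ (hfmem b) _ (hfmem b')
  have hpw : ∀ (g : ↥B → Γ), (∀ b b' : ↥B, Commute (g b) (g b')) → ∀ S : Finset ↥B,
      (S : Set ↥B).Pairwise (Function.onFun Commute g) := fun g hg S b _ b' _ _ => hg b b'
  obtain ⟨D, hD⟩ : ∃ D : Γ, D = Finset.univ.noncommProd f (hpw f hcomm_f _) := ⟨_, rfl⟩
  -- membership in `H'`
  have hDH : D ∈ H' := by
    rw [hD]
    apply Subgroup.noncommProd_mem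
    intro b _
    exact d.hle _ (d.hBE b b.2 E hE) (hfmem b)
  -- `B`-invariance
  have hDB : ∀ c ∈ B, c * D * c⁻¹ = D := by
    intro c hc
    have h1 := Finset.map_noncommProd Finset.univ f (hpw f hcomm_f _) (MulAut.conj c).toMonoidHom
    have hcg : ∀ b b' : ↥B, Commute (f ((Equiv.mulLeft (⟨c, hc⟩ : ↥B)) b))
        (f ((Equiv.mulLeft (⟨c, hc⟩ : ↥B)) b')) := fun b b' => hcomm_f _ _
    have h2 := ffx_noncommProd_equiv (Equiv.mulLeft (⟨c, hc⟩ : ↥B)) f (hpw f hcomm_f _)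
      (hpw _ hcg _)
    have h3 : (MulAut.conj c).toMonoidHom D = c * D * c⁻¹ := rfl
    rw [← h3, hD, h1, ← h2]
    apply Finset.noncommProd_congr rfl
    intro b _
    rw [hf]
    show c * ((b : Γ) * (e₀ : Γ) * (b : Γ)⁻¹) * c⁻¹ = c * (b : Γ) * (e₀ : Γ) * (c * (b : Γ))⁻¹
    group
  -- splitting off the stabilizer part
  have hU : (Finset.univ : Finset ↥B) = F ∪ Fᶜ := (Finset.union_compl F).symm
  have hsplit : D = F.noncommProd f (hpw f hcomm_f _) * Fᶜ.noncommProd f (hpw f hcomm_f _) := by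
    rw [hD]
    have h1 : Finset.univ.noncommProd f (hpw f hcomm_f _) =
        (F ∪ Fᶜ).noncommProd f (hpw f hcomm_f _) :=
      Finset.noncommProd_congr hU (fun _ _ => rfl) _
    rw [h1]
    exact Finset.noncommProd_union_of_disjoint disjoint_compl_right f _
  have hfirst : F.noncommProd f (hpw f hcomm_f _) = (e₀ : Γ) ^ F.card := by
    apply Finset.noncommProd_eq_pow_card
    intro b hb
    rw [hF, Finset.mem_filter] at hb
    exact hfstab b hb.2
  have hsecond : Fᶜ.noncommProd f (hpw f hcomm_f _) ∈ sSup (𝓔 \ {E}) := by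
    apply Subgroup.noncommProd_mem
    intro b hb
    rw [Finset.mem_compl, hF, Finset.mem_filter] at hb
    have hne : E.map (MulAut.conj (b : Γ)).toMonoidHom ≠ E := by
      intro h
      exact hb ⟨Finset.mem_univ _, ffx_mem_normalizer_of_map_eq h⟩
    have hmem : E.map (MulAut.conj (b : Γ)).toMonoidHom ∈ 𝓔 \ {E} := ⟨d.hBE b b.2 E hE, hne⟩
    exact (le_sSup hmem) (hfmem b)
  refine ⟨D, ⟨hDH, ?_⟩, _, hsecond, ?_⟩
  · refine Subgroup.mem_centralizer_iff.mpr ?_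
    intro c hc
    have := hDB c hc
    calc c * D = c * D * c⁻¹ * c := by group
      _ = D * c := by rw [this]
  · rw [hsplit, hfirst, he₀']

/-- A component is generated by `T'` and the `B`-fixed points of `H'`, as soon as `T'` contains
an element of order `p` of the component. -/
theorem ffx_comp_le (d : FFXData p q 𝓔 H' B) {E : Subgroup Γ} (hE : E ∈ 𝓔) (T' : Subgroup Γ)
    {t : Γ} (htT : t ∈ T') (htE : t ∈ E) (ht1 : t ≠ 1) (htp : t ^ p = 1) :
    E ≤ T' ⊔ (H' ⊓ Subgroup.centralizer (B : Set Γ)) := by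
  obtain ⟨e⟩ := d.hiso E hE
  have hR : sSup (𝓔 \ {E}) ≤ Subgroup.centralizer (E : Set Γ) := by
    apply sSup_le
    rintro E' ⟨hE', hne⟩ x hx
    rw [Subgroup.mem_centralizer_iff]
    intro y hy
    exact d.hcomm E hE E' hE' (fun h => hne h.symm) y hy x hx
  have key : ∀ e' ∈ E, e' * t * e'⁻¹ ∈ T' ⊔ (H' ⊓ Subgroup.centralizer (B : Set Γ)) := by
    intro e' he'
    obtain ⟨dd, hdd, c, hc, rfl⟩ := ffx_exists_fixed d hE he'
    have h1 : e' * c * t * (e' * c)⁻¹ ∈ T' ⊔ (H' ⊓ Subgroup.centralizer (B : Set Γ)) :=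
      Subgroup.mul_mem _ (Subgroup.mul_mem _ ((le_sup_right : _ ≤ T' ⊔ _) hdd)
        ((le_sup_left : T' ≤ T' ⊔ _) htT)) (Subgroup.inv_mem _ ((le_sup_right : _ ≤ T' ⊔ _) hdd))
    have h2 : t * c = c * t := Subgroup.mem_centralizer_iff.mp (hR hc) t htE
    have h3 : e' * c * t * (e' * c)⁻¹ = e' * t * e'⁻¹ := by
      calc e' * c * t * (e' * c)⁻¹ = e' * (c * t) * c⁻¹ * e'⁻¹ := by group
        _ = e' * (t * c) * c⁻¹ * e'⁻¹ := by rw [h2]
        _ = e' * t * e'⁻¹ := by group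
    rwa [h3] at h1
  have hncl : Subgroup.normalClosure ({(⟨t, htE⟩ : ↥E)} : Set ↥E) = ⊤ := by
    apply ffx_normal_top d.h23 e _ (t := ⟨t, htE⟩) (Subgroup.subset_normalClosure (Set.mem_singleton _))
    · intro h
      exact ht1 (congrArg Subtype.val h)
    · exact Subtype.ext (by simpa using htp)
  have hle : Subgroup.normalClosure ({(⟨t, htE⟩ : ↥E)} : Set ↥E) ≤
      (T' ⊔ (H' ⊓ Subgroup.centralizer (B : Set Γ))).subgroupOf E := by
    unfold Subgroup.normalClosure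
    rw [Subgroup.closure_le]
    intro x hx
    rw [Group.mem_conjugatesOfSet_iff] at hx
    obtain ⟨a, ha, hax⟩ := hx
    rw [Set.mem_singleton_iff] at ha
    subst ha
    rw [isConj_iff] at hax
    obtain ⟨c, hc⟩ := hax
    show (x : Γ) ∈ T' ⊔ (H' ⊓ Subgroup.centralizer (B : Set Γ))
    rw [← hc]
    exact key c c.2
  intro x hx
  have : (⟨x, hx⟩ : ↥E) ∈ (T' ⊔ (H' ⊓ Subgroup.centralizer (B : Set Γ))).subgroupOf E := by
    apply hle
    rw [hncl]
    exact Subgroup.mem_top _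
  exact this

/-- `H' = ⟨T', C_{H'}(B)⟩`. -/
theorem ffx_le (d : FFXData p q 𝓔 H' B) (hsup : sSup 𝓔 = H') (T' : Subgroup Γ)
    (hT : ∀ E ∈ 𝓔, ∃ t ∈ T', t ∈ E ∧ t ≠ 1 ∧ t ^ p = 1) :
    H' ≤ T' ⊔ (H' ⊓ Subgroup.centralizer (B : Set Γ)) := by
  have h1 : sSup 𝓔 ≤ T' ⊔ (H' ⊓ Subgroup.centralizer (B : Set Γ)) := by
    apply sSup_le
    intro E hE
    obtain ⟨t, htT, htE, ht1, htp⟩ := hT E hE
    exact ffx_comp_le d hE T' htT htE ht1 htp
  rwa [hsup] at h1

end

end Cfsg.Agent.Helper35
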