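import Mathlib
import Cfsg.Prelude.Def_PLocal
import Cfsg.Agent.Helper22.Transport

set_option autoImplicit false

/-!
# The components of the failure-of-factorization structure theorem are permuted by
automorphisms (helper35)

`ffxComp p V' H' E` is the index predicate of `S0617`: `E = [O_{p'}(H'), A] A` for a minimal
best offender `A ≤ H'` on `V'` with `[V', A] ≠ 1`.  It is preserved by every automorphism `φ`
of the ambient group with `φ(V') = V'` and `φ(H') = H'`, in particular by conjugation with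
elements normalizing `V'` and `H'`.
-/

namespace Cfsg.Agent.Helper35

open scoped commutatorElement

section

variable {Γ : Type*} [Group Γ]

/-- The index predicate of the structure theorem `S0617`. -/
def ffxComp (p : ℕ) (V' H' E : Subgroup Γ) : Prop :=
  ∃ A : Subgroup Γ, A ≤ H' ∧ Cfsg.IsBestOffenderOn p V' A ∧ ⁅V', A⁆ ≠ ⊥ ∧
    (∀ B : Subgroup Γ, B ≤ A → Cfsg.IsBestOffenderOn p V' B → ⁅V', B⁆ ≠ ⊥ → B = A) ∧
    E = ⁅((Cfsg.pPrimeCore p ↥H').map H'.subtype), A⁆ ⊔ A

theorem ffx_map_centralizer (φ : Γ ≃* Γ) (S : Subgroup Γ) :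
    (Subgroup.centralizer (S : Set Γ)).map φ.toMonoidHom =
      Subgroup.centralizer ((S.map φ.toMonoidHom : Subgroup Γ) : Set Γ) := by
  ext y
  constructor
  · rintro ⟨x, hx, rfl⟩
    refine Subgroup.mem_centralizer_iff.mpr ?_
    rintro _ ⟨s, hs, rfl⟩
    show φ s * φ x = φ x * φ s
    rw [← map_mul, ← map_mul, Subgroup.mem_centralizer_iff.mp hx s hs]
  · intro hy
    refine ⟨φ.symm y, Subgroup.mem_centralizer_iff.mpr ?_, φ.apply_symm_apply y⟩
    intro s hs
    have h := Subgroup.mem_centralizer_iff.mp hy (φ s) ⟨s, hs, rfl⟩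
    apply φ.injective
    rw [map_mul, map_mul, φ.apply_symm_apply]
    exact h

theorem ffx_map_symm_map (φ : Γ ≃* Γ) (S : Subgroup Γ) :
    (S.map φ.symm.toMonoidHom).map φ.toMonoidHom = S := by
  rw [Subgroup.map_map]
  have : φ.toMonoidHom.comp φ.symm.toMonoidHom = MonoidHom.id Γ := by
    ext x
    simp
  rw [this, Subgroup.map_id]

theorem ffx_map_map_symm (φ : Γ ≃* Γ) (S : Subgroup Γ) :
    (S.map φ.toMonoidHom).map φ.symm.toMonoidHom = S := by
  rw [Subgroup.map_map]
  have : φ.symm.toMonoidHom.comp φ.toMonoidHom = MonoidHom.id Γ := by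
    ext x
    simp
  rw [this, Subgroup.map_id]

theorem ffx_bestOffender_map {p : ℕ} (φ : Γ ≃* Γ) {V A : Subgroup Γ}
    (hV : V.map φ.toMonoidHom = V) (hA : Cfsg.IsBestOffenderOn p V A) :
    Cfsg.IsBestOffenderOn p V (A.map φ.toMonoidHom) := by
  have key : ∀ C : Subgroup Γ,
      Nat.card ↥(V ⊓ Subgroup.centralizer ((C.map φ.toMonoidHom : Subgroup Γ) : Set Γ)) =
        Nat.card ↥(V ⊓ Subgroup.centralizer (C : Set Γ)) := by
    intro C
    have h1 : V ⊓ Subgroup.centralizer ((C.map φ.toMonoidHom : Subgroup Γ) : Set Γ) =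
        (V ⊓ Subgroup.centralizer (C : Set Γ)).map φ.toMonoidHom := by
      rw [Subgroup.map_inf _ _ _ φ.injective, hV, ffx_map_centralizer]
    rw [h1, Subgroup.card_map_of_injective φ.injective]
  refine ⟨?_, ?_, ?_⟩
  · intro B' hB'
    have hBA : B'.map φ.symm.toMonoidHom ≤ A := by
      rintro _ ⟨y, hy, rfl⟩
      obtain ⟨a, ha, rfl⟩ := hB' hy
      have : φ.symm.toMonoidHom (φ.toMonoidHom a) = a := by simp
      rw [this]
      exact ha
    have h0 := hA.1 _ hBA
    have e1 : Nat.card ↥B' = Nat.card ↥(B'.map φ.symm.toMonoidHom) :=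
      (Subgroup.card_map_of_injective φ.symm.injective).symm
    have e2 : Nat.card ↥(V ⊓ Subgroup.centralizer (B' : Set Γ)) =
        Nat.card ↥(V ⊓ Subgroup.centralizer ((B'.map φ.symm.toMonoidHom : Subgroup Γ) : Set Γ)) := by
      have := key (B'.map φ.symm.toMonoidHom)
      rw [ffx_map_symm_map] at this
      exact this
    have e3 : Nat.card ↥(A.map φ.toMonoidHom) = Nat.card ↥A :=
      Subgroup.card_map_of_injective φ.injective
    rw [e1, e2, e3, key A]
    exact h0
  · rw [← Subgroup.map_commutator]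
    have h1 : (Subgroup.centralizer (V : Set Γ)).map φ.toMonoidHom =
        Subgroup.centralizer (V : Set Γ) := by
      rw [ffx_map_centralizer, hV]
    rw [← h1]
    exact Subgroup.map_mono hA.2.1
  · rintro _ ⟨a, ha, rfl⟩
    have h1 : φ.toMonoidHom (a ^ p) ∈ (Subgroup.centralizer (V : Set Γ)).map φ.toMonoidHom :=
      ⟨_, hA.2.2 a ha, rfl⟩
    rw [ffx_map_centralizer, hV] at h1
    rw [← map_pow]
    exact h1

theorem ffx_core_map {p : ℕ} (φ : Γ ≃* Γ) {H' : Subgroup Γ} (hH : H'.map φ.toMonoidHom = H') :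
    ((Cfsg.pPrimeCore p ↥H').map H'.subtype).map φ.toMonoidHom =
      (Cfsg.pPrimeCore p ↥H').map H'.subtype := by
  have hmem : ∀ x : ↥H', φ (x : Γ) ∈ H' := by
    intro x
    have : φ.toMonoidHom (x : Γ) ∈ H'.map φ.toMonoidHom := ⟨x, x.2, rfl⟩
    rw [hH] at this
    exact this
  have hmem' : ∀ x : ↥H', φ.symm (x : Γ) ∈ H' := by
    intro x
    have : (x : Γ) ∈ H'.map φ.toMonoidHom := by rw [hH]; exact x.2
    obtain ⟨y, hy, hyx⟩ := this
    have : φ.symm (x : Γ) = y := by
      rw [← hyx]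
      simp
    rw [this]
    exact hy
  obtain ⟨φH, hφH⟩ : ∃ φH : ↥H' ≃* ↥H', ∀ x : ↥H', ((φH x : ↥H') : Γ) = φ (x : Γ) :=
    ⟨{ toFun := fun x => ⟨φ (x : Γ), hmem x⟩
       invFun := fun x => ⟨φ.symm (x : Γ), hmem' x⟩
       left_inv := fun x => Subtype.ext (by simp)
       right_inv := fun x => Subtype.ext (by simp)
       map_mul' := fun x y => Subtype.ext (by simp) }, fun x => rfl⟩
  have h1 := Cfsg.Agent.Helper22.pPrimeCore_map_equiv p φH
  have h2 : φ.toMonoidHom.comp H'.subtype = H'.subtype.comp (φH : ↥H' →* ↥H') := by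
    ext x
    simp [hφH]
  rw [Subgroup.map_map, h2, ← Subgroup.map_map, h1]

theorem ffx_comp_map {p : ℕ} (φ : Γ ≃* Γ) {V' H' E : Subgroup Γ}
    (hV : V'.map φ.toMonoidHom = V') (hH : H'.map φ.toMonoidHom = H')
    (hE : ffxComp p V' H' E) : ffxComp p V' H' (E.map φ.toMonoidHom) := by
  obtain ⟨A, hAH, hAoff, hAV, hAmin, rfl⟩ := hE
  have hVs : V'.map φ.symm.toMonoidHom = V' := by
    conv_lhs => rw [← hV]
    exact ffx_map_map_symm φ V'
  refine ⟨A.map φ.toMonoidHom, ?_, ffx_bestOffender_map φ hV hAoff, ?_, ?_, ?_⟩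
  · have := Subgroup.map_mono (f := φ.toMonoidHom) hAH
    rwa [hH] at this
  · have h1 : ⁅V', A.map φ.toMonoidHom⁆ = ⁅V', A⁆.map φ.toMonoidHom := by
      rw [Subgroup.map_commutator, hV]
    rw [h1]
    intro h
    exact hAV ((Subgroup.map_eq_bot_iff_of_injective _ φ.injective).mp h)
  · intro B' hB' hB'off hB'V
    have hB : B'.map φ.symm.toMonoidHom ≤ A := by
      rintro _ ⟨y, hy, rfl⟩
      obtain ⟨a, ha, rfl⟩ := hB' hy
      have : φ.symm.toMonoidHom (φ.toMonoidHom a) = a := by simp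
      rw [this]
      exact ha
    have hBoff := ffx_bestOffender_map φ.symm hVs hB'off
    have hBV : ⁅V', B'.map φ.symm.toMonoidHom⁆ ≠ ⊥ := by
      have h1 : ⁅V', B'.map φ.symm.toMonoidHom⁆ = ⁅V', B'⁆.map φ.symm.toMonoidHom := by
        rw [Subgroup.map_commutator, hVs]
      rw [h1]
      intro h
      exact hB'V ((Subgroup.map_eq_bot_iff_of_injective _ φ.symm.injective).mp h)
    have h2 := hAmin _ hB hBoff hBV
    rw [← h2]
    exact (ffx_map_symm_map φ B').symm
  · rw [Subgroup.map_sup, Subgroup.map_commutator, ffx_core_map φ hH]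

theorem ffx_map_conj_eq {H : Subgroup Γ} {b : Γ} (hb : b ∈ Subgroup.normalizer (H : Set Γ)) :
    H.map (MulAut.conj b).toMonoidHom = H := by
  ext y
  constructor
  · rintro ⟨x, hx, rfl⟩
    exact (Subgroup.mem_normalizer_iff.mp hb x).mp hx
  · intro hy
    refine ⟨b⁻¹ * y * b, ?_, ?_⟩
    · have := (Subgroup.mem_normalizer_iff.mp (Subgroup.inv_mem _ hb) y).mp hy
      simpa using this
    · show b * (b⁻¹ * y * b) * b⁻¹ = y
      group

/-- Conjugation by an element normalizing `H'` permutes the components (`V'` normal). -/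
theorem ffx_comp_conj {p : ℕ} {V' H' E : Subgroup Γ} [hV : V'.Normal] {b : Γ}
    (hb : b ∈ Subgroup.normalizer (H' : Set Γ)) (hE : ffxComp p V' H' E) :
    ffxComp p V' H' (E.map (MulAut.conj b).toMonoidHom) := by
  apply ffx_comp_map (MulAut.conj b) _ (ffx_map_conj_eq hb) hE
  apply ffx_map_conj_eq
  rw [Subgroup.normalizer_eq_top]
  exact Subgroup.mem_top b

end

end Cfsg.Agent.Helper35
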