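import Mathlib
import Cfsg.Agent.Helper90.HTDefs
import Cfsg.Agent.Helper90.BGChain
import Cfsg.Agent.Helper47.HTTWZ

set_option autoImplicit false

/-!
# S5953 piece BT (helper35): the twisted bad element of `SU_n(q)`.

`x` is the monomial matrix of the permutation `(a, b) ↦ (a + 1, b)` of `ZMod r × Fin k`
(`n = r * k`) with diagonal part `z` on `a = 0`, where `z` is a norm-one scalar which is not
an `r`-th power and has `z ^ k = 1`.
-/

namespace Cfsg.Agent.Helper35.HT5953

open Module Polynomial Cfsg.Agent.Helper90.HT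

section monomial

variable {F : Type*} [Field F] {ι : Type*} [Fintype ι] [DecidableEq ι]

theorem bt_mono_mulVec (π : Equiv.Perm ι) (d : ι → F) (v : ι → F) :
    (π.permMatrix F * Matrix.diagonal d).mulVec v = fun i => d (π i) * v (π i) := by
  rw [← Matrix.mulVec_mulVec, Matrix.permMatrix_mulVec]
  funext i
  simp [Matrix.mulVec_diagonal]

theorem bt_mono_pow_mulVec (π : Equiv.Perm ι) (d : ι → F) (t : ℕ) :
    ∀ v : ι → F, ((π.permMatrix F * Matrix.diagonal d) ^ t).mulVec v =
      fun i => (∏ s ∈ Finset.range t, d ((π ^ (s + 1)) i)) * v ((π ^ t) i) := by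
  induction t with
  | zero => intro v; simp
  | succ t ih =>
    intro v
    rw [pow_succ, ← Matrix.mulVec_mulVec, ih, bt_mono_mulVec]
    funext i
    rw [Finset.prod_range_succ, pow_succ' π t, Equiv.Perm.mul_apply]
    show (∏ s ∈ Finset.range t, d ((π ^ (s + 1)) i)) * (d (π ((π ^ t) i)) * v (π ((π ^ t) i))) = _
    ring

theorem bt_mono_det (π : Equiv.Perm ι) (d : ι → F) (r : ℕ) (hr : Odd r) (hπ : π ^ r = 1) :
    (π.permMatrix F * Matrix.diagonal d).det = ∏ i, d i := by
  rw [Matrix.det_mul, Matrix.det_permutation, Matrix.det_diagonal]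
  have hs : Equiv.Perm.sign π = 1 := by
    have h1 : Equiv.Perm.sign π ^ r = 1 := by rw [← map_pow, hπ, map_one]
    rcases Int.units_eq_one_or (Equiv.Perm.sign π) with h | h
    · exact h
    · rw [h, hr.neg_one_pow] at h1
      exact absurd h1 (by decide)
  rw [hs]
  simp

end monomial

section models

variable {F : Type*} [Field F] [Fintype F] (q : ℕ) (hq : Fintype.card F = q ^ 2)

include hq

theorem bt_exists_sigma : ∃ σ : F →+* F, ∀ a, σ a = a ^ q := by
  obtain ⟨p, hp⟩ := CharP.exists F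
  haveI := hp
  haveI : Fact p.Prime := ⟨CharP.char_is_prime F p⟩
  obtain ⟨f, hpp, hf⟩ := FiniteField.card F p
  have hdvd : q ∣ p ^ (f : ℕ) := by
    rw [← hf, hq]
    exact dvd_pow_self q two_ne_zero
  obtain ⟨k, -, rfl⟩ := (Nat.dvd_prime_pow hpp).mp hdvd
  exact ⟨iterateFrobenius F p k, fun a => iterateFrobenius_def p k a⟩

/-- BT (uses TWZ, Helper90.BG.dvd_finrank_of_irreducible): the twisted element. -/
theorem bad_twist_u (r : ℕ) [Fact r.Prime] (hr2 : 2 < r) (hrq : r ∣ q + 1) (n : ℕ) (hn : 3 ≤ n)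
    (hv : padicValNat r (q + 1) < padicValNat r n) :
    ∃ x : Matrix.SpecialLinearGroup (Fin n) F, x ∈ Cfsg.SU n F q ∧
      (∃ z : F, ((x ^ r : Matrix.SpecialLinearGroup (Fin n) F) : Matrix (Fin n) (Fin n) F) =
        z • (1 : Matrix (Fin n) (Fin n) F)) ∧
      (∀ z : F, (x : Matrix (Fin n) (Fin n) F) ≠ z • 1) ∧
      ∀ W : Submodule F (Fin n → F),
        W.map (Matrix.toLin' (x : Matrix (Fin n) (Fin n) F)) ≤ W → r ∣ finrank F W := by
  classical
  have hrp : r.Prime := Fact.out
  have hrodd : Odd r := hrp.odd_of_ne_two (by omega)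
  haveI : NeZero r := ⟨hrp.ne_zero⟩
  obtain ⟨σ, hσ⟩ := bt_exists_sigma q hq
  obtain ⟨z, hz1, hzirr, hzord⟩ := Cfsg.Agent.Helper47.HT5953.ht_twist_z q hq σ hσ r hr2 hrq
  have hzq : z ^ (q + 1) = 1 := by
    rw [pow_succ', ← hσ]
    exact hz1
  -- `n = r * k` with `z ^ k = 1`
  have hn0 : n ≠ 0 := by omega
  have hdiv : r ^ (padicValNat r (q + 1) + 1) ∣ n := (padicValNat_dvd_iff_le hn0).mpr hv
  obtain ⟨c, hc⟩ := hdiv
  obtain ⟨k, hk⟩ : ∃ k, k = r ^ padicValNat r (q + 1) * c := ⟨_, rfl⟩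
  have hnk : n = r * k := by
    rw [hc, hk, pow_succ]
    ring
  have hzk : z ^ k = 1 := by rw [hk, pow_mul, hzord, one_pow]
  -- the index equivalence
  have hcard : Fintype.card (ZMod r × Fin k) = n := by
    rw [Fintype.card_prod, ZMod.card, Fintype.card_fin, hnk]
  obtain ⟨e⟩ : Nonempty (ZMod r × Fin k ≃ Fin n) := ⟨Fintype.equivFinOfCardEq hcard⟩
  -- the permutation and the diagonal part
  obtain ⟨π₀, hπ₀⟩ : ∃ π₀ : Equiv.Perm (ZMod r × Fin k), ∀ a b, π₀ (a, b) = (a + 1, b) :=
    ⟨Equiv.prodCongr (Equiv.addRight (1 : ZMod r)) (Equiv.refl _), fun a b => rfl⟩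
  obtain ⟨π, hπ⟩ : ∃ π : Equiv.Perm (Fin n), ∀ i, π i = e (π₀ (e.symm i)) :=
    ⟨(e.symm.trans π₀).trans e, fun i => rfl⟩
  obtain ⟨d, hd⟩ : ∃ d : Fin n → F, ∀ i, d i = if (e.symm i).1 = 0 then z else 1 :=
    ⟨_, fun i => rfl⟩
  have hπpow : ∀ (t : ℕ) (i : Fin n),
      (π ^ t) i = e ((e.symm i).1 + (t : ZMod r), (e.symm i).2) := by
    intro t
    induction t with
    | zero => intro i; simp
    | succ t ih =>
      intro i
      rw [pow_succ', Equiv.Perm.mul_apply, ih, hπ, Equiv.symm_apply_apply, hπ₀]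
      push_cast
      rw [add_assoc]
  have hπr : π ^ r = 1 := by
    ext i
    rw [hπpow, ZMod.natCast_self, add_zero]
    simp
  have hprod : ∀ i : Fin n, ∏ s ∈ Finset.range r, d ((π ^ (s + 1)) i) = z := by
    intro i
    obtain ⟨a, ha⟩ : ∃ a : ZMod r, a = (e.symm i).1 := ⟨_, rfl⟩
    have hs₀ : (-a - 1).val ∈ Finset.range r := Finset.mem_range.mpr (ZMod.val_lt _)
    have hterm : ∀ s ∈ Finset.range r,
        d ((π ^ (s + 1)) i) = if s = (-a - 1).val then z else 1 := by
      intro s hs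
      rw [hd, hπpow, Equiv.symm_apply_apply, ← ha]
      have hiff : (a + ((s + 1 : ℕ) : ZMod r) = 0) ↔ s = (-a - 1).val := by
        constructor
        · intro h0
          have h1 : (s : ZMod r) = -a - 1 := by
            push_cast at h0
            linear_combination h0
          rw [← h1, ZMod.val_natCast_of_lt (Finset.mem_range.mp hs)]
        · intro h0
          rw [h0]
          push_cast
          rw [ZMod.natCast_zmod_val]
          ring
      simp only [hiff]
    rw [Finset.prod_congr rfl hterm, Finset.prod_ite_eq', if_pos hs₀]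
  have hdprod : ∏ i, d i = 1 := by
    have h1 : ∏ i, d i = ∏ p : ZMod r × Fin k, (if p.1 = 0 then z else 1) := by
      rw [← Equiv.prod_comp e (fun i => d i)]
      refine Finset.prod_congr rfl fun p _ => ?_
      rw [hd, Equiv.symm_apply_apply]
    rw [h1, Fintype.prod_prod_type]
    apply Finset.prod_eq_one
    intro a _
    by_cases ha : a = 0
    · simp [ha, hzk]
    · simp [ha]
  have hdq : ∀ i, d i ^ (q + 1) = 1 := by
    intro i
    rw [hd]
    split_ifs
    · exact hzq
    · exact one_pow _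
  obtain ⟨M, hM⟩ : ∃ M : Matrix (Fin n) (Fin n) F, M = π.permMatrix F * Matrix.diagonal d :=
    ⟨_, rfl⟩
  have hdet : M.det = 1 := by rw [hM, bt_mono_det π d r hrodd hπr, hdprod]
  have hpres : ∀ u v, Cfsg.hermForm n F q (M.mulVec u) (M.mulVec v) = Cfsg.hermForm n F q u v := by
    intro u v
    rw [hM, bt_mono_mulVec, bt_mono_mulVec]
    unfold Cfsg.hermForm
    rw [Equiv.sum_comp π (fun j => d j * u j * (d j * v j) ^ q)]
    refine Finset.sum_congr rfl fun j _ => ?_
    have := hdq j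
    rw [mul_pow]
    linear_combination (u j * v j ^ q) * this
  have hMr : M ^ r = z • (1 : Matrix (Fin n) (Fin n) F) := by
    apply Matrix.mulVec_injective
    funext v
    rw [hM, bt_mono_pow_mulVec]
    funext i
    rw [hprod, hπr, Matrix.smul_mulVec, Matrix.one_mulVec]
    simp
  obtain ⟨x, hxSU, hxM⟩ := exists_SU_of_matrix (q := q) n M hdet hpres
  refine ⟨x, hxSU, ⟨z, ?_⟩, ?_, ?_⟩
  · rw [Matrix.SpecialLinearGroup.coe_pow, hxM, hMr]
  · intro c hc
    rw [hxM] at hc
    rw [hc, _root_.smul_pow, one_pow] at hMr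
    have := congrFun (congrFun hMr ⟨0, by omega⟩) ⟨0, by omega⟩
    simp only [Matrix.smul_apply, Matrix.one_apply_eq, smul_eq_mul, mul_one] at this
    exact hzirr c this
  · intro W hW
    rw [hxM] at hW
    have hPirr : Irreducible (X ^ r - C z : F[X]) := X_pow_sub_C_irreducible_of_prime hrp hzirr
    have hPdeg : (X ^ r - C z : F[X]).natDegree = r := natDegree_X_pow_sub_C
    have hPT : aeval (Matrix.toLin' M) (X ^ r - C z : F[X]) = 0 := by
      rw [map_sub, map_pow, aeval_X, aeval_C, ← Matrix.toLin'_pow, hMr,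
        Algebra.algebraMap_eq_smul_one, map_smul, Matrix.toLin'_one]
      exact sub_self _
    have := Cfsg.Agent.Helper90.BG.dvd_finrank_of_irreducible (Matrix.toLin' M) _ hPirr hPT W hW
    rwa [hPdeg] at this

end models

end Cfsg.Agent.Helper35.HT5953
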