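import Mathlib
import Cfsg.Agent.Helper90.HTDefs
import Cfsg.Agent.Helper47.HTHORTH
import Cfsg.Agent.Helper33.HTHSUM
import Cfsg.Agent.Helper58.TICOMPL

set_option autoImplicit false

/-!
# S5953 piece HMAX (helper35, double): a maximal invariant totally isotropic subspace of a
nondegenerate invariant `D` and an invariant complement of it in its perp.
-/

namespace Cfsg.Agent.Helper35.HT5953

open Module Polynomial Cfsg.Agent.Helper90.HT

section geom2

variable {F : Type*} [Field F] {V : Type*} [AddCommGroup V] [Module F V] [FiniteDimensional F V]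
  (σ : F →+* F) (h : V → V → F)

/-- HMAX (uses HORTH, Helper58 ti_compl): a maximal invariant t.i. subspace of `D` and an
invariant complement of it in its perp. -/
theorem ht_max (hh : IsHerm σ h) (T : Module.End F V) (hT : HPres h T) (N : ℕ)
    (hN : (N : F) ≠ 0) (hTN : T ^ N = 1) (D : Submodule F V) (hDT : D.map T ≤ D)
    (hD : HNondegOn h D) :
    ∃ W U : Submodule F V, W ≤ D ∧ U ≤ D ∧ HTI h W ∧ W.map T ≤ W ∧ U.map T ≤ U ∧
      finrank F D = 2 * finrank F W + finrank F U ∧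
      ∀ W' : Submodule F V, W' ≤ U → HTI h W' → W'.map T ≤ W' → W' = ⊥ := by
  classical
  -- a maximal invariant totally isotropic subspace of `D`
  obtain ⟨Pr, hPr⟩ : ∃ Pr : ℕ → Prop, ∀ k, Pr k ↔
      ∃ W : Submodule F V, W ≤ D ∧ HTI h W ∧ W.map T ≤ W ∧ finrank F W = k := ⟨_, fun k => Iff.rfl⟩
  have hP0 : Pr 0 := by
    rw [hPr]
    refine ⟨⊥, bot_le, ?_, by simp, finrank_bot F V⟩
    intro u hu v hv
    rw [Submodule.mem_bot] at hu
    rw [hu, hh.zero_left]
  have hPmax := Nat.findGreatest_spec (P := Pr) (Nat.zero_le (finrank F V)) hP0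
  have hPle : ∀ k, Pr k → k ≤ Nat.findGreatest Pr (finrank F V) := by
    intro k hk
    apply Nat.le_findGreatest _ hk
    rw [hPr] at hk
    obtain ⟨W, -, -, -, rfl⟩ := hk
    exact Submodule.finrank_le W
  rw [hPr] at hPmax
  obtain ⟨W, hWD, hWTI, hWT, hWfin⟩ := hPmax
  -- the perp of `W` in `D`
  obtain ⟨P, hPmem, hPfin⟩ := Cfsg.Agent.Helper47.HT5953.ht_orth σ h hh D W hD hWD
  have hWP : W ≤ P := fun v hv => (hPmem v).mpr ⟨hWD hv, fun w hw => hWTI v hv w hw⟩
  have hPD : P ≤ D := fun v hv => ((hPmem v).mp hv).1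
  have hN0 : N ≠ 0 := by
    rintro rfl
    exact hN (by simp)
  have hpowW : ∀ (k : ℕ), ∀ w ∈ W, (T ^ k) w ∈ W := by
    intro k
    induction k with
    | zero => intro w hw; simpa using hw
    | succ k ih =>
      intro w hw
      rw [pow_succ', Module.End.mul_apply]
      exact hWT (Submodule.mem_map_of_mem (ih w hw))
  have hPT : P.map T ≤ P := by
    rintro _ ⟨v, hv, rfl⟩
    obtain ⟨hvD, hvW⟩ := (hPmem v).mp hv
    refine (hPmem _).mpr ⟨hDT (Submodule.mem_map_of_mem hvD), fun w hw => ?_⟩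
    have hw' : w = T ((T ^ (N - 1)) w) := by
      rw [← Module.End.mul_apply, ← pow_succ', Nat.sub_add_cancel (Nat.one_le_iff_ne_zero.mpr hN0),
        hTN, Module.End.one_apply]
    rw [hw', hT]
    exact hvW _ (hpowW _ w hw)
  obtain ⟨U, hUP, hUT, hWU, hWUP⟩ :=
    Cfsg.Agent.Helper58.TI5955.ti_compl T N hN hTN W P hWP hWT hPT
  have hfin1 : finrank F P = finrank F W + finrank F U := by
    have := Submodule.finrank_sup_add_finrank_inf_eq W U
    rw [hWUP, hWU, finrank_bot, add_zero] at this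
    exact this
  have hperp : ∀ u ∈ W, ∀ v ∈ U, h u v = 0 := by
    intro u hu v hv
    exact hh.eq_zero_symm (((hPmem v).mp (hUP hv)).2 u hu)
  refine ⟨W, U, hWD, hUP.trans hPD, hWTI, hWT, hUT, by omega, ?_⟩
  intro W' hW'U hW'TI hW'T
  obtain ⟨hTI, hfin⟩ := Cfsg.Agent.Helper33.HT5953.ht_sum σ h hh W W' W U le_rfl hW'U hWU hperp
    hWTI hW'TI
  have hmem : Pr (finrank F ↥(W ⊔ W')) := by
    rw [hPr]
    refine ⟨W ⊔ W', sup_le hWD (hW'U.trans (hUP.trans hPD)), hTI, ?_, rfl⟩
    rw [Submodule.map_sup]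
    exact sup_le_sup hWT hW'T
  have := hPle _ hmem
  rw [hfin, ← hWfin] at this
  have h0 : finrank F W' = 0 := by omega
  exact Submodule.finrank_eq_zero.mp h0

end geom2

end Cfsg.Agent.Helper35.HT5953
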