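import Mathlib
import Cfsg.Agent.Helper90.HTDefs
import Cfsg.Agent.Helper90.BGChain
import Cfsg.Agent.Helper35.HTHMAX
import Cfsg.Agent.Helper22.HTCWH
import Cfsg.Agent.Helper34.HTHCYC

set_option autoImplicit false

/-!
# S5953 piece HTW (helper35): the twist — invariant totally isotropic subspaces when
`T ^ r = z` with `X ^ r - z` irreducible.
-/

namespace Cfsg.Agent.Helper35.HT5953

open Module Polynomial Cfsg.Agent.Helper90.HT

section geom2

variable {F : Type*} [Field F] {V : Type*} [AddCommGroup V] [Module F V] [FiniteDimensional F V]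
  (σ : F →+* F) (h : V → V → F)

variable [Fintype F]

/-- HTW (uses HMAX, CWH, HCYC, Helper90.BG.dvd_finrank_of_irreducible / chain_exists): the twist. -/
theorem ht_twist (hh : IsHerm σ h) (hnd : ∀ v, (∀ w, h v w = 0) → v = 0)
    (T : Module.End F V) (hT : HPres h T) (r : ℕ) [Fact r.Prime] (hr2 : 2 < r) (z : F)
    (hTr : T ^ r = z • (1 : Module.End F V)) (hirr : ∀ b : F, b ^ r ≠ z) (N : ℕ)
    (hN : (N : F) ≠ 0) (hTN : T ^ N = 1) (m : ℕ) (hrm : r ∣ m) (hm : 2 * m ≤ finrank F V) :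
    ∃ W : Submodule F V, finrank F W = m ∧ HTI h W ∧ W.map T ≤ W := by
  classical
  have hrp : r.Prime := Fact.out
  have hPirr : Irreducible (X ^ r - C z : F[X]) := X_pow_sub_C_irreducible_of_prime hrp hirr
  have hPdeg : (X ^ r - C z : F[X]).natDegree = r := natDegree_X_pow_sub_C
  have hPT : aeval T (X ^ r - C z : F[X]) = 0 := by
    rw [map_sub, map_pow, aeval_X, aeval_C, hTr, Algebra.algebraMap_eq_smul_one, sub_self]
  have hdvd : ∀ W : Submodule F V, W.map T ≤ W → r ∣ finrank F W := by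
    intro W hW
    have := Cfsg.Agent.Helper90.BG.dvd_finrank_of_irreducible T _ hPirr hPT W hW
    rwa [hPdeg] at this
  have hDtop : HNondegOn h (⊤ : Submodule F V) := fun v _ hv => hnd v (fun w => hv w trivial)
  obtain ⟨W₀, U, -, -, hW₀TI, hW₀T, hUT, hfin, hUmax⟩ :=
    ht_max σ h hh T hT N hN hTN ⊤ le_top hDtop
  rw [finrank_top] at hfin
  -- `finrank U ≤ r + 1`
  have hUle : finrank F U ≤ r + 1 := by
    by_contra hcon
    have hrodd : Odd r := hrp.odd_of_ne_two (by omega)
    have hcard : 2 * Fintype.card (Fin ((r + 1) / 2)) < finrank F U := by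
      rw [Fintype.card_fin]
      omega
    obtain ⟨v, hvU, hv0, hv⟩ := Cfsg.Agent.Helper22.HT5953.ht_cw
      (fun (j : Fin ((r + 1) / 2)) (u w : V) => h u ((T ^ (j : ℕ)) w))
      (fun j u u' w => hh.add_left u u' _)
      (fun j u w w' => by rw [map_add, hh.add_right]) U hcard
    have hv' : ∀ j ∈ Finset.range ((r + 1) / 2), h v ((T ^ j) v) = 0 := by
      intro j hj
      exact hv ⟨j, Finset.mem_range.mp hj⟩
    obtain ⟨hTI, hinv⟩ := Cfsg.Agent.Helper34.HT5953.ht_cyc σ h hh T hT r hrodd z hTr v hv'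
    have hpowU : ∀ j : ℕ, (T ^ j) v ∈ U := by
      intro j
      have := Cfsg.Agent.Helper90.BG.aeval_mem T U hUT (X ^ j) hvU
      rwa [map_pow, aeval_X] at this
    have hle : Submodule.span F (Set.range fun j : ℕ => (T ^ j) v) ≤ U := by
      rw [Submodule.span_le]
      rintro _ ⟨j, rfl⟩
      exact hpowU j
    have hbot := hUmax _ hle hTI hinv
    have hvmem : v ∈ Submodule.span F (Set.range fun j : ℕ => (T ^ j) v) :=
      Submodule.subset_span ⟨0, by simp⟩
    rw [hbot, Submodule.mem_bot] at hvmem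
    exact hv0 hvmem
  obtain ⟨a, rfl⟩ := hrm
  obtain ⟨w, hw⟩ := hdvd W₀ hW₀T
  obtain ⟨u, hu⟩ := hdvd U hUT
  have hrpos : 0 < r := by omega
  have hu1 : u ≤ 1 := by
    by_contra hcon
    have : 2 ≤ u := by omega
    have : r * 2 ≤ r * u := Nat.mul_le_mul_left r this
    omega
  have haw : a ≤ w := by
    by_contra hcon
    have h1 : w + 1 ≤ a := by omega
    have h2 : r * (w + 1) ≤ r * a := Nat.mul_le_mul_left r h1
    have h3 : r * u ≤ r * 1 := Nat.mul_le_mul_left r hu1
    rw [hw, hu] at hfin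
    rw [mul_add, mul_one] at h2
    omega
  have hd : ∀ g : F[X], Irreducible g → g ∣ (X ^ r - C z : F[X]) → g.natDegree = r := by
    intro g hg hgd
    rw [Cfsg.Agent.Helper90.BG.natDegree_eq_of_assoc (hg.associated_of_dvd hPirr hgd), hPdeg]
  obtain ⟨U', -, hU'W, hU'T, hU'fin⟩ := Cfsg.Agent.Helper90.BG.chain_exists T ⊥ W₀ bot_le
    (by simp) hW₀T (X ^ r - C z) hPirr.ne_zero (fun v _ => by rw [hPT]; simp) r hd a
    (by rw [finrank_bot, zero_add, hw]; exact Nat.mul_le_mul_left r haw)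
  refine ⟨U', ?_, ?_, hU'T⟩
  · rw [hU'fin, finrank_bot, zero_add]
  · intro x hx y hy
    exact hW₀TI x (hU'W hx) y (hU'W hy)

end geom2

end Cfsg.Agent.Helper35.HT5953
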