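import Mathlib
import Cfsg.Prelude.Def_KGroupFacts
import Cfsg.Agent.Helper35.StemSylow
import Cfsg.Agent.Helper5.SLCard
import Cfsg.Agent.Helper66.Dihedral

set_option autoImplicit false

/-!
# Upper bound for the Schur multiplier of `SL₃(𝔽₂)` (helper35)

* `l32dih_closure_card_le` : a group generated by `a, x` with `a ^ n = 1`, `x * x = 1`, `a * x * a = x`
  has at most `2 * n` elements;
* `l32_card` : `|SL₃(ZMod 2)| = 168`;
* `l32_sylow_two` : every Sylow 2-subgroup of `SL₃(ZMod 2)` is dihedral-like of order 8;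
* `l32_stem_card_ker_le` : every finite stem extension of `SL₃(ZMod 2)` has kernel of order at most 2.
-/

namespace Cfsg.Agent.Helper35

open Subgroup

theorem l32dih_closure_card_le {G : Type*} [Group G] (a x : G) (n : ℕ) (hn : 0 < n)
    (han : a ^ n = 1) (hxx : x * x = 1) (hax : a * x * a = x) :
    Nat.card (closure ({a, x} : Set G)) ≤ 2 * n := by
  have hxinv : x⁻¹ = x := inv_eq_of_mul_eq_one_left hxx
  have h1 : x⁻¹ * a * x = a⁻¹ := by
    have h : a * x = x * a⁻¹ := by rw [eq_mul_inv_iff_mul_eq]; exact hax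
    rw [mul_assoc, h]; group
  have hconj : ∀ k : ℤ, a ^ k * x = x * a ^ (-k) := by
    intro k
    have h2 : x⁻¹ * a ^ k * x = (a⁻¹) ^ k := by
      rw [← h1]
      have := conj_zpow (a := x⁻¹) (b := a) (i := k)
      rw [inv_inv] at this
      exact this.symm
    rw [inv_zpow, ← zpow_neg] at h2
    rw [← h2]; group
  have hconj' : ∀ (δ : ℕ) (k : ℤ), ∃ k' : ℤ, a ^ k * x ^ δ = x ^ δ * a ^ k' := by
    intro δ
    induction δ with
    | zero => intro k; exact ⟨k, by simp⟩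
    | succ d ih =>
      intro k
      obtain ⟨k', hk'⟩ := ih k
      refine ⟨-k', ?_⟩
      rw [pow_succ, ← mul_assoc, hk', mul_assoc, hconj, ← mul_assoc]
  have key0 : ∀ g ∈ closure ({a, x} : Set G), ∃ (ε : ℕ) (k : ℤ), g = x ^ ε * a ^ k := by
    intro g hg
    induction hg using Subgroup.closure_induction with
    | mem y hy =>
      rcases hy with rfl | hy
      · exact ⟨0, 1, by simp⟩
      · rw [Set.mem_singleton_iff] at hy
        subst hy
        exact ⟨1, 0, by simp⟩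
    | one => exact ⟨0, 0, by simp⟩
    | mul y z _ _ ihy ihz =>
      obtain ⟨ε, k, rfl⟩ := ihy
      obtain ⟨δ, j, rfl⟩ := ihz
      obtain ⟨k', hk'⟩ := hconj' δ k
      refine ⟨ε + δ, k' + j, ?_⟩
      calc x ^ ε * a ^ k * (x ^ δ * a ^ j) = x ^ ε * (a ^ k * x ^ δ) * a ^ j := by group
        _ = x ^ ε * (x ^ δ * a ^ k') * a ^ j := by rw [hk']
        _ = x ^ (ε + δ) * a ^ (k' + j) := by rw [pow_add, zpow_add]; group
    | inv y _ ih =>
      obtain ⟨ε, k, rfl⟩ := ih
      obtain ⟨k', hk'⟩ := hconj' ε (-k)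
      refine ⟨ε, k', ?_⟩
      rw [mul_inv_rev, ← zpow_neg, ← inv_pow, hxinv, hk']
  have key : ∀ g : closure ({a, x} : Set G), ∃ p : Fin 2 × Fin n,
      (g : G) = x ^ (p.1 : ℕ) * a ^ (p.2 : ℕ) := by
    rintro ⟨g, hg⟩
    obtain ⟨ε, k, rfl⟩ := key0 g hg
    have hx2 : x ^ 2 = 1 := by rw [pow_two]; exact hxx
    have hn' : (n : ℤ) ≠ 0 := by exact_mod_cast hn.ne'
    have hkn : 0 ≤ k % (n : ℤ) := Int.emod_nonneg k hn'
    have hkn' : k % (n : ℤ) < n := Int.emod_lt_of_pos k (by exact_mod_cast hn)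
    refine ⟨(⟨ε % 2, Nat.mod_lt _ (by norm_num)⟩, ⟨(k % (n : ℤ)).toNat, by omega⟩), ?_⟩
    show x ^ ε * a ^ k = x ^ (ε % 2) * a ^ ((k % (n : ℤ)).toNat)
    have e1 : x ^ ε = x ^ (ε % 2) := by
      conv_lhs => rw [← Nat.mod_add_div ε 2]
      rw [pow_add, pow_mul, hx2, one_pow, mul_one]
    have e2 : a ^ k = a ^ ((k % (n : ℤ)).toNat) := by
      conv_lhs => rw [← Int.emod_add_mul_ediv k n]
      rw [zpow_add, zpow_mul, zpow_natCast, han, one_zpow, mul_one, ← zpow_natCast,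
        Int.toNat_of_nonneg hkn]
    rw [e1, e2]
  choose f hf using key
  have hinj : Function.Injective f := by
    intro g g' hgg
    apply Subtype.ext
    rw [hf g, hf g', hgg]
  have := Nat.card_le_card_of_injective f hinj
  simpa using this

/-- A group of order 8 is generated by an element of order 4 and any element outside its powers. -/
theorem l32dih_closure_eq_top {H : Type*} [Group H] [Finite H] (hH : Nat.card H = 8) (a x : H)
    (ha4 : a ^ 4 = 1) (ha2 : a ^ 2 ≠ 1) (hx : x ∉ zpowers a) : closure ({a, x} : Set H) = ⊤ := by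
  have hord : orderOf a = 4 := by
    have := orderOf_eq_prime_pow (x := a) (p := 2) (n := 1) (by simpa using ha2) (by simpa using ha4)
    simpa using this
  have hamem : a ∈ closure ({a, x} : Set H) := subset_closure (by simp)
  have hxmem : x ∈ closure ({a, x} : Set H) := subset_closure (by simp)
  have hle : zpowers a ≤ closure ({a, x} : Set H) := (zpowers_le).mpr hamem
  have h4 : 4 ∣ Nat.card (closure ({a, x} : Set H)) := by
    have := Subgroup.card_dvd_of_le hle
    rwa [Nat.card_zpowers, hord] at this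
  have h8 : Nat.card (closure ({a, x} : Set H)) ∣ 8 := by
    rw [← hH]; exact Subgroup.card_subgroup_dvd_card _
  have hne4 : Nat.card (closure ({a, x} : Set H)) ≠ 4 := by
    intro h
    have heq : zpowers a = closure ({a, x} : Set H) := by
      apply Subgroup.eq_of_le_of_card_ge hle
      rw [h, Nat.card_zpowers, hord]
    exact hx (heq ▸ hxmem)
  have hc8 : Nat.card (closure ({a, x} : Set H)) = 8 := by
    have hle8 := Nat.le_of_dvd (by norm_num) h8
    obtain ⟨m, hm⟩ : ∃ m, m = Nat.card (closure ({a, x} : Set H)) := ⟨_, rfl⟩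
    rw [← hm] at h4 hne4 hle8 ⊢
    have hpos : 0 < m := by rw [hm]; exact Nat.card_pos
    obtain ⟨c, hc⟩ := h4
    omega
  rw [← Subgroup.card_eq_iff_eq_top, hc8, hH]

/-- The concrete group `SL₃(𝔽₂)`. -/
abbrev L32G : Type := Matrix.SpecialLinearGroup (Fin 3) (ZMod 2)

theorem l32_card : Nat.card L32G = 168 := by
  have h := Cfsg.Agent.Helper5.card_SL_mul (F := ZMod 2) (Fin 3)
  rw [Matrix.card_GL_field, Fin.prod_univ_three, ZMod.card] at h
  rw [show ((0 : Fin 3) : ℕ) = 0 from rfl, show ((1 : Fin 3) : ℕ) = 1 from rfl,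
    show ((2 : Fin 3) : ℕ) = 2 from rfl] at h
  show Nat.card (Matrix.SpecialLinearGroup (Fin 3) (ZMod 2)) = 168
  omega

/-- an element of order 4 -/
def l32a : L32G := ⟨!![1, 1, 0; 0, 1, 1; 0, 0, 1], by rw [Matrix.det_fin_three]; decide⟩

/-- an involution inverting `l32a` -/
def l32x : L32G := ⟨!![1, 1, 0; 0, 1, 0; 0, 0, 1], by rw [Matrix.det_fin_three]; decide⟩

theorem l32_axa : l32a * l32x * l32a = l32x := by decide

theorem l32_a4 : l32a ^ 4 = 1 := by decide

theorem l32_a2 : l32a ^ 2 ≠ 1 := by decide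

theorem l32_xx : l32x * l32x = 1 := by decide

theorem l32_x_ne : l32x ≠ 1 ∧ l32x ≠ l32a ∧ l32x ≠ l32a ^ 2 ∧ l32x ≠ l32a ^ 3 := by decide

theorem l32_orderOf_a : orderOf l32a = 4 := by
  have := orderOf_eq_prime_pow (x := l32a) (p := 2) (n := 1) (by simpa using l32_a2)
    (by simpa using l32_a4)
  simpa using this

theorem l32_x_not_mem : ∀ k : ℤ, l32a ^ k ≠ l32x := by
  intro k hk
  rw [← zpow_mod_orderOf, l32_orderOf_a] at hk
  have h0 : 0 ≤ k % ((4 : ℕ) : ℤ) := Int.emod_nonneg k (by norm_num)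
  have h4 : k % ((4 : ℕ) : ℤ) < 4 := Int.emod_lt_of_pos k (by norm_num)
  obtain ⟨j, hj⟩ := Int.eq_ofNat_of_zero_le h0
  rw [hj] at hk h4
  rw [zpow_natCast] at hk
  have hj4 : j < 4 := by exact_mod_cast h4
  obtain ⟨h1, h2, h3, h4'⟩ := l32_x_ne
  interval_cases j
  · exact h1 (by simpa using hk.symm)
  · exact h2 (by simpa using hk.symm)
  · exact h3 hk.symm
  · exact h4' hk.symm

/-- Every Sylow 2-subgroup of `SL₃(𝔽₂)` is generated by `a` of order 4 and `x` with `a x a = x`. -/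
theorem l32_sylow_two (P : Sylow 2 L32G) :
    ∃ a x : ↥(P : Subgroup L32G), Subgroup.closure ({a, x} : Set ↥(P : Subgroup L32G)) = ⊤ ∧
      a * x * a = x ∧ a ^ 4 = 1 ∧ orderOf (a ^ 2) = 2 := by
  obtain ⟨D, hD⟩ : ∃ D : Subgroup L32G, D = Subgroup.closure ({l32a, l32x} : Set L32G) :=
    ⟨_, rfl⟩
  have haD : l32a ∈ D := by rw [hD]; exact Subgroup.subset_closure (by simp)
  have hxD : l32x ∈ D := by rw [hD]; exact Subgroup.subset_closure (by simp)
  have hDle : Nat.card D ≤ 8 := by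
    rw [hD]; exact l32dih_closure_card_le l32a l32x 4 (by norm_num) l32_a4 l32_xx l32_axa
  have hzle : zpowers l32a ≤ D := (zpowers_le).mpr haD
  have h4 : 4 ∣ Nat.card D := by
    have := Subgroup.card_dvd_of_le hzle
    rwa [Nat.card_zpowers, l32_orderOf_a] at this
  have hne4 : Nat.card D ≠ 4 := by
    intro h
    have heq : zpowers l32a = D := by
      apply Subgroup.eq_of_le_of_card_ge hzle
      rw [h, Nat.card_zpowers, l32_orderOf_a]
    have hx : l32x ∈ zpowers l32a := heq ▸ hxD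
    obtain ⟨k, hk⟩ := mem_zpowers_iff.mp hx
    exact l32_x_not_mem k hk
  have hD8 : Nat.card D = 8 := by
    have hpos : 0 < Nat.card D := Nat.card_pos
    obtain ⟨c, hc⟩ := h4
    omega
  have hDp : IsPGroup 2 D := IsPGroup.of_card (n := 3) (by rw [hD8]; norm_num)
  obtain ⟨Q, hQ⟩ := hDp.exists_le_sylow
  obtain ⟨g, hg⟩ := MulAction.exists_smul_eq L32G Q P
  have hmem : ∀ y ∈ D, g * y * g⁻¹ ∈ (P : Subgroup L32G) := by
    intro y hy
    have := Subgroup.smul_mem_pointwise_smul y (MulAut.conj g) (Q : Subgroup L32G) (hQ hy)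
    rw [← hg]
    exact this
  have hcardP : Nat.card (P : Subgroup L32G) = 8 := by
    have h1 : Nat.card (P : Subgroup L32G) = Nat.card (Q : Subgroup L32G) := by
      rw [Sylow.card_eq_multiplicity, Sylow.card_eq_multiplicity]
    obtain ⟨k, hk⟩ := IsPGroup.iff_card.mp Q.isPGroup'
    have h2 : 8 ≤ Nat.card (Q : Subgroup L32G) := by
      rw [← hD8]; exact Subgroup.card_le_of_le hQ
    have h3 : Nat.card (Q : Subgroup L32G) ∣ 168 := by
      rw [← l32_card]; exact Subgroup.card_subgroup_dvd_card _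
    rw [h1, hk]
    rw [hk] at h2 h3
    have hk3 : k < 4 := by
      by_contra hcon
      push Not at hcon
      have : 2 ^ 4 ∣ 168 := (pow_dvd_pow 2 hcon).trans h3
      norm_num at this
    have hk2 : 3 ≤ k := by
      by_contra hcon
      push Not at hcon
      have : 2 ^ k ≤ 2 ^ 2 := Nat.pow_le_pow_right (by norm_num) (by omega)
      omega
    have : k = 3 := by omega
    rw [this]; norm_num
  obtain ⟨a, ha⟩ : ∃ a : ↥(P : Subgroup L32G), (a : L32G) = g * l32a * g⁻¹ :=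
    ⟨⟨_, hmem _ haD⟩, rfl⟩
  obtain ⟨x, hx⟩ : ∃ x : ↥(P : Subgroup L32G), (x : L32G) = g * l32x * g⁻¹ :=
    ⟨⟨_, hmem _ hxD⟩, rfl⟩
  have hpow : ∀ n : ℕ, ((a ^ n : ↥(P : Subgroup L32G)) : L32G) = g * l32a ^ n * g⁻¹ := by
    intro n
    rw [Subgroup.coe_pow, ha, conj_pow]
  have ha4 : a ^ 4 = 1 := by
    apply Subtype.ext
    rw [hpow, l32_a4]; simp
  have ha2 : a ^ 2 ≠ 1 := by
    intro h
    have h' := congrArg Subtype.val h
    rw [hpow] at h'
    apply l32_a2
    have : l32a ^ 2 = g⁻¹ * (g * l32a ^ 2 * g⁻¹) * g := by group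
    rw [this, h']; simp
  have hxz : x ∉ zpowers a := by
    intro h
    obtain ⟨k, hk⟩ := mem_zpowers_iff.mp h
    have h' := congrArg Subtype.val hk
    rw [Subgroup.coe_zpow, ha, hx, conj_zpow] at h'
    apply l32_x_not_mem k
    have : l32a ^ k = g⁻¹ * (g * l32a ^ k * g⁻¹) * g := by group
    rw [this, h']; group
  refine ⟨a, x, l32dih_closure_eq_top hcardP a x ha4 ha2 hxz, ?_, ha4, ?_⟩
  · apply Subtype.ext
    rw [Subgroup.coe_mul, Subgroup.coe_mul, ha, hx]
    calc g * l32a * g⁻¹ * (g * l32x * g⁻¹) * (g * l32a * g⁻¹)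
        = g * (l32a * l32x * l32a) * g⁻¹ := by group
      _ = g * l32x * g⁻¹ := by rw [l32_axa]
  · have : Fact (Nat.Prime 2) := ⟨Nat.prime_two⟩
    apply orderOf_eq_prime
    · rw [← pow_mul]; exact ha4
    · exact ha2

theorem l32_sylow_two' (P : Subgroup L32G) (hP : ∃ S : Sylow 2 L32G, (S : Subgroup L32G) = P) :
    ∃ a x : ↥P, Subgroup.closure ({a, x} : Set ↥P) = ⊤ ∧
      a * x * a = x ∧ a ^ 4 = 1 ∧ orderOf (a ^ 2) = 2 := by
  obtain ⟨S, rfl⟩ := hP
  exact l32_sylow_two S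

/-- Subgroups of odd prime power order of `SL₃(𝔽₂)` are cyclic. -/
theorem l32_odd_cyclic (ℓ : ℕ) [Fact ℓ.Prime] (hℓ : ℓ ≠ 2) (P : Subgroup L32G)
    (hP : IsPGroup ℓ P) : IsCyclic P := by
  have hℓp : ℓ.Prime := Fact.out
  obtain ⟨k, hk⟩ := IsPGroup.iff_card.mp hP
  have h3 : Nat.card P ∣ 168 := by
    rw [← l32_card]; exact Subgroup.card_subgroup_dvd_card _
  rw [hk] at h3
  have hk1 : k ≤ 1 := by
    by_contra hcon
    push Not at hcon
    have h4 : ℓ ^ 2 ∣ 168 := (pow_dvd_pow ℓ hcon).trans h3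
    have h5 : ℓ ^ 2 ≤ 168 := Nat.le_of_dvd (by norm_num) h4
    have h6 : ℓ < 13 := by nlinarith
    have h7 : 2 ≤ ℓ := hℓp.two_le
    interval_cases ℓ <;> omega
  interval_cases k
  · rw [pow_zero] at hk
    have : Subsingleton P := (Nat.card_eq_one_iff_unique.mp hk).1
    exact isCyclic_of_subsingleton
  · rw [pow_one] at hk
    exact isCyclic_of_prime_card hk

/-- Every finite stem extension of `SL₃(𝔽₂)` has kernel of order at most 2. -/
theorem l32_stem_card_ker_le {Γ : Type*} [Group Γ] [Finite Γ] (σ : Γ →* L32G)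
    (hσ : Cfsg.IsStemExtension σ) : Nat.card σ.ker ≤ 2 := by
  classical
  have hodd : ∀ ℓ : ℕ, ℓ.Prime → ℓ ∣ Nat.card σ.ker → ℓ = 2 := by
    intro ℓ hℓ hdvd
    by_contra hne
    have hfact : Fact ℓ.Prime := ⟨hℓ⟩
    obtain ⟨w, hw⟩ := exists_prime_orderOf_dvd_card' ℓ hdvd
    obtain ⟨z, hz⟩ : ∃ z : Γ, z = (w : Γ) := ⟨_, rfl⟩
    have hzk : z ∈ σ.ker := hz ▸ w.2
    have hzo : orderOf z = ℓ := by rw [hz, Subgroup.orderOf_coe, hw]
    have hzp : IsPGroup ℓ (Subgroup.zpowers z) := by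
      apply IsPGroup.of_card (n := 1)
      rw [Nat.card_zpowers, hzo, pow_one]
    obtain ⟨L, hL⟩ := hzp.exists_le_sylow
    have hzL : z ∈ (L : Subgroup Γ) := hL (Subgroup.mem_zpowers z)
    have hst := stem_subgroupMap_sylow σ hσ ℓ L
    have hP : IsPGroup ℓ ((L : Subgroup Γ).map σ) := L.isPGroup'.map σ
    have hcyc : IsCyclic ((L : Subgroup Γ).map σ) := l32_odd_cyclic ℓ hne _ hP
    have hker : (σ.subgroupMap (L : Subgroup Γ)).ker = ⊥ := stem_ker_eq_bot_of_isCyclic _ hst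
    have hz1 : (⟨z, hzL⟩ : (L : Subgroup Γ)) ∈ (σ.subgroupMap (L : Subgroup Γ)).ker := by
      rw [MonoidHom.mem_ker]
      apply Subtype.ext
      exact MonoidHom.mem_ker.mp hzk
    rw [hker, Subgroup.mem_bot] at hz1
    have hz2 : z = 1 := congrArg Subtype.val hz1
    rw [hz2, orderOf_one] at hzo
    exact hℓ.one_lt.ne hzo
  have hp : IsPGroup 2 σ.ker := by
    rw [IsPGroup.iff_card]
    exact ⟨_, Nat.eq_prime_pow_of_unique_prime_dvd Nat.card_pos.ne'
      (fun hd hdvd => hodd _ hd hdvd)⟩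
  have : Fact (Nat.Prime 2) := ⟨Nat.prime_two⟩
  obtain ⟨L, hL⟩ := hp.exists_le_sylow
  have hst := stem_subgroupMap_sylow σ hσ 2 L
  obtain ⟨a, x, hgen, hinv, ha4, hord⟩ := l32_sylow_two' ((L : Subgroup Γ).map σ)
    ⟨L.mapSurjective hσ.1, Sylow.coe_mapSurjective hσ.1 L⟩
  have hle := Cfsg.Agent.Helper66.stem_dihedral_like_card_ker_le
    (σ.subgroupMap (L : Subgroup Γ)) hst a x hgen hinv 4 (Or.inl ha4) (by rw [hord])
  refine le_trans (Nat.card_le_card_of_injective
    (fun z : σ.ker => (⟨⟨z.1, hL z.2⟩, by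
      rw [MonoidHom.mem_ker]
      apply Subtype.ext
      exact MonoidHom.mem_ker.mp z.2⟩ : (σ.subgroupMap (L : Subgroup Γ)).ker)) ?_) hle
  intro z z' hzz
  apply Subtype.ext
  have := congrArg (fun t : (σ.subgroupMap (L : Subgroup Γ)).ker => ((t : (L : Subgroup Γ)) : Γ)) hzz
  exact this

end Cfsg.Agent.Helper35
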