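import Mathlib
import Cfsg.Prelude.Def_KGroupFacts
import Cfsg.Agent.Helper35.L32Upper
import Cfsg.Agent.Helper42.SLn

set_option autoImplicit false

/-!
# The double cover `SL₂(7) → SL₃(2)` (helper35)

The projective line over `𝔽₇` is identified with `𝔽₂³` (`l32Beta`) in such a way that `SL₂(7)` acts by
affine maps.  The subgroup `l32Grp` of `SL₂(ZMod 7) × SL₃(ZMod 2)` of pairs `(g, m)` with `g` acting
as an affine map with linear part `m` is a stem extension of `SL₃(ZMod 2)` with kernel of order 2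
(`l32_cover`).
-/

namespace Cfsg.Agent.Helper35

open Matrix
open scoped commutatorElement

/-- `SL₂(𝔽₇)` -/
abbrev L32S : Type := Matrix.SpecialLinearGroup (Fin 2) (ZMod 7)

/-- inverse table on `ZMod 7` -/
def l32Inv (y : ZMod 7) : ZMod 7 :=
  match y.val with
  | 1 => 1
  | 2 => 4
  | 3 => 5
  | 4 => 2
  | 5 => 3
  | 6 => 6
  | _ => 0

/-- the points of `𝔽₇` as vectors of `𝔽₂³` (powers of a generator of `𝔽₈ˣ`) -/
def l32Tab (b : ZMod 7) : Fin 3 → ZMod 2 :=
  match b.val with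
  | 0 => ![1, 0, 0]
  | 1 => ![0, 1, 0]
  | 2 => ![0, 0, 1]
  | 3 => ![1, 1, 0]
  | 4 => ![0, 1, 1]
  | 5 => ![1, 1, 1]
  | _ => ![1, 0, 1]

/-- the identification of the projective line over `𝔽₇` (in homogeneous coordinates) with `𝔽₂³` -/
def l32Beta (x y : ZMod 7) : Fin 3 → ZMod 2 :=
  if y = 0 then 0 else l32Tab (x * l32Inv y)

/-- `g` acts on the projective line as an affine map of `𝔽₂³` with linear part `m`. -/
def l32Rel (g : L32S) (m : L32G) : Prop :=
  ∃ t : Fin 3 → ZMod 2, ∀ x y : ZMod 7, (x ≠ 0 ∨ y ≠ 0) →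
    l32Beta (g.1 0 0 * x + g.1 0 1 * y) (g.1 1 0 * x + g.1 1 1 * y) =
      m.1.mulVec (l32Beta x y) + t

theorem l32Rel_one : l32Rel 1 1 := by
  refine ⟨0, fun x y _ => ?_⟩
  simp

theorem l32Rel_mul {g g' : L32S} {m m' : L32G} (h : l32Rel g m) (h' : l32Rel g' m') :
    l32Rel (g * g') (m * m') := by
  obtain ⟨t, ht⟩ := h
  obtain ⟨t', ht'⟩ := h'
  refine ⟨m.1.mulVec t' + t, fun x y hxy => ?_⟩
  have hdet : g'.1 0 0 * g'.1 1 1 - g'.1 0 1 * g'.1 1 0 = 1 := by
    have := g'.2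
    rwa [Matrix.det_fin_two] at this
  have hne : g'.1 0 0 * x + g'.1 0 1 * y ≠ 0 ∨ g'.1 1 0 * x + g'.1 1 1 * y ≠ 0 := by
    by_contra hcon
    push Not at hcon
    obtain ⟨h1, h2⟩ := hcon
    have hx : x = 0 := by linear_combination (-x) * hdet + g'.1 1 1 * h1 - g'.1 0 1 * h2
    have hy : y = 0 := by linear_combination (-y) * hdet + g'.1 0 0 * h2 - g'.1 1 0 * h1
    rcases hxy with h | h
    · exact h hx
    · exact h hy
  have e1 : (g * g').1 0 0 * x + (g * g').1 0 1 * y =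
      g.1 0 0 * (g'.1 0 0 * x + g'.1 0 1 * y) + g.1 0 1 * (g'.1 1 0 * x + g'.1 1 1 * y) := by
    rw [Matrix.SpecialLinearGroup.coe_mul]
    simp only [Matrix.mul_apply, Fin.sum_univ_two]
    ring
  have e2 : (g * g').1 1 0 * x + (g * g').1 1 1 * y =
      g.1 1 0 * (g'.1 0 0 * x + g'.1 0 1 * y) + g.1 1 1 * (g'.1 1 0 * x + g'.1 1 1 * y) := by
    rw [Matrix.SpecialLinearGroup.coe_mul]
    simp only [Matrix.mul_apply, Fin.sum_univ_two]
    ring
  rw [e1, e2, ht _ _ hne, ht' x y hxy, Matrix.SpecialLinearGroup.coe_mul, ← Matrix.mulVec_mulVec,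
    Matrix.mulVec_add, add_assoc]

/-- the submonoid of compatible pairs -/
def l32Mon : Submonoid (L32S × L32G) where
  carrier := {p | l32Rel p.1 p.2}
  one_mem' := l32Rel_one
  mul_mem' := fun hp hq => l32Rel_mul hp hq

/-- the group of compatible pairs: a double cover of `SL₃(𝔽₂)` -/
def l32Grp : Subgroup (L32S × L32G) :=
  { l32Mon with
    inv_mem' := by
      intro p hp
      have h1 : p * p ^ (orderOf p - 1) = 1 := by
        rw [← pow_succ', Nat.sub_add_cancel (orderOf_pos p), pow_orderOf_eq_one]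
      have h2 : p⁻¹ = p ^ (orderOf p - 1) := inv_eq_of_mul_eq_one_right h1
      rw [h2]
      exact l32Mon.pow_mem hp _ }

theorem mem_l32Grp (p : L32S × L32G) : p ∈ l32Grp ↔ l32Rel p.1 p.2 := Iff.rfl

/-- witnesses for the transvections -/
def l32W (i j : Fin 3) : (ZMod 7 × ZMod 7 × ZMod 7 × ZMod 7) × (Fin 3 → ZMod 2) :=
  match i.val, j.val with
  | 0, 1 => ((3, 1, 4, 4), ![1, 0, 1])
  | 0, 2 => ((3, 4, 1, 4), ![1, 1, 0])
  | 1, 0 => ((3, 3, 6, 4), ![0, 1, 1])
  | 1, 2 => ((0, 2, 3, 0), ![1, 0, 0])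
  | 2, 0 => ((3, 6, 3, 4), ![0, 1, 0])
  | 2, 1 => ((0, 3, 2, 0), ![1, 0, 0])
  | _, _ => ((1, 0, 0, 1), 0)

theorem l32W_check : ∀ i j : Fin 3, i ≠ j →
    (l32W i j).1.1 * (l32W i j).1.2.2.2 - (l32W i j).1.2.1 * (l32W i j).1.2.2.1 = 1 ∧
    ∀ x y : ZMod 7, (x ≠ 0 ∨ y ≠ 0) → ∀ k : Fin 3,
      l32Beta ((l32W i j).1.1 * x + (l32W i j).1.2.1 * y)
        ((l32W i j).1.2.2.1 * x + (l32W i j).1.2.2.2 * y) k =
      (if k = i then l32Beta x y i + l32Beta x y j else l32Beta x y k) + (l32W i j).2 k := by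
  decide

theorem l32_exists_rel (M : L32G) : ∃ g : L32S, l32Rel g M := by
  refine Cfsg.Agent.Helper42.SLn.transvection_induction (fun M => ∃ g : L32S, l32Rel g M) ?_ ?_ M
  · intro i j hij a
    obtain rfl | rfl : a = 0 ∨ a = 1 := by revert a; decide
    · refine ⟨1, ?_⟩
      have : Matrix.SpecialLinearGroup.transvection hij (0 : ZMod 2) = 1 := by
        apply Subtype.ext
        simp
      rw [this]
      exact l32Rel_one
    · obtain ⟨hdet, hchk⟩ := l32W_check i j hij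
      refine ⟨⟨!![(l32W i j).1.1, (l32W i j).1.2.1; (l32W i j).1.2.2.1, (l32W i j).1.2.2.2],
        by rw [Matrix.det_fin_two_of]; exact hdet⟩, (l32W i j).2, fun x y hxy => ?_⟩
      funext k
      have h1 := hchk x y hxy k
      have h2 := Cfsg.Agent.Helper42.SLn.transvection_smul_apply hij (1 : ZMod 2) (l32Beta x y) k
      rw [Matrix.SpecialLinearGroup.smul_def] at h2
      simp only [Pi.add_apply]
      rw [show (Matrix.SpecialLinearGroup.transvection hij (1 : ZMod 2)).1.mulVec (l32Beta x y) k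
        = if k = i then l32Beta x y i + 1 * l32Beta x y j else l32Beta x y k from h2, one_mul]
      exact h1
  · rintro A B ⟨g, hg⟩ ⟨g', hg'⟩
    exact ⟨g * g', l32Rel_mul hg hg'⟩

theorem l32_ker_check : ∀ a b c d : ZMod 7, a * d - b * c = 1 →
    (∀ x y : ZMod 7, (x ≠ 0 ∨ y ≠ 0) →
      l32Beta (a * x + b * y) (c * x + d * y) = l32Beta x y + l32Beta a c) →
    (b = 0 ∧ c = 0 ∧ a = d ∧ (a = 1 ∨ a = 6)) := by
  decide

/-- the central involution of `SL₂(𝔽₇)` -/
def l32z : L32S := ⟨!![6, 0; 0, 6], by rw [Matrix.det_fin_two_of]; decide⟩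

theorem l32z_ne_one : l32z ≠ 1 := by decide

theorem l32z_comm (g : L32S) : l32z * g = g * l32z := by
  apply Subtype.ext
  rw [Matrix.SpecialLinearGroup.coe_mul, Matrix.SpecialLinearGroup.coe_mul]
  ext i j
  fin_cases i <;> fin_cases j <;> simp [l32z, Matrix.mul_apply, Fin.sum_univ_two] <;> ring

theorem l32Beta_neg : ∀ x y : ZMod 7, l32Beta (6 * x + 0 * y) (0 * x + 6 * y) = l32Beta x y := by
  decide

theorem l32Rel_z : l32Rel l32z 1 := by
  refine ⟨0, fun x y _ => ?_⟩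
  have := l32Beta_neg x y
  simpa [l32z] using this

theorem l32Rel_one_right {g : L32S} (h : l32Rel g 1) : g = 1 ∨ g = l32z := by
  obtain ⟨t, ht⟩ := h
  have hB : l32Beta 1 0 = 0 := by decide
  have ht0 : t = l32Beta (g.1 0 0) (g.1 1 0) := by
    have := ht 1 0 (Or.inl (by decide))
    simp only [mul_one, mul_zero, add_zero, Matrix.SpecialLinearGroup.coe_one, Matrix.one_mulVec,
      hB, zero_add] at this
    exact this.symm
  have hdet : g.1 0 0 * g.1 1 1 - g.1 0 1 * g.1 1 0 = 1 := by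
    have := g.2
    rwa [Matrix.det_fin_two] at this
  obtain ⟨hb, hc, had, ha⟩ := l32_ker_check (g.1 0 0) (g.1 0 1) (g.1 1 0) (g.1 1 1) hdet
    (fun x y hxy => by
      rw [ht x y hxy, Matrix.SpecialLinearGroup.coe_one, Matrix.one_mulVec, ht0])
  rcases ha with ha | ha
  · left
    apply Subtype.ext
    ext i j
    fin_cases i <;> fin_cases j <;> simp [hb, hc, ← had, ha]
  · right
    apply Subtype.ext
    ext i j
    fin_cases i <;> fin_cases j <;> simp [l32z, hb, hc, ← had, ha]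

theorem l32Rel_of_check (g : L32S) (m : L32G) (t : Fin 3 → ZMod 2)
    (h : ∀ x y : ZMod 7, (x ≠ 0 ∨ y ≠ 0) → ∀ k : Fin 3,
      l32Beta (g.1 0 0 * x + g.1 0 1 * y) (g.1 1 0 * x + g.1 1 1 * y) k =
        m.1 k 0 * l32Beta x y 0 + m.1 k 1 * l32Beta x y 1 + m.1 k 2 * l32Beta x y 2 + t k) :
    l32Rel g m := by
  refine ⟨t, fun x y hxy => ?_⟩
  funext k
  rw [h x y hxy k]
  simp [Matrix.mulVec, dotProduct, Fin.sum_univ_three]

/-- two elements generating a quaternion group in `SL₂(𝔽₇)` -/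
def l32gi : L32S := ⟨!![2, 3; 3, 5], by rw [Matrix.det_fin_two_of]; decide⟩

/-- see `l32gi` -/
def l32gj : L32S := ⟨!![0, 6; 1, 0], by rw [Matrix.det_fin_two_of]; decide⟩

/-- the image of `l32gi` -/
def l32mi : L32G := ⟨!![1, 0, 0; 1, 0, 1; 1, 1, 0], by rw [Matrix.det_fin_three]; decide⟩

/-- the image of `l32gj` -/
def l32mj : L32G := ⟨!![1, 0, 0; 0, 0, 1; 0, 1, 0], by rw [Matrix.det_fin_three]; decide⟩

theorem l32Rel_i : l32Rel l32gi l32mi := l32Rel_of_check l32gi l32mi ![1, 1, 0] (by decide)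

theorem l32Rel_j : l32Rel l32gj l32mj := l32Rel_of_check l32gj l32mj ![1, 0, 0] (by decide)

theorem l32_comm_i_j : l32gi * l32gj = l32z * (l32gj * l32gi) := by decide

theorem l32_comm_mi_mj : l32mi * l32mj = l32mj * l32mi := by decide

/-- The double cover of `SL₃(𝔽₂)`: a stem extension with kernel of order 2. -/
theorem l32_cover : ∃ σ : l32Grp →* L32G, Cfsg.IsStemExtension σ ∧ Nat.card σ.ker = 2 := by
  obtain ⟨σ, hσ⟩ : ∃ σ : l32Grp →* L32G, ∀ w : l32Grp, σ w = w.1.2 :=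
    ⟨(MonoidHom.snd L32S L32G).comp l32Grp.subtype, fun _ => rfl⟩
  obtain ⟨Z, hZ⟩ : ∃ Z : l32Grp, (Z : L32S × L32G) = (l32z, 1) := ⟨⟨(l32z, 1), l32Rel_z⟩, rfl⟩
  have hZne : Z ≠ 1 := by
    intro h
    have h' := congrArg (fun w : l32Grp => (w : L32S × L32G).1) h
    simp only [hZ] at h'
    exact l32z_ne_one h'
  have hker : ∀ w : l32Grp, w ∈ σ.ker ↔ w = 1 ∨ w = Z := by
    intro w
    rw [MonoidHom.mem_ker, hσ]
    constructor
    · intro h
      have hw : l32Rel w.1.1 w.1.2 := w.2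
      rw [h] at hw
      rcases l32Rel_one_right hw with h1 | h1
      · left
        apply Subtype.ext
        exact Prod.ext h1 h
      · right
        apply Subtype.ext
        rw [hZ]
        exact Prod.ext h1 h
    · rintro (rfl | rfl)
      · rfl
      · rw [hZ]
  refine ⟨σ, ⟨?_, ?_, ?_⟩, ?_⟩
  · intro M
    obtain ⟨g, hg⟩ := l32_exists_rel M
    exact ⟨⟨(g, M), hg⟩, by rw [hσ]⟩
  · intro w hw
    rw [Subgroup.mem_center_iff]
    intro v
    rcases (hker w).mp hw with rfl | rfl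
    · simp
    · apply Subtype.ext
      rw [Subgroup.coe_mul, Subgroup.coe_mul, hZ]
      refine Prod.ext ?_ ?_
      · exact (l32z_comm v.1.1).symm
      · simp
  · intro w hw
    rcases (hker w).mp hw with rfl | rfl
    · exact Subgroup.one_mem _
    · obtain ⟨P, hP⟩ : ∃ P : l32Grp, (P : L32S × L32G) = (l32gi, l32mi) :=
        ⟨⟨(l32gi, l32mi), l32Rel_i⟩, rfl⟩
      obtain ⟨Q, hQ⟩ : ∃ Q : l32Grp, (Q : L32S × L32G) = (l32gj, l32mj) :=
        ⟨⟨(l32gj, l32mj), l32Rel_j⟩, rfl⟩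
      have hPQ : P * Q = w * (Q * P) := by
        apply Subtype.ext
        rw [Subgroup.coe_mul, Subgroup.coe_mul, Subgroup.coe_mul, hP, hQ, hZ]
        refine Prod.ext ?_ ?_
        · exact l32_comm_i_j
        · show l32mi * l32mj = 1 * (l32mj * l32mi)
          rw [one_mul]
          exact l32_comm_mi_mj
      have hw' : w = ⁅P, Q⁆ := by
        rw [commutatorElement_def, hPQ]
        group
      rw [hw']
      exact Subgroup.commutator_mem_commutator (Subgroup.mem_top P) (Subgroup.mem_top Q)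
  · have hset : (σ.ker : Set l32Grp) = {1, Z} := by
      ext w
      rw [SetLike.mem_coe, hker]
      simp
    rw [← SetLike.coe_sort_coe, Nat.card_coe_set_eq, hset, Set.ncard_pair hZne.symm]

end Cfsg.Agent.Helper35
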