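import Mathlib
import Cfsg.Agent.Helper96.OHDefs
import Cfsg.Agent.Helper31.OHOFIX
import Cfsg.Agent.Helper37.OEESPLIT

set_option autoImplicit false
set_option linter.unusedSectionVars false
set_option linter.unusedVariables false

/-!
# S5993 (helper69), piece EGOOD2 (`oe_good_two`), helper35.
-/

namespace Cfsg.Agent.Helper35.OE5993

open Module Polynomial Cfsg Cfsg.Geo
open Cfsg.Agent.Helper13.TIu Cfsg.Agent.Helper96.OH
open Cfsg.Agent.Helper31.OH5992 Cfsg.Agent.Helper37.OE5993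

variable {ι : Type} [Fintype ι] [DecidableEq ι] {F : Type*} [Field F] (Q : (ι → F) → F)

/-- EGOOD2 (`r = 2`, twin of OGOOD2 with an arbitrary target type `b`). -/
theorem oe_good_two [Fintype F] (hQ : IsNondegenerateQuadraticForm Q) (h2 : (2 : F) ≠ 0)
    (T : Module.End F (ι → F)) (hT : OPres Q T) (hT2 : T ^ 2 = 1) (m : ℕ) (hme : Even m)
    (hm2 : 2 ≤ m) (hmn : m < Fintype.card ι) (hodd : Odd (Fintype.card ι)) (b : Prop) :
    ∃ W : Submodule F (ι → F), (finrank F W = m ∧ ONd Q W ∧ (OPl Q W ↔ b)) ∧ W.map T ≤ W := by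
  classical
  have h2F : ((2 : ℕ) : F) ≠ 0 := by
    rw [Nat.cast_ofNat]
    exact h2
  obtain ⟨hFixnd, P, -, hPT, hPnd, hPk, hsup, horth, hdim⟩ :=
    o_fix Q hQ T hT 2 (by norm_num) h2F hT2 ⊤ le_top (ond_top Q hQ)
  obtain ⟨Fix, hFix⟩ : ∃ Fix : Submodule F (ι → F), Fix = ⊤ ⊓ LinearMap.ker (T - 1) := ⟨_, rfl⟩
  rw [← hFix] at hFixnd hsup horth hdim
  rw [finrank_top, Module.finrank_fintype_fun_eq_card] at hdim
  have hTT : ∀ v, T (T v) = v := by
    intro v
    have h := congrArg (fun f : Module.End F (ι → F) => f v) hT2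
    simpa [pow_two] using h
  -- `T` is the identity on `Fix`
  have hfix : ∀ x ∈ Fix, T x = x := by
    intro x hx
    rw [hFix] at hx
    have h : x ∈ LinearMap.ker (T - 1) := (Submodule.mem_inf.1 hx).2
    rw [LinearMap.mem_ker, LinearMap.sub_apply, Module.End.one_apply, sub_eq_zero] at h
    exact h
  -- `T = -1` on `P`
  have hneg : ∀ y ∈ P, T y = -y := by
    intro y hy
    have h1 : T y + y ∈ P := P.add_mem (hPT (Submodule.mem_map_of_mem hy)) hy
    have h2' : T y + y ∈ LinearMap.ker (T - 1) := by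
      rw [LinearMap.mem_ker, LinearMap.sub_apply, Module.End.one_apply, map_add, hTT]
      abel
    have h3 : T y + y ∈ P ⊓ LinearMap.ker (T - 1) := ⟨h1, h2'⟩
    rw [hPk, Submodule.mem_bot] at h3
    exact eq_neg_of_add_eq_zero_left h3
  have hinvFix : ∀ X : Submodule F (ι → F), X ≤ Fix → X.map T ≤ X := by
    rintro X hX _ ⟨x, hx, rfl⟩
    rw [hfix x (hX hx)]
    exact hx
  have hinvP : ∀ Y : Submodule F (ι → F), Y ≤ P → Y.map T ≤ Y := by
    rintro Y hY _ ⟨y, hy, rfl⟩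
    rw [hneg y (hY hy)]
    exact Y.neg_mem hy
  by_cases hFo : Odd (finrank F Fix)
  · obtain ⟨X, Y, hXA, hYB, hdimW, hnd, hty⟩ :=
      oe_split Q hQ h2 Fix P hFixnd hPnd horth hsup hFo m hme hm2 hmn b
    refine ⟨X ⊔ Y, ⟨hdimW, hnd, hty⟩, ?_⟩
    rw [Submodule.map_sup]
    exact sup_le_sup (hinvFix X hXA) (hinvP Y hYB)
  · have hPo : Odd (finrank F P) := by
      rw [Nat.not_odd_iff_even] at hFo
      rw [← hdim] at hodd
      rcases Nat.odd_add.mp hodd with h
      by_contra hcon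
      rw [Nat.not_odd_iff_even] at hcon
      exact (Nat.not_even_iff_odd.mpr (h.mpr hFo)) hcon
    obtain ⟨X, Y, hXA, hYB, hdimW, hnd, hty⟩ :=
      oe_split Q hQ h2 P Fix hPnd hFixnd (oorth_symm Q horth) (by rw [sup_comm]; exact hsup) hPo m
        hme hm2 hmn b
    refine ⟨X ⊔ Y, ⟨hdimW, hnd, hty⟩, ?_⟩
    rw [Submodule.map_sup]
    exact sup_le_sup (hinvP X hXA) (hinvFix Y hYB)

end Cfsg.Agent.Helper35.OE5993
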