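import Mathlib
import Cfsg.Agent.Helper90.HTDefs
import Cfsg.Agent.Helper90.BGChain
import Cfsg.Agent.Helper34.HTHCYC
import Cfsg.Agent.Helper22.HTCWH

set_option autoImplicit false

/-!
# CALL OT (S5972) piece ANISO (helper35): an invariant subspace without fixed vectors of dimension
at least `r` contains a nonzero invariant totally isotropic subspace (symmetric form).
-/

namespace Cfsg.Agent.Helper35.OT5972

open Module Polynomial Cfsg.Agent.Helper90.HT

section geom

variable {F : Type*} [Field F] {V : Type*} [AddCommGroup V] [Module F V] [FiniteDimensional F V]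
  (h : V → V → F)

/-- ANISO (uses `ht_cw` with the `(r-1)/2` equations `h v (T^j v) = 0`, `1 ≤ j ≤ (r-1)/2`; then
`h v v = 0` follows from `∑_{j<r} T^j v = 0` on `U`; then `ht_cyc`). -/
theorem ot_aniso [Fintype F] (hh : IsHerm (RingHom.id F) h) (T : Module.End F V) (hT : HPres h T)
    (r : ℕ) [Fact r.Prime] (hr2 : 2 < r) (hrF : (r : F) ≠ 0) (hTr : T ^ r = 1)
    (U : Submodule F V) (hU : U.map T ≤ U) (hUk : U ⊓ LinearMap.ker (T - 1) = ⊥)
    (hdim : r ≤ finrank F U) :
    ∃ W' : Submodule F V, W' ≤ U ∧ HTI h W' ∧ W'.map T ≤ W' ∧ W' ≠ ⊥ := by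
  classical
  have hrp : r.Prime := Fact.out
  have hrodd : Odd r := hrp.odd_of_ne_two (by omega)
  obtain ⟨k, hk⟩ := hrodd
  have hcard : 2 * Fintype.card (Fin k) < finrank F U := by
    rw [Fintype.card_fin]
    omega
  obtain ⟨v, hvU, hv0, hv⟩ := Cfsg.Agent.Helper22.HT5953.ht_cw
    (fun (j : Fin k) (u w : V) => h u ((T ^ ((j : ℕ) + 1)) w))
    (fun j u u' w => hh.add_left u u' _)
    (fun j u w w' => by rw [map_add, hh.add_right]) U hcard
  have hpowU : ∀ j : ℕ, (T ^ j) v ∈ U := by
    intro j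
    have := Cfsg.Agent.Helper90.BG.aeval_mem T U hU (X ^ j) hvU
    rwa [map_pow, aeval_X] at this
  have hsymm : ∀ a b : V, h a b = h b a := by
    intro a b
    have := hh.symm b a
    simpa using this
  have hlow : ∀ j, 1 ≤ j → j ≤ k → h v ((T ^ j) v) = 0 := by
    intro j h1 h2
    have := hv ⟨j - 1, by omega⟩
    simpa [Nat.sub_add_cancel h1] using this
  have hrefl : ∀ j, j ≤ r → h v ((T ^ j) v) = h v ((T ^ (r - j)) v) := by
    intro j hj
    have h1 := Cfsg.Agent.Helper34.HT5953.ht_cyc_pres h T hT (r - j) v ((T ^ j) v)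
    rw [← Module.End.mul_apply, ← pow_add, Nat.sub_add_cancel hj, hTr, Module.End.one_apply] at h1
    rw [← h1, hsymm]
  have hall : ∀ j, 1 ≤ j → j < r → h v ((T ^ j) v) = 0 := by
    intro j h1 h2
    by_cases hjk : j ≤ k
    · exact hlow j h1 hjk
    · rw [hrefl j h2.le]
      exact hlow (r - j) (by omega) (by omega)
  have hsum_mem : (∑ j ∈ Finset.range r, (T ^ j) v) ∈ U ⊓ LinearMap.ker (T - 1) := by
    refine ⟨Submodule.sum_mem _ (fun j _ => hpowU j), LinearMap.mem_ker.mpr ?_⟩
    have h1 := Cfsg.Agent.Helper90.BG.sub_one_mul_aeval_phi T r hTr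
    have h2 := congrArg (fun f : Module.End F V => f v) h1
    simp only [Module.End.mul_apply, LinearMap.zero_apply] at h2
    rw [Cfsg.Agent.Helper90.BG.aeval_phi, LinearMap.sum_apply] at h2
    exact h2
  rw [hUk, Submodule.mem_bot] at hsum_mem
  have hvv : h v v = 0 := by
    have h1 : h v (∑ j ∈ Finset.range r, (T ^ j) v) = 0 := by rw [hsum_mem, hh.zero_right]
    rw [hh.sum_right, Finset.sum_eq_single 0] at h1
    · simpa using h1
    · intro j hj hj0
      exact hall j (Nat.pos_of_ne_zero hj0) (Finset.mem_range.mp hj)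
    · intro h0
      exact absurd (Finset.mem_range.mpr hrp.pos) h0
  have hv' : ∀ j ∈ Finset.range ((r + 1) / 2), h v ((T ^ j) v) = 0 := by
    intro j hj
    rw [Finset.mem_range] at hj
    rcases Nat.eq_zero_or_pos j with rfl | hjpos
    · simpa using hvv
    · exact hlow j hjpos (by omega)
  obtain ⟨hTI, hinv⟩ := Cfsg.Agent.Helper34.HT5953.ht_cyc (RingHom.id F) h hh T hT r ⟨k, hk⟩ 1
    (by rw [hTr, one_smul]) v hv'
  refine ⟨_, ?_, hTI, hinv, ?_⟩
  · rw [Submodule.span_le]
    rintro _ ⟨j, rfl⟩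
    exact hpowU j
  · intro hbot
    have hvmem : v ∈ Submodule.span F (Set.range fun j : ℕ => (T ^ j) v) :=
      Submodule.subset_span ⟨0, by simp⟩
    rw [hbot, Submodule.mem_bot] at hvmem
    exact hv0 hvmem

end geom

end Cfsg.Agent.Helper35.OT5972
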