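import Mathlib
import Cfsg.Agent.Helper90.HTDefs
import Cfsg.Agent.Helper90.BGChain
import Cfsg.Agent.Helper46.BGLIRR
import Cfsg.Agent.Helper51.TIORD
import Cfsg.Agent.Helper34.HTHFIX
import Cfsg.Agent.Helper10.HTHMAX
import Cfsg.Agent.Helper33.HTHSUM
import Cfsg.Agent.Helper35.OTLAG
import Cfsg.Agent.Helper35.OTANISO
import Cfsg.Agent.Helper49.OTODD

set_option autoImplicit false

/-!
# CALL OT (S5972) piece B1G (helper35): the structure of an isometry of odd prime order `r` of a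
nondegenerate symmetric space and its invariant totally isotropic subspaces.
-/

namespace Cfsg.Agent.Helper35.OT5972

open Module Polynomial Cfsg.Agent.Helper90.HT
open Cfsg.Agent.Helper90.BG

section geom3

variable {F : Type*} [Field F] {V : Type*} [AddCommGroup V] [Module F V] [FiniteDimensional F V]
  (h : V → V → F)

/-- B1G (mirror of helper90's `ht_b1g`; uses `ht_fix`, `ht_max`, ODD, ANISO, LAG, `ht_sum`,
`chain_exists`, `cyc_dvd`, Helper46, `ord_pos`). -/
theorem ot_b1g [Fintype F] (hh : IsHerm (RingHom.id F) h) (hnd : ∀ v, (∀ w, h v w = 0) → v = 0)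
    (h2 : (2 : F) ≠ 0) (T : Module.End F V) (hT : HPres h T) (r : ℕ) [Fact r.Prime] (hr2 : 2 < r)
    (hrF : (r : F) ≠ 0) (hTr : T ^ r = 1) (i : ℕ)
    (hi : i = orderOf ((Fintype.card F : ℕ) : ZMod r)) :
    ∃ e u b₀ : ℕ, finrank F V = e + i * u ∧ (Odd i → u = 2 * b₀) ∧
      u ≤ 2 * b₀ + (r - 1) / i ∧ 2 * b₀ ≤ u ∧
      ∀ b m₀ : ℕ, b ≤ b₀ → 2 * m₀ + 1 ≤ e →
        ∃ W : Submodule F V, finrank F W = i * b + m₀ ∧ HTI h W ∧ W.map T ≤ W := by
  classical
  have hrpr : r.Prime := Fact.out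
  have hdeg : ∀ g : F[X], Irreducible g → g ∣ ∑ j ∈ Finset.range r, (X : F[X]) ^ j →
      g.natDegree = i := fun g hg hdvd => by
    rw [hi]
    exact Cfsg.Agent.Helper46.bgl_irr_factor_degree r hrF g hg hdvd
  have hi0 : 0 < i := by
    obtain ⟨p, hp⟩ := CharP.exists F
    have hpp : p.Prime := by
      rcases CharP.char_is_prime_or_zero F p with h | h
      · exact h
      · exfalso
        subst h
        have : CharZero F := CharP.charP_to_charZero F
        exact not_finite F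
    have : Fact p.Prime := ⟨hpp⟩
    have hrq : ¬ r ∣ Fintype.card F := by
      intro h
      obtain ⟨n, -, hn⟩ := FiniteField.card F p
      rw [hn] at h
      have h3 := (Nat.prime_dvd_prime_iff_eq hrpr hpp).mp (hrpr.dvd_of_dvd_pow h)
      apply hrF
      rw [h3]
      exact CharP.cast_eq_zero F p
    rw [hi]
    exact (Cfsg.Agent.Helper51.TI5955.ord_pos r _ hrq).1
  obtain ⟨hDT, hcompl, hCD, hDC, hCnd, hDnd⟩ :=
    Cfsg.Agent.Helper34.HT5953.ht_fix (RingHom.id F) h hh hnd T hT r hrF hTr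
  have hCDbot : LinearMap.ker (T - 1) ⊓ LinearMap.range (T - 1) = ⊥ := hcompl.inf_eq_bot
  have hfr : finrank F (LinearMap.ker (T - 1)) + finrank F (LinearMap.range (T - 1)) =
      finrank F V := Submodule.finrank_add_eq_of_isCompl hcompl
  have hClag := ot_lag h hh (LinearMap.ker (T - 1)) hCnd
  obtain ⟨W₀, U, hW₀D, hUD, hW₀ti, hW₀T, hUT, hDdim, hUmax⟩ :=
    Cfsg.Agent.Helper10.HT5953.ht_max (RingHom.id F) h hh T hT r hrF hTr
      (LinearMap.range (T - 1)) hDT hDnd
  have hDk : LinearMap.range (T - 1) ⊓ LinearMap.ker (T - 1) = ⊥ := by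
    rw [inf_comm]
    exact hCDbot
  have hW₀k : W₀ ⊓ LinearMap.ker (T - 1) = ⊥ := by
    rw [eq_bot_iff]
    exact (inf_le_inf_right _ hW₀D).trans (le_of_eq hDk)
  have hUk : U ⊓ LinearMap.ker (T - 1) = ⊥ := by
    rw [eq_bot_iff]
    exact (inf_le_inf_right _ hUD).trans (le_of_eq hDk)
  obtain ⟨u, hu⟩ : i ∣ finrank F (LinearMap.range (T - 1)) := by
    have h1 := cyc_dvd T r i hrF hTr hdeg (LinearMap.range (T - 1)) hDT
    rw [hDk] at h1
    simpa using h1
  obtain ⟨b₀, hb₀⟩ : i ∣ finrank F W₀ := by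
    have h1 := cyc_dvd T r i hrF hTr hdeg W₀ hW₀T
    rw [hW₀k] at h1
    simpa using h1
  have h1 : i * u = 2 * (i * b₀) + finrank F U := by
    rw [← hu, ← hb₀]
    exact hDdim
  have hbu : 2 * b₀ ≤ u := by
    by_contra hlt
    push Not at hlt
    have h2' : i * u < i * (2 * b₀) := Nat.mul_lt_mul_of_pos_left hlt hi0
    have h3 : i * (2 * b₀) = 2 * (i * b₀) := by ring
    omega
  have hUdim : finrank F U = i * (u - 2 * b₀) := by
    rw [Nat.mul_sub]
    have h3 : i * (2 * b₀) = 2 * (i * b₀) := by ring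
    omega
  have hUbot : Odd i → U = ⊥ := by
    intro hio
    by_contra hne
    obtain ⟨W', hW'U, hW'ti, hW'T, hW'ne⟩ :=
      Cfsg.Agent.Helper49.OT5972.ot_odd h hh h2 T hT r hr2 hrF hTr (by rw [← hi]; exact hio) U hUT hne hUk
    exact hW'ne (hUmax W' hW'U hW'ti hW'T)
  refine ⟨finrank F (LinearMap.ker (T - 1)), u, b₀, ?_, ?_, ?_, hbu, ?_⟩
  · rw [← hfr, hu]
  · intro hio
    have h2' : finrank F U = 0 := by
      rw [hUbot hio]
      simp
    rw [hUdim] at h2'
    have h3 := (Nat.mul_eq_zero.mp h2').resolve_left (by omega)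
    omega
  · have hUle : finrank F U ≤ r - 1 := by
      by_contra hlt
      push Not at hlt
      obtain ⟨W', hW'U, hW'ti, hW'T, hW'ne⟩ :=
        ot_aniso h hh T hT r hr2 hrF hTr U hUT hUk (by omega)
      exact hW'ne (hUmax W' hW'U hW'ti hW'T)
    rw [hUdim] at hUle
    have h5 : u - 2 * b₀ ≤ (r - 1) / i := by
      rw [Nat.le_div_iff_mul_le hi0, mul_comm]
      exact hUle
    omega
  · intro t m₀ ht hm₀
    have hPW : ∀ v ∈ W₀, aeval T (∑ j ∈ Finset.range r, (X : F[X]) ^ j) v ∈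
        (⊥ : Submodule F V) := by
      intro v hv
      have h2' : aeval T (∑ j ∈ Finset.range r, (X : F[X]) ^ j) v ∈
          W₀ ⊓ LinearMap.ker (T - 1) := by
        refine ⟨aeval_mem T W₀ hW₀T _ hv, ?_⟩
        rw [SetLike.mem_coe, LinearMap.mem_ker, ← Module.End.mul_apply,
          sub_one_mul_aeval_phi T r hTr, LinearMap.zero_apply]
      rw [hW₀k] at h2'
      exact h2'
    obtain ⟨Wb, -, hWbW₀, hWbT, hWbdim⟩ := chain_exists T ⊥ W₀ bot_le (by simp) hW₀T _
      (phi_ne_zero r hrF) hPW i hdeg t (by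
        rw [finrank_bot, zero_add, hb₀]
        exact Nat.mul_le_mul_left i ht)
    obtain ⟨A, hAC, hAti, hAdim⟩ := hClag m₀ hm₀
    obtain ⟨hti, hdim⟩ := Cfsg.Agent.Helper33.HT5953.ht_sum (RingHom.id F) h hh A Wb
      (LinearMap.ker (T - 1)) (LinearMap.range (T - 1)) hAC
      (hWbW₀.trans hW₀D) hCDbot hCD hAti
      (fun u hu v hv => hW₀ti u (hWbW₀ hu) v (hWbW₀ hv))
    refine ⟨A ⊔ Wb, ?_, hti, ?_⟩
    · rw [hdim, hAdim, hWbdim, finrank_bot]
      ring
    · rw [Submodule.map_sup]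
      refine sup_le_sup ?_ hWbT
      rintro _ ⟨a, ha, rfl⟩
      have h6 : T a = a := (mem_ker_sub_one T a).mp (hAC ha)
      rw [h6]
      exact ha

end geom3

end Cfsg.Agent.Helper35.OT5972
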