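import Mathlib
import Cfsg.Prelude.Def_GeometricClasses
import Cfsg.Prelude.Def_Classical
import Cfsg.Agent.Helper35.S88Defs
import Cfsg.Agent.Helper96.OHAll

set_option autoImplicit false

/-!
# Sub-CALL S88OO (helper35) of CALL S88 (row S5988), piece BADCORE
-/

namespace Cfsg.Agent.Helper35.S88OO

open Module Polynomial Cfsg Cfsg.Geo
open Cfsg.Agent.Helper13.TIu Cfsg.Agent.Helper96.OH Cfsg.Agent.Helper35.S88
open scoped MatrixGroups

universe u

/-- BADCORE. -/
theorem oo_bad_core {ι : Type} [Fintype ι] [DecidableEq ι] {F : Type u} [Field F] [Fintype F]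
    (Q : (ι → F) → F) (hQ : IsNondegenerateQuadraticForm Q)
    (hplus : OPl Q ⊤) (hev : Even (Fintype.card ι))
    (T : Module.End F (ι → F)) (hT : OPres Q T) (r : ℕ) [Fact r.Prime] (hr2 : 2 < r)
    (hrF : (r : F) ≠ 0) (hTr : T ^ r = 1) (i : ℕ)
    (hi : i = orderOf ((Fintype.card F : ℕ) : ZMod r)) (hodd : Odd i)
    (m : ℕ) (hme : Even m) (W : Submodule F (ι → F))
    (hW : finrank F W = m ∧ ONd Q W ∧ ¬ OPl Q W) (hWT : W.map T ≤ W) :
    ∃ s w, m = 2 * i * s + w ∧ 0 < w ∧ w < finrank F (LinearMap.ker (T - 1)) := by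
  classical
  have hrpr : r.Prime := Fact.out
  have hc : 2 * i = if Even i then i else 2 * i := by
    rw [if_neg (Nat.not_even_iff_odd.2 hodd)]
  have hodd' : Odd (orderOf ((Fintype.card F : ℕ) : ZMod r)) := by rw [← hi]; exact hodd
  obtain ⟨hWm, hWnd, hWnp⟩ := hW
  -- the decomposition of `W`
  obtain ⟨hWk, P, hPW, hPT, hP, hPk, hsup, horth, hdim⟩ :=
    Cfsg.Agent.Helper31.OH5992.o_fix Q hQ T hT r hrpr.pos hrF hTr W hWT hWnd
  obtain ⟨s, hs⟩ := Cfsg.Agent.Helper96.OHAll.oall_cdvd_aux Q hQ T hT r hr2 hrF hTr i (2 * i) hi hc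
    (finrank F P) P rfl hPT hP hPk
  have hPpl : OPl Q P :=
    Cfsg.Agent.Helper96.OHAll.oall_type_odd Q hQ T hT r hr2 hrF hTr hodd' P hPT hP hPk
  have hPev : Even (finrank F P) := by rw [hs, mul_assoc]; exact even_two_mul _
  have hKev : Even (finrank F (W ⊓ LinearMap.ker (T - 1) : Submodule F (ι → F))) := by
    have h1 : Even (finrank F P +
        finrank F (W ⊓ LinearMap.ker (T - 1) : Submodule F (ι → F))) := by
      rw [hdim, hWm]; exact hme
    exact (Nat.even_add.1 h1).1 hPev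
  have hmul := Cfsg.Agent.Helper33.o_type_mul Q hQ (W ⊓ LinearMap.ker (T - 1)) P hWk hP horth
    hKev hPev
  rw [hsup] at hmul
  have hKnp : ¬ OPl Q (W ⊓ LinearMap.ker (T - 1)) := fun h => hWnp (hmul.2 ⟨fun _ => hPpl, fun _ => h⟩)
  -- the decomposition of the whole space
  obtain ⟨hTk, P', -, hP'T, hP', hP'k, hsup', horth', hdim'⟩ :=
    Cfsg.Agent.Helper31.OH5992.o_fix Q hQ T hT r hrpr.pos hrF hTr ⊤ le_top
      (ond_top Q hQ)
  rw [top_inf_eq] at hTk hsup' horth' hdim'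
  obtain ⟨s', hs'⟩ := Cfsg.Agent.Helper96.OHAll.oall_cdvd_aux Q hQ T hT r hr2 hrF hTr i (2 * i) hi
    hc (finrank F P') P' rfl hP'T hP' hP'k
  have hP'pl : OPl Q P' :=
    Cfsg.Agent.Helper96.OHAll.oall_type_odd Q hQ T hT r hr2 hrF hTr hodd' P' hP'T hP' hP'k
  have hP'ev : Even (finrank F P') := by rw [hs', mul_assoc]; exact even_two_mul _
  have hK'ev : Even (finrank F (LinearMap.ker (T - 1) : Submodule F (ι → F))) := by
    have h1 : Even (finrank F P' +
        finrank F (LinearMap.ker (T - 1) : Submodule F (ι → F))) := by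
      rw [hdim', finrank_top, Module.finrank_fintype_fun_eq_card]; exact hev
    exact (Nat.even_add.1 h1).1 hP'ev
  have hmul' := Cfsg.Agent.Helper33.o_type_mul Q hQ (LinearMap.ker (T - 1)) P' hTk hP' horth'
    hK'ev hP'ev
  rw [hsup'] at hmul'
  have hKpl : OPl Q (LinearMap.ker (T - 1)) := (hmul'.1 hplus).2 hP'pl
  refine ⟨s, finrank F (W ⊓ LinearMap.ker (T - 1) : Submodule F (ι → F)), ?_, ?_, ?_⟩
  · rw [← hs, hdim, hWm]
  · rw [Nat.pos_iff_ne_zero]
    intro h0
    have h1 : (W ⊓ LinearMap.ker (T - 1) : Submodule F (ι → F)) = ⊥ :=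
      Submodule.finrank_eq_zero.1 h0
    rw [h1] at hKnp
    exact hKnp (Cfsg.Agent.Helper33.o_plus_bot Q hQ)
  · have hle : (W ⊓ LinearMap.ker (T - 1) : Submodule F (ι → F)) ≤ LinearMap.ker (T - 1) :=
      inf_le_right
    rcases (Submodule.finrank_mono hle).lt_or_eq with h | h
    · exact h
    · exfalso
      have h1 := Submodule.eq_of_le_of_finrank_eq hle h
      rw [h1] at hKnp
      exact hKnp hKpl

end Cfsg.Agent.Helper35.S88OO
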