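import Mathlib
import Cfsg.Prelude.Def_GeometricClasses
import Cfsg.Prelude.Def_Classical
import Cfsg.Agent.Helper37.TBBLKO
import Cfsg.Agent.Helper31.TBPRODND
import Cfsg.Agent.Helper93.TBTYPEPROD

set_option autoImplicit false

/-!
# Sub-CALL S88OO (helper35) of CALL S88 (row S5988), piece MODEL
-/

namespace Cfsg.Agent.Helper35.S88OO

open Module Polynomial Cfsg Cfsg.Geo
open Cfsg.Agent.Helper43 Cfsg.Agent.Helper43.OrthEven Cfsg.Agent.Helper43.CycFactors
open scoped MatrixGroups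

universe u

/-- MODEL. -/
theorem oo_bad_model {F : Type u} [Field F] [Fintype F] (p : ℕ) [Fact p.Prime] [CharP F p]
    (r : ℕ) [Fact r.Prime] (hr2 : 2 < r) (hrp : r ≠ p)
    (hodd : Odd (orderOf ((Fintype.card F : ℕ) : ZMod r))) (k₀ a : ℕ) :
    ∃ (V' : Type u) (_ : AddCommGroup V') (_ : Module F V') (_ : FiniteDimensional F V')
      (Q' : QuadraticForm F V') (T : Module.End F V'),
      PolarNondeg Q' ∧
      finrank F V' = 2 * (k₀ + orderOf ((Fintype.card F : ℕ) : ZMod r) * a) ∧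
      HasTS Q' (k₀ + orderOf ((Fintype.card F : ℕ) : ZMod r) * a) ∧
      (∀ v, Q' (T v) = Q' v) ∧ T ^ r = 1 ∧
      finrank F (LinearMap.ker (T - 1)) = 2 * k₀ := by
  classical
  have hr : r.Prime := Fact.out
  have hrF : (r : F) ≠ 0 := natCast_ne_zero_of_ne (p := p) hr hrp
  obtain ⟨V₁, _, _, _, Q₁, T₁, hnd₁, hT₁, hcyc, hfr₁, hts₁, -⟩ :=
    Cfsg.Agent.Helper37.TB.tb_blk_odd (F := F) p r hr2 hrp hodd a
  have hdim₀ : finrank F (Fin k₀ ⊕ Fin k₀ → F) = 2 * k₀ := by
    rw [Module.finrank_fintype_fun_eq_card, Fintype.card_sum, Fintype.card_fin]; ring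
  have hnd₀ : PolarNondeg (plusQF k₀ F) := polarNondeg_of_nondegenerate _ (plusQF_nondeg k₀)
  have hT₁r : T₁ ^ r = 1 := by
    have h1 : aeval T₁ (X ^ r - 1 : F[X]) = 0 := by
      rw [← cyclotomic_prime_mul_X_sub_one F r, map_mul, hcyc, zero_mul]
    simpa [sub_eq_zero] using h1
  have hfix : ∀ y : V₁, T₁ y = y → y = 0 := by
    intro y hy
    have h3 : ∀ n : ℕ, (T₁ ^ n) y = y := by
      intro n
      induction n with
      | zero => rfl
      | succ n ih => rw [pow_succ, Module.End.mul_apply, hy, ih]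
    have h2 : ∀ f : F[X], aeval T₁ f y = (f.eval 1) • y := by
      intro f
      induction f using Polynomial.induction_on' with
      | add f g hf hg => rw [map_add, LinearMap.add_apply, hf, hg, eval_add, add_smul]
      | monomial n c =>
        rw [aeval_monomial, eval_monomial, one_pow, mul_one, Module.End.mul_apply, h3,
          Module.algebraMap_end_apply]
    have h4 := h2 (cyclotomic r F)
    rw [hcyc, LinearMap.zero_apply, eval_one_cyclotomic_prime] at h4
    rcases smul_eq_zero.mp h4.symm with h5 | h5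
    · exact absurd h5 hrF
    · exact h5
  refine ⟨(Fin k₀ ⊕ Fin k₀ → F) × V₁, inferInstance, inferInstance, inferInstance,
    (plusQF k₀ F).prod Q₁, (1 : Module.End F (Fin k₀ ⊕ Fin k₀ → F)).prodMap T₁,
    Cfsg.Agent.Helper31.TB.tb_prod_nd _ Q₁ hnd₀ hnd₁, ?_, ?_, ?_, ?_, ?_⟩
  · rw [Module.finrank_prod, hdim₀, hfr₁]; ring
  · rw [Cfsg.Agent.Helper93.TB.tb_type_prod (plusQF k₀ F) Q₁ hnd₀ hnd₁ k₀ _ hdim₀ hfr₁]
    exact ⟨fun _ => hts₁, fun _ => hasTS_plus k₀⟩
  · rintro ⟨x, y⟩
    rw [LinearMap.prodMap_apply, QuadraticMap.prod_apply, QuadraticMap.prod_apply, hT₁]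
    rfl
  · have key : ∀ n : ℕ, ((1 : Module.End F (Fin k₀ ⊕ Fin k₀ → F)).prodMap T₁) ^ n
        = (1 : Module.End F (Fin k₀ ⊕ Fin k₀ → F)).prodMap (T₁ ^ n) := by
      intro n
      induction n with
      | zero =>
        rw [pow_zero, pow_zero]
        exact LinearMap.prodMap_one.symm
      | succ n ih =>
        rw [pow_succ, ih, pow_succ, LinearMap.prodMap_mul, mul_one]
    rw [key r, hT₁r]
    exact LinearMap.prodMap_one
  · have hker : LinearMap.ker ((1 : Module.End F (Fin k₀ ⊕ Fin k₀ → F)).prodMap T₁ - 1) =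
        LinearMap.range (LinearMap.inl F (Fin k₀ ⊕ Fin k₀ → F) V₁) := by
      ext ⟨x, y⟩
      rw [LinearMap.mem_ker, LinearMap.sub_apply, sub_eq_zero, LinearMap.prodMap_apply,
        LinearMap.mem_range]
      constructor
      · intro h
        have hy : T₁ y = y := congrArg Prod.snd h
        exact ⟨x, by rw [LinearMap.inl_apply, hfix y hy]⟩
      · rintro ⟨x', hx'⟩
        rw [LinearMap.inl_apply] at hx'
        have hy0 : (0 : V₁) = y := congrArg Prod.snd hx'
        rw [← hy0, map_zero]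
        rfl
    rw [hker, LinearMap.finrank_range_of_inj LinearMap.inl_injective, hdim₀]

end Cfsg.Agent.Helper35.S88OO
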