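import Mathlib
import Cfsg.Prelude.Def_GeometricClasses
import Cfsg.Prelude.Def_Classical
import Cfsg.Agent.Helper35.TSSTDP
import Cfsg.Agent.Helper35.S88OOMODEL
import Cfsg.Agent.Helper35.S88OOXFER

set_option autoImplicit false

/-!
# Sub-CALL S88OO (helper35) of CALL S88 (row S5988): the BAD ELEMENT for `i = ord_r(q)` odd

`oo_bad_elt_gen`: in the isometry group of any nondegenerate plus-type quadratic form `Q` on
`ι → F`, `Fintype.card ι = 2 * d`, an element `x` with `x ^ r = 1` whose fixed space has dimension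
`(2 * d) % (2 * i)` (the element with `d / i` dual pairs).  `oo_bad_elt`: the same for
`Cfsg.quadFormPlus d F`.
-/

namespace Cfsg.Agent.Helper35.S88OO

open Module Polynomial Cfsg Cfsg.Geo
open Cfsg.Agent.Helper43 Cfsg.Agent.Helper43.OrthEven
open scoped MatrixGroups

universe u

/-- BADELT, generic plus-type form. -/
theorem oo_bad_elt_gen {ι : Type} [Fintype ι] [DecidableEq ι] {F : Type u} [Field F] [Fintype F]
    (Q : (ι → F) → F) (hQ : IsNondegenerateQuadraticForm Q) (d : ℕ) (hd : 1 ≤ d)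
    (hcard : Fintype.card ι = 2 * d) (hplus : IsPlusTypeOn Q ⊤)
    (p : ℕ) [Fact p.Prime] [CharP F p]
    (r : ℕ) [Fact r.Prime] (hr2 : 2 < r) (hrp : r ≠ p) (i : ℕ)
    (hi : i = orderOf ((Fintype.card F : ℕ) : ZMod r)) (hodd : Odd i) :
    ∃ x : GL ι F, x ∈ Cfsg.isometryGroup F Q ∧ x ^ r = 1 ∧
      finrank F (LinearMap.ker (Matrix.toLin' (x : Matrix ι ι F) - 1)) = (2 * d) % (2 * i) := by
  have hr : r.Prime := Fact.out
  have hodd' : Odd (orderOf ((Fintype.card F : ℕ) : ZMod r)) := by rw [← hi]; exact hodd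
  obtain ⟨V', _, _, _, Q', T, hnd, hdim, hts, hT, hTr, hker⟩ :=
    oo_bad_model (F := F) p r hr2 hrp hodd' (d % i) (d / i)
  rw [← hi] at hdim hts
  have hdi : d % i + i * (d / i) = d := Nat.mod_add_div d i
  rw [hdi] at hdim hts
  obtain ⟨x, hx, hxr, hxk⟩ :=
    oo_xfer Q hQ d hd hcard hplus r hr.pos Q' hnd hdim hts T hT hTr
  refine ⟨x, hx, hxr, ?_⟩
  rw [hxk, hker, Nat.mul_mod_mul_left]

/-- BADELT: an isometry of order `r` of the standard plus-type form whose fixed space has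
dimension `(2 d) % (2 i)` (`d / i` dual pairs). -/
theorem oo_bad_elt {F : Type u} [Field F] [Fintype F] (p : ℕ) [Fact p.Prime] [CharP F p] (d : ℕ)
    (hd : 1 ≤ d) (r : ℕ) [Fact r.Prime] (hr2 : 2 < r) (hrp : r ≠ p) (i : ℕ)
    (hi : i = orderOf ((Fintype.card F : ℕ) : ZMod r)) (hodd : Odd i) :
    ∃ x : GL (Fin d ⊕ Fin d) F, x ∈ Cfsg.isometryGroup F (Cfsg.quadFormPlus d F) ∧ x ^ r = 1 ∧
      finrank F (LinearMap.ker
        (Matrix.toLin' (x : Matrix (Fin d ⊕ Fin d) (Fin d ⊕ Fin d) F) - 1)) =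
        (2 * d) % (2 * i) := by
  obtain ⟨hQ, hplus⟩ := Cfsg.Agent.Helper35.TS5973.ts_std_plus (F := F) d
  have hcard : Fintype.card (Fin d ⊕ Fin d) = 2 * d := by
    rw [Fintype.card_sum, Fintype.card_fin]; ring
  exact oo_bad_elt_gen (Cfsg.quadFormPlus d F) hQ d hd hcard hplus p r hr2 hrp i hi hodd

end Cfsg.Agent.Helper35.S88OO
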