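import Mathlib
import Cfsg.Prelude.Def_GeometricClasses
import Cfsg.Prelude.Def_Classical
import Cfsg.Agent.Helper58.TSDefs
import Cfsg.Agent.Helper44.CD
import Cfsg.Agent.Helper78.O12Iso

set_option autoImplicit false

/-!
# Sub-CALL TB (helper43) of CALL TS (helper58), piece XODD (`tb_xodd`), helper35:
an isometry of odd order lies in `Ω`, all characteristics (dimension `≠ 4`).
-/

namespace Cfsg.Agent.Helper35.TB

open Module Polynomial Cfsg Cfsg.Geo Cfsg.Agent.Helper58.TS
open scoped MatrixGroups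

universe u

section fin

variable {F : Type u} [Field F] [Fintype F]

/-- the square of every isometry lies in the commutator subgroup of the isometry group
(any characteristic, non-degenerate polar form, dimension `≠ 4` or `|F| > 2`): the isometry group
is generated by reflections, which are involutions. -/
theorem tb_sq_mem_commutator {ι : Type} [Fintype ι] [DecidableEq ι]
    (Q : QuadraticForm F (ι → F)) (hQ : (QuadraticMap.polarBilin Q).Nondegenerate)
    (hex : (∃ t : F, t ≠ 0 ∧ t ≠ 1) ∨ Fintype.card ι ≠ 4)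
    (g : ↥(Cfsg.isometryGroup F ⇑Q)) :
    g ^ 2 ∈ commutator ↥(Cfsg.isometryGroup F ⇑Q) := by
  classical
  obtain ⟨f, hf⟩ : ∃ f : ↥(Cfsg.isometryGroup F ⇑Q) →* Abelianization ↥(Cfsg.isometryGroup F ⇑Q),
      f = Abelianization.of := ⟨_, rfl⟩
  obtain ⟨S, hS⟩ : ∃ S : Subgroup ↥(Cfsg.isometryGroup F ⇑Q),
      S = ((powMonoidHom 2 : Abelianization ↥(Cfsg.isometryGroup F ⇑Q) →*
        Abelianization ↥(Cfsg.isometryGroup F ⇑Q)).ker).comap f := ⟨_, rfl⟩
  have hle : Cfsg.Agent.Helper45.reflGroup Q ≤ S := by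
    unfold Cfsg.Agent.Helper45.reflGroup
    rw [Subgroup.closure_le]
    rintro r ⟨v, hv, rfl⟩
    rw [hS]
    show f (Cfsg.Agent.Helper45.reflO Q v hv) ^ 2 = 1
    rw [← map_pow, pow_two, Cfsg.Agent.Helper45.reflO_mul_self, map_one]
  have hg : g ∈ S := hle (by rw [Cfsg.Agent.Helper44.reflGroup_eq_top_of Q hQ hex]; trivial)
  have h1 : f (g ^ 2) = 1 := by
    rw [map_pow]
    rw [hS] at hg
    exact hg
  rw [← Abelianization.ker_of]
  rw [hf] at h1
  exact h1

theorem tb_odd_order_mem_omega {ι : Type} [Fintype ι] [DecidableEq ι]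
    (Q : QuadraticForm F (ι → F)) (hQ : (QuadraticMap.polarBilin Q).Nondegenerate)
    (hex : (∃ t : F, t ≠ 0 ∧ t ≠ 1) ∨ Fintype.card ι ≠ 4) (x : GL ι F)
    (hx : x ∈ Cfsg.isometryGroup F ⇑Q) (k : ℕ) (hk : Odd k) (hxk : x ^ k = 1) :
    x ∈ Cfsg.Geo.omegaGL ⇑Q := by
  classical
  obtain ⟨m, rfl⟩ := hk
  obtain ⟨x', hx'def⟩ : ∃ x' : ↥(Cfsg.isometryGroup F ⇑Q), x' = ⟨x, hx⟩ := ⟨_, rfl⟩
  have hx'k : x' ^ (2 * m + 1) = 1 := by
    apply Subtype.ext
    rw [hx'def]
    simpa using hxk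
  have hx' : x' = (x' ^ 2) ^ (m + 1) := by
    rw [← pow_mul]
    have h3 : 2 * (m + 1) = (2 * m + 1) + 1 := by ring
    rw [h3, pow_succ, hx'k, one_mul]
  refine ⟨x', ?_, by rw [hx'def]; rfl⟩
  rw [hx']
  exact Subgroup.pow_mem _ (tb_sq_mem_commutator Q hQ hex x') _

/-- XODD [S-M]: an isometry of odd order lies in `Ω`, ALL characteristics. -/
theorem tb_xodd {ι : Type} [Fintype ι] [DecidableEq ι] (Q : (ι → F) → F)
    (hQ : IsNondegenerateQuadraticForm Q) (hcard : Fintype.card ι ≠ 4) (x : GL ι F)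
    (hx : x ∈ Cfsg.isometryGroup F Q) (k : ℕ) (hk : Odd k) (hxk : x ^ k = 1) :
    x ∈ Cfsg.Geo.omegaGL Q := by
  classical
  have hnd : (QuadraticMap.polarBilin (Cfsg.Agent.Helper78.isoQF Q hQ)).Nondegenerate := by
    have key : ∀ v : ι → F, (∀ w, QuadraticMap.polar Q v w = 0) → v = 0 := by
      intro v hv
      by_contra hne
      obtain ⟨-, w, hw⟩ := hQ.nondegenerate v hne
      exact hw (hv w)
    constructor
    · intro v hv
      exact key v hv
    · intro v hv
      apply key v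
      intro w
      rw [QuadraticMap.polar_comm]
      exact hv w
  exact tb_odd_order_mem_omega (Cfsg.Agent.Helper78.isoQF Q hQ) hnd (Or.inr hcard) x hx k hk hxk

end fin

end Cfsg.Agent.Helper35.TB
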