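import Mathlib
import Cfsg.Prelude.Def_GeometricClasses
import Cfsg.Prelude.Def_Classical
import Cfsg.Agent.Helper35.S88Defs
import Cfsg.Agent.Helper96.OHAll
import Cfsg.Agent.Helper96.OHAux
import Cfsg.Agent.Helper35.TBXODD
import Cfsg.Agent.Helper35.TSSTDP
import Cfsg.Agent.Helper80.TSNONSCAL
import Cfsg.Agent.Helper86.ELNDIVCore
import Cfsg.Agent.Helper35.S88OOBADCORE
import Cfsg.Agent.Helper35.S88OOBADELT

set_option autoImplicit false

/-!
# Stage OOB (`s88_odd_bad`) of CALL S88 (row S5988; top architect helper90)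

`r` odd `≠ p`, `i = ord_r(q)` odd, direction `⟹`.  The bad element `x` (`d / i` dual pairs,
`Helper35.S88OO.oo_bad_elt`) has fixed space of dimension `(2 d) % (2 i)`.
* If `m < (2 d) % (2 i)` then `r` does not divide the number of elliptic `m`-spaces
  (`Helper86.EL5988.el_ndiv_of_bad`), against `hrΩ`.
* Otherwise `x ≠ 1`, `x ∈ Ω` (`tb_xodd`), `x` is not scalar (`ts_nonscalar`), so by `hall` it
  fixes an elliptic `m`-space, and `Helper35.S88OO.oo_bad_core` gives `m = 2 i s + w` with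
  `0 < w < (2 d) % (2 i)`; `s = 0` is the first case again.
-/

namespace Cfsg.Agent.Helper35.S88

open Module Polynomial Cfsg Cfsg.Geo
open Cfsg.Agent.Helper13.TIu Cfsg.Agent.Helper96.OH
open Cfsg.Agent.Helper35.S88OO (oo_bad_core oo_bad_elt)
open scoped MatrixGroups

variable {F : Type*} [Field F] [Fintype F]

/-- OOB. -/
theorem s88_odd_bad {p : ℕ} [Fact p.Prime] [CharP F p] {q : ℕ} (hq : Fintype.card F = q)
    (d m : ℕ) (hd : 4 ≤ d) (hm : 2 ≤ m) (hme : Even m) (hmd : m < d) (r : ℕ) [Fact r.Prime]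
    (hr2 : 2 < r) (hrp : r ≠ p) (i : ℕ) (hi : i = orderOf (q : ZMod r)) (hodd : Odd i)
    (hrΩ : r ∣ Nat.card {W : Submodule F (Fin d ⊕ Fin d → F) // Module.finrank F ↥W = m ∧
      Cfsg.Geo.IsNondegenerateOn (QuadraticMap.polar (Cfsg.quadFormPlus d F)) W ∧
      ¬ Cfsg.Geo.IsPlusTypeOn (Cfsg.quadFormPlus d F) W})
    (hall : AllEll (Cfsg.quadFormPlus d F) r m) :
    2 * i ≤ m ∧ 0 < m % (2 * i) ∧ m % (2 * i) < (2 * d) % (2 * i) := by
  classical
  have hr : r.Prime := Fact.out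
  subst hq
  obtain ⟨hQ, hplus⟩ := Cfsg.Agent.Helper35.TS5973.ts_std_plus (F := F) d
  have hcard : Fintype.card (Fin d ⊕ Fin d) = 2 * d := by
    rw [Fintype.card_sum, Fintype.card_fin]; ring
  have hrodd : Odd r := hr.odd_of_ne_two (by omega)
  have hrF : (r : F) ≠ 0 := Cfsg.Agent.Helper96.OHAux.oh_rF p r hrp
  have hc : 2 * i = if Even i then i else 2 * i := by
    rw [if_neg (Nat.not_even_iff_odd.2 hodd)]
  have hipos : 0 < i := hodd.pos
  -- the bad element
  obtain ⟨x, hx, hxr, hxk⟩ := oo_bad_elt (F := F) p d (by omega) r hr2 hrp i hi hodd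
  have hmodlt : (2 * d) % (2 * i) < 2 * i := Nat.mod_lt _ (by omega)
  have hTpres : OPres (Cfsg.quadFormPlus d F)
      (Matrix.toLin' (x : Matrix (Fin d ⊕ Fin d) (Fin d ⊕ Fin d) F)) := by
    intro v
    rw [Matrix.toLin'_apply]
    exact hx v v
  have hTr : (Matrix.toLin' (x : Matrix (Fin d ⊕ Fin d) (Fin d ⊕ Fin d) F)) ^ r = 1 := by
    rw [Cfsg.Agent.Helper96.OHAux.oh_toLin'_pow_eq, ← Units.val_pow_eq_pow_val, hxr, Units.val_one,
      Matrix.toLin'_one]
    rfl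
  -- the hypothesis `hrΩ` excludes `m < (2 d) % (2 i)`
  have hnlt : ¬ m < (2 * d) % (2 * i) := by
    intro hlt
    exact Cfsg.Agent.Helper86.EL5988.el_ndiv_of_bad (Cfsg.quadFormPlus d F) hQ hplus d hcard r hr2
      hrF i (2 * i) hi hc m hme (by omega) (by omega) _ hTpres hTr (by rw [hxk]; exact hmodlt)
      (Or.inl (by rw [hxk]; exact hlt)) hrΩ
  have hx1 : x ≠ 1 := by
    intro h1
    rw [h1, Units.val_one, Matrix.toLin'_one] at hxk
    have h2 : (LinearMap.id : (Fin d ⊕ Fin d → F) →ₗ[F] (Fin d ⊕ Fin d → F)) - 1 = 0 :=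
      sub_self _
    rw [h2, LinearMap.ker_zero, finrank_top, Module.finrank_fintype_fun_eq_card, hcard] at hxk
    omega
  have hxΩ : x ∈ omegaGL (Cfsg.quadFormPlus d F) :=
    Cfsg.Agent.Helper35.TB.tb_xodd _ hQ (by rw [hcard]; omega) x hx r hrodd hxr
  have hns := Cfsg.Agent.Helper80.TS5973.ts_nonscalar _ hQ r hrodd x hx hxr hx1
  obtain ⟨W, hW, hWT⟩ := hall x hxΩ ⟨1, by rw [hxr, one_smul]; rfl⟩ hns
  obtain ⟨s, w, hmsw, hw0, hwlt⟩ := oo_bad_core (Cfsg.quadFormPlus d F) hQ hplus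
    (by rw [hcard]; exact even_two_mul d) _ hTpres r hr2 hrF hTr i hi hodd m hme W hW hWT
  rw [hxk] at hwlt
  have hwlt2 : w < 2 * i := by omega
  have hmod : m % (2 * i) = w := by
    rw [hmsw, Nat.mul_add_mod]
    exact Nat.mod_eq_of_lt hwlt2
  refine ⟨?_, by omega, by omega⟩
  by_contra hlt
  have hs : s = 0 := by
    by_contra hs
    have h1 : 2 * i * 1 ≤ 2 * i * s := Nat.mul_le_mul_left _ (by omega)
    omega
  subst hs
  exact hnlt (by omega)

end Cfsg.Agent.Helper35.S88
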