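import Mathlib
import Cfsg.Prelude.Def_GeometricClasses
import Cfsg.Prelude.Def_Classical
import Cfsg.Agent.Helper35.S88Defs
import Cfsg.Agent.Helper96.OHAll
import Cfsg.Agent.Helper86.ELNDIVCore
import Cfsg.Agent.Helper58.TSDefs
import Cfsg.Agent.Helper43.OrthStd
import Cfsg.Agent.Helper43.TBXISO
import Cfsg.Agent.Helper37.TBBLKO
import Cfsg.Agent.Helper31.TBPRODND
import Cfsg.Agent.Helper93.TBTYPEPROD
import Cfsg.Agent.Helper35.TBFULL

set_option autoImplicit false

/-!
# CALL S90 (row S5990; top architect helper98): generic pieces for ANY type of the whole space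
(helper35), all characteristics.

* `el_ndiv_of_bad_gen`: helper86's `el_ndiv_of_bad` without `IsPlusTypeOn Q ⊤`: an isometry `T`
  with `T ^ r = 1`, fixed space of dimension `< c`, `m < c` and (`m < dim Fix`, or `m = dim Fix`
  and `Fix` not of plus type) ⟹ `r` does not divide the number of elliptic `m`-spaces.
* `s90_xfer`: transfer of an isometry of a model to the isometry group of `Q` (`TypeDefect Q δ`),
  keeping the dimension of the fixed space.
* `s90_bad_model`: a model of dimension `2 (k₀ + i a)` and type defect `ε` with an isometry of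
  order `r` (`i = ord_r(q)` odd) whose fixed space has dimension `2 k₀`.
* `s90_bad_elt`: the bad element (`d / i` dual pairs) in the isometry group of `Q`,
  `TypeDefect Q δ`, `δ ≤ d % i`: fixed space of dimension `(2 d) % (2 i)`.
* `s90_bad_core`: an invariant elliptic `m`-space of an isometry of order `r` (`i` odd) forces
  `m = 2 i s + w`, `0 < w ≤ dim Fix`.
* `s90_fix_minus`: if the whole space is not of plus type (`i` odd), neither is the fixed space.
-/

namespace Cfsg.Agent.Helper35.S90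

open Module Polynomial Cfsg Cfsg.Geo
open Cfsg.Agent.Helper13.TIu Cfsg.Agent.Helper96.OH Cfsg.Agent.Helper35.S88
open Cfsg.Agent.Helper43 Cfsg.Agent.Helper43.OrthEven Cfsg.Agent.Helper43.CycFactors
open Cfsg.Agent.Helper58.TS
open Cfsg.Agent.Helper31.OH5992 Cfsg.Agent.Helper37.OH5992 Cfsg.Agent.Helper96.OHAll
open Cfsg.Agent.Helper86.EL5988
open scoped MatrixGroups

universe u

section ndiv

variable {ι : Type} [Fintype ι] [DecidableEq ι] {F : Type*} [Field F] (Q : (ι → F) → F)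

/-- NDIV from a bad element, any type of the whole space. -/
theorem el_ndiv_of_bad_gen [Fintype F] (hQ : IsNondegenerateQuadraticForm Q)
    (hev : Even (Fintype.card ι))
    (r : ℕ) [Fact r.Prime] (hr2 : 2 < r) (hrF : (r : F) ≠ 0) (i c : ℕ)
    (hi : i = orderOf ((Fintype.card F : ℕ) : ZMod r)) (hc : c = if Even i then i else 2 * i)
    (m : ℕ) (hme : Even m) (hm0 : 0 < m) (hmc : m < c)
    (T : Module.End F (ι → F)) (hT : OPres Q T) (hTr : T ^ r = 1)
    (hfix : finrank F (LinearMap.ker (T - 1)) < c)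
    (hk : m < finrank F (LinearMap.ker (T - 1)) ∨
      (m = finrank F (LinearMap.ker (T - 1)) ∧ ¬ OPl Q (LinearMap.ker (T - 1)))) :
    ¬ r ∣ Nat.card {W : Submodule F (ι → F) // finrank F W = m ∧ ONd Q W ∧ ¬ OPl Q W} := by
  classical
  have hrpr : r.Prime := Fact.out
  have hinj : Function.Injective T := by
    have h1 : T ^ (r - 1) * T = 1 := by
      rw [← pow_succ, Nat.sub_add_cancel hrpr.one_le, hTr]
    intro u v huv
    have h2 := congrArg (T ^ (r - 1)) huv
    rw [← Module.End.mul_apply, ← Module.End.mul_apply, h1] at h2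
    exact h2
  have hcev : Even c := by
    rw [hc]
    split_ifs with h
    · exact h
    · exact even_two_mul i
  obtain ⟨hCnd, P, -, hPT, hPnd, hPk, hsup, horth, hdim⟩ :=
    o_fix Q hQ T hT r hrpr.pos hrF hTr ⊤ le_top (ond_top Q hQ)
  rw [top_inf_eq] at hCnd hsup horth hdim
  rw [finrank_top, Module.finrank_fintype_fun_eq_card] at hdim
  have hcP : c ∣ finrank F P := by
    have h1 := oall_cdvd Q hQ T hT r hr2 hrF hTr i c hi hc P hPT hPnd
    rw [hPk, finrank_bot, Nat.sub_zero] at h1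
    exact h1
  have hPev : Even (finrank F P) := hcev.trans_dvd hcP
  have hCev : Even (finrank F (LinearMap.ker (T - 1))) := by
    have h1 : Even (finrank F P + finrank F (LinearMap.ker (T - 1))) := by rw [hdim]; exact hev
    exact (Nat.even_add.1 h1).1 hPev
  have hcong := o_fix_congr T r hTr (fun W => finrank F W = m ∧ ONd Q W ∧ ¬ OPl Q W)
    (fun W hW => el_pres_map Q hQ T hT hinj m W hW)
  have hinC : ∀ W : Submodule F (ι → F), (finrank F W = m ∧ ONd Q W ∧ ¬ OPl Q W) →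
      W.map T ≤ W → W ≤ LinearMap.ker (T - 1) := by
    intro W hW hWT
    have h1 := oall_cdvd Q hQ T hT r hr2 hrF hTr i c hi hc W hWT hW.2.1
    have h3 : finrank F (W ⊓ LinearMap.ker (T - 1) : Submodule F (ι → F)) ≤ finrank F W :=
      Submodule.finrank_mono inf_le_left
    have h2 : finrank F W - finrank F (W ⊓ LinearMap.ker (T - 1) : Submodule F (ι → F)) = 0 :=
      Nat.eq_zero_of_dvd_of_lt h1 (by rw [hW.1]; omega)
    have h4 : W ⊓ LinearMap.ker (T - 1) = W :=
      Submodule.eq_of_le_of_finrank_eq inf_le_left (by omega)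
    rw [← h4]
    exact inf_le_right
  have hCfix : ∀ W : Submodule F (ι → F), W ≤ LinearMap.ker (T - 1) → W.map T ≤ W := by
    rintro W hW _ ⟨w, hw, rfl⟩
    have h1 := hW hw
    rw [LinearMap.mem_ker, LinearMap.sub_apply, Module.End.one_apply, sub_eq_zero] at h1
    rw [h1]
    exact hw
  have hcard2 : Nat.card {W : Submodule F (ι → F) //
      (finrank F W = m ∧ ONd Q W ∧ ¬ OPl Q W) ∧ W.map T ≤ W} =
      Nat.card {W : Submodule F (ι → F) //
        (finrank F W = m ∧ ONd Q W ∧ ¬ OPl Q W) ∧ W ≤ LinearMap.ker (T - 1)} :=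
    Nat.card_congr (Equiv.subtypeEquivRight (fun W =>
      ⟨fun h => ⟨h.1, hinC W h.1 h.2⟩, fun h => ⟨h.1, hCfix W h.2⟩⟩))
  rw [hcard2] at hcong
  intro hr
  have hr' : r ∣ Nat.card {W : Submodule F (ι → F) //
      (finrank F W = m ∧ ONd Q W ∧ ¬ OPl Q W) ∧ W ≤ LinearMap.ker (T - 1)} :=
    (Nat.ModEq.dvd_iff hcong (dvd_refl r)).mp hr
  rcases hk with hk | ⟨hmeq, hCnpl⟩
  · obtain ⟨k, hk'⟩ := hCev
    obtain ⟨X, hXC, hXnd, hXdim, hXty⟩ := Cfsg.Agent.Helper35.EL.el_sub Q hQ
      (LinearMap.ker (T - 1)) hCnd k (by omega) m hme hm0 (by omega) False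
    exact el_ndiv_core Q hQ r hr2 hrF i c hi hc m hme _ hCnd hfix X
      ⟨⟨hXdim, hXnd, fun h => hXty.mp h⟩, hXC⟩ hr'
  · have huniq : Nat.card {W : Submodule F (ι → F) //
        (finrank F W = m ∧ ONd Q W ∧ ¬ OPl Q W) ∧ W ≤ LinearMap.ker (T - 1)} = 1 := by
      rw [Nat.card_eq_one_iff_unique]
      refine ⟨⟨fun a b => Subtype.ext ?_⟩,
        ⟨⟨LinearMap.ker (T - 1), ⟨hmeq.symm, hCnd, hCnpl⟩, le_refl _⟩⟩⟩
      have ha : a.1 = LinearMap.ker (T - 1) :=
        Submodule.eq_of_le_of_finrank_eq a.2.2 (by rw [a.2.1.1, hmeq])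
      have hb : b.1 = LinearMap.ker (T - 1) :=
        Submodule.eq_of_le_of_finrank_eq b.2.2 (by rw [b.2.1.1, hmeq])
      rw [ha, hb]
    rw [huniq] at hr'
    exact hrpr.ne_one (Nat.dvd_one.mp hr')

/-- BADCORE, any type of the whole space (`i` odd): an invariant elliptic `m`-space forces
`m = 2 i s + w` with `0 < w ≤ dim Fix`. -/
theorem s90_bad_core [Fintype F] (hQ : IsNondegenerateQuadraticForm Q)
    (T : Module.End F (ι → F)) (hT : OPres Q T) (r : ℕ) [Fact r.Prime] (hr2 : 2 < r)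
    (hrF : (r : F) ≠ 0) (hTr : T ^ r = 1) (i : ℕ)
    (hi : i = orderOf ((Fintype.card F : ℕ) : ZMod r)) (hodd : Odd i)
    (m : ℕ) (hme : Even m) (W : Submodule F (ι → F))
    (hW : finrank F W = m ∧ ONd Q W ∧ ¬ OPl Q W) (hWT : W.map T ≤ W) :
    ∃ s w, m = 2 * i * s + w ∧ 0 < w ∧ w ≤ finrank F (LinearMap.ker (T - 1)) := by
  classical
  have hrpr : r.Prime := Fact.out
  have hc : 2 * i = if Even i then i else 2 * i := by
    rw [if_neg (Nat.not_even_iff_odd.2 hodd)]
  have hodd' : Odd (orderOf ((Fintype.card F : ℕ) : ZMod r)) := by rw [← hi]; exact hodd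
  obtain ⟨hWm, hWnd, hWnp⟩ := hW
  obtain ⟨hWk, P, hPW, hPT, hP, hPk, hsup, horth, hdim⟩ :=
    o_fix Q hQ T hT r hrpr.pos hrF hTr W hWT hWnd
  obtain ⟨s, hs⟩ := oall_cdvd_aux Q hQ T hT r hr2 hrF hTr i (2 * i) hi hc
    (finrank F P) P rfl hPT hP hPk
  have hPpl : OPl Q P := oall_type_odd Q hQ T hT r hr2 hrF hTr hodd' P hPT hP hPk
  have hPev : Even (finrank F P) := by rw [hs, mul_assoc]; exact even_two_mul _
  have hKev : Even (finrank F (W ⊓ LinearMap.ker (T - 1) : Submodule F (ι → F))) := by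
    have h1 : Even (finrank F P +
        finrank F (W ⊓ LinearMap.ker (T - 1) : Submodule F (ι → F))) := by
      rw [hdim, hWm]; exact hme
    exact (Nat.even_add.1 h1).1 hPev
  have hmul := Cfsg.Agent.Helper33.o_type_mul Q hQ (W ⊓ LinearMap.ker (T - 1)) P hWk hP horth
    hKev hPev
  rw [hsup] at hmul
  have hKnp : ¬ OPl Q (W ⊓ LinearMap.ker (T - 1)) :=
    fun h => hWnp (hmul.2 ⟨fun _ => hPpl, fun _ => h⟩)
  refine ⟨s, finrank F (W ⊓ LinearMap.ker (T - 1) : Submodule F (ι → F)), ?_, ?_, ?_⟩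
  · rw [← hs, hdim, hWm]
  · rw [Nat.pos_iff_ne_zero]
    intro h0
    have h1 : (W ⊓ LinearMap.ker (T - 1) : Submodule F (ι → F)) = ⊥ :=
      Submodule.finrank_eq_zero.1 h0
    rw [h1] at hKnp
    exact hKnp (Cfsg.Agent.Helper33.o_plus_bot Q hQ)
  · exact Submodule.finrank_mono inf_le_right

/-- if the whole space is not of plus type (`i` odd), the fixed space is not of plus type. -/
theorem s90_fix_minus [Fintype F] (hQ : IsNondegenerateQuadraticForm Q)
    (hminus : ¬ OPl Q ⊤) (hev : Even (Fintype.card ι))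
    (T : Module.End F (ι → F)) (hT : OPres Q T) (r : ℕ) [Fact r.Prime] (hr2 : 2 < r)
    (hrF : (r : F) ≠ 0) (hTr : T ^ r = 1) (i : ℕ)
    (hi : i = orderOf ((Fintype.card F : ℕ) : ZMod r)) (hodd : Odd i) :
    ¬ OPl Q (LinearMap.ker (T - 1)) := by
  classical
  have hrpr : r.Prime := Fact.out
  have hc : 2 * i = if Even i then i else 2 * i := by
    rw [if_neg (Nat.not_even_iff_odd.2 hodd)]
  have hodd' : Odd (orderOf ((Fintype.card F : ℕ) : ZMod r)) := by rw [← hi]; exact hodd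
  obtain ⟨hTk, P', -, hP'T, hP', hP'k, hsup', horth', hdim'⟩ :=
    o_fix Q hQ T hT r hrpr.pos hrF hTr ⊤ le_top (ond_top Q hQ)
  rw [top_inf_eq] at hTk hsup' horth' hdim'
  obtain ⟨s', hs'⟩ := oall_cdvd_aux Q hQ T hT r hr2 hrF hTr i (2 * i) hi
    hc (finrank F P') P' rfl hP'T hP' hP'k
  have hP'pl : OPl Q P' := oall_type_odd Q hQ T hT r hr2 hrF hTr hodd' P' hP'T hP' hP'k
  have hP'ev : Even (finrank F P') := by rw [hs', mul_assoc]; exact even_two_mul _
  have hK'ev : Even (finrank F (LinearMap.ker (T - 1) : Submodule F (ι → F))) := by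
    have h1 : Even (finrank F P' +
        finrank F (LinearMap.ker (T - 1) : Submodule F (ι → F))) := by
      rw [hdim', finrank_top, Module.finrank_fintype_fun_eq_card]; exact hev
    exact (Nat.even_add.1 h1).1 hP'ev
  have hmul' := Cfsg.Agent.Helper33.o_type_mul Q hQ (LinearMap.ker (T - 1)) P' hTk hP' horth'
    hK'ev hP'ev
  rw [hsup'] at hmul'
  intro hpl
  exact hminus (hmul'.2 ⟨fun _ => hP'pl, fun _ => hpl⟩)

end ndiv

section model

variable {F : Type u} [Field F] [Fintype F]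

/-- MODEL, type defect `ε`. -/
theorem s90_bad_model (p : ℕ) [Fact p.Prime] [CharP F p]
    (r : ℕ) [Fact r.Prime] (hr2 : 2 < r) (hrp : r ≠ p)
    (hodd : Odd (orderOf ((Fintype.card F : ℕ) : ZMod r))) (ε k₀ a : ℕ) (hε : ε ≤ 1)
    (hεk : ε ≤ k₀) :
    ∃ (V' : Type u) (_ : AddCommGroup V') (_ : Module F V') (_ : FiniteDimensional F V')
      (Q' : QuadraticForm F V') (T : Module.End F V'),
      PolarNondeg Q' ∧
      finrank F V' = 2 * (k₀ + orderOf ((Fintype.card F : ℕ) : ZMod r) * a) ∧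
      (HasTS Q' (k₀ + orderOf ((Fintype.card F : ℕ) : ZMod r) * a) ↔ ε = 0) ∧
      (∀ v, Q' (T v) = Q' v) ∧ T ^ r = 1 ∧
      finrank F (LinearMap.ker (T - 1)) = 2 * k₀ := by
  classical
  have hr : r.Prime := Fact.out
  have hrF : (r : F) ≠ 0 := natCast_ne_zero_of_ne (p := p) hr hrp
  obtain ⟨V₁, _, _, _, Q₁, T₁, hnd₁, hT₁, hcyc, hfr₁, hts₁, -⟩ :=
    Cfsg.Agent.Helper37.TB.tb_blk_odd (F := F) p r hr2 hrp hodd a
  obtain ⟨V₀, _, _, _, Q₀, hnd₀, hdim₀, hts₀, -⟩ :=
    Cfsg.Agent.Helper35.TB.tb_fixed_space (F := F) k₀ ε hε hεk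
  have hT₁r : T₁ ^ r = 1 := by
    have h1 : aeval T₁ (X ^ r - 1 : F[X]) = 0 := by
      rw [← cyclotomic_prime_mul_X_sub_one F r, map_mul, hcyc, zero_mul]
    simpa [sub_eq_zero] using h1
  have hfix : ∀ y : V₁, T₁ y = y → y = 0 := by
    intro y hy
    have h3 : ∀ n : ℕ, (T₁ ^ n) y = y := by
      intro n
      induction n with
      | zero => rfl
      | succ n ih => rw [pow_succ, Module.End.mul_apply, hy, ih]
    have h2 : ∀ f : F[X], aeval T₁ f y = (f.eval 1) • y := by
      intro f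
      induction f using Polynomial.induction_on' with
      | add f g hf hg => rw [map_add, LinearMap.add_apply, hf, hg, eval_add, add_smul]
      | monomial n c =>
        rw [aeval_monomial, eval_monomial, one_pow, mul_one, Module.End.mul_apply, h3,
          Module.algebraMap_end_apply]
    have h4 := h2 (cyclotomic r F)
    rw [hcyc, LinearMap.zero_apply, eval_one_cyclotomic_prime] at h4
    rcases smul_eq_zero.mp h4.symm with h5 | h5
    · exact absurd h5 hrF
    · exact h5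
  refine ⟨V₀ × V₁, inferInstance, inferInstance, inferInstance,
    Q₀.prod Q₁, (1 : Module.End F V₀).prodMap T₁,
    Cfsg.Agent.Helper31.TB.tb_prod_nd _ Q₁ hnd₀ hnd₁, ?_, ?_, ?_, ?_, ?_⟩
  · rw [Module.finrank_prod, hdim₀, hfr₁]; ring
  · rw [Cfsg.Agent.Helper93.TB.tb_type_prod Q₀ Q₁ hnd₀ hnd₁ k₀ _ hdim₀ hfr₁, hts₀]
    exact ⟨fun h => h.2 hts₁, fun h => ⟨fun _ => hts₁, fun _ => h⟩⟩
  · rintro ⟨x, y⟩
    rw [LinearMap.prodMap_apply, QuadraticMap.prod_apply, QuadraticMap.prod_apply, hT₁]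
    rfl
  · have key : ∀ n : ℕ, ((1 : Module.End F V₀).prodMap T₁) ^ n
        = (1 : Module.End F V₀).prodMap (T₁ ^ n) := by
      intro n
      induction n with
      | zero =>
        rw [pow_zero, pow_zero]
        exact LinearMap.prodMap_one.symm
      | succ n ih =>
        rw [pow_succ, ih, pow_succ, LinearMap.prodMap_mul, mul_one]
    rw [key r, hT₁r]
    exact LinearMap.prodMap_one
  · have hker : LinearMap.ker ((1 : Module.End F V₀).prodMap T₁ - 1) =
        LinearMap.range (LinearMap.inl F V₀ V₁) := by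
      ext ⟨x, y⟩
      rw [LinearMap.mem_ker, LinearMap.sub_apply, sub_eq_zero, LinearMap.prodMap_apply,
        LinearMap.mem_range]
      constructor
      · intro h
        have hy : T₁ y = y := congrArg Prod.snd h
        exact ⟨x, by rw [LinearMap.inl_apply, hfix y hy]⟩
      · rintro ⟨x', hx'⟩
        rw [LinearMap.inl_apply] at hx'
        have hy0 : (0 : V₁) = y := congrArg Prod.snd hx'
        rw [← hy0, map_zero]
        rfl
    rw [hker, LinearMap.finrank_range_of_inj LinearMap.inl_injective, hdim₀]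

variable {ι : Type} [Fintype ι] [DecidableEq ι]

/-- XFER, any type. -/
theorem s90_xfer (Q : (ι → F) → F) (hQ : IsNondegenerateQuadraticForm Q) (d δ : ℕ) (hd : 1 ≤ d)
    (hcard : Fintype.card ι = 2 * d) (hδ : TypeDefect Q δ) (r : ℕ) (hr0 : 0 < r)
    {V' : Type u} [AddCommGroup V'] [Module F V'] [FiniteDimensional F V']
    (Q' : QuadraticForm F V') (hnd : PolarNondeg Q') (hdim : finrank F V' = 2 * d)
    (htype : HasTS Q' d ↔ δ = 0) (T : Module.End F V') (hT : ∀ v, Q' (T v) = Q' v)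
    (hTr : T ^ r = 1) :
    ∃ x : GL ι F, x ∈ Cfsg.isometryGroup F Q ∧ x ^ r = 1 ∧
      finrank F (LinearMap.ker (Matrix.toLin' (x : Matrix ι ι F) - 1)) =
        finrank F (LinearMap.ker (T - 1)) := by
  classical
  obtain ⟨Φ, hΦ⟩ := Cfsg.Agent.Helper43.TB.tb_xiso Q hQ d δ hd hcard hδ Q' hnd hdim htype
  let b : Module.Basis ι F V' := Module.Basis.ofEquivFun Φ
  obtain ⟨A, hAdef⟩ : ∃ A : Matrix ι ι F, A = LinearMap.toMatrix b b T := ⟨_, rfl⟩
  have hAΦ : ∀ v, A.mulVec (Φ v) = Φ (T v) := by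
    intro v
    rw [hAdef]
    exact LinearMap.toMatrix_mulVec_repr b b T v
  have hA : ∀ x, Q (A.mulVec x) = Q x := by
    intro x
    obtain ⟨v, rfl⟩ := Φ.surjective x
    rw [hAΦ, hΦ, hΦ, hT]
  have hAr : A ^ r = 1 := by
    rw [hAdef, ← Cfsg.Agent.Helper43.OrthStd.toMatrix_pow', hTr, LinearMap.toMatrix_one]
  have hr1 : r - 1 + 1 = r := Nat.sub_add_cancel hr0
  let g0 : GL ι F := ⟨A, A ^ (r - 1), by rw [← pow_succ', hr1, hAr], by rw [← pow_succ, hr1, hAr]⟩
  have hg0 : g0 ∈ Cfsg.isometryGroup F Q := by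
    intro u v
    exact hA u
  have hg0r : g0 ^ r = 1 := by
    apply Units.ext
    rw [Units.val_pow_eq_pow_val]
    exact hAr
  refine ⟨g0, hg0, hg0r, ?_⟩
  have hker : LinearMap.ker (Matrix.toLin' (g0 : Matrix ι ι F) - 1) =
      (LinearMap.ker (T - 1)).map (Φ : V' →ₗ[F] (ι → F)) := by
    ext w
    obtain ⟨v, rfl⟩ := Φ.surjective w
    rw [LinearMap.mem_ker, LinearMap.sub_apply, Matrix.toLin'_apply, Module.End.one_apply,
      sub_eq_zero]
    show A.mulVec (Φ v) = Φ v ↔ _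
    rw [hAΦ]
    constructor
    · intro h
      have hTv : T v = v := Φ.injective h
      refine ⟨v, ?_, rfl⟩
      show v ∈ LinearMap.ker (T - 1)
      rw [LinearMap.mem_ker, LinearMap.sub_apply, Module.End.one_apply, sub_eq_zero]
      exact hTv
    · rintro ⟨v', hv', hv'e⟩
      have hvv : v' = v := Φ.injective hv'e
      subst hvv
      have hv'' : v' ∈ LinearMap.ker (T - 1) := hv'
      rw [LinearMap.mem_ker, LinearMap.sub_apply, Module.End.one_apply, sub_eq_zero] at hv''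
      rw [hv'']
  rw [hker]
  exact LinearEquiv.finrank_map_eq Φ _

/-- BADELT, any type: the element with `d / i` dual pairs (`i` odd); needs `δ ≤ d % i`. -/
theorem s90_bad_elt (Q : (ι → F) → F) (hQ : IsNondegenerateQuadraticForm Q) (d δ : ℕ)
    (hd : 1 ≤ d) (hcard : Fintype.card ι = 2 * d) (hδ : TypeDefect Q δ)
    (p : ℕ) [Fact p.Prime] [CharP F p]
    (r : ℕ) [Fact r.Prime] (hr2 : 2 < r) (hrp : r ≠ p) (i : ℕ)
    (hi : i = orderOf ((Fintype.card F : ℕ) : ZMod r)) (hodd : Odd i) (hδk : δ ≤ d % i) :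
    ∃ x : GL ι F, x ∈ Cfsg.isometryGroup F Q ∧ x ^ r = 1 ∧
      finrank F (LinearMap.ker (Matrix.toLin' (x : Matrix ι ι F) - 1)) = (2 * d) % (2 * i) := by
  have hr : r.Prime := Fact.out
  have hodd' : Odd (orderOf ((Fintype.card F : ℕ) : ZMod r)) := by rw [← hi]; exact hodd
  obtain ⟨V', _, _, _, Q', T, hnd, hdim, hts, hT, hTr, hker⟩ :=
    s90_bad_model (F := F) p r hr2 hrp hodd' δ (d % i) (d / i) hδ.le_one hδk
  rw [← hi] at hdim hts
  have hdi : d % i + i * (d / i) = d := Nat.mod_add_div d i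
  rw [hdi] at hdim hts
  obtain ⟨x, hx, hxr, hxk⟩ :=
    s90_xfer Q hQ d δ hd hcard hδ r hr.pos Q' hnd hdim hts T hT hTr
  refine ⟨x, hx, hxr, ?_⟩
  rw [hxk, hker, Nat.mul_mod_mul_left]

end model

end Cfsg.Agent.Helper35.S90
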