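import Mathlib
import Cfsg.Prelude.Def_GeometricClasses
import Cfsg.Prelude.Def_Classical
import Cfsg.Agent.Helper35.S88Defs
import Cfsg.Agent.Helper96.OHDefs
import Cfsg.Agent.Helper33.OType
import Cfsg.Agent.Helper50.TSR2SPLA
import Cfsg.Agent.Helper70.OHOSUB

set_option autoImplicit false

/-!
# CALL S90 (row S5990; top architect helper98), stage R2G, piece INVO (helper35)

`s90_invo`: odd characteristic, `Q` nondegenerate of MINUS type on a `2 d`-dimensional space, `M`
an isometry with `M * M = 1`: `M` fixes an elliptic `m`-space for EVERY even `m` with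
`2 ≤ m ≤ 2 d - 2` (no hypothesis `m < d`, no hypothesis `M ≠ ± 1`).
Eigenspaces `K₊ ⊥ K₋` (`r2_split`).  If one of them has dimension `> m`: type freedom (`o_sub`).
Otherwise both have dimension `≥ 2`; odd dimensions: `W₊ ≤ K₊` elliptic of dimension
`dim K₊ - 1`, `W₋ ≤ K₋` hyperbolic of dimension `m - dim K₊ + 1`; even dimensions: exactly one
eigenspace `E` is elliptic (`o_type_mul`), `W = E ⊥ X` with `X` hyperbolic in the other one.
-/

namespace Cfsg.Agent.Helper35.S90

open Module Cfsg Cfsg.Geo Cfsg.Agent.Helper35.S88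
open Cfsg.Agent.Helper13.TIu Cfsg.Agent.Helper96.OH
open scoped MatrixGroups

section invo

variable {ι : Type} [Fintype ι] [DecidableEq ι] {F : Type*} [Field F] [Fintype F]

/-- gluing: `E` elliptic of even dimension `≤ m`, `H` orthogonal to `E` with
`m - dim E < dim H`, all subspaces of `E` and of `H` invariant. -/
theorem s90_invo_glue (Q : (ι → F) → F) (hQ : IsNondegenerateQuadraticForm Q) (h2 : (2 : F) ≠ 0)
    (m : ℕ) (hme : Even m) (T : Module.End F (ι → F)) (E H : Submodule F (ι → F))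
    (hE : ONd Q E) (hH : ONd Q H) (horth : OOrth Q E H)
    (hEinv : ∀ X : Submodule F (ι → F), X ≤ E → X.map T ≤ X)
    (hHinv : ∀ X : Submodule F (ι → F), X ≤ H → X.map T ≤ X)
    (hEnp : ¬ OPl Q E) (hEev : Even (finrank F E)) (hEm : finrank F E ≤ m)
    (hlt : m - finrank F E < finrank F H) :
    ∃ W : Submodule F (ι → F), (finrank F W = m ∧ ONd Q W ∧ ¬ OPl Q W) ∧ W.map T ≤ W := by
  classical
  rcases Nat.eq_zero_or_pos (m - finrank F E) with h0 | hpos
  · exact ⟨E, ⟨by omega, hE, hEnp⟩, hEinv E le_rfl⟩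
  · have hev' : Even (m - finrank F E) := by
      obtain ⟨a, ha⟩ := hme
      obtain ⟨b, hb⟩ := hEev
      exact ⟨a - b, by omega⟩
    obtain ⟨X, hXH, hXnd, hXdim, hXpl⟩ := Cfsg.Agent.Helper70.OH5992.o_sub Q hQ h2 H hH
      (m - finrank F E) hev' hpos hlt True
    have horth' : OOrth Q E X := fun u hu v hv => horth u hu v (hXH hv)
    refine ⟨E ⊔ X, ⟨?_, ?_, ?_⟩, ?_⟩
    · rw [Cfsg.Agent.Helper33.OType.finrank_sup_of_orth Q E X hE horth', hXdim]
      omega
    · exact Cfsg.Agent.Helper33.OType.nondeg_sup Q hQ E X hE hXnd horth'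
    · intro hpl
      have hmul := Cfsg.Agent.Helper33.o_type_mul Q hQ E X hE hXnd horth' hEev
        (by rw [hXdim]; exact hev')
      exact hEnp ((hmul.1 hpl).2 (hXpl.2 trivial))
    · rw [Submodule.map_sup]
      exact sup_le_sup (hEinv E le_rfl) (hHinv X hXH)

/-- INVO, minus type: an involutory isometry fixes an elliptic `m`-space, `2 ≤ m ≤ 2 d - 2`. -/
theorem s90_invo (Q : (ι → F) → F) (hQ : IsNondegenerateQuadraticForm Q) (h2 : (2 : F) ≠ 0)
    (d m : ℕ) (hcard : Fintype.card ι = 2 * d) (hminus : ¬ IsPlusTypeOn Q ⊤) (hm : 2 ≤ m)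
    (hme : Even m) (hmn : m + 2 ≤ 2 * d)
    (M : Matrix ι ι F) (hM : ∀ v, Q (M.mulVec v) = Q v) (hM2 : M * M = 1) : InvEll Q M m := by
  classical
  obtain ⟨h1, h3, h4, -⟩ := Cfsg.Agent.Helper50.TSR2.r2_split Q hQ h2 M hM hM2
  rw [hcard] at h4
  obtain ⟨Kp, hKp⟩ : ∃ K : Submodule F (ι → F), K = LinearMap.ker (Matrix.toLin' M - 1) :=
    ⟨_, rfl⟩
  obtain ⟨Km, hKm⟩ : ∃ K : Submodule F (ι → F), K = LinearMap.ker (Matrix.toLin' M + 1) :=
    ⟨_, rfl⟩
  rw [← hKp] at h1 h4
  rw [← hKm] at h3 h4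
  have hfixp : ∀ x ∈ Kp, Matrix.toLin' M x = x := by
    intro x hx
    rw [hKp, LinearMap.mem_ker, LinearMap.sub_apply, sub_eq_zero] at hx
    exact hx
  have hfixm : ∀ x ∈ Km, Matrix.toLin' M x = -x := by
    intro x hx
    rw [hKm, LinearMap.mem_ker, LinearMap.add_apply, add_eq_zero_iff_eq_neg] at hx
    exact hx
  have hinvp : ∀ X : Submodule F (ι → F), X ≤ Kp → X.map (Matrix.toLin' M) ≤ X := by
    rintro X hX _ ⟨x, hx, rfl⟩
    have hx' : x ∈ X := hx
    rw [hfixp x (hX hx)]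
    exact hx'
  have hinvm : ∀ X : Submodule F (ι → F), X ≤ Km → X.map (Matrix.toLin' M) ≤ X := by
    rintro X hX _ ⟨x, hx, rfl⟩
    have hx' : x ∈ X := hx
    rw [hfixm x (hX hx)]
    exact X.neg_mem hx'
  have horth : OOrth Q Kp Km := by
    intro u hu v hv
    have e0 : QuadraticMap.polar Q (Matrix.toLin' M u) (Matrix.toLin' M v) =
        QuadraticMap.polar Q u v := by
      unfold QuadraticMap.polar
      rw [← map_add, Matrix.toLin'_apply, Matrix.toLin'_apply, Matrix.toLin'_apply, hM, hM, hM]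
    rw [hfixp u hu, hfixm v hv] at e0
    have e1 : QuadraticMap.polar Q u (-v) = - QuadraticMap.polar Q u v := by
      rw [← pB_apply Q hQ, ← pB_apply Q hQ, map_neg]
    rw [e1] at e0
    have e2 : (2 : F) * QuadraticMap.polar Q u v = 0 := by linear_combination -e0
    rcases mul_eq_zero.mp e2 with h | h
    · exact absurd h h2
    · exact h
  have horth' : OOrth Q Km Kp := oorth_symm Q horth
  -- one eigenspace of dimension `> m`
  rcases Nat.lt_or_ge m (finrank F Kp) with hlt | hgep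
  · obtain ⟨X, hXK, hXnd, hXdim, hXpl⟩ := Cfsg.Agent.Helper70.OH5992.o_sub Q hQ h2 Kp h1 m hme
      (by omega) hlt False
    exact ⟨X, ⟨hXdim, hXnd, fun h => hXpl.mp h⟩, hinvp X hXK⟩
  rcases Nat.lt_or_ge m (finrank F Km) with hlt | hgem
  · obtain ⟨X, hXK, hXnd, hXdim, hXpl⟩ := Cfsg.Agent.Helper70.OH5992.o_sub Q hQ h2 Km h3 m hme
      (by omega) hlt False
    exact ⟨X, ⟨hXdim, hXnd, fun h => hXpl.mp h⟩, hinvm X hXK⟩
  -- both eigenspaces have dimension `≤ m`, hence `≥ 2`
  rcases Nat.even_or_odd (finrank F Kp) with hpe | hpo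
  · have hme' : Even (finrank F Km) := by
      obtain ⟨a, ha⟩ := hpe
      exact ⟨d - a, by omega⟩
    have hsup : Kp ⊔ Km = ⊤ := by
      apply Submodule.eq_top_of_finrank_eq
      rw [Cfsg.Agent.Helper33.OType.finrank_sup_of_orth Q Kp Km h1 horth,
        Module.finrank_fintype_fun_eq_card, hcard, h4]
    have hmul := Cfsg.Agent.Helper33.o_type_mul Q hQ Kp Km h1 h3 horth hpe hme'
    rw [hsup] at hmul
    by_cases hp : OPl Q Kp
    · have hmn' : ¬ OPl Q Km := fun h => hminus (hmul.2 ⟨fun _ => h, fun _ => hp⟩)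
      exact s90_invo_glue Q hQ h2 m hme _ Km Kp h3 h1 horth' hinvm hinvp hmn' hme' hgem
        (by omega)
    · exact s90_invo_glue Q hQ h2 m hme _ Kp Km h1 h3 horth hinvp hinvm hp hpe hgep
        (by omega)
  · -- odd dimensions: an elliptic subspace of `Kp` of dimension `dim Kp - 1`
    have h3le : 3 ≤ finrank F Kp := by
      obtain ⟨a, ha⟩ := hpo
      omega
    have hev1 : Even (finrank F Kp - 1) := by
      obtain ⟨a, ha⟩ := hpo
      exact ⟨a, by omega⟩
    obtain ⟨X, hXK, hXnd, hXdim, hXpl⟩ := Cfsg.Agent.Helper70.OH5992.o_sub Q hQ h2 Kp h1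
      (finrank F Kp - 1) hev1 (by omega) (by omega) False
    exact s90_invo_glue Q hQ h2 m hme _ X Km hXnd h3
      (fun u hu v hv => horth u (hXK hu) v hv) (fun Y hY => hinvp Y (hY.trans hXK)) hinvm
      (fun h => hXpl.mp h) (by rw [hXdim]; exact hev1) (by rw [hXdim]; omega)
      (by rw [hXdim]; omega)

end invo

end Cfsg.Agent.Helper35.S90
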