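import Mathlib
import Cfsg.Prelude.Def_GeometricClasses
import Cfsg.Prelude.Def_Classical
import Cfsg.Agent.Helper35.S88Defs
import Cfsg.Agent.Helper96.OHAll
import Cfsg.Agent.Helper96.OHAux
import Cfsg.Agent.Helper35.TBXODD
import Cfsg.Agent.Helper35.TSSTDM
import Cfsg.Agent.Helper80.TSNONSCAL
import Cfsg.Agent.Helper35.S90Gen

set_option autoImplicit false

/-!
# Stage OOB (`s90_odd_bad`) of CALL S90 (row S5990; top architect helper98), helper35

`PΩ⁻_{2d}(q)` on elliptic `m`-spaces, `r` odd `≠ p`, `i = ord_r(q)` odd, direction `⟹`.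
If `k = (2 d) % (2 i) > 0`: the bad element `x` (`d / i` dual pairs, `s90_bad_elt`) has an
elliptic fixed space of dimension `k`.
* If `m ≤ k` then `r` does not divide the number of elliptic `m`-spaces (`el_ndiv_of_bad_gen`),
  against `hrΩ`.
* Otherwise `x ≠ 1`, `x ∈ Ω` (`tb_xodd`), `x` is not scalar (`ts_nonscalar`), so by `hall` it
  fixes an elliptic `m`-space, and `s90_bad_core` gives `m = 2 i s + w` with `0 < w ≤ k`; `s = 0`
  is the first case again.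
-/

namespace Cfsg.Agent.Helper35.S90

open Module Polynomial Cfsg Cfsg.Geo
open Cfsg.Agent.Helper13.TIu Cfsg.Agent.Helper96.OH Cfsg.Agent.Helper35.S88
open scoped MatrixGroups

variable {F : Type*} [Field F] [Fintype F]

/-- OOB, minus type. -/
theorem s90_odd_bad {p : ℕ} [Fact p.Prime] [CharP F p] {q : ℕ} (hq : Fintype.card F = q)
    (d m : ℕ) (hd : 4 ≤ d) (hm : 2 ≤ m) (hme : Even m) (hmn : m + 2 ≤ 2 * d) (a b : F)
    (hab : ∀ x y : F, x ^ 2 + a * x * y + b * y ^ 2 = 0 → x = 0 ∧ y = 0)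
    (r : ℕ) [Fact r.Prime]
    (hr2 : 2 < r) (hrp : r ≠ p) (i : ℕ) (hi : i = orderOf (q : ZMod r)) (hodd : Odd i)
    (hrΩ : r ∣ Nat.card {W : Submodule F ((Fin (d - 1) ⊕ Fin (d - 1)) ⊕ Fin 2 → F) //
      Module.finrank F ↥W = m ∧
      Cfsg.Geo.IsNondegenerateOn (QuadraticMap.polar (Cfsg.quadFormMinus (d - 1) F a b)) W ∧
      ¬ Cfsg.Geo.IsPlusTypeOn (Cfsg.quadFormMinus (d - 1) F a b) W})
    (hall : AllEll (Cfsg.quadFormMinus (d - 1) F a b) r m) :
    (2 * d) % (2 * i) = 0 ∨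
      (2 * i ≤ m ∧ 0 < m % (2 * i) ∧ m % (2 * i) ≤ (2 * d) % (2 * i)) := by
  classical
  have hr : r.Prime := Fact.out
  subst hq
  obtain ⟨hQ, hminus⟩ := Cfsg.Agent.Helper35.TS5973.ts_std_minus (F := F) (d - 1) a b hab
  have hcard : Fintype.card ((Fin (d - 1) ⊕ Fin (d - 1)) ⊕ Fin 2) = 2 * d := by
    rw [Fintype.card_sum, Fintype.card_sum, Fintype.card_fin, Fintype.card_fin]; omega
  have hev : Even (Fintype.card ((Fin (d - 1) ⊕ Fin (d - 1)) ⊕ Fin 2)) := by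
    rw [hcard]; exact even_two_mul d
  have hrodd : Odd r := hr.odd_of_ne_two (by omega)
  have hrF : (r : F) ≠ 0 := Cfsg.Agent.Helper96.OHAux.oh_rF p r hrp
  have hc : 2 * i = if Even i then i else 2 * i := by
    rw [if_neg (Nat.not_even_iff_odd.2 hodd)]
  have hipos : 0 < i := hodd.pos
  by_cases hk0 : (2 * d) % (2 * i) = 0
  · exact Or.inl hk0
  right
  have hdi : 1 ≤ d % i := by
    rw [Nat.mul_mod_mul_left] at hk0
    omega
  -- the bad element
  obtain ⟨x, hx, hxr, hxk⟩ := s90_bad_elt (Cfsg.quadFormMinus (d - 1) F a b) hQ d 1 (by omega)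
    hcard (Cfsg.Agent.Helper58.TS.typeDefect_minus hminus) p r hr2 hrp i hi hodd hdi
  have hmodlt : (2 * d) % (2 * i) < 2 * i := Nat.mod_lt _ (by omega)
  have hTpres : OPres (Cfsg.quadFormMinus (d - 1) F a b)
      (Matrix.toLin' (x : Matrix ((Fin (d - 1) ⊕ Fin (d - 1)) ⊕ Fin 2)
        ((Fin (d - 1) ⊕ Fin (d - 1)) ⊕ Fin 2) F)) := by
    intro v
    rw [Matrix.toLin'_apply]
    exact hx v v
  have hTr : (Matrix.toLin' (x : Matrix ((Fin (d - 1) ⊕ Fin (d - 1)) ⊕ Fin 2)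
      ((Fin (d - 1) ⊕ Fin (d - 1)) ⊕ Fin 2) F)) ^ r = 1 := by
    rw [Cfsg.Agent.Helper96.OHAux.oh_toLin'_pow_eq, ← Units.val_pow_eq_pow_val, hxr, Units.val_one,
      Matrix.toLin'_one]
    rfl
  have hfixm := s90_fix_minus (Cfsg.quadFormMinus (d - 1) F a b) hQ hminus hev _ hTpres r hr2 hrF
    hTr i hi hodd
  -- the hypothesis `hrΩ` excludes `m ≤ (2 d) % (2 i)`
  have hnle : ¬ m ≤ (2 * d) % (2 * i) := by
    intro hle
    refine el_ndiv_of_bad_gen (Cfsg.quadFormMinus (d - 1) F a b) hQ hev r hr2 hrF i (2 * i) hi hc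
      m hme (by omega) (by omega) _ hTpres hTr (by rw [hxk]; exact hmodlt) ?_ hrΩ
    rcases Nat.lt_or_eq_of_le hle with h | h
    · exact Or.inl (by rw [hxk]; exact h)
    · exact Or.inr ⟨by rw [hxk]; exact h, hfixm⟩
  have hx1 : x ≠ 1 := by
    intro h1
    rw [h1, Units.val_one, Matrix.toLin'_one] at hxk
    have h2 : (LinearMap.id : (((Fin (d - 1) ⊕ Fin (d - 1)) ⊕ Fin 2) → F) →ₗ[F]
        (((Fin (d - 1) ⊕ Fin (d - 1)) ⊕ Fin 2) → F)) - 1 = 0 := sub_self _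
    rw [h2, LinearMap.ker_zero, finrank_top, Module.finrank_fintype_fun_eq_card, hcard] at hxk
    omega
  have hxΩ : x ∈ omegaGL (Cfsg.quadFormMinus (d - 1) F a b) :=
    Cfsg.Agent.Helper35.TB.tb_xodd _ hQ (by rw [hcard]; omega) x hx r hrodd hxr
  have hns := Cfsg.Agent.Helper80.TS5973.ts_nonscalar _ hQ r hrodd x hx hxr hx1
  obtain ⟨W, hW, hWT⟩ := hall x hxΩ ⟨1, by rw [hxr, one_smul]; rfl⟩ hns
  obtain ⟨s, w, hmsw, hw0, hwle⟩ := s90_bad_core (Cfsg.quadFormMinus (d - 1) F a b) hQ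
    _ hTpres r hr2 hrF hTr i hi hodd m hme W hW hWT
  rw [hxk] at hwle
  have hwlt2 : w < 2 * i := by omega
  have hmod : m % (2 * i) = w := by
    rw [hmsw, Nat.mul_add_mod]
    exact Nat.mod_eq_of_lt hwlt2
  refine ⟨?_, by omega, by omega⟩
  by_contra hlt
  have hs : s = 0 := by
    by_contra hs
    have h1 : 2 * i * 1 ≤ 2 * i * s := Nat.mul_le_mul_left _ (by omega)
    omega
  subst hs
  exact hnle (by omega)

end Cfsg.Agent.Helper35.S90
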