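import Mathlib

set_option autoImplicit false

namespace Cfsg.Agent.Helper35

/-- In a finite field whose multiplicative group has order not dividing `N` some nonzero element
has `x ^ N ≠ 1`. -/
theorem sl2field_exists_pow_ne_one {F : Type*} [Field F] [Fintype F] (N : ℕ)
    (h : ¬ (Fintype.card F - 1 ∣ N)) : ∃ x : F, x ≠ 0 ∧ x ^ N ≠ 1 := by
  classical
  obtain ⟨g, hg⟩ := IsCyclic.exists_generator (α := Fˣ)
  have hord : orderOf g = Fintype.card F - 1 := by
    rw [orderOf_eq_card_of_forall_mem_zpowers hg, Nat.card_eq_fintype_card, Fintype.card_units]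
  refine ⟨(g : F), g.ne_zero, ?_⟩
  intro hgN
  apply h
  rw [← hord]
  apply orderOf_dvd_of_pow_eq_one
  apply Units.ext
  simpa using hgN

/-- A finite field of order not in `{2, 3, 4, 5, 9}` has a nonzero `x` with `t = x + x⁻¹`
satisfying `t ≠ 0` and `t ^ 4 ≠ 1`. -/
theorem sl2field_exists_good {F : Type*} [Field F] [Fintype F]
    (h2 : Fintype.card F ≠ 2) (h3 : Fintype.card F ≠ 3) (h4 : Fintype.card F ≠ 4)
    (h5 : Fintype.card F ≠ 5) (h9 : Fintype.card F ≠ 9) :
    ∃ x : F, x ≠ 0 ∧ x + x⁻¹ ≠ 0 ∧ (x + x⁻¹) ^ 4 ≠ 1 := by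
  have hcard : 1 < Fintype.card F := Fintype.one_lt_card
  have hc0 : ((Fintype.card F : ℕ) : F) = 0 := Nat.cast_card_eq_zero F
  obtain ⟨q, hq⟩ : ∃ q, q = Fintype.card F := ⟨_, rfl⟩
  rw [← hq] at h2 h3 h4 h5 h9 hcard hc0
  have hmul : ∀ x : F, x ≠ 0 → (x + x⁻¹) * x = x * x + 1 := by
    intro x hx0
    rw [add_mul, inv_mul_cancel₀ hx0]
  by_cases h20 : (2 : F) = 0
  · -- characteristic 2
    obtain ⟨x, hx0, hx3⟩ := sl2field_exists_pow_ne_one (F := F) 3 (by
      rw [← hq]
      intro hdvd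
      have := Nat.le_of_dvd (by norm_num) hdvd
      have h6 : q ≤ 4 := by omega
      interval_cases q <;> omega)
    refine ⟨x, hx0, ?_, ?_⟩
    · intro ht
      have h1 : x * x + 1 = 0 := by rw [← hmul x hx0, ht, zero_mul]
      have h2' : (x - 1) ^ 2 = 0 := by linear_combination h1 - x * h20
      have h3' : x = 1 := sub_eq_zero.mp ((pow_eq_zero_iff (by norm_num)).mp h2')
      apply hx3
      rw [h3', one_pow]
    · intro ht
      have ht1 : x + x⁻¹ = 1 := by
        have : (x + x⁻¹ - 1) ^ 4 = 0 := by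
          linear_combination ht +
            (-2 * (x + x⁻¹) ^ 3 + 3 * (x + x⁻¹) ^ 2 - 2 * (x + x⁻¹) + 1) * h20
        exact sub_eq_zero.mp ((pow_eq_zero_iff (by norm_num)).mp this)
      have h1 : x * x + 1 = x := by rw [← hmul x hx0, ht1, one_mul]
      apply hx3
      linear_combination (x - 1) * h1 + (x - 1) * x * h20
  · by_cases h30 : (3 : F) = 0
    · -- characteristic 3
      obtain ⟨x, hx0, hx8⟩ := sl2field_exists_pow_ne_one (F := F) 8 (by
        rw [← hq]
        intro hdvd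
        have := Nat.le_of_dvd (by norm_num) hdvd
        have h6 : q ≤ 9 := by omega
        interval_cases q <;> omega)
      refine ⟨x, hx0, ?_, ?_⟩
      · intro ht
        have h1 : x * x + 1 = 0 := by rw [← hmul x hx0, ht, zero_mul]
        apply hx8
        linear_combination (x ^ 6 - x ^ 4 + x ^ 2 - 1) * h1
      · intro ht
        have h4' : (x * x + 1) ^ 4 = x ^ 4 := by
          rw [← hmul x hx0, mul_pow, ht, one_mul]
        have h6 : (x ^ 2 - 1) ^ 2 * (x ^ 4 + 1) = 0 := by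
          linear_combination h4' - (2 * x ^ 6 + x ^ 4 + 2 * x ^ 2) * h30
        apply hx8
        rcases mul_eq_zero.mp h6 with h | h
        · have h' : x ^ 2 - 1 = 0 := (pow_eq_zero_iff (by norm_num)).mp h
          linear_combination (x ^ 6 + x ^ 4 + x ^ 2 + 1) * h'
        · linear_combination (x ^ 4 - 1) * h
    · by_cases h50 : (5 : F) = 0
      · -- characteristic 5
        have hq7 : q ≠ 7 := by
          intro h7
          rw [h7] at hc0
          have h7' : (7 : F) = 0 := by exact_mod_cast hc0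
          have : (1 : F) = 0 := by linear_combination 3 * h50 - 2 * h7'
          exact one_ne_zero this
        have hq13 : q ≠ 13 := by
          intro h13
          rw [h13] at hc0
          have h13' : (13 : F) = 0 := by exact_mod_cast hc0
          have : (1 : F) = 0 := by linear_combination 2 * h13' - 5 * h50
          exact one_ne_zero this
        obtain ⟨x, hx0, hx12⟩ := sl2field_exists_pow_ne_one (F := F) 12 (by
          rw [← hq]
          intro hdvd
          have := Nat.le_of_dvd (by norm_num) hdvd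
          have h6 : q ≤ 13 := by omega
          interval_cases q <;> omega)
        refine ⟨x, hx0, ?_, ?_⟩
        · intro ht
          have h1 : x * x + 1 = 0 := by rw [← hmul x hx0, ht, zero_mul]
          apply hx12
          linear_combination (x ^ 10 - x ^ 8 + x ^ 6 - x ^ 4 + x ^ 2 - 1) * h1
        · intro ht
          have h4' : (x * x + 1) ^ 4 = x ^ 4 := by
            rw [← hmul x hx0, mul_pow, ht, one_mul]
          have h6 : (x ^ 2 - 1) ^ 2 * (x ^ 4 + x ^ 2 + 1) = 0 := by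
            linear_combination h4' - (x ^ 6 + x ^ 4 + x ^ 2) * h50
          apply hx12
          rcases mul_eq_zero.mp h6 with h | h
          · have h' : x ^ 2 - 1 = 0 := (pow_eq_zero_iff (by norm_num)).mp h
            linear_combination (x ^ 10 + x ^ 8 + x ^ 6 + x ^ 4 + x ^ 2 + 1) * h'
          · linear_combination (x ^ 2 - 1) * (x ^ 6 + 1) * h
      · -- generic characteristic
        refine ⟨1, one_ne_zero, ?_, ?_⟩
        · rw [inv_one, one_add_one_eq_two]; exact h20
        · rw [inv_one, one_add_one_eq_two]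
          intro h
          have : (3 : F) * 5 = 0 := by linear_combination h
          rcases mul_eq_zero.mp this with h' | h'
          · exact h30 h'
          · exact h50 h'

/-- A biadditive pairing on a finite field of order not in `{2, 3, 4, 5, 9}` with values in an
abelian group which is invariant under simultaneous multiplication by nonzero squares is trivial. -/
theorem sl2field_pairing_trivial {F : Type*} [Field F] [Fintype F] {Z : Type*} [CommGroup Z]
    (h2 : Fintype.card F ≠ 2) (h3 : Fintype.card F ≠ 3) (h4 : Fintype.card F ≠ 4)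
    (h5 : Fintype.card F ≠ 5) (h9 : Fintype.card F ≠ 9)
    (c : F → F → Z)
    (hl : ∀ a a' b, c (a + a') b = c a b * c a' b)
    (hr : ∀ a b b', c a (b + b') = c a b * c a b')
    (hinv : ∀ t : F, t ≠ 0 → ∀ a b, c (t ^ 2 * a) (t ^ 2 * b) = c a b) :
    ∀ a b, c a b = 1 := by
  obtain ⟨x, hx0, ht0, ht4⟩ := sl2field_exists_good h2 h3 h4 h5 h9
  have hν : (x + x⁻¹) ^ 2 = x ^ 2 + (x⁻¹) ^ 2 + 1 + 1 := by
    field_simp
    ring
  have hadj1 : ∀ a b, c (x ^ 2 * a) b = c a ((x⁻¹) ^ 2 * b) := by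
    intro a b
    have := hinv x hx0 a ((x⁻¹) ^ 2 * b)
    rw [← this]
    congr 1
    field_simp
  have hadj2 : ∀ a b, c ((x⁻¹) ^ 2 * a) b = c a (x ^ 2 * b) := by
    intro a b
    have := hinv x⁻¹ (inv_ne_zero hx0) a (x ^ 2 * b)
    rw [← this]
    congr 1
    field_simp
  have hself : ∀ a b, c ((x + x⁻¹) ^ 2 * a) b = c a ((x + x⁻¹) ^ 2 * b) := by
    intro a b
    rw [hν, add_mul, add_mul, add_mul, one_mul, hl, hl, hl, hadj1, hadj2, add_mul, add_mul,
      add_mul, one_mul, hr, hr, hr, mul_comm (c a ((x⁻¹) ^ 2 * b))]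
  have hinv' : ∀ a b, c ((x + x⁻¹) ^ 2 * a) b = c a (((x + x⁻¹) ^ 2)⁻¹ * b) := by
    intro a b
    have := hinv (x + x⁻¹) ht0 a (((x + x⁻¹) ^ 2)⁻¹ * b)
    rw [← this]
    congr 1
    rw [← mul_assoc, mul_inv_cancel₀ (pow_ne_zero 2 ht0), one_mul]
  obtain ⟨ν, hνdef⟩ : ∃ ν, ν = (x + x⁻¹) ^ 2 := ⟨_, rfl⟩
  rw [← hνdef] at hself hinv'
  have hν0 : ν ≠ 0 := by rw [hνdef]; exact pow_ne_zero 2 ht0
  have hδ : ν - ν⁻¹ ≠ 0 := by
    intro h
    apply ht4
    have h' : ν = ν⁻¹ := sub_eq_zero.mp h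
    have : ν * ν = 1 := by
      calc ν * ν = ν * ν⁻¹ := by rw [← h']
        _ = 1 := mul_inv_cancel₀ hν0
    rw [hνdef] at this
    rw [← this]
    ring
  intro a b
  have hb : ν * ((ν - ν⁻¹)⁻¹ * b) = ν⁻¹ * ((ν - ν⁻¹)⁻¹ * b) + b := by
    have : ν * ((ν - ν⁻¹)⁻¹ * b) - ν⁻¹ * ((ν - ν⁻¹)⁻¹ * b) = b := by
      rw [← sub_mul, ← mul_assoc, mul_inv_cancel₀ hδ, one_mul]
    linear_combination this
  have e1 := hself a ((ν - ν⁻¹)⁻¹ * b)
  have e2 := hinv' a ((ν - ν⁻¹)⁻¹ * b)
  rw [e1, hb, hr] at e2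
  exact mul_left_cancel (a := c a (ν⁻¹ * ((ν - ν⁻¹)⁻¹ * b))) (by rw [e2, mul_one])

end Cfsg.Agent.Helper35
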