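import Mathlib

set_option autoImplicit false

namespace Cfsg.Agent.Helper35

open Matrix

/-- A `2 × 2` matrix of determinant one with `y ^ ℓ = 1`, `y ≠ 1`, `ℓ` invertible in the field:
the geometric sum `1 + y + ... + y ^ (ℓ - 1)` vanishes. -/
theorem sl2sum_geom_sum_eq_zero {F : Type*} [Field F] (ℓ : ℕ) (hℓ : (ℓ : F) ≠ 0)
    (y : Matrix (Fin 2) (Fin 2) F) (hdet : y.det = 1) (hy : y ^ ℓ = 1) (hy1 : y ≠ 1) :
    ∑ i ∈ Finset.range ℓ, y ^ i = 0 := by
  have h1 : (y - 1) * ∑ i ∈ Finset.range ℓ, y ^ i = 0 := by rw [mul_geom_sum, hy, sub_self]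
  by_cases h0 : (y - 1).det = 0
  · exfalso
    have hd := Matrix.det_fin_two y
    have hd1 := Matrix.det_fin_two (y - 1)
    rw [hdet] at hd
    rw [h0] at hd1
    simp only [Matrix.sub_apply, Matrix.one_apply_eq, ne_eq, one_ne_zero, not_false_eq_true,
      Matrix.one_apply_ne, zero_ne_one, sub_zero] at hd1
    have hsq : (y - 1) * (y - 1) = 0 := by
      ext i j
      fin_cases i <;> fin_cases j
      · simp [Matrix.mul_apply, Fin.sum_univ_two]
        linear_combination (y 0 0 - 1) * (hd1 - hd) + hd1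
      · simp [Matrix.mul_apply, Fin.sum_univ_two]
        linear_combination (y 0 1) * (hd1 - hd)
      · simp [Matrix.mul_apply, Fin.sum_univ_two]
        linear_combination (y 1 0) * (hd1 - hd)
      · simp [Matrix.mul_apply, Fin.sum_univ_two]
        linear_combination (y 1 1 - 1) * (hd1 - hd) + hd1
    have hpow : ∀ k : ℕ, y ^ k = 1 + k • (y - 1) := by
      intro k
      induction k with
      | zero => simp
      | succ k ih =>
        have hy' : y = 1 + (y - 1) := by abel
        calc y ^ (k + 1) = y ^ k * y := pow_succ _ _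
          _ = (1 + k • (y - 1)) * (1 + (y - 1)) := by rw [ih, ← hy']
          _ = 1 + (k + 1) • (y - 1) + k • ((y - 1) * (y - 1)) := by
              rw [add_mul, mul_add, mul_add, one_mul, one_mul, mul_one, smul_mul_assoc, add_smul,
                one_smul]
              abel
          _ = 1 + (k + 1) • (y - 1) := by rw [hsq, smul_zero, add_zero]
    have h2 : ℓ • (y - 1) = 0 := by
      have := hpow ℓ
      rw [hy] at this
      exact (add_eq_left.mp this.symm)
    apply hy1
    have h3 : y - 1 = 0 := by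
      ext i j
      have := congrFun (congrFun h2 i) j
      simp only [Matrix.smul_apply, nsmul_eq_mul, Matrix.zero_apply] at this
      rcases mul_eq_zero.mp this with h | h
      · exact absurd h hℓ
      · simpa using h
    exact sub_eq_zero.mp h3
  · have hunit : IsUnit (y - 1) := (Matrix.isUnit_iff_isUnit_det _).mpr (isUnit_iff_ne_zero.mpr h0)
    exact (hunit.mul_right_eq_zero).mp h1

/-- Two commuting `2 × 2` matrices of determinant one and order dividing `ℓ` (invertible in the field)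
cannot generate a group of type `(ℓ, ℓ)`. -/
theorem sl2sum_aux {F : Type*} [Field F] (ℓ : ℕ) (hℓ : (ℓ : F) ≠ 0)
    (Z X : Matrix (Fin 2) (Fin 2) F) (hZ : Z.det = 1) (hX : X.det = 1)
    (hZl : Z ^ ℓ = 1) (hXl : X ^ ℓ = 1) (hc : Commute Z X)
    (h1 : ∀ j : ℕ, Z * X ^ j ≠ 1) (h2 : ∀ i : ℕ, 0 < i → i < ℓ → X ^ i ≠ 1) : False := by
  have hℓ0 : ℓ ≠ 0 := by
    rintro rfl
    simp at hℓ
  obtain ⟨n, rfl⟩ := Nat.exists_eq_succ_of_ne_zero hℓ0
  have hA : ∑ j ∈ Finset.range (n + 1), ∑ i ∈ Finset.range (n + 1), (Z * X ^ j) ^ i = 0 := by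
    apply Finset.sum_eq_zero
    intro j _
    apply sl2sum_geom_sum_eq_zero (n + 1) hℓ
    · rw [Matrix.det_mul, Matrix.det_pow, hZ, hX, one_pow, one_mul]
    · rw [(hc.pow_right j).mul_pow, hZl, ← pow_mul, mul_comm, pow_mul, hXl, one_pow, one_mul]
    · exact h1 j
  have hB : ∑ j ∈ Finset.range (n + 1), ∑ i ∈ Finset.range (n + 1), (Z * X ^ j) ^ i
      = ∑ i ∈ Finset.range (n + 1), Z ^ i * ∑ j ∈ Finset.range (n + 1), (X ^ i) ^ j := by
    rw [Finset.sum_comm]
    apply Finset.sum_congr rfl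
    intro i _
    rw [Finset.mul_sum]
    apply Finset.sum_congr rfl
    intro j _
    rw [(hc.pow_right j).mul_pow, ← pow_mul, ← pow_mul, mul_comm]
  rw [hB, Finset.sum_range_succ'] at hA
  have hC : ∑ i ∈ Finset.range n, Z ^ (i + 1) * ∑ j ∈ Finset.range (n + 1), (X ^ (i + 1)) ^ j = 0 := by
    apply Finset.sum_eq_zero
    intro i hi
    rw [Finset.mem_range] at hi
    rw [sl2sum_geom_sum_eq_zero (n + 1) hℓ (X ^ (i + 1)) (by rw [Matrix.det_pow, hX, one_pow])
      (by rw [← pow_mul, mul_comm, pow_mul, hXl, one_pow]) (h2 (i + 1) (by omega) (by omega)),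
      mul_zero]
  rw [hC, zero_add] at hA
  simp only [pow_zero, one_pow, one_mul, Finset.sum_const, Finset.card_range] at hA
  have := congrFun (congrFun hA 0) 0
  simp only [Matrix.smul_apply, Matrix.one_apply_eq, nsmul_eq_mul, mul_one, Matrix.zero_apply] at this
  exact hℓ this

/-- In `SL₂(F)`: two commuting elements of prime order `ℓ` invertible in `F` generate the same
cyclic subgroup. -/
theorem sl2sum_mem_zpowers {F : Type*} [Field F] (ℓ : ℕ) [hℓp : Fact ℓ.Prime] (hℓ : (ℓ : F) ≠ 0)
    (z x : Matrix.SpecialLinearGroup (Fin 2) F) (hz : orderOf z = ℓ) (hx : orderOf x = ℓ)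
    (hc : Commute z x) : x ∈ Subgroup.zpowers z := by
  by_contra hx'
  have hfin : ∀ w : Matrix.SpecialLinearGroup (Fin 2) F, orderOf w = ℓ →
      Nat.card (Subgroup.zpowers w) = ℓ := by
    intro w hw
    rw [Nat.card_zpowers, hw]
  refine sl2sum_aux ℓ hℓ (z : Matrix (Fin 2) (Fin 2) F) (x : Matrix (Fin 2) (Fin 2) F)
    z.2 x.2 ?_ ?_ ?_ ?_ ?_
  · rw [← Matrix.SpecialLinearGroup.coe_pow, ← hz, pow_orderOf_eq_one]; rfl
  · rw [← Matrix.SpecialLinearGroup.coe_pow, ← hx, pow_orderOf_eq_one]; rfl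
  · have := congrArg (fun w : Matrix.SpecialLinearGroup (Fin 2) F => (w : Matrix (Fin 2) (Fin 2) F))
      hc.eq
    simp only [Matrix.SpecialLinearGroup.coe_mul] at this
    exact this
  · intro j hj
    have hj' : z * x ^ j = 1 := by
      apply Subtype.ext
      simpa using hj
    have hzx : z = (x ^ j)⁻¹ := eq_inv_of_mul_eq_one_left hj'
    have hle : Subgroup.zpowers z ≤ Subgroup.zpowers x := by
      rw [Subgroup.zpowers_le, hzx]
      exact inv_mem (pow_mem (Subgroup.mem_zpowers x) j)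
    have hfinx : Finite (Subgroup.zpowers x) := by
      apply Nat.finite_of_card_ne_zero
      rw [hfin x hx]
      exact hℓp.out.ne_zero
    have heq : Subgroup.zpowers z = Subgroup.zpowers x := by
      apply Subgroup.eq_of_le_of_card_ge hle
      rw [hfin x hx, hfin z hz]
    exact hx' (heq ▸ Subgroup.mem_zpowers x)
  · intro i hi0 hil hi
    have hi' : x ^ i = 1 := by
      apply Subtype.ext
      simpa using hi
    have := Nat.le_of_dvd hi0 (orderOf_dvd_of_pow_eq_one hi')
    omega

/-- An `ℓ`-subgroup of `SL₂(F)`, `ℓ` prime and invertible in `F`, has at most one subgroup of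
order `ℓ`. -/
theorem sl2sum_unique_subgroup {F : Type*} [Field F] (ℓ : ℕ) [hℓp : Fact ℓ.Prime] (hℓ : (ℓ : F) ≠ 0)
    (P : Subgroup (Matrix.SpecialLinearGroup (Fin 2) F)) [Finite P] (hP : IsPGroup ℓ P)
    (H K : Subgroup P) (hH : Nat.card H = ℓ) (hK : Nat.card K = ℓ) : H = K := by
  have hnt : Nontrivial P := by
    by_contra hnt
    rw [not_nontrivial_iff_subsingleton] at hnt
    have : Nat.card H = 1 := Nat.card_eq_one_iff_unique.mpr ⟨inferInstance, ⟨1⟩⟩
    rw [hH] at this
    exact hℓp.out.one_lt.ne' this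
  have hcn : Nontrivial (Subgroup.center P) := hP.center_nontrivial
  have hcp : IsPGroup ℓ (Subgroup.center P) := hP.to_subgroup _
  obtain ⟨k, hk⟩ := IsPGroup.iff_card.mp hcp
  have hk0 : k ≠ 0 := by
    rintro rfl
    rw [pow_zero] at hk
    have : Subsingleton (Subgroup.center P) := (Nat.card_eq_one_iff_unique.mp hk).1
    exact not_subsingleton _ this
  have hdvd : ℓ ∣ Nat.card (Subgroup.center P) := by
    rw [hk]; exact dvd_pow_self ℓ hk0
  obtain ⟨z₀, hz₀⟩ := exists_prime_orderOf_dvd_card' ℓ hdvd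
  have hz₀' : orderOf (z₀ : P) = ℓ := by rw [Subgroup.orderOf_coe, hz₀]
  have key : ∀ H : Subgroup P, Nat.card H = ℓ → H = Subgroup.zpowers (z₀ : P) := by
    intro H hH
    have hfinH : Finite H := Nat.finite_of_card_ne_zero (by rw [hH]; exact hℓp.out.ne_zero)
    have hntH : Nontrivial H := by
      rw [← Finite.one_lt_card_iff_nontrivial, hH]
      exact hℓp.out.one_lt
    obtain ⟨h, hh⟩ := exists_ne (1 : H)
    have hord : orderOf (h : P) = ℓ := by
      have h1 : orderOf (h : P) ∣ ℓ := by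
        rw [← hH]
        exact Subgroup.orderOf_dvd_natCard H h.2
      rcases (Nat.dvd_prime hℓp.out).mp h1 with h2 | h2
      · exfalso
        apply hh
        apply Subtype.ext
        exact orderOf_eq_one_iff.mp h2
      · exact h2
    have hcomm : Commute ((z₀ : P) : Matrix.SpecialLinearGroup (Fin 2) F)
        ((h : P) : Matrix.SpecialLinearGroup (Fin 2) F) := by
      have := Subgroup.mem_center_iff.mp z₀.2 (h : P)
      have h3 := congrArg (Subtype.val) this
      exact h3.symm
    have hmem := sl2sum_mem_zpowers ℓ hℓ ((z₀ : P) : Matrix.SpecialLinearGroup (Fin 2) F)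
      ((h : P) : Matrix.SpecialLinearGroup (Fin 2) F)
      (by rw [Subgroup.orderOf_coe, hz₀']) (by rw [Subgroup.orderOf_coe, hord]) hcomm
    obtain ⟨m, hm⟩ := Subgroup.mem_zpowers_iff.mp hmem
    have hm' : (z₀ : P) ^ m = (h : P) := by
      apply Subtype.ext
      simpa using hm
    have hle1 : Subgroup.zpowers (h : P) ≤ Subgroup.zpowers (z₀ : P) := by
      rw [Subgroup.zpowers_le, ← hm']
      exact zpow_mem (Subgroup.mem_zpowers _) m
    have hle2 : Subgroup.zpowers (h : P) ≤ H := by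
      rw [Subgroup.zpowers_le]; exact h.2
    have hc1 : Nat.card (Subgroup.zpowers (h : P)) = ℓ := by rw [Nat.card_zpowers, hord]
    have hc2 : Nat.card (Subgroup.zpowers (z₀ : P)) = ℓ := by rw [Nat.card_zpowers, hz₀']
    have e1 : Subgroup.zpowers (h : P) = Subgroup.zpowers (z₀ : P) :=
      Subgroup.eq_of_le_of_card_ge hle1 (by rw [hc1, hc2])
    have e2 : Subgroup.zpowers (h : P) = H :=
      Subgroup.eq_of_le_of_card_ge hle2 (by rw [hc1, hH])
    rw [← e2, e1]
  rw [key H hH, key K hK]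

end Cfsg.Agent.Helper35
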