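import Mathlib
import Cfsg.Prelude.Def_KGroupFacts
import Cfsg.Agent.Helper35.StemSylow
import Cfsg.Agent.Helper35.SL2Sum
import Cfsg.Agent.Helper35.SL2Field

set_option autoImplicit false

namespace Cfsg.Agent.Helper35

open Matrix
open scoped commutatorElement
open scoped IsMulCommutative

section
variable {F : Type*} [Field F]

/-- Upper unitriangular element of `SL₂(F)`. -/
def sl2u (b : F) : Matrix.SpecialLinearGroup (Fin 2) F :=
  ⟨!![1, b; 0, 1], by simp [Matrix.det_fin_two]⟩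

theorem sl2u_add (a b : F) : sl2u (a + b) = sl2u a * sl2u b := by
  apply Subtype.ext
  rw [Matrix.SpecialLinearGroup.coe_mul]
  simp [sl2u, add_comm]

theorem sl2u_zero : sl2u (0 : F) = 1 := by
  ext i j
  fin_cases i <;> fin_cases j <;> simp [sl2u]

theorem sl2u_injective : Function.Injective (sl2u : F → Matrix.SpecialLinearGroup (Fin 2) F) := by
  intro a b h
  have := congrArg (fun g : Matrix.SpecialLinearGroup (Fin 2) F => g.1 0 1) h
  simpa [sl2u] using this

/-- Diagonal element of `SL₂(F)`. -/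
def sl2h (t : F) (ht : t ≠ 0) : Matrix.SpecialLinearGroup (Fin 2) F :=
  ⟨!![t, 0; 0, t⁻¹], by simp [Matrix.det_fin_two, ht]⟩

theorem sl2h_mul_u (t : F) (ht : t ≠ 0) (b : F) :
    sl2h t ht * sl2u b = sl2u (t ^ 2 * b) * sl2h t ht := by
  apply Subtype.ext
  rw [Matrix.SpecialLinearGroup.coe_mul, Matrix.SpecialLinearGroup.coe_mul]
  simp only [sl2h, sl2u, Matrix.mul_fin_two]
  congr 1
  · simp
    field_simp

/-- The upper unitriangular subgroup of `SL₂(F)`. -/
def sl2U (F : Type*) [Field F] : Subgroup (Matrix.SpecialLinearGroup (Fin 2) F) where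
  carrier := Set.range sl2u
  mul_mem' := by
    rintro _ _ ⟨a, rfl⟩ ⟨b, rfl⟩
    exact ⟨a + b, sl2u_add a b⟩
  one_mem' := ⟨0, sl2u_zero⟩
  inv_mem' := by
    rintro _ ⟨a, rfl⟩
    refine ⟨-a, ?_⟩
    apply eq_inv_of_mul_eq_one_left
    rw [← sl2u_add, neg_add_cancel, sl2u_zero]

theorem mem_sl2U_iff (g : Matrix.SpecialLinearGroup (Fin 2) F) :
    g ∈ sl2U F ↔ ∃ a : F, sl2u a = g := Iff.rfl

theorem card_sl2U : Nat.card (sl2U F) = Nat.card F :=
  (Nat.card_congr (Equiv.ofInjective sl2u sl2u_injective)).symm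

end

/-- The preimage of the unipotent subgroup under a stem extension of `SL₂(F)` is abelian when
`|F| ∉ {4, 9}`. -/
theorem sl2stem_comap_U_comm {F : Type*} [Field F] [Fintype F]
    (h4 : Fintype.card F ≠ 4) (h9 : Fintype.card F ≠ 9)
    {Γ : Type*} [Group Γ] (σ : Γ →* Matrix.SpecialLinearGroup (Fin 2) F)
    (hσ : Cfsg.IsStemExtension σ) :
    ∀ a ∈ (sl2U F).comap σ, ∀ b ∈ (sl2U F).comap σ, a * b = b * a := by
  obtain ⟨hsurj, hcen, hder⟩ := hσ
  by_cases hsmall : Fintype.card F = 2 ∨ Fintype.card F = 3 ∨ Fintype.card F = 5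
  · have hprime : (Fintype.card F).Prime := by
      rcases hsmall with h | h | h <;> rw [h] <;> norm_num
    have hcard : Nat.card (sl2U F) = Fintype.card F := by
      rw [card_sl2U, Nat.card_eq_fintype_card]
    have : Fact (Fintype.card F).Prime := ⟨hprime⟩
    have hcyc : IsCyclic (sl2U F) := isCyclic_of_prime_card hcard
    have hker : (σ.subgroupComap (sl2U F)).ker ≤ Subgroup.center ((sl2U F).comap σ) := by
      intro w hw
      have hw' : (w : Γ) ∈ σ.ker := by
        rw [MonoidHom.mem_ker] at hw ⊢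
        exact congrArg Subtype.val hw
      have hwc := hcen hw'
      rw [Subgroup.mem_center_iff] at hwc ⊢
      intro g
      exact Subtype.ext (hwc g)
    have hcomm := MonoidHom.isMulCommutative_of_isCyclic_of_ker_le_center
      (σ.subgroupComap (sl2U F)) hker
    intro a ha b hb
    have := hcomm.is_comm.comm (⟨a, ha⟩ : (sl2U F).comap σ) ⟨b, hb⟩
    exact congrArg Subtype.val this
  · push Not at hsmall
    obtain ⟨h2, h3, h5⟩ := hsmall
    -- a section of σ over the unipotent elements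
    have hsec : ∀ a : F, ∃ g : Γ, σ g = sl2u a := fun a => hsurj (sl2u a)
    choose s hs using hsec
    -- commutators only depend on the images
    have hwd1 : ∀ x y k : Γ, k ∈ σ.ker → ⁅x * k, y⁆ = ⁅x, y⁆ := by
      intro x y k hk
      have hkc : y * k = k * y := Subgroup.mem_center_iff.mp (hcen hk) y
      rw [commutatorElement_def, commutatorElement_def]
      calc x * k * y * (x * k)⁻¹ * y⁻¹ = x * (k * y) * k⁻¹ * x⁻¹ * y⁻¹ := by group
        _ = x * (y * k) * k⁻¹ * x⁻¹ * y⁻¹ := by rw [hkc]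
        _ = x * y * x⁻¹ * y⁻¹ := by group
    have hwd2 : ∀ x y k : Γ, k ∈ σ.ker → ⁅x, y * k⁆ = ⁅x, y⁆ := by
      intro x y k hk
      have hkc : x⁻¹ * k = k * x⁻¹ := Subgroup.mem_center_iff.mp (hcen hk) x⁻¹
      rw [commutatorElement_def, commutatorElement_def]
      calc x * (y * k) * x⁻¹ * (y * k)⁻¹ = x * y * (k * x⁻¹) * k⁻¹ * y⁻¹ := by group
        _ = x * y * (x⁻¹ * k) * k⁻¹ * y⁻¹ := by rw [hkc]
        _ = x * y * x⁻¹ * y⁻¹ := by group
    have hwd : ∀ x x' y y' : Γ, σ x = σ x' → σ y = σ y' → ⁅x, y⁆ = ⁅x', y'⁆ := by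
      intro x x' y y' hx hy
      have h1 : x⁻¹ * x' ∈ σ.ker := by
        rw [MonoidHom.mem_ker, map_mul, map_inv, hx, inv_mul_cancel]
      have h2' : y⁻¹ * y' ∈ σ.ker := by
        rw [MonoidHom.mem_ker, map_mul, map_inv, hy, inv_mul_cancel]
      have e1 : x' = x * (x⁻¹ * x') := by group
      have e2 : y' = y * (y⁻¹ * y') := by group
      rw [e1, e2, hwd1 _ _ _ h1, hwd2 _ _ _ h2']
    -- commutators of elements over U are central
    have hcz : ∀ a b : F, ⁅s a, s b⁆ ∈ Subgroup.center Γ := by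
      intro a b
      apply hcen
      rw [MonoidHom.mem_ker, map_commutatorElement, hs, hs, commutatorElement_eq_one_iff_mul_comm,
        ← sl2u_add, ← sl2u_add, add_comm]
    have hcz' : ∀ (a b : F) (g : Γ), g * ⁅s a, s b⁆ = ⁅s a, s b⁆ * g := fun a b g =>
      Subgroup.mem_center_iff.mp (hcz a b) g
    obtain ⟨c, hc⟩ : ∃ c : F → F → Subgroup.center Γ, ∀ a b, ((c a b : Subgroup.center Γ) : Γ) = ⁅s a, s b⁆ :=
      ⟨fun a b => ⟨⁅s a, s b⁆, hcz a b⟩, fun a b => rfl⟩
    have hl : ∀ a a' b, c (a + a') b = c a b * c a' b := by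
      intro a a' b
      apply Subtype.ext
      rw [Subgroup.coe_mul, hc, hc, hc]
      have e1 : ⁅s (a + a'), s b⁆ = ⁅s a * s a', s b⁆ :=
        hwd _ _ _ _ (by rw [hs, map_mul, hs, hs, sl2u_add]) rfl
      have e2 : ⁅s a * s a', s b⁆ = s a * ⁅s a', s b⁆ * (s a)⁻¹ * ⁅s a, s b⁆ := by
        rw [commutatorElement_def, commutatorElement_def, commutatorElement_def]
        group
      rw [e1, e2, hcz' a' b (s a), mul_inv_cancel_right, hcz' a' b]
    have hr : ∀ a b b', c a (b + b') = c a b * c a b' := by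
      intro a b b'
      apply Subtype.ext
      rw [Subgroup.coe_mul, hc, hc, hc]
      have e1 : ⁅s a, s (b + b')⁆ = ⁅s a, s b * s b'⁆ :=
        hwd _ _ _ _ rfl (by rw [hs, map_mul, hs, hs, sl2u_add])
      have e2 : ⁅s a, s b * s b'⁆ = ⁅s a, s b⁆ * (s b * ⁅s a, s b'⁆ * (s b)⁻¹) := by
        rw [commutatorElement_def, commutatorElement_def, commutatorElement_def]
        group
      rw [e1, e2, hcz' a b' (s b), mul_inv_cancel_right]
    have hinv : ∀ t : F, t ≠ 0 → ∀ a b, c (t ^ 2 * a) (t ^ 2 * b) = c a b := by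
      intro t ht a b
      apply Subtype.ext
      rw [hc, hc]
      obtain ⟨τ, hτ⟩ := hsurj (sl2h t ht)
      have e0 : ∀ a : F, σ (s (t ^ 2 * a)) = σ (τ * s a * τ⁻¹) := by
        intro a
        rw [hs, map_mul, map_mul, map_inv, hs, hτ, sl2h_mul_u, mul_inv_cancel_right]
      have e1 : ⁅s (t ^ 2 * a), s (t ^ 2 * b)⁆ = ⁅τ * s a * τ⁻¹, τ * s b * τ⁻¹⁆ :=
        hwd _ _ _ _ (e0 a) (e0 b)
      have e2 : ⁅τ * s a * τ⁻¹, τ * s b * τ⁻¹⁆ = τ * ⁅s a, s b⁆ * τ⁻¹ := by
        rw [commutatorElement_def, commutatorElement_def]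
        group
      rw [e1, e2, hcz' a b τ, mul_inv_cancel_right]
    have htriv := sl2field_pairing_trivial h2 h3 h4 h5 h9 c hl hr hinv
    intro x hx y hy
    obtain ⟨a, ha⟩ := (mem_sl2U_iff _).mp (Subgroup.mem_comap.mp hx)
    obtain ⟨b, hb⟩ := (mem_sl2U_iff _).mp (Subgroup.mem_comap.mp hy)
    have e1 : ⁅x, y⁆ = ⁅s a, s b⁆ := hwd _ _ _ _ (by rw [hs, ha]) (by rw [hs, hb])
    have e2 : ⁅s a, s b⁆ = 1 := by
      rw [← hc, htriv a b]
      rfl
    rw [e2] at e1
    exact commutatorElement_eq_one_iff_mul_comm.mp e1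

end Cfsg.Agent.Helper35
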