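import Mathlib
import Cfsg.Agent.Helper35.SL2Field

set_option autoImplicit false

namespace Cfsg.Agent.Helper35

open scoped commutatorElement
open scoped IsMulCommutative

section
variable {Γ : Type*} [Group Γ]

theorem stemp_comm_mul_left (x x' y : Γ) (h : x * ⁅x', y⁆ = ⁅x', y⁆ * x) :
    ⁅x * x', y⁆ = ⁅x', y⁆ * ⁅x, y⁆ := by
  have e : ⁅x * x', y⁆ = x * ⁅x', y⁆ * x⁻¹ * ⁅x, y⁆ := by
    rw [commutatorElement_def, commutatorElement_def, commutatorElement_def]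
    group
  rw [e, h, mul_inv_cancel_right]

theorem stemp_comm_mul_right (x y y' : Γ) (h : y * ⁅x, y'⁆ = ⁅x, y'⁆ * y) :
    ⁅x, y * y'⁆ = ⁅x, y⁆ * ⁅x, y'⁆ := by
  have e : ⁅x, y * y'⁆ = ⁅x, y⁆ * (y * ⁅x, y'⁆ * y⁻¹) := by
    rw [commutatorElement_def, commutatorElement_def, commutatorElement_def]
    group
  rw [e, h, mul_inv_cancel_right]

/-- A right factor commuting with `y` can be dropped from the left entry of a commutator. -/
theorem stemp_comm_drop_left (x w y : Γ) (h : w * y = y * w) : ⁅x * w, y⁆ = ⁅x, y⁆ := by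
  have e : ⁅x * w, y⁆ = x * ⁅w, y⁆ * x⁻¹ * ⁅x, y⁆ := by
    rw [commutatorElement_def, commutatorElement_def, commutatorElement_def]
    group
  rw [e, commutatorElement_eq_one_iff_mul_comm.mpr h, mul_one, mul_inv_cancel, one_mul]

/-- A right factor commuting with `x` can be dropped from the right entry of a commutator. -/
theorem stemp_comm_drop_right (x y w : Γ) (h : x * w = w * x) : ⁅x, y * w⁆ = ⁅x, y⁆ := by
  have e : ⁅x, y * w⁆ = ⁅x, y⁆ * (y * ⁅x, w⁆ * y⁻¹) := by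
    rw [commutatorElement_def, commutatorElement_def, commutatorElement_def]
    group
  rw [e, commutatorElement_eq_one_iff_mul_comm.mpr h, mul_one, mul_inv_cancel, mul_one]

theorem stemp_comm_conj (τ x y : Γ) : ⁅τ * x * τ⁻¹, τ * y * τ⁻¹⁆ = τ * ⁅x, y⁆ * τ⁻¹ := by
  rw [commutatorElement_def, commutatorElement_def]
  group

/-- Two elements with the same image under a homomorphism differ by a kernel element. -/
theorem stemp_exists_ker {G : Type*} [Group G] (σ : Γ →* G) (x x' : Γ) (h : σ x = σ x') :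
    ∃ k ∈ σ.ker, x' = x * k := by
  refine ⟨x⁻¹ * x', ?_, by group⟩
  rw [MonoidHom.mem_ker, map_mul, map_inv, h, inv_mul_cancel]

end

/-- Abstract form of the torus argument: a central extension `σ` restricted to the preimage of
a subgroup `u(F) ≅ (F, +)` on which suitable elements act by multiplication by all nonzero
squares is abelian, provided `|F| ∉ {2, 3, 4, 5, 9}`. -/
theorem stemp_comm_of_field_action {F : Type*} [Field F] [Fintype F]
    (h2 : Fintype.card F ≠ 2) (h3 : Fintype.card F ≠ 3) (h4 : Fintype.card F ≠ 4)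
    (h5 : Fintype.card F ≠ 5) (h9 : Fintype.card F ≠ 9)
    {Γ : Type*} {G : Type*} [Group Γ] [Group G] (σ : Γ →* G) (hcen : σ.ker ≤ Subgroup.center Γ)
    (u : F → G) (hu : ∀ a b, u (a + b) = u a * u b)
    (hsec : ∀ a, ∃ g : Γ, σ g = u a)
    (htor : ∀ t : F, t ≠ 0 → ∃ τ : Γ, ∀ b, σ τ * u b = u (t ^ 2 * b) * σ τ) :
    ∀ x y : Γ, (∃ a, σ x = u a) → (∃ b, σ y = u b) → x * y = y * x := by
  choose s hs using hsec
  have hkc : ∀ k ∈ σ.ker, ∀ g : Γ, g * k = k * g := fun k hk g =>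
    Subgroup.mem_center_iff.mp (hcen hk) g
  have hwd : ∀ x x' y y' : Γ, σ x = σ x' → σ y = σ y' → ⁅x, y⁆ = ⁅x', y'⁆ := by
    intro x x' y y' hx hy
    obtain ⟨k, hk, rfl⟩ := stemp_exists_ker σ x x' hx
    obtain ⟨k', hk', rfl⟩ := stemp_exists_ker σ y y' hy
    rw [stemp_comm_drop_left _ _ _ (hkc k hk _).symm, stemp_comm_drop_right _ _ _ (hkc k' hk' _)]
  have hcz : ∀ a b : F, ⁅s a, s b⁆ ∈ Subgroup.center Γ := by
    intro a b
    apply hcen
    rw [MonoidHom.mem_ker, map_commutatorElement, hs, hs, commutatorElement_eq_one_iff_mul_comm,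
      ← hu, ← hu, add_comm]
  have hcz' : ∀ (a b : F) (g : Γ), g * ⁅s a, s b⁆ = ⁅s a, s b⁆ * g := fun a b g =>
    Subgroup.mem_center_iff.mp (hcz a b) g
  obtain ⟨c, hc⟩ : ∃ c : F → F → Subgroup.center Γ,
      ∀ a b, ((c a b : Subgroup.center Γ) : Γ) = ⁅s a, s b⁆ :=
    ⟨fun a b => ⟨⁅s a, s b⁆, hcz a b⟩, fun a b => rfl⟩
  have hl : ∀ a a' b, c (a + a') b = c a b * c a' b := by
    intro a a' b
    apply Subtype.ext
    rw [Subgroup.coe_mul, hc, hc, hc]
    have e1 : ⁅s (a + a'), s b⁆ = ⁅s a * s a', s b⁆ :=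
      hwd _ _ _ _ (by rw [hs, map_mul, hs, hs, hu]) rfl
    rw [e1, stemp_comm_mul_left _ _ _ (hcz' a' b (s a)), hcz' a' b]
  have hr : ∀ a b b', c a (b + b') = c a b * c a b' := by
    intro a b b'
    apply Subtype.ext
    rw [Subgroup.coe_mul, hc, hc, hc]
    have e1 : ⁅s a, s (b + b')⁆ = ⁅s a, s b * s b'⁆ :=
      hwd _ _ _ _ rfl (by rw [hs, map_mul, hs, hs, hu])
    rw [e1, stemp_comm_mul_right _ _ _ (hcz' a b' (s b))]
  have hinv : ∀ t : F, t ≠ 0 → ∀ a b, c (t ^ 2 * a) (t ^ 2 * b) = c a b := by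
    intro t ht a b
    apply Subtype.ext
    rw [hc, hc]
    obtain ⟨τ, hτ⟩ := htor t ht
    have e0 : ∀ a : F, σ (s (t ^ 2 * a)) = σ (τ * s a * τ⁻¹) := by
      intro a
      rw [hs, map_mul, map_mul, map_inv, hs, hτ, mul_inv_cancel_right]
    have e1 : ⁅s (t ^ 2 * a), s (t ^ 2 * b)⁆ = ⁅τ * s a * τ⁻¹, τ * s b * τ⁻¹⁆ :=
      hwd _ _ _ _ (e0 a) (e0 b)
    rw [e1, stemp_comm_conj, hcz' a b τ, mul_inv_cancel_right]
  have htriv := sl2field_pairing_trivial h2 h3 h4 h5 h9 c hl hr hinv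
  rintro x y ⟨a, ha⟩ ⟨b, hb⟩
  have e1 : ⁅x, y⁆ = ⁅s a, s b⁆ := hwd _ _ _ _ (by rw [hs, ha]) (by rw [hs, hb])
  have e2 : ⁅s a, s b⁆ = 1 := by
    rw [← hc, htriv a b]
    rfl
  rw [e2] at e1
  exact commutatorElement_eq_one_iff_mul_comm.mp e1

end Cfsg.Agent.Helper35
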