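import Mathlib

set_option autoImplicit false

namespace Cfsg.Agent.Helper35

open Polynomial in
/-- A biadditive pairing on a finite field of characteristic `2` with values in an abelian group
which is invariant under `(a, b) ↦ (u a, u ^ (θ + 1) b)` for all `u ≠ 0` is trivial, provided
`2 θ + 4 < |F|`. -/
theorem szfield_pairing_trivial {F : Type*} [Field F] [Fintype F] [CharP F 2] (θ : ℕ)
    (hθ : 2 * θ + 4 < Fintype.card F) {Z : Type*} [CommGroup Z]
    (c : F → F → Z)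
    (hl : ∀ a a' b, c (a + a') b = c a b * c a' b)
    (hr : ∀ a b b', c a (b + b') = c a b * c a b')
    (hinv : ∀ u : F, u ≠ 0 → ∀ a b, c (u * a) (u ^ (θ + 1) * b) = c a b) :
    ∀ a b, c a b = 1 := by
  classical
  have h2 : (2 : F) = 0 := by
    have := CharP.cast_eq_zero F 2
    exact_mod_cast this
  have hadj : ∀ u : F, u ≠ 0 → ∀ a b, c (u * a) b = c a ((u ^ (θ + 1))⁻¹ * b) := by
    intro u hu a b
    have := hinv u hu a ((u ^ (θ + 1))⁻¹ * b)
    rw [← this]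
    congr 1
    rw [← mul_assoc, mul_inv_cancel₀ (pow_ne_zero _ hu), one_mul]
  obtain ⟨u, hu0, hu1, hδ⟩ : ∃ u : F, u ≠ 0 ∧ u + 1 ≠ 0 ∧
      (u + 1) ^ (θ + 1) + u ^ (θ + 1) * (u + 1) ^ (θ + 1) + u ^ (θ + 1) ≠ 0 := by
    by_contra hcon
    push Not at hcon
    obtain ⟨P, hP⟩ : ∃ P : F[X],
        P = (X + 1) ^ (θ + 1) + X ^ (θ + 1) * (X + 1) ^ (θ + 1) + X ^ (θ + 1) := ⟨_, rfl⟩
    have hP0 : P ≠ 0 := by
      intro h
      have h1 : P.eval 0 = 0 := by rw [h]; simp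
      rw [hP] at h1
      simp at h1
    have hdeg : P.natDegree ≤ 2 * θ + 2 := by
      rw [hP]
      compute_degree
      omega
    obtain ⟨S, hSdef⟩ : ∃ S : Finset F, S = (Finset.univ.erase 0).erase (-1) := ⟨_, rfl⟩
    have hS : S.val ⊆ P.roots := by
      intro u hu
      rw [Finset.mem_val, hSdef] at hu
      simp only [Finset.mem_erase, Finset.mem_univ, and_true] at hu
      rw [Polynomial.mem_roots hP0, Polynomial.IsRoot.def]
      have := hcon u hu.2 (by intro h; exact hu.1 (eq_neg_of_add_eq_zero_left h))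
      rw [hP]
      simpa using this
    have hcard := Polynomial.card_le_degree_of_subset_roots hS
    have hScard : S.card = Fintype.card F - 2 := by
      rw [hSdef, Finset.card_erase_of_mem, Finset.card_erase_of_mem (Finset.mem_univ _),
        Finset.card_univ]
      · rfl
      · simp
    omega
  have hN0 : u ^ (θ + 1) ≠ 0 := pow_ne_zero _ hu0
  have hN1 : (u + 1) ^ (θ + 1) ≠ 0 := pow_ne_zero _ hu1
  have key : ∀ a b, c a (((u ^ (θ + 1))⁻¹ + 1) * b) = c a (((u + 1) ^ (θ + 1))⁻¹ * b) := by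
    intro a b
    have e1 : c ((u + 1) * a) b = c a (((u + 1) ^ (θ + 1))⁻¹ * b) := hadj (u + 1) hu1 a b
    have e2 : c ((u + 1) * a) b = c a (((u ^ (θ + 1))⁻¹ + 1) * b) := by
      rw [add_mul, one_mul, hl, hadj u hu0, add_mul, one_mul, hr]
    rw [← e2, e1]
  obtain ⟨δ, hδdef⟩ : ∃ δ : F, δ = (u ^ (θ + 1))⁻¹ + 1 + ((u + 1) ^ (θ + 1))⁻¹ := ⟨_, rfl⟩
  have hδ0 : δ ≠ 0 := by
    intro h
    apply hδ
    have h1 : δ * (u ^ (θ + 1) * (u + 1) ^ (θ + 1)) = 0 := by rw [h, zero_mul]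
    rw [← h1, hδdef]
    field_simp
  intro a b
  have hb : ((u ^ (θ + 1))⁻¹ + 1) * (δ⁻¹ * b) = ((u + 1) ^ (θ + 1))⁻¹ * (δ⁻¹ * b) + b := by
    have h1 : δ * (δ⁻¹ * b) = b := by rw [← mul_assoc, mul_inv_cancel₀ hδ0, one_mul]
    rw [hδdef] at h1
    rw [← hδdef] at h1
    have h3 : ((u ^ (θ + 1))⁻¹ + 1 + ((u + 1) ^ (θ + 1))⁻¹) * (δ⁻¹ * b) = b := by
      rw [← hδdef]; exact h1
    linear_combination h3 - ((u + 1) ^ (θ + 1))⁻¹ * (δ⁻¹ * b) * h2
  have e := key a (δ⁻¹ * b)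
  rw [hb, hr] at e
  exact mul_left_cancel (a := c a (((u + 1) ^ (θ + 1))⁻¹ * (δ⁻¹ * b))) (by rw [e, mul_one])

end Cfsg.Agent.Helper35
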