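import Mathlib
import Cfsg.Prelude.Def_KGroupFacts
import Cfsg.Agent.Helper35.StemSylow
import Cfsg.Agent.Helper35.StemPairing
import Cfsg.Agent.Helper35.SzField
import Cfsg.Agent.Helper6.Suzuki8

set_option autoImplicit false

namespace Cfsg.Agent.Helper35

open Cfsg.Agent.Helper6
open scoped commutatorElement
open scoped IsMulCommutative

section
variable {F : Type*} [Field F] [Fintype F] {m : ℕ} [CharP F 2]

/-- The map `s ↦ s * σ(s)` is onto the nonzero elements of the field. -/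
theorem szstem_exists_norm (hF : Fintype.card F = 2 ^ (2 * m + 1)) (t : F) (ht : t ≠ 0) :
    ∃ s : Fˣ, (s : F) * szS F m (s : F) = t := by
  obtain ⟨f, hf⟩ : ∃ f : Fˣ →* Fˣ, ∀ s : Fˣ, ((f s : Fˣ) : F) = (s : F) * szS F m (s : F) :=
    ⟨MonoidHom.id Fˣ * Units.map ((szS F m : F →+* F) : F →* F), fun s => rfl⟩
  have hinj : Function.Injective f := by
    rw [injective_iff_map_eq_one]
    intro s hs
    have h1 : (s : F) * szS F m (s : F) = 1 := by rw [← hf, hs]; rfl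
    have h2 : szS F m (s : F) = (s : F)⁻¹ := eq_inv_of_mul_eq_one_right h1
    have h3 : szS F m (szS F m (s : F)) = (s : F) := by rw [h2, map_inv₀, h2, inv_inv]
    rw [szS_szS hF] at h3
    have h4 : (s : F) * ((s : F) - 1) = 0 := by linear_combination h3
    rcases mul_eq_zero.mp h4 with h | h
    · exact absurd h s.ne_zero
    · exact Units.ext (sub_eq_zero.mp h)
  have hsurj : Function.Surjective f := Finite.injective_iff_surjective.mp hinj
  obtain ⟨s, hs⟩ := hsurj (Units.mk0 t ht)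
  exact ⟨s, by rw [← hf, hs]; rfl⟩

/-- The kernel of a finite stem extension of the Suzuki group `Sz(q)`, `q ≥ 32`, contains no
element of order `2`. -/
theorem szstem_two_part (hm : 2 ≤ m) (hF : Fintype.card F = 2 ^ (2 * m + 1))
    {Γ : Type*} [Group Γ] [Finite Γ] (σ : Γ →* Cfsg.Sz F m) (hσ : Cfsg.IsStemExtension σ)
    (z : Γ) (hz : z ∈ σ.ker) (hz2 : orderOf z = 2) : False := by
  classical
  obtain ⟨hsurj, hcen, hder⟩ := hσ
  have h20 : (2 : F) = 0 := sz_two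
  have hq32 : 32 ≤ Fintype.card F := by
    rw [hF]
    calc 32 = 2 ^ 5 := by norm_num
      _ ≤ 2 ^ (2 * m + 1) := Nat.pow_le_pow_right (by norm_num) (by omega)
  have hkc : ∀ k ∈ σ.ker, ∀ g : Γ, g * k = k * g := fun k hk g =>
    Subgroup.mem_center_iff.mp (hcen hk) g
  -- sections
  have hsec_s : ∀ a : F, ∃ g : Γ, σ g = szT' hF a 0 := fun a => hsurj _
  have hsec_r : ∀ b : F, ∃ g : Γ, σ g = szT' hF 0 b := fun b => hsurj _
  have hsec_τ : ∀ s : Fˣ, ∃ g : Γ, σ g = szD' hF s := fun s => hsurj _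
  choose s hs using hsec_s
  choose r hr using hsec_r
  choose τ hτ using hsec_τ
  -- multiplication facts
  have hT00 : ∀ b b' : F, szT' hF 0 b * szT' hF 0 b' = szT' hF 0 (b + b') := by
    intro b b'
    rw [szT'_mul]
    congr 1 <;> simp
  have hTab : ∀ a b : F, szT' hF a 0 * szT' hF 0 b = szT' hF a b := by
    intro a b
    rw [szT'_mul]
    congr 1 <;> simp
  have hconj_s : ∀ (s₀ : Fˣ) (a : F),
      σ (s ((s₀ : F) ^ 2 * a)) = σ (τ s₀ * s a * (τ s₀)⁻¹) := by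
    intro s₀ a
    rw [hs, map_mul, map_mul, map_inv, hτ, hs, szD'_mul_szT', mul_inv_cancel_right]
    congr 1
    simp
  have hconj_r : ∀ (s₀ : Fˣ) (b : F),
      σ (r (szS F m (s₀ : F) ^ 2 * (s₀ : F) ^ 2 * b)) = σ (τ s₀ * r b * (τ s₀)⁻¹) := by
    intro s₀ b
    rw [hr, map_mul, map_mul, map_inv, hτ, hr, szD'_mul_szT', mul_inv_cancel_right]
    congr 1
    simp
  have hadd_s : ∀ a a' : F, σ (s a * s a' * r (szS F m a * a')) = σ (s (a + a')) := by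
    intro a a'
    rw [hs, map_mul, map_mul, hs, hs, hr, szT'_mul, szT'_mul]
    congr 1
    · simp
    · simp only [map_add, add_zero, zero_add, mul_zero]
      linear_combination (szS F m a * a') * h20
  have hadd_r : ∀ b b' : F, σ (r b * r b') = σ (r (b + b')) := by
    intro b b'
    rw [hr, map_mul, hr, hr, hT00]
  -- Step 1: the preimage of the centre of the Sylow 2-subgroup is abelian
  have hZZ : ∀ x y : Γ, (∃ b, σ x = szT' hF 0 b) → (∃ b, σ y = szT' hF 0 b) → x * y = y * x := by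
    refine stemp_comm_of_field_action (by omega) (by omega) (by omega) (by omega) (by omega)
      σ hcen (fun b => szT' hF 0 b) (fun a b => (hT00 a b).symm) (fun b => ⟨r b, hr b⟩) ?_
    intro t ht
    obtain ⟨s₀, hs₀⟩ := szstem_exists_norm hF t ht
    refine ⟨τ s₀, fun b => ?_⟩
    rw [hτ, szD'_mul_szT']
    congr 2
    · simp
    · rw [← hs₀]; ring
  -- Step 2: it is central in the preimage of the Sylow 2-subgroup
  have hcz1 : ∀ a b : F, ⁅s a, r b⁆ ∈ Subgroup.center Γ := by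
    intro a b
    apply hcen
    rw [MonoidHom.mem_ker, map_commutatorElement, hs, hr, szT'_comm]
    simp [szT'_zero]
  have hcz1' : ∀ (a b : F) (g : Γ), g * ⁅s a, r b⁆ = ⁅s a, r b⁆ * g := fun a b g =>
    Subgroup.mem_center_iff.mp (hcz1 a b) g
  obtain ⟨c₁, hc₁⟩ : ∃ c : F → F → Subgroup.center Γ,
      ∀ a b, ((c a b : Subgroup.center Γ) : Γ) = ⁅s a, r b⁆ :=
    ⟨fun a b => ⟨⁅s a, r b⁆, hcz1 a b⟩, fun a b => rfl⟩
  have hl₁ : ∀ a a' b, c₁ (a + a') b = c₁ a b * c₁ a' b := by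
    intro a a' b
    apply Subtype.ext
    rw [Subgroup.coe_mul, hc₁, hc₁, hc₁]
    obtain ⟨k, hk, e1⟩ := stemp_exists_ker σ _ _ (hadd_s a a')
    rw [e1, stemp_comm_drop_left _ k _ (hkc k hk (r b)).symm,
      stemp_comm_drop_left _ (r (szS F m a * a')) _ (hZZ _ _ ⟨_, hr _⟩ ⟨_, hr _⟩),
      stemp_comm_mul_left _ _ _ (hcz1' a' b (s a))]
    exact hcz1' a b _
  have hr₁ : ∀ a b b', c₁ a (b + b') = c₁ a b * c₁ a b' := by
    intro a b b'
    apply Subtype.ext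
    rw [Subgroup.coe_mul, hc₁, hc₁, hc₁]
    obtain ⟨k, hk, e1⟩ := stemp_exists_ker σ _ _ (hadd_r b b')
    rw [e1, stemp_comm_drop_right _ _ k (hkc k hk (s a)),
      stemp_comm_mul_right _ _ _ (hcz1' a b' (r b))]
  have hinv₁ : ∀ u : F, u ≠ 0 → ∀ a b, c₁ (u * a) (u ^ (2 ^ (m + 1) + 1) * b) = c₁ a b := by
    intro u hu a b
    obtain ⟨r0, hr0⟩ := FiniteField.isSquare_of_char_two (ringChar.eq F 2) u
    have hr00 : r0 ≠ 0 := by
      rintro rfl
      simp at hr0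
      exact hu hr0
    have e_s := hconj_s (Units.mk0 r0 hr00) a
    have e_r := hconj_r (Units.mk0 r0 hr00) b
    have h1 : ((Units.mk0 r0 hr00 : Fˣ) : F) ^ 2 * a = u * a := by
      rw [Units.val_mk0, hr0]; ring
    have h2 : szS F m ((Units.mk0 r0 hr00 : Fˣ) : F) ^ 2 * ((Units.mk0 r0 hr00 : Fˣ) : F) ^ 2 * b
        = u ^ (2 ^ (m + 1) + 1) * b := by
      rw [Units.val_mk0, szS_apply, hr0]; ring
    rw [h1] at e_s
    rw [h2] at e_r
    obtain ⟨k, hk, e1⟩ := stemp_exists_ker σ _ _ e_s.symm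
    obtain ⟨k', hk', e2⟩ := stemp_exists_ker σ _ _ e_r.symm
    apply Subtype.ext
    rw [hc₁, hc₁, e1, e2, stemp_comm_drop_left _ k _ (hkc k hk _).symm,
      stemp_comm_drop_right _ _ k' (hkc k' hk' _), stemp_comm_conj, hcz1' a b, mul_inv_cancel_right]
  have hθ : 2 * 2 ^ (m + 1) + 4 < Fintype.card F := by
    rw [hF]
    obtain ⟨j, rfl⟩ : ∃ j, m = j + 2 := ⟨m - 2, by omega⟩
    have e1 : 2 ^ (2 * (j + 2) + 1) = 2 ^ (j + 4) * 2 ^ (j + 1) := by rw [← pow_add]; congr 1; ring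
    have e2 : 2 * 2 ^ (j + 2 + 1) = 2 ^ (j + 4) := by rw [← pow_succ']
    have e3 : 16 ≤ 2 ^ (j + 4) := by
      calc 16 = 2 ^ 4 := by norm_num
        _ ≤ 2 ^ (j + 4) := Nat.pow_le_pow_right (by norm_num) (by omega)
    have e4 : 2 ≤ 2 ^ (j + 1) := by
      calc 2 = 2 ^ 1 := by norm_num
        _ ≤ 2 ^ (j + 1) := Nat.pow_le_pow_right (by norm_num) (by omega)
    rw [e1, e2]
    nlinarith
  have htriv₁ := szfield_pairing_trivial (2 ^ (m + 1)) hθ c₁ hl₁ hr₁ hinv₁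
  have hTZ : ∀ x y : Γ, (∃ a b, σ x = szT' hF a b) → (∃ b, σ y = szT' hF 0 b) →
      x * y = y * x := by
    rintro x y ⟨a, b, hx⟩ ⟨b', hy⟩
    obtain ⟨k, hk, rfl⟩ := stemp_exists_ker σ (s a * r b) x (by rw [map_mul, hs, hr, hTab, hx])
    obtain ⟨k', hk', rfl⟩ := stemp_exists_ker σ (r b') y (by rw [hr, hy])
    have h1 : Commute (s a) (r b') := by
      have : ⁅s a, r b'⁆ = 1 := by
        rw [← hc₁, htriv₁]; rfl
      exact commutatorElement_eq_one_iff_mul_comm.mp this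
    have h2 : Commute (r b) (r b') := hZZ _ _ ⟨_, hr _⟩ ⟨_, hr _⟩
    have h3 : Commute k (r b') := (hkc k hk (r b')).symm
    have h4 : Commute (s a * r b * k) k' := hkc k' hk' _
    exact (((h1.mul_left h2).mul_left h3).mul_right h4)
  -- Step 3: the commutator subgroup of the preimage of the Sylow 2-subgroup
  obtain ⟨M, hMdef⟩ : ∃ M : Subgroup Γ, M = (szTsub hF).comap σ := ⟨_, rfl⟩
  obtain ⟨Mz, hMzdef⟩ : ∃ Mz : Subgroup Γ, Mz = (szZsub hF).comap σ := ⟨_, rfl⟩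
  have hM : ∀ x : Γ, x ∈ M ↔ ∃ a b, σ x = szT' hF a b := by
    intro x
    rw [hMdef, Subgroup.mem_comap, mem_szTsub]
  have hMz : ∀ x : Γ, x ∈ Mz ↔ ∃ b, σ x = szT' hF 0 b := by
    intro x
    rw [hMzdef, Subgroup.mem_comap, mem_szZsub]
  have hsM : ∀ a, s a ∈ M := fun a => (hM _).mpr ⟨a, 0, hs a⟩
  have hrMz : ∀ b, r b ∈ Mz := fun b => (hMz _).mpr ⟨b, hr b⟩
  have hkMz : ∀ k ∈ σ.ker, k ∈ Mz := fun k hk =>
    (hMz _).mpr ⟨0, by rw [MonoidHom.mem_ker.mp hk, szT'_zero]⟩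
  have hMMz : ∀ x ∈ M, ∀ w ∈ Mz, x * w = w * x := fun x hx w hw =>
    hTZ x w ((hM x).mp hx) ((hMz w).mp hw)
  have hMzMz : ∀ x ∈ Mz, ∀ w ∈ Mz, x * w = w * x := fun x hx w hw =>
    hZZ x w ((hMz x).mp hx) ((hMz w).mp hw)
  have hcomMz : IsMulCommutative ↥Mz := ⟨⟨fun x y => Subtype.ext (hMzMz x x.2 y y.2)⟩⟩
  have hcm : ∀ a a' : F, ⁅s a, s a'⁆ ∈ Mz := by
    intro a a'
    rw [hMz, map_commutatorElement, hs, hs, szT'_comm]
    exact ⟨_, rfl⟩
  obtain ⟨ĉ, hĉ⟩ : ∃ c : F → F → ↥Mz, ∀ a a', ((c a a' : ↥Mz) : Γ) = ⁅s a, s a'⁆ :=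
    ⟨fun a a' => ⟨⁅s a, s a'⁆, hcm a a'⟩, fun a a' => rfl⟩
  have hĉl : ∀ a a' b, ĉ (a + a') b = ĉ a b * ĉ a' b := by
    intro a a' b
    apply Subtype.ext
    rw [Subgroup.coe_mul, hĉ, hĉ, hĉ]
    obtain ⟨k, hk, e1⟩ := stemp_exists_ker σ _ _ (hadd_s a a')
    rw [e1, stemp_comm_drop_left _ k _ (hkc k hk (s b)).symm,
      stemp_comm_drop_left _ (r (szS F m a * a')) _ (hMMz _ (hsM b) _ (hrMz _)).symm,
      stemp_comm_mul_left _ _ _ (hMMz _ (hsM a) _ (hcm a' b))]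
    exact hMzMz _ (hcm a' b) _ (hcm a b)
  have hĉr : ∀ a b b', ĉ a (b + b') = ĉ a b * ĉ a b' := by
    intro a b b'
    apply Subtype.ext
    rw [Subgroup.coe_mul, hĉ, hĉ, hĉ]
    obtain ⟨k, hk, e1⟩ := stemp_exists_ker σ _ _ (hadd_s b b')
    rw [e1, stemp_comm_drop_right _ _ k (hkc k hk (s a)),
      stemp_comm_drop_right _ _ (r (szS F m b * b')) (hMMz _ (hsM a) _ (hrMz _)),
      stemp_comm_mul_right _ _ _ (hMMz _ (hsM b) _ (hcm a b'))]
  have hĉconj : ∀ (s₀ : Fˣ) (a a' : F),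
      τ s₀ * ⁅s a, s a'⁆ * (τ s₀)⁻¹ = ⁅s ((s₀ : F) ^ 2 * a), s ((s₀ : F) ^ 2 * a')⁆ := by
    intro s₀ a a'
    obtain ⟨k, hk, e1⟩ := stemp_exists_ker σ _ _ (hconj_s s₀ a).symm
    obtain ⟨k', hk', e2⟩ := stemp_exists_ker σ _ _ (hconj_s s₀ a').symm
    rw [e1, e2, stemp_comm_drop_left _ k _ (hkc k hk _).symm,
      stemp_comm_drop_right _ _ k' (hkc k' hk' _), stemp_comm_conj]
  -- the averaged pairing
  obtain ⟨f, hf⟩ : ∃ f : F → F → ↥Mz,
      ∀ a a', f a a' = ∏ s₀ : Fˣ, ĉ ((s₀ : F) ^ 2 * a) ((s₀ : F) ^ 2 * a') := ⟨_, fun a a' => rfl⟩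
  have hfl : ∀ a a' b, f (a + a') b = f a b * f a' b := by
    intro a a' b
    rw [hf, hf, hf, ← Finset.prod_mul_distrib]
    apply Finset.prod_congr rfl
    intro s₀ _
    rw [mul_add, hĉl]
  have hfr : ∀ a b b', f a (b + b') = f a b * f a b' := by
    intro a b b'
    rw [hf, hf, hf, ← Finset.prod_mul_distrib]
    apply Finset.prod_congr rfl
    intro s₀ _
    rw [mul_add, hĉr]
  have hfinv : ∀ t : F, t ≠ 0 → ∀ a b, f (t ^ 2 * a) (t ^ 2 * b) = f a b := by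
    intro t ht a b
    rw [hf, hf]
    apply Fintype.prod_equiv (Equiv.mulRight (Units.mk0 t ht))
    intro s₀
    have e : ∀ x : F, (s₀ : F) ^ 2 * (t ^ 2 * x)
        = (((Equiv.mulRight (Units.mk0 t ht)) s₀ : Fˣ) : F) ^ 2 * x := by
      intro x
      simp only [Equiv.coe_mulRight, Units.val_mul, Units.val_mk0]
      ring
    rw [e a, e b]
  have hftriv := sl2field_pairing_trivial (by omega) (by omega) (by omega) (by omega) (by omega)
    f hfl hfr hfinv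
  -- the norm map on Mz
  have hconjMz : ∀ (s₀ : Fˣ) (x : Γ), x ∈ Mz → τ s₀ * x * (τ s₀)⁻¹ ∈ Mz := by
    intro s₀ x hx
    obtain ⟨b, hb⟩ := (hMz x).mp hx
    rw [hMz, map_mul, map_mul, map_inv, hτ, hb, szD'_mul_szT', mul_inv_cancel_right]
    exact ⟨_, by rw [mul_zero]⟩
  obtain ⟨cj, hcj⟩ : ∃ cj : Fˣ → ↥Mz → ↥Mz,
      ∀ s₀ x, ((cj s₀ x : ↥Mz) : Γ) = τ s₀ * (x : Γ) * (τ s₀)⁻¹ :=
    ⟨fun s₀ x => ⟨τ s₀ * (x : Γ) * (τ s₀)⁻¹, hconjMz s₀ x x.2⟩, fun s₀ x => rfl⟩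
  have hcj_mul : ∀ s₀ x y, cj s₀ (x * y) = cj s₀ x * cj s₀ y := by
    intro s₀ x y
    apply Subtype.ext
    rw [Subgroup.coe_mul, hcj, hcj, hcj, Subgroup.coe_mul]
    group
  have hcj_one : ∀ s₀, cj s₀ 1 = 1 := by
    intro s₀
    apply Subtype.ext
    rw [hcj]
    simp
  obtain ⟨Nm, hNm⟩ : ∃ Nm : ↥Mz → ↥Mz, ∀ x, Nm x = ∏ s₀ : Fˣ, cj s₀ x := ⟨_, fun x => rfl⟩
  have hNmmul : ∀ x y, Nm (x * y) = Nm x * Nm y := by
    intro x y
    rw [hNm, hNm, hNm, ← Finset.prod_mul_distrib]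
    apply Finset.prod_congr rfl
    intro s₀ _
    exact hcj_mul s₀ x y
  have hNmone : Nm 1 = 1 := by
    rw [hNm]
    apply Finset.prod_eq_one
    intro s₀ _
    exact hcj_one s₀
  have hNmcomm : ∀ (x y : Γ) (hx : x ∈ M) (hy : y ∈ M),
      ∃ h : ⁅x, y⁆ ∈ Mz, Nm ⟨⁅x, y⁆, h⟩ = 1 := by
    intro x y hx hy
    obtain ⟨a, b, hxa⟩ := (hM x).mp hx
    obtain ⟨a', b', hya⟩ := (hM y).mp hy
    obtain ⟨k, hk, e1⟩ := stemp_exists_ker σ (s a * r b) x (by rw [map_mul, hs, hr, hTab, hxa])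
    obtain ⟨k', hk', e2⟩ := stemp_exists_ker σ (s a' * r b') y
      (by rw [map_mul, hs, hr, hTab, hya])
    have e3 : ⁅x, y⁆ = ⁅s a, s a'⁆ := by
      have hx' : x = s a * (r b * k) := by rw [e1, mul_assoc]
      have hy' : y = s a' * (r b' * k') := by rw [e2, mul_assoc]
      have hw : r b * k ∈ Mz := Mz.mul_mem (hrMz b) (hkMz k hk)
      have hw' : r b' * k' ∈ Mz := Mz.mul_mem (hrMz b') (hkMz k' hk')
      rw [hx', stemp_comm_drop_left _ _ _ (hMMz y hy _ hw).symm, hy',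
        stemp_comm_drop_right _ _ _ (hMMz _ (hsM a) _ hw')]
    have h : ⁅x, y⁆ ∈ Mz := by rw [e3]; exact hcm a a'
    refine ⟨h, ?_⟩
    have e4 : (⟨⁅x, y⁆, h⟩ : ↥Mz) = ĉ a a' := Subtype.ext (by rw [hĉ]; exact e3)
    rw [e4, hNm]
    have e5 : ∀ s₀ : Fˣ, cj s₀ (ĉ a a') = ĉ ((s₀ : F) ^ 2 * a) ((s₀ : F) ^ 2 * a') := by
      intro s₀
      apply Subtype.ext
      rw [hcj, hĉ, hĉ, hĉconj]
    rw [Finset.prod_congr rfl (fun s₀ _ => e5 s₀), ← hf, hftriv]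
  have hNmcommutator : ∀ g ∈ ⁅M, M⁆, ∃ h : g ∈ Mz, Nm ⟨g, h⟩ = 1 := by
    intro g hg
    rw [Subgroup.commutator_def] at hg
    induction hg using Subgroup.closure_induction with
    | mem g hg =>
      obtain ⟨x, hx, y, hy, rfl⟩ := hg
      exact hNmcomm x y hx hy
    | one => exact ⟨Mz.one_mem, hNmone⟩
    | mul x y _ _ hx hy =>
      obtain ⟨h1, e1⟩ := hx
      obtain ⟨h2, e2⟩ := hy
      refine ⟨Mz.mul_mem h1 h2, ?_⟩
      have : (⟨x * y, Mz.mul_mem h1 h2⟩ : ↥Mz) = ⟨x, h1⟩ * ⟨y, h2⟩ := rfl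
      rw [this, hNmmul, e1, e2, one_mul]
    | inv x _ hx =>
      obtain ⟨h1, e1⟩ := hx
      refine ⟨Mz.inv_mem h1, ?_⟩
      have h3 : Nm (⟨x⁻¹, Mz.inv_mem h1⟩ * ⟨x, h1⟩) = 1 := by
        have : (⟨x⁻¹, Mz.inv_mem h1⟩ : ↥Mz) * ⟨x, h1⟩ = 1 := Subtype.ext (by simp)
        rw [this, hNmone]
      rw [hNmmul, e1, mul_one] at h3
      exact h3
  -- transfer
  obtain ⟨h, hmem⟩ := stem_pow_index_mem_commutator M z (hcen hz) (hder hz)
  have hmem' : z ^ M.index ∈ ⁅M, M⁆ := by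
    rw [← Subgroup.map_subtype_commutator]
    exact Subgroup.mem_map_of_mem M.subtype hmem
  obtain ⟨h', e⟩ := hNmcommutator _ hmem'
  have hzc : ∀ s₀ : Fˣ, cj s₀ ⟨z ^ M.index, h'⟩ = ⟨z ^ M.index, h'⟩ := by
    intro s₀
    apply Subtype.ext
    rw [hcj]
    have hk : z ^ M.index ∈ σ.ker := pow_mem hz _
    show τ s₀ * z ^ M.index * (τ s₀)⁻¹ = z ^ M.index
    rw [hkc _ hk (τ s₀), mul_inv_cancel_right]
  rw [hNm, Finset.prod_congr rfl (fun s₀ _ => hzc s₀), Finset.prod_const, Finset.card_univ,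
    Fintype.card_units] at e
  have e' : (z ^ M.index) ^ (Fintype.card F - 1) = 1 := by
    have := congrArg Subtype.val e
    simpa using this
  rw [← pow_mul] at e'
  have hdvd : 2 ∣ M.index * (Fintype.card F - 1) := by
    rw [← hz2]
    exact orderOf_dvd_of_pow_eq_one e'
  -- the index is odd
  have hidx : M.index = (szTsub hF).index := by
    rw [hMdef]
    exact Subgroup.index_comap_of_surjective _ hsurj
  have hcard := Subgroup.index_mul_card (szTsub hF)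
  rw [szTsub_card hF, sz_card (by omega) hF] at hcard
  have hqpos : 0 < Fintype.card F ^ 2 := by positivity
  have hidx' : (szTsub hF).index = (Fintype.card F ^ 2 + 1) * (Fintype.card F - 1) := by
    apply Nat.eq_of_mul_eq_mul_right hqpos
    rw [hcard]
    ring
  rw [hidx, hidx'] at hdvd
  have hqe : Even (Fintype.card F) := by
    rw [hF]
    exact (Nat.even_pow.mpr ⟨even_two, by omega⟩)
  have ho1 : Odd (Fintype.card F ^ 2 + 1) := Even.add_one (Nat.even_pow.mpr ⟨hqe, by norm_num⟩)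
  have ho2 : Odd (Fintype.card F - 1) := by
    obtain ⟨j, hj⟩ := hqe
    rw [hj]
    exact ⟨j - 1, by omega⟩
  have ho3 : Odd ((Fintype.card F ^ 2 + 1) * (Fintype.card F - 1) * (Fintype.card F - 1)) :=
    (ho1.mul ho2).mul ho2
  exact (Nat.not_even_iff_odd.mpr ho3) (even_iff_two_dvd.mpr hdvd)

end

end Cfsg.Agent.Helper35
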