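import Mathlib
import Cfsg.Prelude.Def_GeometricClasses
import Cfsg.Prelude.Def_Classical
import Cfsg.Agent.Helper58.TSDefs
import Cfsg.Agent.Helper43.PrimeOrdO3
import Cfsg.Agent.Helper43.UniMinus
import Cfsg.Agent.Helper43.OrthPlane
import Cfsg.Agent.Helper78.O12Iso

set_option autoImplicit false

/-!
# Sub-CALL TB (helper43) of CALL TS (helper58), piece XISO (`tb_xiso`), helper35:
a quadratic space of dimension `2 d` of the type of `Q` is isometric to `Q` (all characteristics).
-/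

namespace Cfsg.Agent.Helper35.TB

open Module Polynomial Cfsg Cfsg.Geo Cfsg.Agent.Helper58.TS
open Cfsg.Agent.Helper43 Cfsg.Agent.Helper43.OrthEven Cfsg.Agent.Helper43.CycFactors
  Cfsg.Agent.Helper43.PrimeOrdMat
open scoped MatrixGroups

universe u

section fin

variable {F : Type u} [Field F] [Fintype F]

/-- `HasTS` for the bundled form vs plus type of the whole space. -/
theorem tb_plus_top_iff {ι : Type} [Fintype ι] [DecidableEq ι] (Q : (ι → F) → F)
    (hQ : IsNondegenerateQuadraticForm Q) (d : ℕ) (hcard : Fintype.card ι = 2 * d) :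
    IsPlusTypeOn Q ⊤ ↔ HasTS (Cfsg.Agent.Helper78.isoQF Q hQ) d := by
  classical
  constructor
  · rintro ⟨U, -, hts, hdim⟩
    rw [finrank_top, Module.finrank_fintype_fun_eq_card, hcard] at hdim
    exact ⟨U, by omega, fun u hu => hts u hu⟩
  · rintro ⟨U, hU, h0⟩
    obtain ⟨f, hf⟩ := exists_linearIndependent_of_le_finrank hU
    have hf' : LinearIndependent F (fun i => ((f i : U) : ι → F)) :=
      hf.map' U.subtype (Submodule.ker_subtype U)
    refine ⟨Submodule.span F (Set.range (fun i => ((f i : U) : ι → F))), le_top, ?_, ?_⟩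
    · intro w hw
      have hwU : w ∈ U := by
        have hle : Submodule.span F (Set.range (fun i => ((f i : U) : ι → F))) ≤ U := by
          rw [Submodule.span_le]
          rintro _ ⟨i, rfl⟩
          exact (f i).2
        exact hle hw
      exact h0 w hwU
    · rw [finrank_span_eq_card hf', Fintype.card_fin, finrank_top,
        Module.finrank_fintype_fun_eq_card, hcard]

/-- XISO [M]: a quadratic space of dimension `2 d` and of the type of `Q` is isometric to `Q`. -/
theorem tb_xiso {ι : Type} [Fintype ι] [DecidableEq ι] (Q : (ι → F) → F)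
    (hQ : IsNondegenerateQuadraticForm Q) (d δ : ℕ) (hd : 1 ≤ d)
    (hcard : Fintype.card ι = 2 * d) (hδ : TypeDefect Q δ) {V' : Type u} [AddCommGroup V']
    [Module F V'] [FiniteDimensional F V'] (Q' : QuadraticForm F V') (hnd : PolarNondeg Q')
    (hdim : finrank F V' = 2 * d) (htype : HasTS Q' d ↔ δ = 0) :
    ∃ Φ : V' ≃ₗ[F] (ι → F), ∀ v, Q (Φ v) = Q' v := by
  classical
  obtain ⟨Qf, hQf⟩ : ∃ Qf : QuadraticForm F (ι → F), Qf = Cfsg.Agent.Helper78.isoQF Q hQ :=
    ⟨_, rfl⟩
  have hQfapp : ∀ v, Qf v = Q v := by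
    intro v
    rw [hQf]
    rfl
  have hndf : PolarNondeg Qf := by
    intro v hv
    by_contra hne
    obtain ⟨-, w, hw⟩ := hQ.nondegenerate v hne
    apply hw
    have h := hv w
    rw [hQf] at h
    exact h
  have hV : finrank F (ι → F) = 2 * d := by
    rw [Module.finrank_fintype_fun_eq_card, hcard]
  have hbridge := tb_plus_top_iff Q hQ d hcard
  rw [← hQf] at hbridge
  rcases hδ with ⟨hδ0, hplus⟩ | ⟨hδ1, hminus⟩
  · have hTS' : HasTS Q' d := htype.mpr hδ0
    have hTSf : HasTS Qf d := hbridge.mp hplus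
    obtain ⟨Ψ', hΨ'⟩ := Cfsg.Agent.Helper43.UniMinus.exists_plus_of_hasTS' hdim Q' hnd hTS'
    obtain ⟨Ψ, hΨ⟩ := Cfsg.Agent.Helper43.UniMinus.exists_plus_of_hasTS' hV Qf hndf hTSf
    refine ⟨Ψ'.symm.trans Ψ, ?_⟩
    intro v
    rw [LinearEquiv.trans_apply, ← hQfapp, hΨ, ← hΨ', LinearEquiv.apply_symm_apply]
  · have hTS' : ¬ HasTS Q' d := by
      intro h
      have := htype.mp h
      omega
    have hTSf : ¬ HasTS Qf d := fun h => hminus (hbridge.mpr h)
    obtain ⟨ζ, hζ, Ψ', hΨ'⟩ := exists_minus_of_not_hasTS hd hdim Q' hnd hTS'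
    obtain ⟨Ψ, hΨ⟩ := exists_minus_of_not_hasTS' hd hV Qf hndf hTSf 1 ζ (Cfsg.Agent.S2617.aniso ζ hζ)
    refine ⟨Ψ'.symm.trans Ψ, ?_⟩
    intro v
    rw [LinearEquiv.trans_apply, ← hQfapp, hΨ, ← hΨ', LinearEquiv.apply_symm_apply]

end fin

end Cfsg.Agent.Helper35.TB
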