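import Mathlib
import Cfsg.Agent.Helper43.OTDefs
import Cfsg.Agent.Helper47.HTHORTH

set_option autoImplicit false

/-!
# Sub-CALL TSOG (helper98), piece PROJ (`og_proj`), helper35.
-/

namespace Cfsg.Agent.Helper35.TSOG

open Module Polynomial Cfsg.Agent.Helper90.HT Cfsg.Agent.Helper43.OT

variable {F : Type*} [Field F] {V : Type*} [AddCommGroup V] [Module F V] [FiniteDimensional F V]

/-- on a totally singular subspace the polar form vanishes -/
theorem og_ph_zero_of_ts (Q : QuadraticForm F V) (M : Submodule F V) (hM : ∀ w ∈ M, Q w = 0)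
    (u v : V) (hu : u ∈ M) (hv : v ∈ M) : ph Q u v = 0 := by
  rw [ph_apply, QuadraticMap.polar, hM _ (M.add_mem hu hv), hM u hu, hM v hv]
  simp

/-- PROJ [M]: `V = C ⊕ D` orthogonal, `W₀ ≤ D` totally singular of half the dimension of the
nondegenerate `D`, `M ⊇ W₀` totally singular.  Then `N = M ⊓ C` is totally singular of dimension
`finrank M - finrank W₀`. -/
theorem og_proj (Q : QuadraticForm F V) (C D : Submodule F V) (hCD : IsCompl C D)
    (horth : ∀ u ∈ C, ∀ v ∈ D, ph Q u v = 0) (hD : HNondegOn (ph Q) D) (W₀ : Submodule F V)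
    (hW₀D : W₀ ≤ D) (hW₀ : ∀ w ∈ W₀, Q w = 0) (hhalf : finrank F D = 2 * finrank F W₀)
    (M : Submodule F V) (hM : ∀ w ∈ M, Q w = 0) (hWM : W₀ ≤ M) :
    ∃ N : Submodule F V, N ≤ C ∧ (∀ w ∈ N, Q w = 0) ∧
      finrank F N + finrank F W₀ = finrank F M := by
  classical
  have hh := isHerm_ph Q
  obtain ⟨P, hP, hPdim⟩ := Cfsg.Agent.Helper47.HT5953.ht_orth (RingHom.id F) (ph Q) hh D W₀ hD hW₀D
  have hWP : W₀ ≤ P := by
    intro w hw
    rw [hP]
    exact ⟨hW₀D hw, fun w' hw' => og_ph_zero_of_ts Q W₀ hW₀ w w' hw hw'⟩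
  have hPW : W₀ = P := by
    apply Submodule.eq_of_le_of_finrank_eq hWP
    omega
  -- every `m ∈ M` is `c + e` with `c ∈ M ⊓ C` and `e ∈ W₀`
  have hdec : M ≤ (M ⊓ C) ⊔ W₀ := by
    intro m hm
    have hmem : m ∈ C ⊔ D := by
      rw [hCD.sup_eq_top]
      exact Submodule.mem_top
    obtain ⟨c, hc, e, he, hce⟩ := Submodule.mem_sup.1 hmem
    have heW : e ∈ W₀ := by
      rw [hPW, hP]
      refine ⟨he, ?_⟩
      intro w hw
      have h1 : ph Q m w = 0 := og_ph_zero_of_ts Q M hM m w hm (hWM hw)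
      have h2 : ph Q c w = 0 := horth c hc w (hW₀D hw)
      rw [← hce, hh.add_left, h2, zero_add] at h1
      exact h1
    have hcM : c ∈ M := by
      have : c = m - e := by
        rw [← hce]
        abel
      rw [this]
      exact M.sub_mem hm (hWM heW)
    rw [← hce]
    exact Submodule.add_mem_sup ⟨hcM, hc⟩ heW
  have hsup : (M ⊓ C) ⊔ W₀ = M := le_antisymm (sup_le inf_le_left hWM) hdec
  have hinf : (M ⊓ C) ⊓ W₀ = ⊥ := by
    rw [eq_bot_iff]
    intro x hx
    have : x ∈ C ⊓ D := ⟨hx.1.2, hW₀D hx.2⟩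
    rw [hCD.inf_eq_bot] at this
    exact this
  refine ⟨M ⊓ C, inf_le_right, fun w hw => hM w hw.1, ?_⟩
  have h := Submodule.finrank_sup_add_finrank_inf_eq (M ⊓ C) W₀
  rw [hsup, hinf, finrank_bot] at h
  omega

end Cfsg.Agent.Helper35.TSOG
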