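import Mathlib
import Cfsg.Agent.Helper43.OTDefs
import Cfsg.Agent.Helper47.HTHORTH
import Cfsg.Agent.Helper43.QuadFin
import Cfsg.Agent.Helper35.TSOGPROJ

set_option autoImplicit false

/-!
# Sub-CALL TSOG (helper98), piece EXT (`og_ext`), helper35.
-/

namespace Cfsg.Agent.Helper35.TSOG

open Module Polynomial Cfsg.Agent.Helper90.HT Cfsg.Agent.Helper43.OT

variable {F : Type*} [Field F] {V : Type*} [AddCommGroup V] [Module F V] [FiniteDimensional F V]

/-- one step: a totally singular subspace of dimension `≤ d - 2` lies in a totally singular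
subspace of one more dimension. -/
theorem og_ext_step [Fintype F] (Q : QuadraticForm F V)
    (hnd : ∀ v, (∀ w, ph Q v w = 0) → v = 0)
    (d : ℕ) (hdim : finrank F V = 2 * d) (W₀ : Submodule F V) (hW₀ : ∀ w ∈ W₀, Q w = 0)
    (hk : finrank F W₀ + 2 ≤ d) :
    ∃ M : Submodule F V, W₀ ≤ M ∧ (∀ w ∈ M, Q w = 0) ∧ finrank F M = finrank F W₀ + 1 := by
  classical
  have hh := isHerm_ph Q
  have hDtop : HNondegOn (ph Q) (⊤ : Submodule F V) := fun v _ hv => hnd v (fun w => hv w trivial)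
  obtain ⟨P, hP, hPdim⟩ :=
    Cfsg.Agent.Helper47.HT5953.ht_orth (RingHom.id F) (ph Q) hh ⊤ W₀ hDtop le_top
  rw [finrank_top, hdim] at hPdim
  have hWP : W₀ ≤ P := by
    intro w hw
    rw [hP]
    exact ⟨trivial, fun w' hw' => og_ph_zero_of_ts Q W₀ hW₀ w w' hw hw'⟩
  -- a complement of `W₀` in `P`
  obtain ⟨U₀, hU₀⟩ := Submodule.exists_isCompl W₀
  obtain ⟨U', hU'⟩ : ∃ U' : Submodule F V, U' = U₀ ⊓ P := ⟨_, rfl⟩
  have hinf : W₀ ⊓ U' = ⊥ := by
    rw [eq_bot_iff, hU', ← hU₀.inf_eq_bot]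
    exact inf_le_inf_left _ inf_le_left
  have hsup : W₀ ⊔ U' = P := by
    rw [hU', ← sup_inf_assoc_of_le U₀ hWP, hU₀.sup_eq_top, top_inf_eq]
  have hUdim : finrank F W₀ + finrank F U' = finrank F P := by
    have h := Submodule.finrank_sup_add_finrank_inf_eq W₀ U'
    rw [hsup, hinf, finrank_bot] at h
    omega
  have h3 : 3 ≤ finrank F U' := by omega
  obtain ⟨v, hv0, hQv⟩ := Cfsg.Agent.Helper43.exists_singular (Q.comp U'.subtype) h3
  have hv0' : (v : V) ≠ 0 := fun h => hv0 (Subtype.ext h)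
  have hQv' : Q (v : V) = 0 := hQv
  have hvU : (v : V) ∈ U' := v.2
  have hvP : (v : V) ∈ P := by
    rw [← hsup]
    exact Submodule.mem_sup_right hvU
  have hvW : ∀ w ∈ W₀, ph Q w (v : V) = 0 := by
    intro w hw
    have h1 := ((hP (v : V)).1 hvP).2 w hw
    rw [hh.symm] at h1
    exact h1
  have hinf2 : W₀ ⊓ Submodule.span F {(v : V)} = ⊥ := by
    rw [eq_bot_iff]
    intro x hx
    obtain ⟨a, rfl⟩ := Submodule.mem_span_singleton.1 hx.2
    have hxU : a • (v : V) ∈ W₀ ⊓ U' := ⟨hx.1, U'.smul_mem a hvU⟩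
    rw [hinf] at hxU
    exact hxU
  refine ⟨W₀ ⊔ Submodule.span F {(v : V)}, le_sup_left, ?_, ?_⟩
  · intro x hx
    obtain ⟨w, hw, y, hy, rfl⟩ := Submodule.mem_sup.1 hx
    obtain ⟨a, rfl⟩ := Submodule.mem_span_singleton.1 hy
    have hpol : ph Q w (a • (v : V)) = 0 := by
      rw [ph_apply, QuadraticMap.polar_smul_right, ← ph_apply, hvW w hw, smul_zero]
    have hexp : Q (w + a • (v : V)) = Q w + Q (a • (v : V)) + ph Q w (a • (v : V)) := by
      rw [ph_apply, QuadraticMap.polar]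
      ring
    rw [hexp, hpol, hW₀ w hw, QuadraticMap.map_smul, hQv']
    simp
  · have h := Submodule.finrank_sup_add_finrank_inf_eq W₀ (Submodule.span F {(v : V)})
    rw [hinf2, finrank_bot, finrank_span_singleton hv0'] at h
    omega

/-- EXT [M]: in a nondegenerate quadratic space of dimension `2 d` over a finite field every
totally singular subspace of dimension `≤ d - 1` lies in a totally singular subspace of dimension
exactly `d - 1` (both types). -/
theorem og_ext [Fintype F] (Q : QuadraticForm F V) (hnd : ∀ v, (∀ w, ph Q v w = 0) → v = 0)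
    (d : ℕ) (hdim : finrank F V = 2 * d) (W₀ : Submodule F V) (hW₀ : ∀ w ∈ W₀, Q w = 0)
    (hk : finrank F W₀ + 1 ≤ d) :
    ∃ M : Submodule F V, W₀ ≤ M ∧ (∀ w ∈ M, Q w = 0) ∧ finrank F M + 1 = d := by
  classical
  have key : ∀ n : ℕ, ∀ W : Submodule F V, (∀ w ∈ W, Q w = 0) → finrank F W + 1 + n = d →
      ∃ M : Submodule F V, W ≤ M ∧ (∀ w ∈ M, Q w = 0) ∧ finrank F M + 1 = d := by
    intro n
    induction n with
    | zero =>
      intro W hW hWd
      exact ⟨W, le_refl _, hW, by omega⟩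
    | succ n ih =>
      intro W hW hWd
      obtain ⟨M', hWM', hM', hM'dim⟩ := og_ext_step Q hnd d hdim W hW (by omega)
      obtain ⟨M, hM'M, hM, hMdim⟩ := ih M' hM' (by omega)
      exact ⟨M, hWM'.trans hM'M, hM, hMdim⟩
  exact key (d - (finrank F W₀ + 1)) W₀ hW₀ (by omega)

end Cfsg.Agent.Helper35.TSOG
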