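import Mathlib

/-!
CALL S2314 (helper40), piece MOB (`mobius_top`), helper35: Moebius inversion on the Boolean
lattice, top value.  Pure Mathlib.
-/

set_option autoImplicit false

namespace Cfsg.Agent.Helper35.UCMOB

/-- the alternating sum over the interval `[L, R]` of the Boolean lattice -/
theorem mob_inner (R L : Finset ℕ) (hL : L ⊆ R) :
    ∑ K ∈ R.powerset, (if L ⊆ K then (-1 : ℂ) ^ (R.card - K.card) else 0) =
      if L = R then 1 else 0 := by
  classical
  rw [← Finset.sum_filter]
  have hbij : ∑ K ∈ R.powerset.filter (fun K => L ⊆ K), (-1 : ℂ) ^ (R.card - K.card) =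
      ∑ J ∈ (R \ L).powerset, (-1 : ℂ) ^ J.card := by
    apply Finset.sum_nbij' (fun K => R \ K) (fun J => R \ J)
    · intro K hK
      simp only [Finset.mem_filter, Finset.mem_powerset] at hK ⊢
      exact Finset.sdiff_subset_sdiff (le_refl _) hK.2
    · intro J hJ
      simp only [Finset.mem_filter, Finset.mem_powerset] at hJ ⊢
      refine ⟨Finset.sdiff_subset, ?_⟩
      intro x hx
      rw [Finset.mem_sdiff]
      refine ⟨hL hx, fun hxJ => ?_⟩
      have h1 := hJ hxJ
      rw [Finset.mem_sdiff] at h1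
      exact h1.2 hx
    · intro K hK
      simp only [Finset.mem_filter, Finset.mem_powerset] at hK
      exact Finset.sdiff_sdiff_eq_self hK.1
    · intro J hJ
      simp only [Finset.mem_powerset] at hJ
      exact Finset.sdiff_sdiff_eq_self (hJ.trans Finset.sdiff_subset)
    · intro K hK
      simp only [Finset.mem_filter, Finset.mem_powerset] at hK
      rw [Finset.card_sdiff_of_subset hK.1]
  rw [hbij]
  have hz := congrArg (Int.cast : ℤ → ℂ) (Finset.sum_powerset_neg_one_pow_card (x := R \ L))
  push_cast at hz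
  rw [hz]
  have hiff : (R \ L = ∅) ↔ L = R := by
    rw [Finset.sdiff_eq_empty_iff_subset]
    exact ⟨fun h => le_antisymm hL h, fun h => h ▸ le_refl _⟩
  simp only [hiff]

/-- MOB (pure Mathlib): Moebius inversion on the Boolean lattice, top value. -/
theorem mobius_top (r : ℕ) (a g : Finset ℕ → ℂ)
    (h : ∀ J ∈ (Finset.range r).powerset, ∑ K ∈ J.powerset, a K = g J) :
    a (Finset.range r) = ∑ K ∈ (Finset.range r).powerset, (-1 : ℂ) ^ (r - K.card) * g K := by
  classical
  obtain ⟨R, hR⟩ : ∃ R : Finset ℕ, R = Finset.range r := ⟨_, rfl⟩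
  have hRc : R.card = r := by rw [hR, Finset.card_range]
  rw [← hR] at h ⊢
  have h1 : ∀ K ∈ R.powerset, g K = ∑ L ∈ R.powerset, if L ⊆ K then a L else 0 := by
    intro K hK
    rw [← h K hK, ← Finset.sum_filter]
    apply Finset.sum_congr _ (fun _ _ => rfl)
    ext L
    simp only [Finset.mem_filter, Finset.mem_powerset]
    exact ⟨fun hL => ⟨hL.trans (Finset.mem_powerset.1 hK), hL⟩, fun hL => hL.2⟩
  have h2 : a R = ∑ L ∈ R.powerset, a L * (if L = R then 1 else 0) := by
    simp [Finset.sum_ite_eq']
  rw [h2]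
  have h3 : ∀ L ∈ R.powerset, a L * (if L = R then (1 : ℂ) else 0) =
      ∑ K ∈ R.powerset, (if L ⊆ K then (-1 : ℂ) ^ (r - K.card) * a L else 0) := by
    intro L hL
    rw [← mob_inner R L (Finset.mem_powerset.1 hL), Finset.mul_sum, hRc]
    apply Finset.sum_congr rfl
    intro K _
    split_ifs <;> ring
  rw [Finset.sum_congr rfl h3, Finset.sum_comm]
  apply Finset.sum_congr rfl
  intro K hK
  rw [h1 K hK, Finset.mul_sum]
  apply Finset.sum_congr rfl
  intro L _
  split_ifs <;> ring

end Cfsg.Agent.Helper35.UCMOB
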