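-- helper35 library: the standard unitary form in any dimension: adjoints and reducible groups.
import Cfsg.Agent.Helper97.UPrimeDim
import Cfsg.Agent.Helper96.SpAux

set_option autoImplicit false
set_option linter.unusedSectionVars false
set_option linter.unusedVariables false
open Cfsg Cfsg.Geo Matrix

namespace Cfsg.Agent.Helper35

open Cfsg.Agent.Helper97

variable {F : Type*} [Field F] {n : ℕ} {q : ℕ} {σ : F ≃+* F}

/-- The adjoint of a matrix for the standard unitary form: the conjugate transpose. -/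
def uadj (σ : F ≃+* F) (k : Matrix (Fin n) (Fin n) F) : Matrix (Fin n) (Fin n) F := (k.map σ)ᵀ

theorem un_adj_spec (h : IsSigma q σ) (k : Matrix (Fin n) (Fin n) F) (u v : Fin n → F) :
    hermForm n F q (k *ᵥ u) v = hermForm n F q u (uadj σ k *ᵥ v) := h.herm_adj k u v

theorem un_adj_adj (h : IsSigma q σ) (k : Matrix (Fin n) (Fin n) F) : uadj σ (uadj σ k) = k :=
  h.adj_adj k

theorem un_adj_spec' (h : IsSigma q σ) (k : Matrix (Fin n) (Fin n) F) (u v : Fin n → F) :
    hermForm n F q u (k *ᵥ v) = hermForm n F q (uadj σ k *ᵥ u) v := by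
  rw [un_adj_spec h, un_adj_adj h]

theorem un_adj_mul (a b : Matrix (Fin n) (Fin n) F) : uadj σ (a * b) = uadj σ b * uadj σ a :=
  IsSigma.adj_mul a b

theorem un_adj_add (a b : Matrix (Fin n) (Fin n) F) : uadj σ (a + b) = uadj σ a + uadj σ b := by
  ext i j
  simp [uadj]

theorem un_adj_sub (a b : Matrix (Fin n) (Fin n) F) : uadj σ (a - b) = uadj σ a - uadj σ b := by
  ext i j
  simp [uadj]

theorem un_adj_neg (a : Matrix (Fin n) (Fin n) F) : uadj σ (-a) = - uadj σ a := by
  ext i j
  simp [uadj]

theorem un_adj_zero : uadj σ (0 : Matrix (Fin n) (Fin n) F) = 0 := by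
  ext i j
  simp [uadj]

theorem un_adj_one : uadj σ (1 : Matrix (Fin n) (Fin n) F) = 1 := by
  ext i j
  simp only [uadj, Matrix.transpose_apply, Matrix.map_apply, Matrix.one_apply]
  by_cases hij : i = j
  · subst hij
    simp
  · rw [if_neg (fun h => hij h.symm), if_neg hij, map_zero]

theorem un_adj_smul (c : F) (a : Matrix (Fin n) (Fin n) F) : uadj σ (c • a) = σ c • uadj σ a := by
  ext i j
  simp [uadj]

theorem un_adj_smul_one (c : F) :
    uadj σ (c • (1 : Matrix (Fin n) (Fin n) F)) = σ c • (1 : Matrix (Fin n) (Fin n) F) := by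
  rw [un_adj_smul, un_adj_one]

theorem un_adj_GU (h : IsSigma q σ) {g : GL (Fin n) F} (hg : g ∈ GU n F q) :
    uadj σ (g : Matrix (Fin n) (Fin n) F) = ((g⁻¹ : GL (Fin n) F) : Matrix (Fin n) (Fin n) F) :=
  h.adj_GU g hg

theorem un_adj_conj (h : IsSigma q σ) {g : GL (Fin n) F} (hg : g ∈ GU n F q)
    (k : Matrix (Fin n) (Fin n) F) :
    uadj σ ((g : Matrix (Fin n) (Fin n) F) * k * ((g⁻¹ : GL (Fin n) F) : Matrix (Fin n) (Fin n) F))
      = (g : Matrix (Fin n) (Fin n) F) * uadj σ k * ((g⁻¹ : GL (Fin n) F) : Matrix (Fin n) (Fin n) F) := by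
  have h1 := un_adj_GU h hg
  have h2 := un_adj_GU h ((GU n F q).inv_mem hg)
  rw [inv_inv] at h2
  rw [un_adj_mul, un_adj_mul, h1, h2, mul_assoc]

theorem un_adj_pow (k : Matrix (Fin n) (Fin n) F) (m : ℕ) : uadj σ (k ^ m) = uadj σ k ^ m := by
  induction m with
  | zero => rw [pow_zero, pow_zero, un_adj_one]
  | succ m ih => rw [pow_succ, un_adj_mul, ih, pow_succ']

/-- Matrices are determined by the form. -/
theorem un_mat_eq (h : IsSigma q σ) {A B : Matrix (Fin n) (Fin n) F}
    (hAB : ∀ u v, hermForm n F q u (A *ᵥ v) = hermForm n F q u (B *ᵥ v)) : A = B := by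
  have h1 : A - B = 0 := by
    apply Helper97.eq_zero_of_mulVec_eq_zero
    intro w
    by_contra hne
    obtain ⟨⟨x, hx⟩, -⟩ := h.isUnitaryForm.nondegenerate _ hne
    apply hx
    rw [Matrix.sub_mulVec]
    have h2 := hAB x w
    have hS := h.isSesq (n := n)
    have h3 : hermForm n F q x (A *ᵥ w - B *ᵥ w) = hermForm n F q x (A *ᵥ w) - hermForm n F q x (B *ᵥ w) := by
      have e : A *ᵥ w - B *ᵥ w = A *ᵥ w + (-1 : F) • (B *ᵥ w) := by
        rw [neg_one_smul, sub_eq_add_neg]
      rw [e, hS.add_right, hS.smul_right, map_neg, map_one]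
      ring
    rw [h3, h2, sub_self]
  exact sub_eq_zero.mp h1

theorem un_herm_sub_left (h : IsSigma q σ) (u u' v : Fin n → F) :
    hermForm n F q (u - u') v = hermForm n F q u v - hermForm n F q u' v := by
  have hS := h.isSesq (n := n)
  have e : u - u' = u + (-1 : F) • u' := by rw [neg_one_smul, sub_eq_add_neg]
  rw [e, hS.add_left, hS.smul_left]
  ring

theorem un_herm_sub_right (h : IsSigma q σ) (u v v' : Fin n → F) :
    hermForm n F q u (v - v') = hermForm n F q u v - hermForm n F q u v' := by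
  have hS := h.isSesq (n := n)
  have e : v - v' = v + (-1 : F) • v' := by rw [neg_one_smul, sub_eq_add_neg]
  rw [e, hS.add_right, hS.smul_right, map_neg, map_one]
  ring

theorem un_herm_neg_left (h : IsSigma q σ) (u v : Fin n → F) :
    hermForm n F q (-u) v = - hermForm n F q u v := by
  have hS := h.isSesq (n := n)
  have e : -u = (-1 : F) • u := by rw [neg_one_smul]
  rw [e, hS.smul_left]
  ring

/-- The perpendicular of a non-degenerate subspace is non-degenerate, when they are complementary. -/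
theorem un_nondeg_perp (h : IsSigma q σ) (U : Submodule F (Fin n → F))
    (htop : U ⊔ h.perp U = ⊤) : IsNondegenerateOn (hermForm n F q) (h.perp U) := by
  have hS := h.isSesq (n := n)
  intro w hw hw0
  obtain ⟨⟨y, hy⟩, -⟩ := h.isUnitaryForm.nondegenerate w hw0
  have hytop : y ∈ U ⊔ h.perp U := by
    rw [htop]
    exact Submodule.mem_top
  obtain ⟨y₁, hy₁, y₂, hy₂, rfl⟩ := Submodule.mem_sup.mp hytop
  have h4 : hermForm n F q y₁ w = 0 := by
    rw [h.herm_symm, hw y₁ hy₁, map_zero]
  rw [hS.add_left, h4, zero_add] at hy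
  refine ⟨⟨y₂, hy₂, hy⟩, ⟨y₂, hy₂, ?_⟩⟩
  rw [h.herm_symm]
  exact (map_ne_zero σ).mpr hy

/-- A reducible subgroup of the unitary group stabilises a totally singular subspace, a non-degenerate
subspace of less than half the dimension, or a pair of orthogonal non-degenerate subspaces of half
the dimension. -/
theorem un_reducible_cases [Finite F] (h : IsSigma q σ) (H : Subgroup (GL (Fin n) F))
    (hH : H ≤ GU n F q) (hred : ¬ ActsIrreducibly (matrixSet H)) :
    (∃ W : Submodule F (Fin n → F), W ≠ ⊥ ∧ W ≠ ⊤ ∧ IsTotallySingularFor (hermForm n F q) W ∧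
      H ≤ subspaceStabilizer W) ∨
    (∃ W : Submodule F (Fin n → F), W ≠ ⊥ ∧ W ≠ ⊤ ∧ IsNondegenerateOn (hermForm n F q) W ∧
      2 * Module.finrank F W < n ∧ H ≤ subspaceStabilizer W) ∨
    (∃ (k : ℕ) (D : Fin 2 → Submodule F (Fin n → F)),
      IsNondegenerateMDecomposition (hermForm n F q) k D ∧ H ≤ decompositionStabilizer D) := by
  classical
  have hS := h.isSesq (n := n)
  have hex : ∃ W : Submodule F (Fin n → F),
      (∀ s ∈ matrixSet H, W.map (Matrix.toLin' s) ≤ W) ∧ W ≠ ⊥ ∧ W ≠ ⊤ := by
    by_contra hcon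
    apply hred
    intro W hW
    by_contra hW'
    rw [not_or] at hW'
    exact hcon ⟨W, hW, hW'.1, hW'.2⟩
  obtain ⟨W, hW, hW0, hW1⟩ := hex
  obtain ⟨U, hUW, hUmin⟩ := exists_minInv (matrixSet H) W hW0 (isInv_iff_map.mpr hW)
  have hU0 : U ≠ ⊥ := hUmin.1
  have hU1 : U ≠ ⊤ := by
    rintro rfl
    exact hW1 (top_le_iff.mp hUW)
  have hUinv : IsInv (matrixSet H) U := hUmin.2.1
  have hPinv := h.isInv_perp H hH U hUinv
  have hstab : ∀ V : Submodule F (Fin n → F), IsInv (matrixSet H) V → H ≤ subspaceStabilizer V :=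
    fun V hV => le_subspaceStabilizer H V (fun g hg v hv => hV _ (coe_mem_matrixSet hg) v hv)
  rcases hUmin.inf_eq_bot_or_le hPinv with hbot | hle
  swap
  · left
    exact ⟨U, hU0, hU1, fun u hu v hv => hle hu v hv, hstab U hUinv⟩
  right
  have hndU : IsNondegenerateOn (hermForm n F q) U := by
    intro w hw hw0
    have hex : ∃ v ∈ U, hermForm n F q w v ≠ 0 := by
      by_contra hcon
      apply hw0
      have hwp : w ∈ h.perp U := by
        rw [h.mem_perp]
        intro v hv
        by_contra hne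
        exact hcon ⟨v, hv, hne⟩
      have : w ∈ U ⊓ h.perp U := ⟨hw, hwp⟩
      rw [hbot] at this
      exact (Submodule.mem_bot F).mp this
    obtain ⟨v, hv, hwv⟩ := hex
    refine ⟨⟨v, hv, ?_⟩, ⟨v, hv, hwv⟩⟩
    rw [h.herm_symm]
    exact (map_ne_zero σ).mpr hwv
  by_cases hdim : 2 * Module.finrank F U < n
  · exact Or.inl ⟨U, hU0, hU1, hndU, hdim, hstab U hUinv⟩
  have h1 := h.finrank_perp_ge U
  have h2 := Submodule.finrank_sup_add_finrank_inf_eq U (h.perp U)
  rw [hbot, finrank_bot, add_zero] at h2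
  have h3 : Module.finrank F (U ⊔ h.perp U : Submodule F (Fin n → F)) ≤ n := by
    have := Submodule.finrank_le (U ⊔ h.perp U)
    rwa [Module.finrank_fin_fun] at this
  have hsum : Module.finrank F U + Module.finrank F (h.perp U) = n := by omega
  have htop : U ⊔ h.perp U = ⊤ := by
    apply Submodule.eq_top_of_finrank_eq
    rw [Module.finrank_fin_fun, h2, hsum]
  have hUpos : 0 < Module.finrank F U := by
    rw [Module.finrank_pos_iff]
    exact (Submodule.nontrivial_iff_ne_bot).mpr hU0
  have hUlt : Module.finrank F U < n := by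
    by_contra hge
    apply hU1
    apply Submodule.eq_top_of_finrank_eq
    rw [Module.finrank_fin_fun]
    have := Submodule.finrank_le U
    rw [Module.finrank_fin_fun] at this
    omega
  have hndP := un_nondeg_perp h U htop
  by_cases hne : 2 * Module.finrank F U = n
  · right
    obtain ⟨k, hk⟩ : ∃ k, Module.finrank F U = k := ⟨_, rfl⟩
    have hkP : Module.finrank F (h.perp U) = k := by omega
    refine ⟨k, Helper96.Sy.pairD U (h.perp U),
      ⟨Helper96.Sy.pair_decomp U (h.perp U) hbot htop k hk hkP (by omega), ?_, ?_⟩, ?_⟩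
    · intro i
      rcases Helper96.Sy.fin2_cases i with rfl | rfl
      · exact hndU
      · exact hndP
    · intro i j hij
      rcases Helper96.Sy.fin2_cases i with rfl | rfl <;> rcases Helper96.Sy.fin2_cases j with rfl | rfl
      · exact absurd rfl hij
      · intro u hu v hv
        have hv' : hermForm n F q v u = 0 := hv u hu
        rw [h.herm_symm, hv', map_zero]
      · intro u hu v hv
        exact hu v hv
      · exact absurd rfl hij
    · intro g hg
      exact Helper96.Sy.pair_stab_fix U (h.perp U) k hk hkP g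
        (fun x hx => hUinv _ (coe_mem_matrixSet hg) x hx)
        (fun x hx => hPinv _ (coe_mem_matrixSet hg) x hx)
  · left
    refine ⟨h.perp U, ?_, ?_, hndP, by omega, hstab _ hPinv⟩
    · intro hb
      rw [hb, finrank_bot] at hsum
      omega
    · intro ht
      rw [ht, finrank_top, Module.finrank_fin_fun] at hsum
      omega

end Cfsg.Agent.Helper35
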