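-- helper35 library: the structure theorem for groups of isometries of the standard unitary form,
-- keeping the data of the class-two and central-product cases.
import Cfsg.Agent.Helper35.UnCore
import Cfsg.Agent.Helper96.General

set_option autoImplicit false
set_option linter.unusedSectionVars false
set_option linter.unusedVariables false
open Cfsg Cfsg.Geo Matrix
open scoped Kronecker

namespace Cfsg.Agent.Helper35

open Cfsg.Agent.Helper97

variable {F : Type*} [Field F] {n : ℕ} {q : ℕ} {σ : F ≃+* F}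

/-- The subfield outcome: `H` lies in a subfield group whose rational structure carries the form. -/
def UnSubOut (n : ℕ) (F : Type*) [Field F] [Fintype F] (q : ℕ)
    (H : Subgroup (GL (Fin n) F)) : Prop :=
  ∃ (F₀ : Subfield F) (r : ℕ) (P : GL (Fin n) F), r.Prime ∧ Fintype.card F = Nat.card F₀ ^ r ∧
    H ≤ subfieldSubgroup F₀ P ∧
    ((IsFormRationalStructure (hermForm n F q) F₀ 1 P ∧ (Odd r ∨ (r = 2 ∧ Odd q))) ∨
     (r = 2 ∧ ∃ ζ : F, ζ ≠ 0 ∧ ζ + ζ ^ q = 0 ∧ IsFormRationalStructure (hermForm n F q) F₀ ζ P ∧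
        ∀ u : Fin n → F, (∀ i, u i ∈ F₀) →
          hermForm n F q ((P : Matrix (Fin n) (Fin n) F) *ᵥ u)
            ((P : Matrix (Fin n) (Fin n) F) *ᵥ u) = 0))

/-- A group normalising an absolutely irreducible unitary group realisable over a proper subfield
lies in a subfield group carrying the form. -/
theorem un_sub_of_realisable [Fintype F] (h : IsSigma q σ) (hF : Fintype.card F = q ^ 2)
    (hn : 2 ≤ n) (H N : Subgroup (GL (Fin n) F)) (hNGU : N ≤ GU n F q)
    (hNn : ∀ g ∈ H, ∀ x ∈ N, g * x * g⁻¹ ∈ N)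
    (habs : ActsAbsolutelyIrreducibly (matrixSet N))
    (hsub : ∃ F₀ : Subfield F, F₀ ≠ ⊤ ∧ RealisableOver F₀ (matrixSet N)) : UnSubOut n F q H := by
  obtain ⟨F₀, hF₀, B, hB⟩ := hsub
  obtain ⟨F₁, r, hle, hr, hcard⟩ := Helper97.exists_prime_index_subfield F₀ hF₀
  obtain ⟨P', hnorm, hrat⟩ := un_subfield_structure h hF hn N hNGU habs F₁ r hr hcard B
    (fun s hs i j => hle (hB s hs i j))
  exact ⟨F₁, r, P', hr, hcard, fun g hg => hnorm g (hNn g hg), hrat⟩

/-- The structures stabilised by a group of isometries of the standard unitary form, with the data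
of the class-two and central-product cases. -/
def UnOutcome2 (n : ℕ) (F : Type*) [Field F] [Fintype F] (q : ℕ) (σ : F ≃+* F)
    (H : Subgroup (GL (Fin n) F)) : Prop :=
  (∃ W : Submodule F (Fin n → F), W ≠ ⊥ ∧ W ≠ ⊤ ∧ IsTotallySingularFor (hermForm n F q) W ∧
    H ≤ subspaceStabilizer W) ∨
  (∃ W : Submodule F (Fin n → F), W ≠ ⊥ ∧ W ≠ ⊤ ∧ IsNondegenerateOn (hermForm n F q) W ∧
    2 * Module.finrank F W < n ∧ H ≤ subspaceStabilizer W) ∨
  (∃ (t k : ℕ) (D : Fin t → Submodule F (Fin n → F)),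
    IsNondegenerateMDecomposition (hermForm n F q) k D ∧ H ≤ decompositionStabilizer D) ∨
  (∃ (k : ℕ) (D : Fin 2 → Submodule F (Fin n → F)), IsMDecomposition k D ∧
    (∀ i, IsTotallySingularFor (hermForm n F q) (D i)) ∧ H ≤ decompositionStabilizer D) ∨
  (∃ (r : ℕ) (K : Subalgebra F (Matrix (Fin n) (Fin n) F)), r.Prime ∧ Odd r ∧
    IsFieldSubalgebra r K ∧ IsAdjointClosedFor (hermForm n F q) K ∧
    H ≤ subalgebraNormalizer K) ∨
  (∃ (n₁ n₂ : ℕ) (e : Fin n ≃ Fin n₁ × Fin n₂) (P : GL (Fin n) F)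
    (A : Matrix (Fin n₁) (Fin n₁) F) (S : Matrix (Fin n₂) (Fin n₂) F),
    2 ≤ n₁ ∧ n₁ ≤ n₂ ∧ Aᵀ = A.map σ ∧ Sᵀ = S.map σ ∧ A.det ≠ 0 ∧ S.det ≠ 0 ∧
    Matrix.reindexAlgEquiv F F e
      ((P : Matrix (Fin n) (Fin n) F)ᵀ * (P : Matrix (Fin n) (Fin n) F).map σ) = A ⊗ₖ S ∧
    H ≤ tensorProductSubgroup n₁ n₂ e P) ∨
  UnSubOut n F q H ∨
  InUnitaryResidualClass H ∨
  (∃ N : Subgroup (GL (Fin n) F), Helper96.C2Data H N) ∨
  (∃ (N S : Subgroup (GL (Fin n) F)) (d k : ℕ) (e : Fin n ≃ Fin d × Fin k) (Pm : GL (Fin n) F)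
    (ρ : Matrix (Fin n) (Fin n) F → Matrix (Fin d) (Fin d) F), Helper96.CPData H N S d k e Pm ρ)

/-- Every group of isometries of the standard unitary form stabilises one of the listed structures. -/
theorem un_core2 [Fintype F] (h : IsSigma q σ) (hF : Fintype.card F = q ^ 2) (hn : 2 ≤ n)
    (H : Subgroup (GL (Fin n) F)) (hH : H ≤ GU n F q) : UnOutcome2 n F q σ H := by
  classical
  have hnz : NeZero n := ⟨by omega⟩
  have hZc : ∀ z ∈ scalars (Fin n) F, ∀ g : GL (Fin n) F, z * g = g * z :=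
    fun z hz g => Helper97.scalars_comm hz g
  by_cases hirr : ActsIrreducibly (matrixSet H)
  swap
  · rcases un_reducible_cases h H hH hirr with h1 | h1 | ⟨k, D, hD, hle⟩
    · exact Or.inl h1
    · exact Or.inr (Or.inl h1)
    · exact Or.inr (Or.inr (Or.inl ⟨2, k, D, hD, hle⟩))
  have hHZ : ¬ H ≤ scalars (Fin n) F := Helper97.not_le_scalars_of_irreducible hn H hirr
  obtain ⟨N, hNH, hNn, hNZ, hNmin⟩ := Helper97.exists_minimal_normal (scalars (Fin n) F) H hHZ
  have hNGU : N ≤ GU n F q := hNH.trans hH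
  rcases un_z_analysis h hF (by omega) H N hH hirr hNH hNn with h1 | h1 | h1 | hsc
  · exact Or.inr (Or.inr (Or.inl h1))
  · exact Or.inr (Or.inr (Or.inr (Or.inl h1)))
  · exact Or.inr (Or.inr (Or.inr (Or.inr (Or.inl h1))))
  obtain ⟨d, k, e, P, ρ, hTD⟩ := Helper96.tensorData_of_zcent_scalar (by omega) H N hirr hNn hsc
  by_cases hd1 : d = 1
  · exact absurd (hTD.le_scalars_of_one hd1) hNZ
  have hd2 : 2 ≤ d := by have := hTD.hd; omega
  by_cases hk1 : k = 1
  swap
  · have hk2 : 2 ≤ k := by have := hTD.hk; omega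
    exact Or.inr (Or.inr (Or.inr (Or.inr (Or.inr (Or.inl
      (un_tensor_cases h H N hH hNH hNn hTD hd2 hk2))))))
  -- `N` is absolutely irreducible
  have habs : ActsAbsolutelyIrreducibly (matrixSet N) := hTD.absIrred_of_one hk1
  have hCN : ⁅N, N⁆ ≤ N := by
    rw [Subgroup.commutator_le]
    intro a ha b hb
    rw [commutatorElement_def]
    exact N.mul_mem (N.mul_mem (N.mul_mem ha hb) (N.inv_mem ha)) (N.inv_mem hb)
  rcases hNmin ⁅N, N⁆ hCN (Helper97.commutator_normalized H N hNn) with hC | hC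
  · -- class two modulo scalars
    have hab : ∀ a ∈ N, ∀ b ∈ N, a * b * a⁻¹ * b⁻¹ ∈ scalars (Fin n) F := by
      intro a ha b hb
      have := Subgroup.commutator_mem_commutator ha hb
      rw [commutatorElement_def] at this
      exact hC this
    obtain ⟨r, hr, hpow⟩ := Helper97.exists_prime_pow_mem (scalars (Fin n) F) H N hZc hNn hNZ hNmin hab
    obtain ⟨j, hj⟩ := Helper96.sq_eq_prime_pow_of_class_two N habs hab r hr hpow
    exact Or.inr (Or.inr (Or.inr (Or.inr (Or.inr (Or.inr (Or.inr (Or.inr (Or.inl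
      ⟨N, hNH, hNn, hNZ, hNmin, habs, hab, r, j, hr, hj, hpow⟩))))))))
  -- perfect
  have hperf : ⁅N, N⁆ = N := hC
  have hirrN : ActsIrreducibly (matrixSet N) := habs.1
  have hcentN : ∀ c : GL (Fin n) F, (∀ s ∈ N, c * s = s * c) → c ∈ scalars (Fin n) F := by
    intro c hc
    obtain ⟨a, ha⟩ := habs.2 (c : Matrix (Fin n) (Fin n) F) (by
      rintro _ ⟨s, hs, rfl⟩
      rw [← Units.val_mul, ← Units.val_mul, hc s hs])
    exact (Helper97.scalar_mem_scalars_iff c).mpr ⟨a, ha⟩
  rcases Helper96.perfect_structure (scalars (Fin n) F) H N hZc hNn hNZ hNmin hperf with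
    hsimple | ⟨S, hSN, hSn, hSZ, hSperf, hne, hcomm, hgen⟩
  swap
  · -- central product of conjugates
    have hsc' : ∀ M, Helper96.ZCent (matrixSet S) M →
        ∃ c : F, M = c • (1 : Matrix (Fin n) (Fin n) F) := by
      intro M hM
      apply habs.2
      have hyc : ∀ g ∈ H, ∀ y ∈ Helper97.cj g S,
          M * (y : Matrix (Fin n) (Fin n) F) = (y : Matrix (Fin n) (Fin n) F) * M := by
        intro g hg y hy'
        rcases hcomm g hg with h1 | h1
        · rw [h1] at hy'
          exact hM.1 _ (Helper97.coe_mem_matrixSet hy')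
        · apply hM.2
          rintro _ ⟨s', hs', rfl⟩
          rw [← Units.val_mul, ← Units.val_mul, h1 s' hs' y hy']
      have key : ∀ x ∈ Subgroup.closure {x | ∃ g ∈ H, x ∈ Helper97.cj g S},
          M * (x : Matrix (Fin n) (Fin n) F) = (x : Matrix (Fin n) (Fin n) F) * M ∧
          M * ((x⁻¹ : GL (Fin n) F) : Matrix (Fin n) (Fin n) F) =
            ((x⁻¹ : GL (Fin n) F) : Matrix (Fin n) (Fin n) F) * M := by
        intro x hx
        induction hx using Subgroup.closure_induction with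
        | mem y hy =>
          obtain ⟨g, hg, hy'⟩ := hy
          exact ⟨hyc g hg y hy', hyc g hg y⁻¹ (Subgroup.inv_mem _ hy')⟩
        | one =>
          rw [inv_one, Units.val_one, mul_one, one_mul]
          exact ⟨rfl, rfl⟩
        | mul y z _ _ hy hz =>
          rw [_root_.mul_inv_rev, Units.val_mul, Units.val_mul]
          constructor
          · rw [← mul_assoc, hy.1, mul_assoc, hz.1, ← mul_assoc]
          · rw [← mul_assoc, hz.2, mul_assoc, hy.2, ← mul_assoc]
        | inv y _ hy =>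
          rw [inv_inv]
          exact ⟨hy.2, hy.1⟩
      rintro _ ⟨x, hx, rfl⟩
      exact (key x (by rw [hgen]; exact hx)).1
    obtain ⟨d', k', e', P', ρ', hTD'⟩ :=
      Helper96.tensorData_of_zcent_scalar (by omega) N S hirrN hSn hsc'
    have hd'2 : 2 ≤ d' := by
      have h1 := hTD'.hd
      have h2 : d' ≠ 1 := fun h => hSZ (hTD'.le_scalars_of_one h)
      omega
    have hpow := Helper96.eq_pow_of_central_product H N S hTD' habs hne hcomm hgen
    exact Or.inr (Or.inr (Or.inr (Or.inr (Or.inr (Or.inr (Or.inr (Or.inr (Or.inr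
      ⟨N, S, d', k', e', P', ρ', hNH, hNn, hperf, habs, hSN, hSn, hSperf, hSZ, hne, hcomm, hgen,
        hTD', hd'2, hpow⟩))))))))
  -- simple modulo scalars
  by_cases hsub : ∃ F₀ : Subfield F, F₀ ≠ ⊤ ∧ RealisableOver F₀ (matrixSet N)
  · exact Or.inr (Or.inr (Or.inr (Or.inr (Or.inr (Or.inr (Or.inl
      (un_sub_of_realisable h hF hn H N hNGU hNn habs hsub)))))))
  have hcore : IsResidualCore H N :=
    { le := hNH
      normal := hNn
      perfect := hperf
      simple := Helper97.isSimpleGroup_quot (scalars (Fin n) F) N hNZ hsimple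
      nonabelian := Helper97.not_commutative_quot (scalars (Fin n) F) N hNZ hperf
      centralizer_scalar := fun g _ hg =>
        Helper97.mem_of_centralizes_mod (scalars (Fin n) F) N hZc hperf hcentN g hg
      absIrred := habs
      no_subfield := fun F₀ hF₀ hreal => hsub ⟨F₀, hF₀, hreal⟩ }
  have hquad : ¬ ∃ Q : (Fin n → F) → F,
      IsNondegenerateQuadraticForm Q ∧ FixesQuadForm (matrixSet N) Q := by
    rintro ⟨Q, hQ, hfix⟩
    exact hsub (h.realisable_of_fixes_quad hF N hNGU habs Q hQ hfix)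
  have hsymp : ¬ ∃ f : (Fin n → F) → (Fin n → F) → F,
      IsSymplecticForm f ∧ FixesForm (matrixSet N) f := by
    rintro ⟨f, hf, hfix⟩
    exact hsub (un_realisable_of_fixes_bilin h hF N hNGU habs f hf.bilinear
      (fun v hv => (hf.nondegenerate v hv).1) hfix)
  exact Or.inr (Or.inr (Or.inr (Or.inr (Or.inr (Or.inr (Or.inr (Or.inl
    ⟨N, hcore, hquad, hsymp⟩)))))))

end Cfsg.Agent.Helper35
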