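-- helper35 library: the class-two case for groups of isometries of the standard unitary form:
-- a subfield group carrying the form, or the normaliser of a symplectic-type group.
import Cfsg.Agent.Helper35.UnG1
import Cfsg.Agent.Helper96.SympTwo

set_option autoImplicit false
set_option linter.unusedSectionVars false
set_option linter.unusedVariables false
open Cfsg Cfsg.Geo Matrix

namespace Cfsg.Agent.Helper35

open Cfsg.Agent.Helper97

variable {F : Type*} [Field F] {n : ℕ} {q : ℕ} {σ : F ≃+* F}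

/-- The class-6 outcome for the unitary case. -/
def UnC6Out (n : ℕ) (F : Type*) [Field F] [Fintype F] (q : ℕ)
    (H : Subgroup (GL (Fin n) F)) : Prop :=
  ∃ (r : ℕ) (R : Subgroup (GL (Fin n) F)) (p e k : ℕ), IsSymplecticTypeGroup r R ∧
    ActsAbsolutelyIrreducibly (matrixSet R) ∧ R ≤ similarityGroup (hermForm n F q) ∧ r ≠ p ∧
    IsMinimalFieldFor (Nat.card (Subgroup.center R)) p e F ∧
    ((Odd r ∧ Nat.card (Subgroup.center R) = r ∧ 1 ≤ k ∧ Nat.card R = r ^ (1 + 2 * k)) ∨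
     (r = 2 ∧ e = 2 ∧ Nat.card (Subgroup.center R) = 4 ∧ Nat.card R = 2 ^ (2 + 2 * k))) ∧
    H ≤ subgroupNormalizer R

/-- A proper subfield containing a root of unity whose order divides `p ^ d - 1`. -/
theorem un_exists_proper_subfield [Fintype F] {p : ℕ} [Fact p.Prime] [CharP F p] {e : ℕ}
    (hcard : Fintype.card F = p ^ e) {k : ℕ} (ω : F) (hω : IsPrimitiveRoot ω k) {d : ℕ}
    (hd0 : 0 < d) (hde : d < e) (hdn : k ∣ p ^ d - 1) :
    ∃ F₀ : Subfield F, F₀ ≠ ⊤ ∧ ω ∈ F₀ := by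
  have hp := (Fact.out : p.Prime)
  obtain ⟨F₀, hF₀⟩ : ∃ F₀ : Subfield F,
      F₀ = RingHom.eqLocusField (iterateFrobenius F p d) (RingHom.id F) := ⟨_, rfl⟩
  have hmem : ∀ a : F, a ∈ F₀ ↔ a ^ p ^ d = a := by
    intro a
    rw [hF₀, RingHom.mem_eqLocusField, iterateFrobenius_def, RingHom.id_apply]
  have hpd : 1 ≤ p ^ d := Nat.one_le_pow _ _ hp.pos
  refine ⟨F₀, ?_, ?_⟩
  · intro htop
    obtain ⟨g, hg⟩ := IsCyclic.exists_ofOrder_eq_natCard (α := Fˣ)
    rw [Nat.card_units, Nat.card_eq_fintype_card, hcard] at hg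
    have h1 : (g : F) ∈ F₀ := by rw [htop]; exact Subfield.mem_top _
    rw [hmem] at h1
    have h2 : (g : F) ^ (p ^ d - 1) = 1 := by
      have h3 : (g : F) ^ (p ^ d - 1) * (g : F) = 1 * (g : F) := by
        rw [← pow_succ, Nat.sub_add_cancel hpd, h1, one_mul]
      exact mul_right_cancel₀ g.ne_zero h3
    have h4 : g ^ (p ^ d - 1) = 1 := by
      apply Units.ext
      rw [Units.val_pow_eq_pow_val, h2, Units.val_one]
    have h5 := orderOf_dvd_of_pow_eq_one h4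
    rw [hg] at h5
    have h6 : p ^ d < p ^ e := Nat.pow_lt_pow_right hp.one_lt hde
    have h7 : 2 ≤ p ^ d := by
      calc 2 ≤ p := hp.two_le
        _ = p ^ 1 := (pow_one p).symm
        _ ≤ p ^ d := Nat.pow_le_pow_right hp.pos hd0
    have h8 := Nat.le_of_dvd (by omega) h5
    omega
  · rw [hmem]
    have h1 : ω ^ (p ^ d - 1) = 1 := (hω.pow_eq_one_iff_dvd _).mpr hdn
    calc ω ^ p ^ d = ω ^ (p ^ d - 1 + 1) := by rw [Nat.sub_add_cancel hpd]
      _ = ω := by rw [pow_succ, h1, one_mul]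

/-- Scalar matrices are similarities of the standard unitary form. -/
theorem un_scalars_le_sim [NeZero n] (h : IsSigma q σ) :
    scalars (Fin n) F ≤ similarityGroup (hermForm n F q) := by
  intro z hz
  obtain ⟨c, hc⟩ := (Helper97.scalar_mem_scalars_iff z).mp hz
  have hc0 : c ≠ 0 := by
    rintro rfl
    rw [zero_smul] at hc
    have h1 := congrArg Matrix.det (Units.mul_inv z)
    haveI : Nonempty (Fin n) := ⟨0⟩
    rw [hc, Matrix.zero_mul, Matrix.det_zero, Matrix.det_one] at h1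
    exact zero_ne_one h1
  have hS := h.isSesq (n := n)
  refine (Helper97.mem_similarityGroup_iff _ z).mpr
    ⟨Units.mk0 (c * σ c) (mul_ne_zero hc0 ((map_ne_zero σ).mpr hc0)), ?_⟩
  intro u v
  rw [hc, Matrix.smul_mulVec, Matrix.one_mulVec, Matrix.smul_mulVec, Matrix.one_mulVec,
    hS.smul_left, hS.smul_right, Units.val_mk0]
  ring

/-- The class-two case for odd `r`: a subfield group carrying the form, or a class-6 group. -/
theorem un_c2_odd [Fintype F] {p : ℕ} [Fact p.Prime] [CharP F p] (h : IsSigma q σ)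
    (hF : Fintype.card F = q ^ 2) (hn : 2 ≤ n) {r : ℕ}
    (hr : r.Prime) (hodd : Odd r) {m : ℕ} (hm : 1 ≤ m) (hnr : n = r ^ m)
    (H N : Subgroup (GL (Fin n) F)) (hH : H ≤ GU n F q) (hNH : N ≤ H)
    (hNn : ∀ g ∈ H, ∀ x ∈ N, g * x * g⁻¹ ∈ N) (hNZ : ¬ N ≤ scalars (Fin n) F)
    (hNmin : ∀ N' : Subgroup (GL (Fin n) F), N' ≤ N → (∀ g ∈ H, ∀ x ∈ N', g * x * g⁻¹ ∈ N') →
      N' ≤ scalars (Fin n) F ∨ N' = N)
    (hab : ∀ a ∈ N, ∀ b ∈ N, a * b * a⁻¹ * b⁻¹ ∈ scalars (Fin n) F)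
    (habs : ActsAbsolutelyIrreducibly (matrixSet N))
    (hpow : ∀ x ∈ N, x ^ r ∈ scalars (Fin n) F) :
    UnSubOut n F q H ∨ UnC6Out n F q H := by
  classical
  have hnz : NeZero n := ⟨by omega⟩
  have hp := (Fact.out : p.Prime)
  have hrz : NeZero r := ⟨hr.ne_zero⟩
  have hNGU : N ≤ GU n F q := hNH.trans hH
  have hexp := Helper96.c2_exponent_odd H N hNn hNZ hNmin hab habs r hodd hpow
  obtain ⟨x, y, z, ζ, hxN, hyN, hzN, hzv, hprim, hxy⟩ := Helper96.c2_root N hNZ hab habs r hr hpow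
  obtain ⟨b, hmono⟩ := Helper96.exists_mono_basis N habs hab hr.pos hprim hexp
  obtain ⟨e', -, hcard⟩ := FiniteField.card F p
  obtain ⟨e, he⟩ : ∃ e : ℕ, e = (e' : ℕ) := ⟨_, rfl⟩
  rw [← he] at hcard
  have he0 : 0 < e := he ▸ e'.pos
  have hζ0 : ζ ≠ 0 := hprim.ne_zero hr.ne_zero
  have hζ1 : ζ ≠ 1 := hprim.ne_one hr.one_lt
  have hndvd : r ∣ p ^ e - 1 := by
    rw [← hcard, ← hprim.pow_eq_one_iff_dvd]
    exact FiniteField.pow_card_sub_one_eq_one ζ hζ0
  have hroots : ∀ c : F, c ^ r = 1 → ∃ i : ℕ, c = ζ ^ i := by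
    intro c hc
    obtain ⟨i, -, hi⟩ := hprim.eq_pow_of_pow_eq_one hc
    exact ⟨i, hi.symm⟩
  by_cases hmin : ∃ d, 0 < d ∧ d < e ∧ r ∣ p ^ d - 1
  · left
    obtain ⟨d, hd0, hde, hdn⟩ := hmin
    obtain ⟨F₀, hF₀top, hζF₀⟩ := un_exists_proper_subfield hcard ζ hprim hd0 hde hdn
    exact un_sub_of_realisable h hF hn H N hNGU hNn habs ⟨F₀, hF₀top,
      Helper96.mono_realisable N b hmono F₀ (fun c hc => by
        obtain ⟨i, rfl⟩ := hroots c hc
        exact F₀.pow_mem hζF₀ i)⟩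
  · right
    have hmin' : ∀ d, 0 < d → d < e → ¬ r ∣ p ^ d - 1 := fun d h1 h2 h3 => hmin ⟨d, h1, h2, h3⟩
    have hnp : r ≠ p := by
      intro hnp
      rw [← hnp] at hndvd
      have h1 : r ∣ r ^ e := dvd_pow_self r (by omega)
      have h2 : r ∣ r ^ e - (r ^ e - 1) := Nat.dvd_sub h1 hndvd
      have h3 : r ^ e - (r ^ e - 1) = 1 := by have := Nat.one_le_pow e r hr.pos; omega
      rw [h3] at h2
      exact hr.one_lt.ne' (Nat.dvd_one.mp h2)
    have hpowN : ∀ g : N, g ^ r = 1 := by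
      intro g
      apply Subtype.ext
      rw [Subgroup.coe_pow, hexp g g.2]
      rfl
    obtain ⟨hcc, hcN⟩ := Helper96.c2_card N hab habs r hr hexp z hzN ζ hzv hprim
    have hz1 : z ≠ 1 := by
      intro h'
      rw [h', Units.val_one] at hzv
      exact hζ1 ((Helper97.smul_one_eq_one_iff ζ).mp hzv.symm)
    refine ⟨r, N, p, e, m, ⟨hr, ?_, ?_, ?_⟩, habs, hNGU.trans Helper97.IsSigma.GU_le_similarity, hnp,
      ⟨hp, inferInstance, hcard, ?_, ?_⟩, Or.inl ⟨hodd, hcc, hm, ?_⟩,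
      Helper97.le_subgroupNormalizer H N hNn⟩
    · intro g
      exact ⟨1, by rw [pow_one]; exact hpowN g⟩
    · exact Helper96.c2_char_cyclic H N hNn hNZ hNmin habs
    · have h1 : Monoid.exponent N ∣ r := Monoid.exponent_dvd_of_forall_pow_eq_one hpowN
      have h2 : Monoid.exponent N ≠ 1 := by
        intro h'
        rw [Monoid.exp_eq_one_iff] at h'
        have h3 := Subsingleton.elim (⟨z, hzN⟩ : N) 1
        exact hz1 (congrArg Subtype.val h3)
      have h3 : Nat.gcd 2 r = 1 := Nat.coprime_two_left.mpr hodd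
      rw [h3, mul_one]
      exact ((Nat.dvd_prime hr).mp h1).resolve_left h2
    · rw [hcc]; exact hndvd
    · rw [hcc]; exact hmin'
    · rw [hcN, hnr]
      ring

/-- Primitive roots of unity of every order dividing `|F| - 1`. -/
theorem un_exists_primitive_root [Fintype F] (k : ℕ) (hk : k ∣ Fintype.card F - 1) (hk0 : 0 < k) :
    ∃ ω : F, IsPrimitiveRoot ω k := by
  obtain ⟨g, hg⟩ := IsCyclic.exists_ofOrder_eq_natCard (α := Fˣ)
  rw [Nat.card_units, Nat.card_eq_fintype_card] at hg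
  obtain ⟨c, hc⟩ := hk
  have hcard1 : 0 < Fintype.card F - 1 := by
    have := Fintype.one_lt_card (α := F)
    omega
  have hc0 : c ≠ 0 := by
    rintro rfl
    rw [mul_zero] at hc
    omega
  have h1 : orderOf (g ^ c) = k := by
    rw [orderOf_pow_of_dvd hc0 (by rw [hg, hc]; exact dvd_mul_left c k), hg, hc]
    exact Nat.mul_div_cancel k (Nat.pos_of_ne_zero hc0)
  have h2 : IsPrimitiveRoot (g ^ c) k := by
    rw [← h1]
    exact IsPrimitiveRoot.orderOf (g ^ c)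
  exact ⟨((g ^ c : Fˣ) : F), IsPrimitiveRoot.coe_units_iff.mpr h2⟩

/-- The class-two case for `r = 2`: a subfield group carrying the form, or a class-6 group. -/
theorem un_c2_two [Fintype F] {p : ℕ} [Fact p.Prime] [CharP F p] (h : IsSigma q σ)
    (hF : Fintype.card F = q ^ 2) (hn : 2 ≤ n) {m : ℕ} (hnr : n = 2 ^ m)
    (H N : Subgroup (GL (Fin n) F)) (hH : H ≤ GU n F q) (hNH : N ≤ H)
    (hNn : ∀ g ∈ H, ∀ x ∈ N, g * x * g⁻¹ ∈ N) (hNZ : ¬ N ≤ scalars (Fin n) F)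
    (hNmin : ∀ N' : Subgroup (GL (Fin n) F), N' ≤ N → (∀ g ∈ H, ∀ x ∈ N', g * x * g⁻¹ ∈ N') →
      N' ≤ scalars (Fin n) F ∨ N' = N)
    (hab : ∀ a ∈ N, ∀ b ∈ N, a * b * a⁻¹ * b⁻¹ ∈ scalars (Fin n) F)
    (habs : ActsAbsolutelyIrreducibly (matrixSet N))
    (hpow : ∀ x ∈ N, x ^ 2 ∈ scalars (Fin n) F) :
    UnSubOut n F q H ∨ UnC6Out n F q H := by
  classical
  have hnz : NeZero n := ⟨by omega⟩
  have hp := (Fact.out : p.Prime)
  have hNGU : N ≤ GU n F q := hNH.trans hH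
  have hexp := Helper96.c2_exponent_two H N hNn hNZ hNmin hab habs hpow
  obtain ⟨x, y, z, ζ, hxN, hyN, hzN, hzv, hprim2, hxy⟩ :=
    Helper96.c2_root N hNZ hab habs 2 Nat.prime_two hpow
  have hζ1 : ζ ≠ 1 := hprim2.ne_one (by norm_num)
  have hp2 : p ≠ 2 := by
    intro hp2
    apply hζ1
    have h2 : (2 : F) = 0 := by
      have := CharP.cast_eq_zero F p
      rw [hp2] at this
      exact_mod_cast this
    have h3 : ζ ^ 2 = 1 := hprim2.pow_eq_one
    have h4 : (ζ - 1) ^ 2 = 0 := by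
      have : (ζ - 1) ^ 2 = ζ ^ 2 - 2 * ζ + 1 := by ring
      rw [this, h3, h2]
      have h5 : (1 : F) + 1 = 2 := one_add_one_eq_two
      rw [zero_mul, sub_zero, h5, h2]
    exact sub_eq_zero.mp (pow_eq_zero_iff (by norm_num) |>.mp h4)
  have hpodd : p % 2 = 1 := by
    rcases hp.eq_two_or_odd with h2 | h2
    · exact absurd h2 hp2
    · exact h2
  obtain ⟨e', -, hcard⟩ := FiniteField.card F p
  obtain ⟨e, he⟩ : ∃ e : ℕ, e = (e' : ℕ) := ⟨_, rfl⟩
  rw [← he] at hcard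
  have he0 : 0 < e := he ▸ e'.pos
  obtain ⟨a, ha⟩ := un_q_eq_pow hF p
  have hea : e = 2 * a := by
    have h1 : p ^ e = p ^ (2 * a) := by rw [← hcard, hF, ha, ← pow_mul, mul_comm]
    exact Nat.pow_right_injective hp.two_le h1
  have hpsq : ∀ k : ℕ, (p ^ k) ^ 2 % 4 = 1 := by
    intro k
    have h1 : p ^ k % 2 = 1 := by
      rw [Nat.pow_mod, hpodd, one_pow]
      norm_num
    have h2 : p ^ k % 4 = 1 ∨ p ^ k % 4 = 3 := by omega
    rw [pow_two, Nat.mul_mod]
    rcases h2 with h2 | h2 <;> rw [h2]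
  have hpe4 : p ^ e % 4 = 1 := by
    rw [hea, mul_comm, pow_mul]
    exact hpsq a
  have hpe1 : 1 ≤ p ^ e := Nat.one_le_pow _ _ hp.pos
  have hndvd : 4 ∣ p ^ e - 1 := by omega
  obtain ⟨ω, hω⟩ := un_exists_primitive_root (F := F) 4 (by rw [hcard]; exact hndvd) (by norm_num)
  have hω0 : ω ≠ 0 := hω.ne_zero (by norm_num)
  have hω4 : ω ^ 4 = 1 := hω.pow_eq_one
  obtain ⟨w, hw⟩ : ∃ w : GL (Fin n) F,
      (w : Matrix (Fin n) (Fin n) F) = ω • (1 : Matrix (Fin n) (Fin n) F) :=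
    ⟨⟨ω • 1, ω⁻¹ • 1, by rw [Matrix.smul_mul, Matrix.one_mul, smul_smul, mul_inv_cancel₀ hω0, one_smul],
      by rw [Matrix.smul_mul, Matrix.one_mul, smul_smul, inv_mul_cancel₀ hω0, one_smul]⟩, rfl⟩
  have hwZ : w ∈ scalars (Fin n) F := (Helper97.scalar_mem_scalars_iff w).mpr ⟨ω, hw⟩
  have hw4 : w ^ 4 = 1 := by
    apply Units.ext
    rw [Helper97.scalar_pow_val hw, hω4, one_smul, Units.val_one]
  have hwjZ : ∀ j : ℕ, w ^ j ∈ scalars (Fin n) F := fun j => Subgroup.pow_mem _ hwZ j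
  obtain ⟨R, hR⟩ : ∃ R : Subgroup (GL (Fin n) F), ∀ g, g ∈ R ↔ ∃ x ∈ N, ∃ j : ℕ, g = x * w ^ j := by
    refine ⟨{ carrier := {g | ∃ x ∈ N, ∃ j : ℕ, g = x * w ^ j}
              one_mem' := ⟨1, N.one_mem, 0, by simp⟩
              mul_mem' := ?_
              inv_mem' := ?_ }, fun g => Iff.rfl⟩
    · rintro _ _ ⟨a, ha, j, rfl⟩ ⟨b, hb, l, rfl⟩
      refine ⟨a * b, N.mul_mem ha hb, j + l, ?_⟩
      rw [pow_add, mul_assoc a, ← mul_assoc (w ^ j) b, Helper97.scalars_comm (hwjZ j) b]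
      group
    · rintro _ ⟨a, ha, j, rfl⟩
      refine ⟨a⁻¹, N.inv_mem ha, 3 * j, ?_⟩
      have h1 : (w ^ j)⁻¹ = w ^ (3 * j) := by
        apply inv_eq_of_mul_eq_one_right
        rw [← pow_add, show j + 3 * j = 4 * j by ring, pow_mul, hw4, one_pow]
      rw [_root_.mul_inv_rev, h1, Helper97.scalars_comm (hwjZ (3 * j)) a⁻¹]
  have hNR : N ≤ R := fun g hg => (hR g).mpr ⟨g, hg, 0, by simp⟩
  have hwR : w ∈ R := (hR w).mpr ⟨1, N.one_mem, 1, by simp⟩
  have hRdec : ∀ g ∈ R, ∃ x ∈ N, ∃ c ∈ scalars (Fin n) F, g = x * c := by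
    intro g hg
    obtain ⟨a, ha, j, rfl⟩ := (hR g).mp hg
    exact ⟨a, ha, w ^ j, hwjZ j, rfl⟩
  have habsR : ActsAbsolutelyIrreducibly (matrixSet R) := by
    constructor
    · intro W hW
      exact habs.1 W (fun s hs => hW s (by
        obtain ⟨g, hg, rfl⟩ := hs
        exact ⟨g, hNR hg, rfl⟩))
    · intro M hM
      exact habs.2 M (fun s hs => hM s (by
        obtain ⟨g, hg, rfl⟩ := hs
        exact ⟨g, hNR hg, rfl⟩))
  have habR : ∀ a ∈ R, ∀ b ∈ R, a * b * a⁻¹ * b⁻¹ ∈ scalars (Fin n) F := by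
    intro a ha b hb
    obtain ⟨a', ha', j, rfl⟩ := (hR a).mp ha
    obtain ⟨b', hb', l, rfl⟩ := (hR b).mp hb
    rw [Helper96.comm_central_mul a' b' (w ^ j) (w ^ l) (fun k => Helper97.scalars_comm (hwjZ j) k)
      (fun k => Helper97.scalars_comm (hwjZ l) k)]
    exact hab a' ha' b' hb'
  have hexpR : ∀ g ∈ R, g ^ 4 = 1 := by
    intro g hg
    obtain ⟨a, ha, j, rfl⟩ := (hR g).mp hg
    have hc : Commute a (w ^ j) := (Helper97.scalars_comm (hwjZ j) a).symm
    rw [hc.mul_pow, hexp a ha, one_mul, ← pow_mul, mul_comm, pow_mul, hw4, one_pow]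
  have hRnorm : ∀ g : GL (Fin n) F, (∀ x ∈ N, g * x * g⁻¹ ∈ N) → ∀ x ∈ R, g * x * g⁻¹ ∈ R := by
    intro g hh g' hg
    obtain ⟨a, ha, j, rfl⟩ := (hR g').mp hg
    refine (hR _).mpr ⟨g * a * g⁻¹, hh a ha, j, ?_⟩
    calc g * (a * w ^ j) * g⁻¹ = g * a * (w ^ j * g⁻¹) := by group
      _ = g * a * (g⁻¹ * w ^ j) := by rw [Helper97.scalars_comm (hwjZ j) g⁻¹]
      _ = g * a * g⁻¹ * w ^ j := by group
  obtain ⟨b, hmonoR⟩ := Helper96.exists_mono_basis R habsR habR (by norm_num : 0 < 4) hω hexpR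
  have hmono : ∀ g ∈ N, ∀ i, ∃ j, ∃ c : F, c ^ 4 = 1 ∧
      (g : Matrix (Fin n) (Fin n) F) *ᵥ b i = c • b j := fun g hg => hmonoR g (hNR hg)
  have hroots : ∀ c : F, c ^ 4 = 1 → ∃ i : ℕ, c = ω ^ i := by
    intro c hc
    obtain ⟨i, -, hi⟩ := hω.eq_pow_of_pow_eq_one hc
    exact ⟨i, hi.symm⟩
  by_cases hmin : ∃ d, 0 < d ∧ d < e ∧ 4 ∣ p ^ d - 1
  · left
    obtain ⟨d, hd0, hde, hdn⟩ := hmin
    obtain ⟨F₀, hF₀top, hζF₀⟩ := un_exists_proper_subfield hcard ω hω hd0 hde hdn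
    exact un_sub_of_realisable h hF hn H N hNGU hNn habs ⟨F₀, hF₀top,
      Helper96.mono_realisable N b hmono F₀ (fun c hc => by
        obtain ⟨i, rfl⟩ := hroots c hc
        exact F₀.pow_mem hζF₀ i)⟩
  · right
    have hmin' : ∀ d, 0 < d → d < e → ¬ 4 ∣ p ^ d - 1 := fun d h1 h2 h3 => hmin ⟨d, h1, h2, h3⟩
    have he2 : e = 2 := by
      by_contra hne
      have h1 : 2 < e := by omega
      have h2 := hpsq 1
      rw [pow_one] at h2
      have h3 : 1 ≤ p ^ 2 := Nat.one_le_pow _ _ hp.pos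
      exact hmin' 2 (by norm_num) h1 (by omega)
    subst he2
    have hpowR : ∀ g : R, g ^ 4 = 1 := by
      intro g
      apply Subtype.ext
      rw [Subgroup.coe_pow, hexpR g g.2]
      rfl
    have hcenter : Subgroup.center R = Subgroup.zpowers (⟨w, hwR⟩ : R) := by
      rw [Helper96.c2_center_eq R habsR]
      exact Helper96.c2_scalars_eq_zpowers' R 4 hexpR w hwR ω hw hω
    have hw2 : w ^ 2 ≠ 1 := by
      intro h'
      have h1 := congrArg Units.val h'
      rw [Helper97.scalar_pow_val hw, Units.val_one] at h1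
      have h2 : ω ^ 2 = 1 := (Helper97.smul_one_eq_one_iff _).mp h1
      have h3 := (hω.pow_eq_one_iff_dvd 2).mp h2
      have h4 := Nat.le_of_dvd (by norm_num) h3
      omega
    have hordw : orderOf (⟨w, hwR⟩ : R) = 4 := by
      rw [Subgroup.orderOf_mk]
      have := orderOf_eq_prime_pow (p := 2) (n := 1) (x := w) (by simpa using hw2) (by simpa using hw4)
      simpa using this
    have hcc : Nat.card (Subgroup.center R) = 4 := by rw [hcenter, Nat.card_zpowers, hordw]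
    have hcS : Nat.card ((scalars (Fin n) F).subgroupOf R) = 4 := by
      rw [← Helper96.c2_center_eq R habsR, hcc]
    have hcR : Nat.card R = n * n * 4 := by
      rw [Subgroup.card_eq_card_quotient_mul_card_subgroup ((scalars (Fin n) F).subgroupOf R),
        hcS, Helper96.card_quot_of_class_two R habsR habR]
    have hRH : ∀ g ∈ H, ∀ x ∈ R, g * x * g⁻¹ ∈ R := fun g hg => hRnorm g (hNn g hg)
    have hRsim : R ≤ similarityGroup (hermForm n F q) := by
      intro g hg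
      obtain ⟨a, ha, j, rfl⟩ := (hR g).mp hg
      exact Subgroup.mul_mem _ (Helper97.IsSigma.GU_le_similarity (hNGU ha))
        (un_scalars_le_sim h (hwjZ j))
    refine ⟨2, R, p, 2, m, ⟨Nat.prime_two, ?_, ?_, ?_⟩, habsR, hRsim, fun h' => hp2 h'.symm,
      ⟨hp, inferInstance, hcard, ?_, ?_⟩, Or.inr ⟨rfl, rfl, hcc, ?_⟩,
      Helper97.le_subgroupNormalizer H R hRH⟩
    · intro g
      exact ⟨2, by rw [show (2 : ℕ) ^ 2 = 4 by norm_num]; exact hpowR g⟩
    · exact Helper96.c2_char_cyclic_sup H N R hNn hRH hNZ hNmin habs hRdec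
    · have h1 : Monoid.exponent R ∣ 4 := Monoid.exponent_dvd_of_forall_pow_eq_one hpowR
      have h2 : 4 ∣ Monoid.exponent R := by
        rw [← hordw]
        exact Monoid.order_dvd_exponent _
      have h3 : Nat.gcd 2 2 = 2 := by norm_num
      rw [h3]
      exact Nat.dvd_antisymm h1 h2
    · rw [hcc]; exact hndvd
    · rw [hcc]; exact hmin'
    · rw [hcR, hnr]
      ring

/-- The class-two case: a subfield group carrying the form, or a class-6 group. -/
theorem un_c2_cases [Fintype F] (h : IsSigma q σ) (hF : Fintype.card F = q ^ 2) (hn : 2 ≤ n)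
    (H N : Subgroup (GL (Fin n) F)) (hH : H ≤ GU n F q) (hN : Helper96.C2Data H N) :
    UnSubOut n F q H ∨ UnC6Out n F q H := by
  classical
  obtain ⟨p, hchar⟩ := CharP.exists F
  have hp : p.Prime :=
    (CharP.char_is_prime_or_zero F p).resolve_right (CharP.char_ne_zero_of_finite F p)
  have hfact : Fact p.Prime := ⟨hp⟩
  obtain ⟨r, j, hr, hj, hpow⟩ := hN.pow
  obtain ⟨m, -, hnr⟩ := (Nat.dvd_prime_pow hr).mp (Dvd.intro n hj)
  have hm : 1 ≤ m := by
    by_contra hm0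
    have : m = 0 := by omega
    rw [this, pow_zero] at hnr
    omega
  rcases hr.eq_two_or_odd' with h2 | hodd
  · subst h2
    exact un_c2_two (p := p) h hF hn hnr H N hH hN.le hN.normal hN.notScalar hN.minimal hN.comm
      hN.absIrred hpow
  · exact un_c2_odd (p := p) h hF hn hr hodd hm hnr H N hH hN.le hN.normal hN.notScalar hN.minimal
      hN.comm hN.absIrred hpow

end Cfsg.Agent.Helper35
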