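-- helper35 library: sesquilinear forms on a tensor power invariant under an absolutely irreducible
-- group acting on each factor; orthonormal bases for hermitian matrices.
import Cfsg.Agent.Helper35.UnG2
import Cfsg.Agent.Helper96.SpY2
import Cfsg.Agent.Helper42.UForm

set_option autoImplicit false
set_option linter.unusedSectionVars false
set_option linter.unusedVariables false
open Cfsg Cfsg.Geo Matrix
open scoped Kronecker

namespace Cfsg.Agent.Helper35

open Cfsg.Agent.Helper97

variable {F : Type*} [Field F] {n : ℕ} {q : ℕ} {σ : F ≃+* F}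

theorem un_facM_map {t d : ℕ} (j : Fin t) (m : Matrix (Fin d) (Fin d) F) :
    (Helper96.facM j m).map σ = Helper96.facM j (m.map σ) := by
  ext x y
  rw [Matrix.map_apply, Helper96.facM_apply, Helper96.facM_apply]
  split_ifs
  · rfl
  · exact map_zero σ

/-- The slices of a form invariant under `facM j m` (with `facM j m'` on the right). -/
theorem un_slice_inv {t d : ℕ} (j : Fin t) (m m' : Matrix (Fin d) (Fin d) F)
    (Mt : Matrix (Fin t → Fin d) (Fin t → Fin d) F)
    (hfix : (Helper96.facM j m)ᵀ * Mt * Helper96.facM j m' = Mt) (a b : Fin t → Fin d) :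
    mᵀ * (Matrix.of fun u v => Mt (Function.update a j u) (Function.update b j v)) * m' =
      Matrix.of fun u v => Mt (Function.update a j u) (Function.update b j v) := by
  classical
  ext u v
  have h1 := congrFun (congrFun hfix (Function.update a j u)) (Function.update b j v)
  have hL : (mᵀ * (Matrix.of fun u v => Mt (Function.update a j u) (Function.update b j v)) * m') u v
      = ∑ v' : Fin d, (∑ u' : Fin d, m u' u * Mt (Function.update a j u') (Function.update b j v')) *
          m' v' v := by
    rw [Matrix.mul_apply]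
    apply Finset.sum_congr rfl
    intro v' _
    rw [Matrix.mul_apply]
    rfl
  have hR : ((Helper96.facM j m)ᵀ * Mt * Helper96.facM j m') (Function.update a j u)
      (Function.update b j v)
      = ∑ v' : Fin d, (∑ u' : Fin d, m u' u * Mt (Function.update a j u') (Function.update b j v')) *
          m' v' v := by
    rw [Matrix.mul_apply, Helper96.Sy.sum_mul_facM j m'
      (fun y => ((Helper96.facM j m)ᵀ * Mt) (Function.update a j u) y) (Function.update b j v)]
    apply Finset.sum_congr rfl
    intro v' _
    rw [Function.update_self, Function.update_idem]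
    congr 1
    rw [Matrix.mul_apply]
    simp only [Matrix.transpose_apply]
    rw [Helper96.Sy.sum_facM_mul j m (fun x => Mt x (Function.update b j v')) (Function.update a j u)]
    apply Finset.sum_congr rfl
    intro u' _
    rw [Function.update_self, Function.update_idem]
  rw [hL, ← hR, h1]
  rfl

/-- A non-zero sesquilinear form on a tensor power, invariant under an absolutely irreducible set of
matrices acting on each factor, is a multiple of the tensor power of an invariant hermitian form. -/
theorem un_power_form_of_inv (h : IsSigma q σ) {d t : ℕ} (R : Set (Matrix (Fin d) (Fin d) F))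
    (habs : ActsAbsolutelyIrreducibly R)
    (hinv : ∀ x ∈ R, ∃ y ∈ R, x * y = 1 ∧ y * x = 1)
    (Mt : Matrix (Fin t → Fin d) (Fin t → Fin d) F) (hMt : Mt ≠ 0) (ht : 0 < t)
    (hfix : ∀ (j : Fin t), ∀ m ∈ R,
      (Helper96.facM j m)ᵀ * Mt * Helper96.facM j (m.map σ) = Mt) :
    ∃ (B : Matrix (Fin d) (Fin d) F) (c : F), c ≠ 0 ∧ B.det ≠ 0 ∧ Bᵀ = B.map σ ∧
      (∀ m ∈ R, mᵀ * B * m.map σ = B) ∧ Mt = c • Helper96.ptM (fun _ => B) := by
  classical
  obtain ⟨a₁, b₁, hab⟩ : ∃ a b, Mt a b ≠ 0 := by
    by_contra hcon
    push Not at hcon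
    exact hMt (by ext a b; exact hcon a b)
  obtain ⟨Sl, hSl⟩ : ∃ Sl : Fin t → (Fin t → Fin d) → (Fin t → Fin d) → Matrix (Fin d) (Fin d) F,
      ∀ j a b, Sl j a b =
        Matrix.of fun u v => Mt (Function.update a j u) (Function.update b j v) :=
    ⟨_, fun _ _ _ => rfl⟩
  have hSlfix : ∀ j a b, ∀ m ∈ R, mᵀ * Sl j a b * m.map σ = Sl j a b := by
    intro j a b m hm
    rw [hSl]
    exact un_slice_inv j m (m.map σ) Mt (hfix j m hm) a b
  obtain ⟨B, hB⟩ : ∃ B, B = Sl ⟨0, ht⟩ a₁ b₁ := ⟨_, rfl⟩
  have hB0 : B ≠ 0 := by
    intro h0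
    apply hab
    have h1 := congrFun (congrFun h0 (a₁ ⟨0, ht⟩)) (b₁ ⟨0, ht⟩)
    rw [hB, hSl] at h1
    simpa [Function.update_eq_self] using h1
  have hBfix : ∀ m ∈ R, mᵀ * B * m.map σ = B := by
    rw [hB]
    exact hSlfix _ _ _
  obtain ⟨hdet, huniq⟩ := un_inv_form_set h.inv R habs hinv B hB0 hBfix
  obtain ⟨μ, hμ0, hμ⟩ := un_inv_form_herm h R habs hinv B hB0 hBfix
  obtain ⟨u₀, v₀, hβ⟩ : ∃ u v, B u v ≠ 0 := by
    by_contra hcon
    push Not at hcon
    exact hB0 (by ext u v; exact hcon u v)
  have hex : ∀ (j : Fin t) (a b : Fin t → Fin d) (u v : Fin d),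
      Mt (Function.update a j u) (Function.update b j v) * B u₀ v₀ =
        Mt (Function.update a j u₀) (Function.update b j v₀) * B u v := by
    intro j a b u v
    obtain ⟨lam, hlam⟩ := huniq (Sl j a b) (hSlfix j a b)
    have h1 : ∀ u v, Mt (Function.update a j u) (Function.update b j v) = lam * B u v := by
      intro u v
      have := congrFun (congrFun hlam u) v
      rw [hSl] at this
      exact this
    rw [h1 u v, h1 u₀ v₀]
    ring
  have hind : ∀ (s : Finset (Fin t)) (a b : Fin t → Fin d),
      Mt a b * B u₀ v₀ ^ s.card =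
        Mt (fun i => if i ∈ s then u₀ else a i) (fun i => if i ∈ s then v₀ else b i) *
          ∏ i ∈ s, B (a i) (b i) := by
    intro s
    induction s using Finset.induction_on with
    | empty =>
      intro a b
      simp
    | insert j s hj ih =>
      intro a b
      rw [Finset.card_insert_of_notMem hj, Finset.prod_insert hj, pow_succ, ← mul_assoc, ih a b]
      have h1 := hex j (fun i => if i ∈ s then u₀ else a i) (fun i => if i ∈ s then v₀ else b i)
        (a j) (b j)
      have h2 : Function.update (fun i => if i ∈ s then u₀ else a i) j (a j) =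
          (fun i => if i ∈ s then u₀ else a i) := by
        funext i
        by_cases hi : i = j
        · subst hi
          rw [Function.update_self, if_neg hj]
        · rw [Function.update_of_ne hi]
      have h3 : Function.update (fun i => if i ∈ s then v₀ else b i) j (b j) =
          (fun i => if i ∈ s then v₀ else b i) := by
        funext i
        by_cases hi : i = j
        · subst hi
          rw [Function.update_self, if_neg hj]
        · rw [Function.update_of_ne hi]
      have h4 : Function.update (fun i => if i ∈ s then u₀ else a i) j u₀ =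
          (fun i => if i ∈ insert j s then u₀ else a i) := by
        funext i
        by_cases hi : i = j
        · subst hi
          rw [Function.update_self, if_pos (Finset.mem_insert_self _ _)]
        · rw [Function.update_of_ne hi]
          simp [Finset.mem_insert, hi]
      have h5 : Function.update (fun i => if i ∈ s then v₀ else b i) j v₀ =
          (fun i => if i ∈ insert j s then v₀ else b i) := by
        funext i
        by_cases hi : i = j
        · subst hi
          rw [Function.update_self, if_pos (Finset.mem_insert_self _ _)]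
        · rw [Function.update_of_ne hi]
          simp [Finset.mem_insert, hi]
      rw [h2, h3, h4, h5] at h1
      linear_combination (∏ i ∈ s, B (a i) (b i)) * h1
  have hfin : ∀ a b : Fin t → Fin d, Mt a b * B u₀ v₀ ^ t =
      Mt (fun _ => u₀) (fun _ => v₀) * ∏ i, B (a i) (b i) := by
    intro a b
    have h1 := hind Finset.univ a b
    simp only [Finset.mem_univ, if_true, Finset.card_univ, Fintype.card_fin] at h1
    exact h1
  have hβt : B u₀ v₀ ^ t ≠ 0 := pow_ne_zero _ hβ
  have hμt : μ ^ t ≠ 0 := pow_ne_zero _ hμ0
  refine ⟨μ • B, Mt (fun _ => u₀) (fun _ => v₀) / (B u₀ v₀ ^ t * μ ^ t), ?_, ?_, hμ, ?_, ?_⟩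
  · intro h0
    have h2 : Mt (fun _ => u₀) (fun _ => v₀) = 0 := by
      rcases div_eq_zero_iff.mp h0 with h' | h'
      · exact h'
      · exact absurd h' (mul_ne_zero hβt hμt)
    have h1 := hfin a₁ b₁
    rw [h2, zero_mul] at h1
    exact hab ((mul_eq_zero.mp h1).resolve_right hβt)
  · rw [Matrix.det_smul]
    exact mul_ne_zero (pow_ne_zero _ hμ0) hdet
  · intro m hm
    rw [Matrix.mul_smul, Matrix.smul_mul, hBfix m hm]
  · ext a b
    rw [Matrix.smul_apply, Helper96.ptM_apply, smul_eq_mul]
    simp only [Matrix.smul_apply, smul_eq_mul]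
    rw [Finset.prod_mul_distrib, Finset.prod_const, Finset.card_univ, Fintype.card_fin]
    have h1 := hfin a b
    field_simp
    linear_combination h1

/-- The tensor-power form structure attached to the matrix of the standard unitary form in
tensor-power coordinates. -/
theorem un_tensor_power_form_structure (h : IsSigma q σ) {d t : ℕ}
    (e : Fin n ≃ (Fin t → Fin d)) (P : GL (Fin n) F) (B : Matrix (Fin d) (Fin d) F) (c : F)
    (hc : c ≠ 0)
    (hG : Matrix.reindexAlgEquiv F F e
      ((P : Matrix (Fin n) (Fin n) F)ᵀ * (P : Matrix (Fin n) (Fin n) F).map σ) =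
        c • Helper96.ptM (fun _ => B)) :
    IsTensorPowerFormStructure (fun x : F => x ^ q) (hermForm n F q)
      (formOfGram (fun x : F => x ^ q) B) e P := by
  classical
  have hpow : (fun x : F => x ^ q) = σ := by
    funext x
    exact (h.pow x).symm
  rw [hpow]
  refine ⟨c, hc, fun x y => ?_⟩
  rw [un_gram_fog]
  have h1 := h.isSesq.apply_mulVec (P : Matrix (Fin n) (Fin n) F) (x ∘ e) (y ∘ e)
  rw [h1, h.gram_herm, Matrix.mul_one]
  have key : ∀ a b : Fin t → Fin d, c * ∏ i, B (a i) (b i) =
      ((P : Matrix (Fin n) (Fin n) F)ᵀ * (P : Matrix (Fin n) (Fin n) F).map σ) (e.symm a) (e.symm b) := by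
    intro a b
    have h2 := congrFun (congrFun hG a) b
    rw [Matrix.smul_apply, Helper96.ptM_apply, smul_eq_mul] at h2
    rw [← h2]
    simp [Matrix.coe_reindexAlgEquiv]
  simp only [dotProduct, Matrix.mulVec, Function.comp_apply]
  rw [Finset.mul_sum, ← Equiv.sum_comp e]
  apply Finset.sum_congr rfl
  intro i _
  rw [Finset.mul_sum, Finset.mul_sum, ← Equiv.sum_comp e]
  apply Finset.sum_congr rfl
  intro j _
  have h3 := key (e i) (e j)
  rw [Equiv.symm_apply_apply, Equiv.symm_apply_apply] at h3
  rw [← h3]
  ring

end Cfsg.Agent.Helper35
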