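-- helper35 library: orthonormal bases for hermitian matrices; the central-product case with
-- factors of degree at least three for groups of isometries of the standard unitary form.
import Cfsg.Agent.Helper35.UnG3
import Cfsg.Agent.Helper96.SpY3
import Cfsg.Agent.Helper5.UnitCard
import Cfsg.Agent.Helper3.Burnside2

set_option autoImplicit false
set_option linter.unusedSectionVars false
set_option linter.unusedVariables false
open Cfsg Cfsg.Geo Matrix
open scoped Kronecker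

namespace Cfsg.Agent.Helper35

open Cfsg.Agent.Helper97

variable {F : Type*} [Field F] {n : ℕ} {q : ℕ} {σ : F ≃+* F}

/-- A matrix satisfying the unitary matrix identity is unitary. -/
theorem un_mem_GU_of_matrix (h : IsSigma q σ) (g : GL (Fin n) F)
    (hg : (g : Matrix (Fin n) (Fin n) F)ᵀ * (g : Matrix (Fin n) (Fin n) F).map σ = 1) :
    g ∈ GU n F q := by
  refine (Helper97.IsSigma.mem_GU_iff g).mpr ?_
  intro u v
  rw [h.isSesq.apply_mulVec, h.isSesq.apply_eq, h.gram_herm, Matrix.mul_one, hg]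

theorem un_isInvol [Fintype F] (h : IsSigma q σ) (hF : Fintype.card F = q ^ 2) :
    Helper42.UForm.IsInvol (σ : F →+* F) := by
  refine ⟨fun c => h.inv c, ?_, ?_⟩
  · by_cases h2 : (2 : F) = 0
    · obtain ⟨d, hd⟩ := h.exists_ne
      refine ⟨d, fun h0 => hd ?_⟩
      have h0' : d + σ d = 0 := h0
      linear_combination h0' - d * h2
    · refine ⟨1, fun h0 => h2 ?_⟩
      have h0' : (1 : F) + σ 1 = 0 := h0
      rw [map_one] at h0'
      linear_combination h0'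
  · intro a ha
    by_cases ha0 : a = 0
    · exact ⟨0, by rw [ha0, zero_mul]⟩
    · exact h.exists_norm_eq hF a ha ha0

/-- A non-singular hermitian matrix is congruent to the identity. -/
theorem un_orthonormalise [Fintype F] (h : IsSigma q σ) (hF : Fintype.card F = q ^ 2) {m : ℕ}
    (A : Matrix (Fin m) (Fin m) F) (hA : Aᵀ = A.map σ) (hdet : A.det ≠ 0) :
    ∃ C : GL (Fin m) F,
      (C : Matrix (Fin m) (Fin m) F)ᵀ * A * (C : Matrix (Fin m) (Fin m) F).map σ = 1 := by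
  classical
  have hU := un_fog_unitary h A hA hdet
  have hpow : (fun x : F => x ^ q) = σ := by
    funext x
    exact (h.pow x).symm
  rw [hpow] at hU
  have hH : Helper42.UForm.IsHerm (σ : F →+* F) (formOfGram (σ : F → F) A) :=
    ⟨hU.add_left, hU.smul_left, fun x y => by
      rw [hU.herm y x]
      exact (h.pow _).symm⟩
  have hnd : ∀ v, (∀ w, formOfGram (σ : F → F) A v w = 0) → v = 0 := by
    intro v hv
    by_contra hv0
    obtain ⟨-, ⟨y, hy⟩⟩ := hU.nondegenerate v hv0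
    exact hy (hv y)
  obtain ⟨e, he⟩ := Helper42.UForm.exists_orthonormal (un_isInvol h hF) m (Fin m → F) _ hH hnd
    (by simp)
  obtain ⟨Cm, hCm⟩ : ∃ Cm : Matrix (Fin m) (Fin m) F, Cm = Matrix.of (fun a j => e j a) :=
    ⟨_, rfl⟩
  have hC1 : Cmᵀ * A * Cm.map σ = 1 := by
    ext i j
    rw [Matrix.one_apply, ← he i j, hCm]
    simp only [Matrix.mul_apply, Matrix.transpose_apply, Matrix.map_apply, Matrix.of_apply,
      formOfGram, Finset.sum_mul]
    rw [Finset.sum_comm]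
  have hdetC : Cm.det ≠ 0 := by
    intro h0
    have h1 := congrArg Matrix.det hC1
    rw [Matrix.det_mul, Matrix.det_mul, Matrix.det_transpose, h0, zero_mul, zero_mul,
      Matrix.det_one] at h1
    exact zero_ne_one h1
  exact ⟨Matrix.GeneralLinearGroup.mkOfDetNeZero Cm hdetC, hC1⟩

/-- The group `GU_3(2)` is solvable. -/
theorem un_GU32_solvable [Fintype F] (hF : Fintype.card F = 2 ^ 2) :
    Group.IsSolvable (GU 3 F 2) := by
  have hcard := Helper5.card_GU hF 3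
  have h1 : Nat.card (GU 3 F 2) = 2 ^ 3 * 3 ^ 4 := by
    rw [hcard]
    decide
  exact Helper3.isSolvable_of_card_eq 2 3 3 4 Nat.prime_two Nat.prime_three h1

/-- A perfect non-scalar group with a tensor factor of degree three preserving a hermitian form:
the field is not `F_4`. -/
theorem un_not_two_three [Fintype F] (h : IsSigma 2 σ) (hF : Fintype.card F = 2 ^ 2)
    {S : Subgroup (GL (Fin n) F)} {k : ℕ} {e : Fin n ≃ Fin 3 × Fin k} {P : GL (Fin n) F}
    {ρ : Matrix (Fin n) (Fin n) F → Matrix (Fin 3) (Fin 3) F}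
    (D : Helper96.TensorData S 3 k e P ρ)
    (hperf : ⁅S, S⁆ = S) (hSZ : ¬ S ≤ scalars (Fin n) F)
    (B : Matrix (Fin 3) (Fin 3) F) (hB : Bᵀ = B.map σ) (hdet : B.det ≠ 0)
    (hfix : ∀ s ∈ S, (ρ (s : Matrix (Fin n) (Fin n) F))ᵀ * B *
      (ρ (s : Matrix (Fin n) (Fin n) F)).map σ = B) : False := by
  classical
  obtain ⟨ψ, hψinj, hψ⟩ := Helper96.Sy.rhoHom_exists D
  obtain ⟨C, hC⟩ := un_orthonormalise h hF B hB hdet
  obtain ⟨Cm, hCm⟩ : ∃ Cm : Matrix (Fin 3) (Fin 3) F, Cm = (C : Matrix (Fin 3) (Fin 3) F) :=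
    ⟨_, rfl⟩
  obtain ⟨Ci, hCi⟩ : ∃ Ci : Matrix (Fin 3) (Fin 3) F,
      Ci = ((C⁻¹ : GL (Fin 3) F) : Matrix (Fin 3) (Fin 3) F) := ⟨_, rfl⟩
  rw [← hCm] at hC
  have hCCi : Cm * Ci = 1 := by rw [hCm, hCi, ← Units.val_mul, mul_inv_cancel, Units.val_one]
  have hCiC : Ci * Cm = 1 := by rw [hCm, hCi, ← Units.val_mul, inv_mul_cancel, Units.val_one]
  have hBeq : B = Ciᵀ * Ci.map σ := by
    have h1 : Ciᵀ * (Cmᵀ * B * Cm.map σ) * Ci.map σ = Ciᵀ * Ci.map σ := by
      rw [hC, Matrix.mul_one]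
    have h2 : Ciᵀ * Cmᵀ = 1 := by rw [← Matrix.transpose_mul, hCCi, Matrix.transpose_one]
    have h3 : Cm.map σ * Ci.map σ = 1 := by rw [← un_map_mul, hCCi, un_map_one]
    calc B = (Ciᵀ * Cmᵀ) * B * (Cm.map σ * Ci.map σ) := by
          rw [h2, h3, Matrix.one_mul, Matrix.mul_one]
      _ = Ciᵀ * (Cmᵀ * B * Cm.map σ) * Ci.map σ := by simp only [Matrix.mul_assoc]
      _ = Ciᵀ * Ci.map σ := h1
  obtain ⟨φ, hφ⟩ : ∃ φ : S →* GL (Fin 3) F, ∀ x : S, φ x = C⁻¹ * ψ x * C :=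
    ⟨(MulAut.conj C⁻¹).toMonoidHom.comp ψ, fun x => by
      simp [MulAut.conj_apply]⟩
  have hφinj : Function.Injective φ := by
    intro x y hxy
    apply hψinj
    rw [hφ, hφ] at hxy
    have h1 : C * (C⁻¹ * ψ x * C) * C⁻¹ = C * (C⁻¹ * ψ y * C) * C⁻¹ := by rw [hxy]
    have e1 : ∀ w : GL (Fin 3) F, C * (C⁻¹ * w * C) * C⁻¹ = w := fun w => by group
    rwa [e1, e1] at h1
  have hφGU : ∀ x : S, φ x ∈ GU 3 F 2 := by
    intro x
    apply un_mem_GU_of_matrix h
    rw [hφ, Units.val_mul, Units.val_mul, hψ, ← hCm, ← hCi]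
    have h1 := hfix x x.2
    obtain ⟨m, hm⟩ : ∃ m, m = ρ ((x : GL (Fin n) F) : Matrix (Fin n) (Fin n) F) := ⟨_, rfl⟩
    rw [← hm] at h1 ⊢
    calc (Ci * m * Cm)ᵀ * (Ci * m * Cm).map σ
        = Cmᵀ * (mᵀ * (Ciᵀ * Ci.map σ) * m.map σ) * Cm.map σ := by
          rw [Matrix.transpose_mul, Matrix.transpose_mul, un_map_mul, un_map_mul]
          simp only [Matrix.mul_assoc]
      _ = 1 := by rw [← hBeq, h1, hC]
  haveI hsolv : Group.IsSolvable (GU 3 F 2) := un_GU32_solvable hF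
  obtain ⟨φ', hφ'⟩ : ∃ φ' : S →* GU 3 F 2, ∀ x : S, ((φ' x : GU 3 F 2) : GL (Fin 3) F) = φ x :=
    ⟨φ.codRestrict (GU 3 F 2) hφGU, fun x => rfl⟩
  have hφ'inj : Function.Injective φ' := by
    intro x y hxy
    apply hφinj
    rw [← hφ', ← hφ', hxy]
  haveI : Group.IsSolvable S := solvable_of_solvable_injective hφ'inj
  have htop : _root_.commutator S = ⊤ := by
    have h1 : (_root_.commutator S).map S.subtype = ⁅S, S⁆ := Subgroup.map_subtype_commutator S
    apply Subgroup.map_injective S.subtype_injective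
    rw [h1, hperf, ← MonoidHom.range_eq_map, Subgroup.range_subtype]
  by_cases hnt : Nontrivial S
  · exact (IsSolvable.commutator_lt_top_of_nontrivial S).ne htop
  · apply hSZ
    intro x hx
    have hss : Subsingleton S := not_nontrivial_iff_subsingleton.mp hnt
    have h1 : (⟨x, hx⟩ : S) = 1 := Subsingleton.elim _ _
    have h2 : x = 1 := congrArg Subtype.val h1
    rw [h2]
    exact Subgroup.one_mem _

/-- The central-product case: the form is a tensor power of a unitary form and the group lies in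
the corresponding tensor-wreath group. -/
theorem un_cp_power [Fintype F] [NeZero n] (h : IsSigma q σ) (hF : Fintype.card F = q ^ 2)
    (H N S : Subgroup (GL (Fin n) F)) (hH : H ≤ GU n F q) {d k : ℕ}
    (e : Fin n ≃ Fin d × Fin k) (Pm : GL (Fin n) F)
    (ρ : Matrix (Fin n) (Fin n) F → Matrix (Fin d) (Fin d) F)
    (hCP : Helper96.CPData H N S d k e Pm ρ) :
    ∃ (t : ℕ) (e' : Fin n ≃ (Fin t → Fin d)) (P' : GL (Fin n) F)
      (f₁ : (Fin d → F) → (Fin d → F) → F), 2 ≤ t ∧ ¬ (q = 2 ∧ d = 3) ∧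
      IsUnitaryFormPow q f₁ ∧
      IsTensorPowerFormStructure (fun x : F => x ^ q) (hermForm n F q) f₁ e' P' ∧
      H ≤ tensorWreathSubgroup d t e' P' := by
  classical
  obtain ⟨t, e', P', ht, hle, hact⟩ := Helper96.cp_wreath_le2 H N S e Pm ρ hCP
  have hNGU : N ≤ GU n F q := hCP.le.trans hH
  obtain ⟨R, hR⟩ : ∃ R : Set (Matrix (Fin d) (Fin d) F), R = ρ '' matrixSet S := ⟨_, rfl⟩
  have habsR : ActsAbsolutelyIrreducibly R := by
    rw [hR]
    refine ⟨fun W hW => hCP.tensor.irr W (fun s hs w hw => ?_),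
      fun M hM => hCP.tensor.cent M (fun s hs => hM (ρ s) ⟨s, hs, rfl⟩)⟩
    have := hW (ρ s) ⟨s, hs, rfl⟩ ⟨w, hw, rfl⟩
    rwa [Matrix.toLin'_apply] at this
  obtain ⟨ψ, -, hψ⟩ := Helper96.Sy.rhoHom_exists hCP.tensor
  have hinvR : ∀ x ∈ R, ∃ y ∈ R, x * y = 1 ∧ y * x = 1 := by
    rw [hR]
    rintro _ ⟨_, ⟨s, hs, rfl⟩, rfl⟩
    have h1 := hψ ⟨s, hs⟩
    have h1' := hψ ⟨s⁻¹, S.inv_mem hs⟩
    have h3 : (⟨s, hs⟩ : S) * ⟨s⁻¹, S.inv_mem hs⟩ = 1 := by
      apply Subtype.ext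
      exact mul_inv_cancel s
    have h4 : (⟨s⁻¹, S.inv_mem hs⟩ : S) * ⟨s, hs⟩ = 1 := by
      apply Subtype.ext
      exact inv_mul_cancel s
    refine ⟨ρ ((s⁻¹ : GL (Fin n) F) : Matrix (Fin n) (Fin n) F),
      ⟨_, ⟨s⁻¹, S.inv_mem hs, rfl⟩, rfl⟩, ?_, ?_⟩
    · rw [← h1, ← h1', ← Units.val_mul, ← map_mul, h3, map_one, Units.val_one]
    · rw [← h1, ← h1', ← Units.val_mul, ← map_mul, h4, map_one, Units.val_one]
  obtain ⟨G, hG⟩ : ∃ G : Matrix (Fin n) (Fin n) F,
      G = (P' : Matrix (Fin n) (Fin n) F)ᵀ * (P' : Matrix (Fin n) (Fin n) F).map σ := ⟨_, rfl⟩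
  obtain ⟨Mt, hMt⟩ : ∃ Mt : Matrix (Fin t → Fin d) (Fin t → Fin d) F,
      Mt = Matrix.reindexAlgEquiv F F e' G := ⟨_, rfl⟩
  have hPdet : (P' : Matrix (Fin n) (Fin n) F).det ≠ 0 := (Matrix.GeneralLinearGroup.det P').ne_zero
  have hGdet : G.det ≠ 0 := by
    rw [hG, Matrix.det_mul, Matrix.det_transpose, un_det_map]
    exact mul_ne_zero hPdet ((map_ne_zero σ).mpr hPdet)
  have hMt0 : Mt ≠ 0 := by
    intro h0
    apply hGdet
    have h1 : G = 0 := by
      have h2 : Matrix.reindexAlgEquiv F F e'.symm Mt = G := by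
        rw [hMt]
        exact un_reindex_reindex e' G
      rw [← h2, h0, map_zero]
    rw [h1]
    haveI : Nonempty (Fin n) := ⟨0⟩
    exact Matrix.det_zero
  have hfix : ∀ (j : Fin t), ∀ m ∈ R,
      (Helper96.facM j m)ᵀ * Mt * Helper96.facM j (m.map σ) = Mt := by
    rw [hR]
    rintro j _ ⟨_, ⟨s, hs, rfl⟩, rfl⟩
    obtain ⟨x, hx, hxval⟩ := hact j s hs
    have h1 := h.GU_matrix x (hNGU hx)
    rw [hxval] at h1
    have h3 := un_conj_fix e' P' _ h1
    rw [un_facM_map, ← hG, ← hMt] at h3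
    exact h3
  obtain ⟨B, c, hc, hdet, hherm, hBfix, hMtB⟩ :=
    un_power_form_of_inv h R habsR hinvR Mt hMt0 (by omega) hfix
  refine ⟨t, e', P', formOfGram (fun x : F => x ^ q) B, ht, ?_, un_fog_unitary h B hherm hdet,
    un_tensor_power_form_structure h e' P' B c hc (by rw [← hG, ← hMt, hMtB]), hle⟩
  rintro ⟨rfl, rfl⟩
  exact un_not_two_three h hF hCP.tensor hCP.subPerfect hCP.notScalar B hherm hdet
    (fun s hs => hBfix _ (by rw [hR]; exact ⟨_, ⟨s, hs, rfl⟩, rfl⟩))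

end Cfsg.Agent.Helper35
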