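-- helper35 library: unitary groups normalising an absolutely irreducible group with an invariant
-- bilinear form lie in subfield groups; the central-product case with factors of degree two.
import Cfsg.Agent.Helper35.UnG4
import Cfsg.Agent.Helper96.GeneralCases

set_option autoImplicit false
set_option linter.unusedSectionVars false
set_option linter.unusedVariables false
open Cfsg Cfsg.Geo Matrix
open scoped Kronecker

namespace Cfsg.Agent.Helper35

open Cfsg.Agent.Helper97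

variable {F : Type*} [Field F] {n : ℕ} {q : ℕ} {σ : F ≃+* F}

/-- A unitary group normalising an absolutely irreducible subgroup with a non-zero invariant
bilinear form lies in a subfield group carrying the form. -/
theorem un_form_sub [Fintype F] (h : IsSigma q σ) (hF : Fintype.card F = q ^ 2) (hn : 2 ≤ n)
    (H N : Subgroup (GL (Fin n) F)) (hNGU : N ≤ GU n F q)
    (hNn : ∀ g ∈ H, ∀ x ∈ N, g * x * g⁻¹ ∈ N)
    (habs : ActsAbsolutelyIrreducibly (matrixSet N))
    (M : Matrix (Fin n) (Fin n) F) (hM : M ≠ 0)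
    (hfix : ∀ g ∈ N, (g : Matrix (Fin n) (Fin n) F)ᵀ * M * (g : Matrix (Fin n) (Fin n) F) = M) :
    UnSubOut n F q H := by
  classical
  have hnz : NeZero n := ⟨by omega⟩
  obtain ⟨hrad, -⟩ := Helper96.invariant_form_struct N habs M hM hfix
  have hnd : ∀ v : Fin n → F, v ≠ 0 → ∃ x, Helper96.bf M x v ≠ 0 := by
    intro v hv
    obtain ⟨i, hi⟩ : ∃ i, (M *ᵥ v) i ≠ 0 := by
      by_contra hcon
      push Not at hcon
      exact hrad v hv (funext hcon)
    exact ⟨Pi.single i 1, by rw [Helper96.bf_single_left]; exact hi⟩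
  have hfixβ : FixesForm (matrixSet N) (Helper96.bf M) := by
    rintro _ ⟨g, hg, rfl⟩ u v
    exact Helper96.bf_fix M _ (hfix g hg) u v
  exact un_sub_of_realisable h hF hn H N hNGU hNn habs
    (un_realisable_of_fixes_bilin h hF N hNGU habs (Helper96.bf M) (Helper96.bf_bilinear M) hnd hfixβ)

/-- The central-product case with factors of degree two: a subfield group carrying the form. -/
theorem un_cp_two [Fintype F] (h : IsSigma q σ) (hF : Fintype.card F = q ^ 2) (hn : 2 ≤ n)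
    (H N S : Subgroup (GL (Fin n) F)) (hH : H ≤ GU n F q) {k : ℕ}
    (e : Fin n ≃ Fin 2 × Fin k) (Pm : GL (Fin n) F)
    (ρ : Matrix (Fin n) (Fin n) F → Matrix (Fin 2) (Fin 2) F)
    (hCP : Helper96.CPData H N S 2 k e Pm ρ) : UnSubOut n F q H := by
  classical
  obtain ⟨𝒮, h𝒮⟩ : ∃ 𝒮 : Set (Subgroup (GL (Fin n) F)), 𝒮 = {T | ∃ g ∈ H, T = Helper97.cj g S} :=
    ⟨_, rfl⟩
  have hgen : N = Subgroup.closure {x | ∃ T ∈ 𝒮, x ∈ T} := by
    rw [← hCP.gen]
    congr 1
    ext x
    constructor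
    · rintro ⟨g, hg, hx⟩
      exact ⟨Helper97.cj g S, by rw [h𝒮]; exact ⟨g, hg, rfl⟩, hx⟩
    · rintro ⟨T, hT, hx⟩
      rw [h𝒮] at hT
      obtain ⟨g, hg, rfl⟩ := hT
      exact ⟨g, hg, hx⟩
  have hperf : ∀ T ∈ 𝒮, ⁅T, T⁆ = T := by
    intro T hT
    rw [h𝒮] at hT
    obtain ⟨g, hg, rfl⟩ := hT
    unfold Helper97.cj
    rw [← Subgroup.map_commutator, hCP.subPerfect]
  have hcomm : ∀ T ∈ 𝒮, ∀ T' ∈ 𝒮, T = T' ∨ ∀ s ∈ T, ∀ t ∈ T', s * t = t * s := by
    intro T hT T' hT'
    rw [h𝒮] at hT hT'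
    obtain ⟨g, hg, rfl⟩ := hT
    obtain ⟨g', hg', rfl⟩ := hT'
    by_cases heq : Helper97.cj g S = Helper97.cj g' S
    · exact Or.inl heq
    · exact Or.inr (fun s hs t ht => Helper96.cj_comm_of_ne H S hCP.comm g g' hg hg' heq s hs t ht)
  have hdim : ∀ T ∈ 𝒮, Module.finrank F (Algebra.adjoin F (matrixSet T)) = 4 := by
    intro T hT
    rw [h𝒮] at hT
    obtain ⟨g, hg, rfl⟩ := hT
    exact (hCP.tensor.conj g).finrank_adjoin
  have hne : 𝒮.Nonempty := ⟨Helper97.cj 1 S, by rw [h𝒮]; exact ⟨1, H.one_mem, rfl⟩⟩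
  obtain ⟨M, hM, hfix⟩ := Helper96.cp_form n N 𝒮 hgen hperf hcomm hdim hCP.absIrred hne
  exact un_form_sub h hF hn H N (hCP.le.trans hH) hCP.normal hCP.absIrred M hM hfix

end Cfsg.Agent.Helper35
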