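-- helper35 library: adjoint-closed field subalgebras for the standard unitary form have odd degree.
import Cfsg.Agent.Helper35.UnBasic
import Cfsg.Agent.Helper96.SpZ

set_option autoImplicit false
set_option linter.unusedSectionVars false
set_option linter.unusedVariables false
open Cfsg Cfsg.Geo Matrix

namespace Cfsg.Agent.Helper35

open Cfsg.Agent.Helper97

variable {F : Type*} [Field F] {n : ℕ} {q : ℕ} {σ : F ≃+* F}

/-- `q` is a power of the characteristic. -/
theorem un_q_eq_pow [Fintype F] (hF : Fintype.card F = q ^ 2) (p : ℕ) [Fact p.Prime] [CharP F p] :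
    ∃ a : ℕ, q = p ^ a := by
  obtain ⟨e, -, he⟩ := FiniteField.card F p
  have hq : q ∣ p ^ (e : ℕ) := by
    rw [← he, hF]; exact dvd_pow_self q (by norm_num)
  obtain ⟨a, -, ha⟩ := (Nat.dvd_prime_pow (Fact.out : p.Prime)).mp hq
  exact ⟨a, ha⟩

/-- A field subalgebra containing a non-scalar element contains a subfield of prime degree,
normalised by everything normalising the field, and stable under any power-compatible map
stabilising the field. -/
theorem un_exists_prime_subfield [Fintype F] [NeZero n] (K : Subalgebra F (Matrix (Fin n) (Fin n) F))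
    (hK : Helper98.IsFS K) (hns : ∃ k ∈ K, ∀ c : F, k ≠ c • (1 : Matrix (Fin n) (Fin n) F))
    (S : Matrix (Fin n) (Fin n) F → Matrix (Fin n) (Fin n) F) (hS : ∀ x ∈ K, S x ∈ K)
    (hSpow : ∀ (x : Matrix (Fin n) (Fin n) F) (m : ℕ), S (x ^ m) = S x ^ m) :
    ∃ (r : ℕ) (K₀ : Subalgebra F (Matrix (Fin n) (Fin n) F)), r.Prime ∧ IsFieldSubalgebra r K₀ ∧
      K₀ ≤ K ∧ subalgebraNormalizer K ≤ subalgebraNormalizer K₀ ∧ ∀ x ∈ K₀, S x ∈ K₀ := by
  classical
  have : Nonempty (Fin n) := ⟨0⟩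
  obtain ⟨e, he⟩ : ∃ e, Module.finrank F K = e := ⟨_, rfl⟩
  have he2 : 2 ≤ e := by
    by_contra hlt
    have hpos : 0 < e := by
      rw [← he]
      let _i := hK.field
      exact Module.finrank_pos
    have h1 : e = 1 := by omega
    obtain ⟨k, hk, hkns⟩ := hns
    obtain ⟨c, hc⟩ := Helper97.eq_smul_one_of_finrank_one K (he.trans h1) k hk
    exact hkns c hc
  by_cases hprime : e.Prime
  · exact ⟨e, K, hprime, ⟨hK.comm, hK.inv, he⟩, le_refl _, le_refl _, hS⟩
  · have hr : (e.minFac).Prime := Nat.minFac_prime (by omega)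
    have hrd : e.minFac ∣ e := Nat.minFac_dvd e
    have hrlt : e.minFac < e := by
      have h1 := Nat.minFac_le (show 0 < e by omega)
      rcases h1.lt_or_eq with h | h
      · exact h
      · rw [h] at hr
        exact absurd hr hprime
    obtain ⟨p, hp⟩ := CharP.exists F
    have := hp
    have : Fact p.Prime := ⟨CharP.char_is_prime F p⟩
    obtain ⟨f, -, hf⟩ := FiniteField.card F p
    have hN : Fintype.card F ^ e.minFac = p ^ ((f : ℕ) * e.minFac) := by rw [hf, pow_mul]
    have hadd : ∀ x ∈ K, ∀ y ∈ K, (x + y) ^ (Fintype.card F ^ e.minFac) =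
        x ^ (Fintype.card F ^ e.minFac) + y ^ (Fintype.card F ^ e.minFac) := by
      intro x hx y hy
      rw [hN]
      exact add_pow_char_pow_of_commute p _ (hK.comm x hx y hy)
    have hm : ∀ c : F, c ^ (Fintype.card F ^ e.minFac) = c := fun c => FiniteField.pow_card_pow e.minFac c
    have hK₀ : Helper98.IsFS (Helper98.frobFix K hK (Fintype.card F ^ e.minFac) hadd hm) :=
      Helper98.isFS_frobFix
    obtain ⟨-, -, hfr⟩ := Helper98.frobFix_facts hK he hrd hr.two_le hrlt
      (Helper98.frobFix K hK (Fintype.card F ^ e.minFac) hadd hm) (fun x => Helper98.mem_frobFix)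
    have hge := Helper96.finrank_frobFix_ge hK hK₀ he hrd hr.pos (fun x => Helper98.mem_frobFix)
    refine ⟨e.minFac, _, hr, ⟨hK₀.comm, hK₀.inv, le_antisymm hfr hge⟩, Helper98.frobFix_le,
      Helper98.normalizer_le_frobFix, ?_⟩
    intro x hx
    rw [Helper98.mem_frobFix] at hx ⊢
    exact ⟨hS x hx.1, by rw [← hSpow, hx.2]⟩

/-- Every element of a two-dimensional subalgebra is a combination of `1` and a non-scalar element. -/
theorem un_two_dim_rep (K : Subalgebra F (Matrix (Fin n) (Fin n) F))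
    (hfr : Module.finrank F K = 2) (θ : Matrix (Fin n) (Fin n) F) (hθ : θ ∈ K)
    (hns : ∀ c : F, θ ≠ c • (1 : Matrix (Fin n) (Fin n) F)) :
    ∀ z ∈ K, ∃ a b : F, z = a • (1 : Matrix (Fin n) (Fin n) F) + b • θ := by
  classical
  have hli : LinearIndependent F ![(1 : K), (⟨θ, hθ⟩ : K)] := by
    rw [LinearIndependent.pair_iff]
    intro s t hst
    have hst' : s • (1 : Matrix (Fin n) (Fin n) F) + t • θ = 0 := congrArg Subtype.val hst
    by_cases ht : t = 0
    · rw [ht, zero_smul, add_zero] at hst'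
      have hone : (1 : Matrix (Fin n) (Fin n) F) ≠ 0 := by
        intro h1
        apply hns 0
        rw [zero_smul]
        have : θ = θ * 1 := (mul_one θ).symm
        rw [this, h1, mul_zero]
      exact ⟨(smul_eq_zero.mp hst').resolve_right hone, ht⟩
    · exfalso
      apply hns (-(t⁻¹ * s))
      have h1 : t • θ = -(s • (1 : Matrix (Fin n) (Fin n) F)) := eq_neg_of_add_eq_zero_right hst'
      have h2 : θ = t⁻¹ • (t • θ) := by rw [smul_smul, inv_mul_cancel₀ ht, one_smul]
      rw [h2, h1, smul_neg, smul_smul, neg_smul]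
  have hcard : Fintype.card (Fin 2) = Module.finrank F K := by rw [hfr, Fintype.card_fin]
  let b := basisOfLinearIndependentOfCardEqFinrank hli hcard
  intro z hz
  have h1 := b.sum_repr ⟨z, hz⟩
  rw [Fin.sum_univ_two] at h1
  have hb0 : b 0 = (1 : K) := by
    simp [b]
  have hb1 : b 1 = (⟨θ, hθ⟩ : K) := by
    simp [b]
  rw [hb0, hb1] at h1
  refine ⟨b.repr ⟨z, hz⟩ 0, b.repr ⟨z, hz⟩ 1, ?_⟩
  have h2 := congrArg Subtype.val h1
  exact h2.symm

/-- A field subalgebra all of whose elements are fixed by `x ↦ x ^ |F|` is one-dimensional. -/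
theorem un_finrank_of_frob_fixed [Fintype F] [NeZero n] (K : Subalgebra F (Matrix (Fin n) (Fin n) F))
    {r : ℕ} (hK : IsFieldSubalgebra r K) (hfix : ∀ x ∈ K, x ^ Fintype.card F = x) : r = 1 := by
  classical
  have : Nonempty (Fin n) := ⟨0⟩
  have hFS := Helper98.IsFS.of hK
  let _i := hFS.field
  have : Fintype K := Fintype.ofFinite K
  have hcard : Fintype.card K = Fintype.card F ^ r := by
    rw [Module.card_eq_pow_finrank (K := F) (V := K), hK.finrank_eq]
  obtain ⟨g, hg⟩ := IsCyclic.exists_ofOrder_eq_natCard (α := Kˣ)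
  rw [Nat.card_units, Nat.card_eq_fintype_card, hcard] at hg
  have hQ : 1 < Fintype.card F := Fintype.one_lt_card
  have h1 : (g : K) ^ Fintype.card F = (g : K) := by
    apply Subtype.ext
    rw [SubmonoidClass.coe_pow]
    exact hfix _ (g : K).2
  have h2 : (g : K) ^ (Fintype.card F - 1) = 1 := by
    have h3 : (g : K) ^ (Fintype.card F - 1) * (g : K) = 1 * (g : K) := by
      rw [← pow_succ, Nat.sub_add_cancel (by omega), h1, one_mul]
    exact mul_right_cancel₀ g.ne_zero h3
  have h4 : g ^ (Fintype.card F - 1) = 1 := by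
    apply Units.ext
    rw [Units.val_pow_eq_pow_val, h2, Units.val_one]
  have h5 := orderOf_dvd_of_pow_eq_one h4
  rw [hg] at h5
  have h6 := Nat.le_of_dvd (by omega) h5
  by_contra hr1
  have hr0 : r ≠ 0 := by
    rintro rfl
    rw [pow_zero] at hg
    have := orderOf_pos g
    omega
  have hr2 : 2 ≤ r := by omega
  have h7 : Fintype.card F ^ 2 ≤ Fintype.card F ^ r := Nat.pow_le_pow_right (by omega) hr2
  have h8 : Fintype.card F < Fintype.card F ^ 2 := by nlinarith
  omega

/-- A field subalgebra of degree two is not closed under adjoints for the standard unitary form. -/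
theorem un_no_quadratic [Fintype F] (h : IsSigma q σ) (hF : Fintype.card F = q ^ 2) [NeZero n]
    (K : Subalgebra F (Matrix (Fin n) (Fin n) F)) (hK : IsFieldSubalgebra 2 K)
    (hadj : ∀ k ∈ K, uadj σ k ∈ K) : False := by
  classical
  have : Nonempty (Fin n) := ⟨0⟩
  obtain ⟨p, hp⟩ := CharP.exists F
  have := hp
  have : Fact p.Prime := ⟨CharP.char_is_prime F p⟩
  obtain ⟨a, ha⟩ := un_q_eq_pow hF p
  have hFS := Helper98.IsFS.of hK
  -- the map ρ
  obtain ⟨ρ, hρ⟩ : ∃ ρ : Matrix (Fin n) (Fin n) F → Matrix (Fin n) (Fin n) F,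
      ∀ x, ρ x = uadj σ (x ^ q) := ⟨_, fun _ => rfl⟩
  have hρK : ∀ x ∈ K, ρ x ∈ K := fun x hx => by
    rw [hρ]
    exact hadj _ (K.pow_mem hx q)
  have hρadd : ∀ x ∈ K, ∀ y ∈ K, ρ (x + y) = ρ x + ρ y := by
    intro x hx y hy
    rw [hρ, hρ, hρ, ha, add_pow_char_pow_of_commute p _ (hK.comm x hx y hy), un_adj_add]
  have hρsmul : ∀ (c : F) (x : Matrix (Fin n) (Fin n) F), ρ (c • x) = c • ρ x := by
    intro c x
    rw [hρ, hρ, smul_pow, un_adj_smul, h.pow (c ^ q), ← pow_mul, ← pow_two, ← hF,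
      FiniteField.pow_card]
  have hρone : ρ 1 = 1 := by rw [hρ, one_pow, un_adj_one]
  have hρmul : ∀ x ∈ K, ∀ y ∈ K, ρ (x * y) = ρ x * ρ y := by
    intro x hx y hy
    rw [hρ, hρ, hρ, (show Commute x y from hK.comm x hx y hy).mul_pow, un_adj_mul]
    exact hK.comm _ (hadj _ (K.pow_mem hy q)) _ (hadj _ (K.pow_mem hx q))
  have hρρ : ∀ x, ρ (ρ x) = x ^ (q * q) := by
    intro x
    rw [hρ (ρ x), hρ x, ← un_adj_pow, un_adj_adj h, ← pow_mul]
  -- a non-scalar element
  have hns : ¬ ∀ k ∈ K, ∃ c : F, k = c • (1 : Matrix (Fin n) (Fin n) F) :=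
    not_all_scalar_of_finrank K (by rw [hK.finrank_eq])
  obtain ⟨θ, hθK, hθns⟩ : ∃ θ ∈ K, ∀ c : F, θ ≠ c • (1 : Matrix (Fin n) (Fin n) F) := by
    by_contra hcon
    apply hns
    intro k hk
    by_contra hk'
    exact hcon ⟨k, hk, fun c hc => hk' ⟨c, hc⟩⟩
  have hrep := un_two_dim_rep K hK.finrank_eq θ hθK hθns
  obtain ⟨b, t, hbt⟩ := hrep (θ * θ) (K.mul_mem hθK hθK)
  have hX : ρ θ * ρ θ = b • (1 : Matrix (Fin n) (Fin n) F) + t • ρ θ := by
    rw [← hρmul θ hθK θ hθK, hbt,
      hρadd _ (K.smul_mem K.one_mem b) _ (K.smul_mem hθK t), hρsmul, hρsmul, hρone]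
  have hXK : ρ θ ∈ K := hρK θ hθK
  have hcm : ρ θ * θ = θ * ρ θ := hK.comm _ hXK _ hθK
  have hprod : (ρ θ - θ) * (ρ θ - (t • (1 : Matrix (Fin n) (Fin n) F) - θ)) = 0 := by
    have e : (ρ θ - θ) * (ρ θ - (t • (1 : Matrix (Fin n) (Fin n) F) - θ))
        = ρ θ * ρ θ - t • ρ θ - (θ * θ - t • θ) + (ρ θ * θ - θ * ρ θ) := by
      simp only [mul_sub, sub_mul, Matrix.mul_smul, Matrix.smul_mul, mul_one, one_mul]
      abel
    rw [e, hX, hbt, hcm]
    abel
  have hρρθ : ρ (ρ θ) = θ := by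
    by_cases h0 : ρ θ - θ = 0
    · rw [sub_eq_zero.mp h0, sub_eq_zero.mp h0]
    · obtain ⟨y, hy, hy1⟩ := hK.inv _ (K.sub_mem hXK hθK) h0
      have hy1' : y * (ρ θ - θ) = 1 := by
        rw [hK.comm y hy _ (K.sub_mem hXK hθK)]
        exact hy1
      have h1 : ρ θ - (t • (1 : Matrix (Fin n) (Fin n) F) - θ) = 0 := by
        calc ρ θ - (t • (1 : Matrix (Fin n) (Fin n) F) - θ)
            = (y * (ρ θ - θ)) * (ρ θ - (t • (1 : Matrix (Fin n) (Fin n) F) - θ)) := by
              rw [hy1', one_mul]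
          _ = 0 := by rw [mul_assoc, hprod, mul_zero]
      have h2 : ρ θ = t • (1 : Matrix (Fin n) (Fin n) F) + (-1 : F) • θ := by
        rw [neg_one_smul, ← sub_eq_add_neg]
        exact sub_eq_zero.mp h1
      have h3 : ρ (ρ θ) = t • (1 : Matrix (Fin n) (Fin n) F) + (-1 : F) • ρ θ := by
        conv_lhs => rw [h2]
        rw [hρadd _ (K.smul_mem K.one_mem t) _ (K.smul_mem hθK _), hρsmul, hρsmul, hρone]
      rw [h3, h2]
      simp only [neg_one_smul, neg_add_rev, neg_neg]
      abel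
  -- every element is fixed by `x ↦ x ^ (q * q)`
  have hqq : q * q = p ^ (a + a) := by rw [pow_add, ← ha]
  have hfix : ∀ x ∈ K, x ^ Fintype.card F = x := by
    intro x hx
    obtain ⟨c, d, rfl⟩ := hrep x hx
    rw [hF, pow_two, hqq, add_pow_char_pow_of_commute p _
      (hK.comm _ (K.smul_mem K.one_mem c) _ (K.smul_mem hθK d)), ← hqq, smul_pow, smul_pow,
      one_pow, ← hρρ θ, hρρθ]
    have hc : ∀ c : F, c ^ (q * q) = c := by
      intro c
      rw [← pow_two, ← hF, FiniteField.pow_card]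
    rw [hc, hc]
  have := un_finrank_of_frob_fixed K hK hfix
  omega

end Cfsg.Agent.Helper35
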