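-- helper35 library: alternating forms compatible with a field subalgebra of degree three in
-- dimension six (towards the degree-three field normaliser of SU_6(2)).
import Cfsg.Agent.Helper35.UnQuad

set_option autoImplicit false
set_option linter.unusedSectionVars false
set_option linter.unusedVariables false
open Cfsg Cfsg.Geo Matrix

namespace Cfsg.Agent.Helper35

open Cfsg.Agent.Helper97

variable {F : Type*} [Field F] {n : ℕ} {q : ℕ} {σ : F ≃+* F}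

/-- A non-zero element of a field subalgebra acts injectively. -/
theorem six_inj {K : Subalgebra F (Matrix (Fin n) (Fin n) F)} {r : ℕ} (hK : IsFieldSubalgebra r K)
    {k : Matrix (Fin n) (Fin n) F} (hk : k ∈ K) (hk0 : k ≠ 0) {x : Fin n → F} (hx : k *ᵥ x = 0) :
    x = 0 := by
  obtain ⟨y, hy, hky⟩ := hK.inv k hk hk0
  have h1 : y * k = 1 := by rw [hK.comm y hy k hk]; exact hky
  calc x = (y * k) *ᵥ x := by rw [h1, Matrix.one_mulVec]
    _ = y *ᵥ (k *ᵥ x) := (Matrix.mulVec_mulVec _ _ _).symm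
    _ = 0 := by rw [hx, Matrix.mulVec_zero]

/-- The Frobenius of a field subalgebra is the identity. -/
theorem six_pow_card [Fintype F] [NeZero n] {K : Subalgebra F (Matrix (Fin n) (Fin n) F)} {r : ℕ}
    (hK : IsFieldSubalgebra r K) {k : Matrix (Fin n) (Fin n) F} (hk : k ∈ K) :
    k ^ (Fintype.card F ^ r) = k := by
  classical
  have : Nonempty (Fin n) := ⟨0⟩
  have hFS := Helper98.IsFS.of hK
  let _i := hFS.field
  have : Fintype K := Fintype.ofFinite K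
  have hcard : Fintype.card K = Fintype.card F ^ r := by
    rw [Module.card_eq_pow_finrank (K := F) (V := K), hK.finrank_eq]
  have h1 := FiniteField.pow_card (⟨k, hk⟩ : K)
  rw [hcard] at h1
  have h2 := congrArg Subtype.val h1
  rw [SubmonoidClass.coe_pow] at h2
  exact h2

/-- Coordinates with respect to two independent vectors over a field subalgebra of degree three
in dimension six. -/
theorem six_coords {K : Subalgebra F (Matrix (Fin 6) (Fin 6) F)} (hK : IsFieldSubalgebra 3 K)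
    {x y : Fin 6 → F} (hx : x ≠ 0) (hy : ∀ k ∈ K, k *ᵥ x ≠ y) :
    ∃ E : (K × K) ≃ₗ[F] (Fin 6 → F), ∀ p : K × K,
      E p = (p.1 : Matrix (Fin 6) (Fin 6) F) *ᵥ x + (p.2 : Matrix (Fin 6) (Fin 6) F) *ᵥ y := by
  classical
  let Ex : K →ₗ[F] (Fin 6 → F) :=
    { toFun := fun k => (k : Matrix (Fin 6) (Fin 6) F) *ᵥ x
      map_add' := fun a b => by simp [Matrix.add_mulVec]
      map_smul' := fun c a => by simp [Matrix.smul_mulVec] }
  let Ey : K →ₗ[F] (Fin 6 → F) :=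
    { toFun := fun k => (k : Matrix (Fin 6) (Fin 6) F) *ᵥ y
      map_add' := fun a b => by simp [Matrix.add_mulVec]
      map_smul' := fun c a => by simp [Matrix.smul_mulVec] }
  have hE : ∀ p : K × K, (Ex.coprod Ey) p
      = (p.1 : Matrix (Fin 6) (Fin 6) F) *ᵥ x + (p.2 : Matrix (Fin 6) (Fin 6) F) *ᵥ y := by
    intro p
    rw [LinearMap.coprod_apply]
    rfl
  have hinj : Function.Injective (Ex.coprod Ey) := by
    rw [injective_iff_map_eq_zero]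
    intro p hp
    rw [hE] at hp
    have h2 : (p.2 : Matrix (Fin 6) (Fin 6) F) = 0 := by
      by_contra h20
      obtain ⟨z, hz, hkz⟩ := hK.inv _ p.2.2 h20
      have h1 : z * (p.2 : Matrix (Fin 6) (Fin 6) F) = 1 := by
        rw [hK.comm z hz _ p.2.2]; exact hkz
      apply hy (-(z * (p.1 : Matrix (Fin 6) (Fin 6) F)))
        (K.neg_mem (K.mul_mem hz p.1.2))
      have h3 : (p.2 : Matrix (Fin 6) (Fin 6) F) *ᵥ y
          = -((p.1 : Matrix (Fin 6) (Fin 6) F) *ᵥ x) := eq_neg_of_add_eq_zero_right hp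
      calc (-(z * (p.1 : Matrix (Fin 6) (Fin 6) F))) *ᵥ x
          = z *ᵥ (-((p.1 : Matrix (Fin 6) (Fin 6) F) *ᵥ x)) := by
            rw [Matrix.neg_mulVec, Matrix.mulVec_neg, Matrix.mulVec_mulVec]
        _ = z *ᵥ ((p.2 : Matrix (Fin 6) (Fin 6) F) *ᵥ y) := by rw [h3]
        _ = y := by rw [Matrix.mulVec_mulVec, h1, Matrix.one_mulVec]
    have h1 : (p.1 : Matrix (Fin 6) (Fin 6) F) = 0 := by
      by_contra h10
      rw [h2, Matrix.zero_mulVec, add_zero] at hp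
      exact hx (six_inj hK p.1.2 h10 hp)
    exact Prod.ext (Subtype.ext h1) (Subtype.ext h2)
  have hfr : Module.finrank F (K × K) = Module.finrank F (Fin 6 → F) := by
    rw [Module.finrank_prod, hK.finrank_eq, Module.finrank_fin_fun]
  have hsurj : Function.Surjective (Ex.coprod Ey) :=
    (LinearMap.injective_iff_surjective_of_finrank_eq_finrank hfr).mp hinj
  exact ⟨LinearEquiv.ofBijective (Ex.coprod Ey) ⟨hinj, hsurj⟩, fun p => hE p⟩

/-- Two vectors independent over a field subalgebra of degree three in dimension six. -/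
theorem six_exists_xy {K : Subalgebra F (Matrix (Fin 6) (Fin 6) F)} (hK : IsFieldSubalgebra 3 K) :
    ∃ x y : Fin 6 → F, x ≠ 0 ∧ ∀ k ∈ K, k *ᵥ x ≠ y := by
  classical
  obtain ⟨x, hx⟩ : ∃ x : Fin 6 → F, x = Pi.single 0 1 := ⟨_, rfl⟩
  have hx0 : x ≠ 0 := by
    intro h0
    have := congrFun h0 0
    rw [hx] at this
    simp at this
  by_contra hcon
  push Not at hcon
  have hall : ∀ y : Fin 6 → F, ∃ k ∈ K, k *ᵥ x = y := by
    intro y
    exact hcon x y hx0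
  let Ex : K →ₗ[F] (Fin 6 → F) :=
    { toFun := fun k => (k : Matrix (Fin 6) (Fin 6) F) *ᵥ x
      map_add' := fun a b => by simp [Matrix.add_mulVec]
      map_smul' := fun c a => by simp [Matrix.smul_mulVec] }
  have hsurj : Function.Surjective Ex := by
    intro y
    obtain ⟨k, hk, hky⟩ := hall y
    exact ⟨⟨k, hk⟩, hky⟩
  have h1 := LinearMap.finrank_range_le Ex
  rw [LinearMap.range_eq_top.mpr hsurj, finrank_top, Module.finrank_fin_fun, hK.finrank_eq] at h1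
  omega

/-- An alternating matrix compatible with the subalgebra `K`. -/
structure SixAlt (K : Subalgebra F (Matrix (Fin n) (Fin n) F)) (S : Matrix (Fin n) (Fin n) F) :
    Prop where
  symm : Sᵀ = S
  alt : ∀ x : Fin n → F, x ⬝ᵥ (S *ᵥ x) = 0
  comp : ∀ k ∈ K, kᵀ * S = S * k

namespace SixAlt

variable {K : Subalgebra F (Matrix (Fin n) (Fin n) F)} {S : Matrix (Fin n) (Fin n) F}

theorem form_symm (hS : SixAlt K S) (v w : Fin n → F) : v ⬝ᵥ (S *ᵥ w) = w ⬝ᵥ (S *ᵥ v) := by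
  rw [Matrix.dotProduct_mulVec, ← hS.symm, Matrix.vecMul_transpose, hS.symm, dotProduct_comm]

theorem form_comp (hS : SixAlt K S) {k : Matrix (Fin n) (Fin n) F} (hk : k ∈ K) (v w : Fin n → F) :
    (k *ᵥ v) ⬝ᵥ (S *ᵥ w) = v ⬝ᵥ (S *ᵥ (k *ᵥ w)) := by
  rw [Matrix.mulVec_mulVec, ← hS.comp k hk, ← Matrix.mulVec_mulVec, Matrix.dotProduct_mulVec v,
    Matrix.vecMul_transpose, dotProduct_comm]

theorem form_self (hS : SixAlt K S) (hsq : ∀ k ∈ K, ∃ e ∈ K, e * e = k)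
    {k : Matrix (Fin n) (Fin n) F} (hk : k ∈ K) (x : Fin n → F) : x ⬝ᵥ (S *ᵥ (k *ᵥ x)) = 0 := by
  obtain ⟨e, he, hee⟩ := hsq k hk
  rw [← hee, ← Matrix.mulVec_mulVec, ← hS.form_comp he]
  exact hS.alt _

theorem formula (hS : SixAlt K S) (hcomm : ∀ a ∈ K, ∀ b ∈ K, a * b = b * a)
    (hsq : ∀ k ∈ K, ∃ e ∈ K, e * e = k) (x y : Fin n → F)
    {k₁ k₂ k₃ k₄ : Matrix (Fin n) (Fin n) F} (h₁ : k₁ ∈ K) (h₂ : k₂ ∈ K) (h₃ : k₃ ∈ K) (h₄ : k₄ ∈ K) :
    (k₁ *ᵥ x + k₂ *ᵥ y) ⬝ᵥ (S *ᵥ (k₃ *ᵥ x + k₄ *ᵥ y))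
      = x ⬝ᵥ (S *ᵥ ((k₁ * k₄ + k₂ * k₃) *ᵥ y)) := by
  have e1 : (k₁ *ᵥ x) ⬝ᵥ (S *ᵥ (k₃ *ᵥ x)) = 0 := by
    rw [hS.form_comp h₁, Matrix.mulVec_mulVec x k₁ k₃]
    exact hS.form_self hsq (K.mul_mem h₁ h₃) x
  have e2 : (k₁ *ᵥ x) ⬝ᵥ (S *ᵥ (k₄ *ᵥ y)) = x ⬝ᵥ (S *ᵥ ((k₁ * k₄) *ᵥ y)) := by
    rw [hS.form_comp h₁, Matrix.mulVec_mulVec y k₁ k₄]
  have e3 : (k₂ *ᵥ y) ⬝ᵥ (S *ᵥ (k₃ *ᵥ x)) = x ⬝ᵥ (S *ᵥ ((k₂ * k₃) *ᵥ y)) := by
    rw [hS.form_symm, hS.form_comp h₃, Matrix.mulVec_mulVec y k₃ k₂, hcomm k₃ h₃ k₂ h₂]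
  have e4 : (k₂ *ᵥ y) ⬝ᵥ (S *ᵥ (k₄ *ᵥ y)) = 0 := by
    rw [hS.form_comp h₂, Matrix.mulVec_mulVec y k₂ k₄]
    exact hS.form_self hsq (K.mul_mem h₂ h₄) y
  rw [Matrix.mulVec_add, add_dotProduct, dotProduct_add, dotProduct_add, e1, e2, e3, e4,
    Matrix.add_mulVec, Matrix.mulVec_add, dotProduct_add]
  ring

end SixAlt

/-- A matrix is determined by its bilinear form. -/
theorem six_mat_eq {A B : Matrix (Fin n) (Fin n) F}
    (hAB : ∀ v w : Fin n → F, v ⬝ᵥ (A *ᵥ w) = v ⬝ᵥ (B *ᵥ w)) : A = B := by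
  classical
  ext i j
  have h1 := hAB (Pi.single i 1) (Pi.single j 1)
  rw [single_one_dotProduct, single_one_dotProduct, Matrix.mulVec_single_one,
    Matrix.mulVec_single_one] at h1
  exact h1

/-- Every vector is a combination of two independent vectors over the field subalgebra. -/
theorem six_span {K : Subalgebra F (Matrix (Fin 6) (Fin 6) F)} (hK : IsFieldSubalgebra 3 K)
    {x y : Fin 6 → F} (hx : x ≠ 0) (hy : ∀ k ∈ K, k *ᵥ x ≠ y) (v : Fin 6 → F) :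
    ∃ k₁ ∈ K, ∃ k₂ ∈ K, v = k₁ *ᵥ x + k₂ *ᵥ y := by
  obtain ⟨E, hE⟩ := six_coords hK hx hy
  exact ⟨_, (E.symm v).1.2, _, (E.symm v).2.2, by rw [← hE, E.apply_symm_apply]⟩

/-- The functional attached to a non-zero compatible alternating matrix is non-zero. -/
theorem six_exists_ne {K : Subalgebra F (Matrix (Fin 6) (Fin 6) F)} (hK : IsFieldSubalgebra 3 K)
    (hsq : ∀ k ∈ K, ∃ e ∈ K, e * e = k) {S : Matrix (Fin 6) (Fin 6) F} (hS : SixAlt K S)
    (hS0 : S ≠ 0) {x y : Fin 6 → F} (hx : x ≠ 0) (hy : ∀ k ∈ K, k *ᵥ x ≠ y) :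
    ∃ k ∈ K, x ⬝ᵥ (S *ᵥ (k *ᵥ y)) ≠ 0 := by
  by_contra hcon
  push Not at hcon
  apply hS0
  apply six_mat_eq
  intro v w
  obtain ⟨k₁, h₁, k₂, h₂, rfl⟩ := six_span hK hx hy v
  obtain ⟨k₃, h₃, k₄, h₄, rfl⟩ := six_span hK hx hy w
  rw [hS.formula hK.comm hsq x y h₁ h₂ h₃ h₄, Matrix.zero_mulVec, dotProduct_zero]
  exact hcon _ (K.add_mem (K.mul_mem h₁ h₄) (K.mul_mem h₂ h₃))

/-- A non-zero compatible alternating matrix is non-degenerate. -/
theorem six_nondeg {K : Subalgebra F (Matrix (Fin 6) (Fin 6) F)} (hK : IsFieldSubalgebra 3 K)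
    (hsq : ∀ k ∈ K, ∃ e ∈ K, e * e = k) {S : Matrix (Fin 6) (Fin 6) F} (hS : SixAlt K S)
    (hS0 : S ≠ 0) (w : Fin 6 → F) (hw : S *ᵥ w = 0) : w = 0 := by
  obtain ⟨x, y, hx, hy⟩ := six_exists_xy hK
  obtain ⟨k, hk, hkne⟩ := six_exists_ne hK hsq hS hS0 hx hy
  obtain ⟨k₃, h₃, k₄, h₄, rfl⟩ := six_span hK hx hy w
  have key : ∀ k₁ ∈ K, ∀ k₂ ∈ K, x ⬝ᵥ (S *ᵥ ((k₁ * k₄ + k₂ * k₃) *ᵥ y)) = 0 := by
    intro k₁ h₁ k₂ h₂
    rw [← hS.formula hK.comm hsq x y h₁ h₂ h₃ h₄, hw, dotProduct_zero]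
  have h40 : k₄ = 0 := by
    by_contra h40
    obtain ⟨z, hz, hkz⟩ := hK.inv k₄ h₄ h40
    have h1 : z * k₄ = 1 := by rw [hK.comm z hz k₄ h₄]; exact hkz
    have h5 := key (k * z) (K.mul_mem hk hz) 0 K.zero_mem
    rw [zero_mul, add_zero, mul_assoc, h1, mul_one] at h5
    exact hkne h5
  have h30 : k₃ = 0 := by
    by_contra h30
    obtain ⟨z, hz, hkz⟩ := hK.inv k₃ h₃ h30
    have h1 : z * k₃ = 1 := by rw [hK.comm z hz k₃ h₃]; exact hkz
    have h5 := key 0 K.zero_mem (k * z) (K.mul_mem hk hz)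
    rw [zero_mul, zero_add, mul_assoc, h1, mul_one] at h5
    exact hkne h5
  rw [h30, h40, Matrix.zero_mulVec, Matrix.zero_mulVec, add_zero]

/-- Compatible alternating matrices form a line over the field subalgebra. -/
theorem six_eq_mul {K : Subalgebra F (Matrix (Fin 6) (Fin 6) F)} (hK : IsFieldSubalgebra 3 K)
    (hsq : ∀ k ∈ K, ∃ e ∈ K, e * e = k) {S₁ S₂ : Matrix (Fin 6) (Fin 6) F} (h₁ : SixAlt K S₁)
    (h₂ : SixAlt K S₂) (hS0 : S₁ ≠ 0) : ∃ k₀ ∈ K, S₂ = S₁ * k₀ := by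
  classical
  obtain ⟨x, y, hx, hy⟩ := six_exists_xy hK
  obtain ⟨k, hk, hkne⟩ := six_exists_ne hK hsq h₁ hS0 hx hy
  let Ψ : K →ₗ[F] K →ₗ[F] F := LinearMap.mk₂ F
    (fun a b => x ⬝ᵥ (S₁ *ᵥ (((a : Matrix (Fin 6) (Fin 6) F) * (b : Matrix (Fin 6) (Fin 6) F)) *ᵥ y)))
    (fun a a' b => by
      simp only [Subalgebra.coe_add, add_mul, Matrix.add_mulVec, Matrix.mulVec_add, dotProduct_add])
    (fun c a b => by
      simp only [Subalgebra.coe_smul, smul_mul_assoc, Matrix.smul_mulVec, Matrix.mulVec_smul,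
        dotProduct_smul])
    (fun a b b' => by
      simp only [Subalgebra.coe_add, mul_add, Matrix.add_mulVec, Matrix.mulVec_add, dotProduct_add])
    (fun c a b => by
      simp only [Subalgebra.coe_smul, mul_smul_comm, Matrix.smul_mulVec, Matrix.mulVec_smul,
        dotProduct_smul])
  have hΨ : ∀ a b : K, Ψ a b
      = x ⬝ᵥ (S₁ *ᵥ (((a : Matrix (Fin 6) (Fin 6) F) * (b : Matrix (Fin 6) (Fin 6) F)) *ᵥ y)) :=
    fun a b => rfl
  let ψ₂ : K →ₗ[F] F :=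
    { toFun := fun b => x ⬝ᵥ (S₂ *ᵥ ((b : Matrix (Fin 6) (Fin 6) F) *ᵥ y))
      map_add' := fun b b' => by
        simp only [Subalgebra.coe_add, Matrix.add_mulVec, Matrix.mulVec_add, dotProduct_add]
      map_smul' := fun c b => by
        simp only [Subalgebra.coe_smul, Matrix.smul_mulVec, Matrix.mulVec_smul, dotProduct_smul,
          RingHom.id_apply] }
  have hψ₂ : ∀ b : K, ψ₂ b = x ⬝ᵥ (S₂ *ᵥ ((b : Matrix (Fin 6) (Fin 6) F) *ᵥ y)) := fun b => rfl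
  have hinj : Function.Injective Ψ := by
    rw [injective_iff_map_eq_zero]
    intro a ha
    by_contra ha0
    have ha0' : (a : Matrix (Fin 6) (Fin 6) F) ≠ 0 := fun h => ha0 (Subtype.ext h)
    obtain ⟨z, hz, haz⟩ := hK.inv _ a.2 ha0'
    have h1 := LinearMap.congr_fun ha ⟨z * k, K.mul_mem hz hk⟩
    rw [hΨ, LinearMap.zero_apply, ← mul_assoc, haz, one_mul] at h1
    exact hkne h1
  have hfr : Module.finrank F K = Module.finrank F (K →ₗ[F] F) :=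
    (Subspace.dual_finrank_eq (K := F) (V := K)).symm
  have hsurj := (LinearMap.injective_iff_surjective_of_finrank_eq_finrank hfr).mp hinj
  obtain ⟨k₀, hk₀⟩ := hsurj ψ₂
  refine ⟨k₀, k₀.2, ?_⟩
  apply six_mat_eq
  intro v w
  obtain ⟨k₁, hk₁, k₂, hk₂, rfl⟩ := six_span hK hx hy v
  obtain ⟨k₃, hk₃, k₄, hk₄, rfl⟩ := six_span hK hx hy w
  have e : (S₁ * (k₀ : Matrix (Fin 6) (Fin 6) F)) *ᵥ (k₃ *ᵥ x + k₄ *ᵥ y)
      = S₁ *ᵥ (((k₀ : Matrix (Fin 6) (Fin 6) F) * k₃) *ᵥ x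
        + ((k₀ : Matrix (Fin 6) (Fin 6) F) * k₄) *ᵥ y) := by
    rw [← Matrix.mulVec_mulVec, Matrix.mulVec_add, Matrix.mulVec_mulVec x, Matrix.mulVec_mulVec y]
  rw [h₂.formula hK.comm hsq x y hk₁ hk₂ hk₃ hk₄, e,
    h₁.formula hK.comm hsq x y hk₁ hk₂ (K.mul_mem k₀.2 hk₃) (K.mul_mem k₀.2 hk₄)]
  have h3 := LinearMap.congr_fun hk₀
    ⟨k₁ * k₄ + k₂ * k₃, K.add_mem (K.mul_mem hk₁ hk₄) (K.mul_mem hk₂ hk₃)⟩
  rw [hΨ, hψ₂] at h3
  rw [← h3]
  have e2 : (k₀ : Matrix (Fin 6) (Fin 6) F) * (k₁ * k₄ + k₂ * k₃)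
      = k₁ * ((k₀ : Matrix (Fin 6) (Fin 6) F) * k₄) + k₂ * ((k₀ : Matrix (Fin 6) (Fin 6) F) * k₃) := by
    rw [mul_add, ← mul_assoc, ← mul_assoc, hK.comm _ k₀.2 k₁ hk₁, hK.comm _ k₀.2 k₂ hk₂, mul_assoc,
      mul_assoc]
  rw [e2]

/-- A non-zero compatible alternating matrix exists (characteristic two). -/
theorem six_exists_alt {K : Subalgebra F (Matrix (Fin 6) (Fin 6) F)} (hK : IsFieldSubalgebra 3 K)
    (h2 : (2 : F) = 0) : ∃ S : Matrix (Fin 6) (Fin 6) F, SixAlt K S ∧ S ≠ 0 := by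
  classical
  obtain ⟨x, y, hx, hy⟩ := six_exists_xy hK
  obtain ⟨E, hE⟩ := six_coords hK hx hy
  obtain ⟨a, ha⟩ : ∃ a : (Fin 6 → F) → Matrix (Fin 6) (Fin 6) F,
      ∀ v, a v = ((E.symm v).1 : Matrix (Fin 6) (Fin 6) F) := ⟨_, fun _ => rfl⟩
  obtain ⟨b, hb⟩ : ∃ b : (Fin 6 → F) → Matrix (Fin 6) (Fin 6) F,
      ∀ v, b v = ((E.symm v).2 : Matrix (Fin 6) (Fin 6) F) := ⟨_, fun _ => rfl⟩
  have haK : ∀ v, a v ∈ K := fun v => by rw [ha]; exact (E.symm v).1.2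
  have hbK : ∀ v, b v ∈ K := fun v => by rw [hb]; exact (E.symm v).2.2
  have hab : ∀ v, v = a v *ᵥ x + b v *ᵥ y := by
    intro v
    rw [ha, hb, ← hE, E.apply_symm_apply]
  have huniq : ∀ (v : Fin 6 → F) (k₁ k₂ : Matrix (Fin 6) (Fin 6) F), k₁ ∈ K → k₂ ∈ K →
      v = k₁ *ᵥ x + k₂ *ᵥ y → a v = k₁ ∧ b v = k₂ := by
    intro v k₁ k₂ h₁ h₂ hv
    have h3 : E.symm v = (⟨k₁, h₁⟩, ⟨k₂, h₂⟩) := by
      apply E.injective
      rw [E.apply_symm_apply, hE]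
      exact hv
    rw [ha, hb, h3]
    exact ⟨rfl, rfl⟩
  have ha_add : ∀ v w, a (v + w) = a v + a w := by
    intro v w
    rw [ha, ha, ha, map_add]
    rfl
  have hb_add : ∀ v w, b (v + w) = b v + b w := by
    intro v w
    rw [hb, hb, hb, map_add]
    rfl
  have ha_smul : ∀ (c : F) v, a (c • v) = c • a v := by
    intro c v
    rw [ha, ha, map_smul]
    rfl
  have hb_smul : ∀ (c : F) v, b (c • v) = c • b v := by
    intro c v
    rw [hb, hb, map_smul]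
    rfl
  have hak : ∀ k ∈ K, ∀ v, a (k *ᵥ v) = k * a v ∧ b (k *ᵥ v) = k * b v := by
    intro k hk v
    apply huniq _ _ _ (K.mul_mem hk (haK v)) (K.mul_mem hk (hbK v))
    conv_lhs => rw [hab v]
    rw [Matrix.mulVec_add, Matrix.mulVec_mulVec, Matrix.mulVec_mulVec]
  let B : LinearMap.BilinForm F (Fin 6 → F) := LinearMap.mk₂ F
    (fun v w => (a v * b w + b v * a w) 0 0)
    (fun v v' w => by
      simp only [ha_add, hb_add, add_mul, Matrix.add_apply]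
      ring)
    (fun c v w => by
      simp only [ha_smul, hb_smul, smul_mul_assoc, Matrix.add_apply, Matrix.smul_apply, smul_eq_mul]
      ring)
    (fun v w w' => by
      simp only [ha_add, hb_add, mul_add, Matrix.add_apply]
      ring)
    (fun c v w => by
      simp only [ha_smul, hb_smul, mul_smul_comm, Matrix.add_apply, Matrix.smul_apply, smul_eq_mul]
      ring)
  have hB : ∀ v w, B v w = (a v * b w + b v * a w) 0 0 := fun v w => rfl
  obtain ⟨S, hSdef⟩ : ∃ S : Matrix (Fin 6) (Fin 6) F, S = LinearMap.BilinForm.toMatrix' B := ⟨_, rfl⟩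
  have hSB : ∀ v w, v ⬝ᵥ (S *ᵥ w) = B v w := by
    intro v w
    rw [← Matrix.toBilin'_apply', hSdef, Matrix.toBilin'_toMatrix']
  have hBsymm : ∀ v w, B v w = B w v := by
    intro v w
    rw [hB, hB, hK.comm _ (haK v) _ (hbK w), hK.comm _ (hbK v) _ (haK w), add_comm]
  refine ⟨S, ⟨?_, ?_, ?_⟩, ?_⟩
  · ext i j
    rw [Matrix.transpose_apply, hSdef, LinearMap.BilinForm.toMatrix'_apply,
      LinearMap.BilinForm.toMatrix'_apply]
    exact hBsymm _ _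
  · intro v
    rw [hSB, hB, hK.comm _ (hbK v) _ (haK v), ← two_smul F (a v * b v), Matrix.smul_apply, h2,
      zero_smul]
  · intro k hk
    apply six_mat_eq
    intro v w
    rw [← Matrix.mulVec_mulVec, ← Matrix.mulVec_mulVec, Matrix.dotProduct_mulVec v,
      Matrix.vecMul_transpose, hSB, hSB, hB, hB, (hak k hk v).1, (hak k hk v).2, (hak k hk w).1,
      (hak k hk w).2, mul_assoc, mul_assoc, ← mul_assoc (a v) k, ← mul_assoc (b v) k,
      hK.comm _ (haK v) k hk, hK.comm _ (hbK v) k hk, mul_assoc, mul_assoc]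
  · intro h0
    have hx1 := huniq x 1 0 K.one_mem K.zero_mem (by rw [Matrix.one_mulVec, Matrix.zero_mulVec, add_zero])
    have hy1 := huniq y 0 1 K.zero_mem K.one_mem (by rw [Matrix.one_mulVec, Matrix.zero_mulVec, zero_add])
    have h1 := hSB x y
    rw [h0, Matrix.zero_mulVec, dotProduct_zero, hB, hx1.1, hx1.2, hy1.1, hy1.2, mul_one, mul_zero,
      add_zero, Matrix.one_apply_eq] at h1
    exact zero_ne_one h1

/-- Multiplying a compatible alternating matrix by an element of the field subalgebra. -/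
theorem SixAlt.mul_mem {K : Subalgebra F (Matrix (Fin n) (Fin n) F)} {S : Matrix (Fin n) (Fin n) F}
    (hS : SixAlt K S) (hcomm : ∀ a ∈ K, ∀ b ∈ K, a * b = b * a)
    (hsq : ∀ k ∈ K, ∃ e ∈ K, e * e = k) {k : Matrix (Fin n) (Fin n) F} (hk : k ∈ K) :
    SixAlt K (S * k) := by
  refine ⟨?_, ?_, ?_⟩
  · rw [Matrix.transpose_mul, hS.symm, hS.comp k hk]
  · intro x
    rw [← Matrix.mulVec_mulVec]
    exact hS.form_self hsq hk x
  · intro k' hk'
    rw [← mul_assoc, hS.comp k' hk', mul_assoc, mul_assoc, hcomm k' hk' k hk]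

end Cfsg.Agent.Helper35
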