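-- helper35 library: the normaliser in SU_6(2) of an adjoint-closed field subalgebra of degree three
-- lies in a subfield group of symplectic type.
import Cfsg.Agent.Helper35.UnSix1
import Cfsg.Agent.Helper35.UnResidual

set_option autoImplicit false
set_option linter.unusedSectionVars false
set_option linter.unusedVariables false
open Cfsg Cfsg.Geo Matrix

namespace Cfsg.Agent.Helper35

open Cfsg.Agent.Helper97

variable {F : Type*} [Field F] {n : ℕ} {q : ℕ} {σ : F ≃+* F}

/-- The field with four elements has characteristic two. -/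
theorem six_charP [Fintype F] (hF : Fintype.card F = 2 ^ 2) : CharP F 2 := by
  obtain ⟨p, hp⟩ := CharP.exists F
  have := hp
  have hpp : p.Prime := CharP.char_is_prime F p
  have : Fact p.Prime := ⟨hpp⟩
  obtain ⟨e, -, he⟩ := FiniteField.card F p
  have h1 : p ∣ 2 ^ 2 := by
    rw [← hF, he]
    exact dvd_pow_self p e.ne_zero
  have h2 : p ∣ 2 := hpp.dvd_of_dvd_pow h1
  have h3 : p = 2 := (Nat.prime_dvd_prime_iff_eq hpp Nat.prime_two).mp h2
  rw [← h3]
  exact hp

theorem six_char_two [Fintype F] (hF : Fintype.card F = 2 ^ 2) : (2 : F) = 0 := by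
  have := six_charP hF
  exact_mod_cast CharP.cast_eq_zero F 2

/-- Adjoint-closed subalgebras are closed under the conjugate transpose. -/
theorem six_bar (h : IsSigma q σ) {K : Subalgebra F (Matrix (Fin n) (Fin n) F)}
    (hadj : IsAdjointClosedFor (hermForm n F q) K) : ∀ k ∈ K, uadj σ k ∈ K := by
  intro k hk
  obtain ⟨k', hk', hkk⟩ := hadj k hk
  have h1 : k' = uadj σ k := un_mat_eq h (fun u v => by rw [← hkk, un_adj_spec h])
  rw [← h1]
  exact hk'

theorem SixAlt.sigma_mul {K : Subalgebra F (Matrix (Fin n) (Fin n) F)}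
    {S : Matrix (Fin n) (Fin n) F} (hS : SixAlt K S) {k : Matrix (Fin n) (Fin n) F}
    (hk' : uadj σ k ∈ K) : k.map σ * S = S * uadj σ k := by
  have h1 := hS.comp _ hk'
  rw [uadj, Matrix.transpose_transpose] at h1
  exact h1

theorem SixAlt.mul_sigma (h : IsSigma q σ) {K : Subalgebra F (Matrix (Fin n) (Fin n) F)}
    {S : Matrix (Fin n) (Fin n) F} (hS : SixAlt K S) {k : Matrix (Fin n) (Fin n) F}
    (hk' : uadj σ k ∈ K) : k * S.map σ = S.map σ * kᵀ := by
  have h1 := congrArg (fun X : Matrix (Fin n) (Fin n) F => X.map σ) (hS.sigma_mul hk')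
  simp only [map_mul_equiv, h.map_sigma_sigma] at h1
  rw [h1, uadj, Matrix.transpose_map, h.map_sigma_sigma]

theorem six_sigma_alt (h : IsSigma q σ) {S : Matrix (Fin n) (Fin n) F}
    (hS : ∀ x : Fin n → F, x ⬝ᵥ (S *ᵥ x) = 0) (z : Fin n → F) : z ⬝ᵥ (S.map σ *ᵥ z) = 0 := by
  have h1 := sigma_mulVec σ S (fun i => σ (z i))
  simp only [h.inv] at h1
  have h3 := hS (fun i => σ (z i))
  have h4 := congrArg σ h3
  rw [map_zero] at h4
  rw [← h4, ← h1]
  simp only [dotProduct, map_sum, map_mul, h.inv]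

theorem six_sigma_inj (h : IsSigma q σ) {S : Matrix (Fin n) (Fin n) F}
    (hS : ∀ w : Fin n → F, S *ᵥ w = 0 → w = 0) (z : Fin n → F) (hz : S.map σ *ᵥ z = 0) : z = 0 := by
  have h1 := sigma_mulVec σ S (fun i => σ (z i))
  simp only [h.inv] at h1
  have h3 : S *ᵥ (fun i => σ (z i)) = 0 := by
    funext i
    have h4 := congrFun h1 i
    rw [hz] at h4
    simp only [Pi.zero_apply] at h4 ⊢
    exact (map_eq_zero σ).mp h4
  have h5 := hS _ h3
  funext i
  have h6 := congrFun h5 i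
  simp only [Pi.zero_apply] at h6 ⊢
  exact (map_eq_zero σ).mp h6

theorem six_pow64 [Fintype F] (hF : Fintype.card F = 2 ^ 2)
    {K : Subalgebra F (Matrix (Fin 6) (Fin 6) F)} (hK : IsFieldSubalgebra 3 K)
    {k : Matrix (Fin 6) (Fin 6) F} (hk : k ∈ K) : k ^ 64 = k := by
  have h1 := six_pow_card hK hk
  rw [hF] at h1
  exact h1

theorem six_sq [Fintype F] (hF : Fintype.card F = 2 ^ 2)
    {K : Subalgebra F (Matrix (Fin 6) (Fin 6) F)} (hK : IsFieldSubalgebra 3 K) :
    ∀ k ∈ K, ∃ e ∈ K, e * e = k :=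
  fun k hk => ⟨k ^ 32, K.pow_mem hk 32, by rw [← pow_add]; exact six_pow64 hF hK hk⟩

/-- A compatible alternating matrix normalised against the unitary form. -/
theorem six_normalise [Fintype F] (h : IsSigma 2 σ) (hF : Fintype.card F = 2 ^ 2)
    {K : Subalgebra F (Matrix (Fin 6) (Fin 6) F)} (hK : IsFieldSubalgebra 3 K)
    (hbar : ∀ k ∈ K, uadj σ k ∈ K) :
    ∃ S : Matrix (Fin 6) (Fin 6) F, SixAlt K S ∧ S.map σ * S = 1 := by
  classical
  have h2 := six_char_two hF
  have hsq := six_sq hF hK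
  obtain ⟨S, hS, hS0⟩ := six_exists_alt hK h2
  have hSσ : (S.map σ)ᵀ = S.map σ := by rw [← Matrix.transpose_map, hS.symm]
  have hT : SixAlt K (S * S.map σ * S) := by
    refine ⟨?_, ?_, ?_⟩
    · rw [Matrix.transpose_mul, Matrix.transpose_mul, hS.symm, hSσ, mul_assoc]
    · intro x
      have e1 : x ⬝ᵥ ((S * S.map σ * S) *ᵥ x) = (S *ᵥ x) ⬝ᵥ (S.map σ *ᵥ (S *ᵥ x)) := by
        rw [mul_assoc, ← Matrix.mulVec_mulVec, hS.form_symm, ← Matrix.mulVec_mulVec]
        exact dotProduct_comm _ _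
      rw [e1]
      exact six_sigma_alt h hS.alt _
    · intro k hk
      have r2 : k * S.map σ = S.map σ * kᵀ := hS.mul_sigma h (hbar k hk)
      calc kᵀ * (S * S.map σ * S) = (kᵀ * S) * S.map σ * S := by simp only [mul_assoc]
        _ = S * (k * S.map σ) * S := by rw [hS.comp k hk]; simp only [mul_assoc]
        _ = S * S.map σ * (kᵀ * S) := by rw [r2]; simp only [mul_assoc]
        _ = S * S.map σ * S * k := by rw [hS.comp k hk]; simp only [mul_assoc]
  obtain ⟨m, hm, hTm⟩ := six_eq_mul hK hsq hS hT hS0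
  have hm' : S.map σ * S = m := by
    have h1 : S * (S.map σ * S - m) = 0 := by rw [Matrix.mul_sub, ← mul_assoc, hTm, sub_self]
    have h3 : S.map σ * S - m = 0 := by
      apply Helper97.eq_zero_of_mulVec_eq_zero
      intro w
      apply six_nondeg hK hsq hS hS0
      rw [Matrix.mulVec_mulVec, h1, Matrix.zero_mulVec]
    exact sub_eq_zero.mp h3
  have hm0 : m ≠ 0 := by
    intro h0
    rw [h0] at hm'
    apply hS0
    apply Helper97.eq_zero_of_mulVec_eq_zero
    intro w
    have h3 : S.map σ *ᵥ (S *ᵥ w) = 0 := by rw [Matrix.mulVec_mulVec, hm', Matrix.zero_mulVec]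
    exact six_sigma_inj h (six_nondeg hK hsq hS hS0) _ h3
  have hmbar : uadj σ m = m := by
    rw [← hm', uadj, map_mul_equiv, h.map_sigma_sigma, Matrix.transpose_mul, hSσ, hS.symm]
  obtain ⟨m', hm'K, hmm'⟩ := hK.inv m hm hm0
  have hm'm : m' * m = 1 := by rw [hK.comm m' hm'K m hm]; exact hmm'
  have hm'bar : uadj σ m' = m' := by
    have h1 : uadj σ m' * m = 1 := by
      have h3 := congrArg (uadj σ) hmm'
      rw [un_adj_mul, un_adj_one, hmbar] at h3
      exact h3
    calc uadj σ m' = uadj σ m' * (m * m') := by rw [hmm', mul_one]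
      _ = (uadj σ m' * m) * m' := (mul_assoc _ _ _).symm
      _ = m' := by rw [h1, one_mul]
  obtain ⟨k, hkdef⟩ : ∃ k : Matrix (Fin 6) (Fin 6) F, k = m' ^ 32 := ⟨_, rfl⟩
  have hkK : k ∈ K := hkdef ▸ K.pow_mem hm'K 32
  have hkk : k * k = m' := by rw [hkdef, ← pow_add]; exact six_pow64 hF hK hm'K
  have hkbar : uadj σ k = k := by rw [hkdef, un_adj_pow, hm'bar]
  refine ⟨S * k, hS.mul_mem hK.comm hsq hkK, ?_⟩
  rw [map_mul_equiv]
  calc S.map σ * k.map σ * (S * k) = S.map σ * (k.map σ * S) * k := by simp only [mul_assoc]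
    _ = S.map σ * (S * uadj σ k) * k := by rw [hS.sigma_mul (hbar k hkK)]
    _ = (S.map σ * S) * (k * k) := by rw [hkbar]; simp only [mul_assoc]
    _ = 1 := by rw [hm', hkk, hmm']

/-- The normaliser of the field subalgebra in the special unitary group preserves a normalised
compatible alternating matrix up to scalars. -/
theorem six_action [Fintype F] (h : IsSigma 2 σ) (hF : Fintype.card F = 2 ^ 2)
    {K : Subalgebra F (Matrix (Fin 6) (Fin 6) F)} (hK : IsFieldSubalgebra 3 K)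
    (hbar : ∀ k ∈ K, uadj σ k ∈ K)
    (hE2 : ∀ x : GL (Fin 6) F, (x : Matrix (Fin 6) (Fin 6) F) ∈ K → x ∈ GU 6 F 2 →
      x ∈ specialLinear (Fin 6) F → x ∈ scalars (Fin 6) F)
    {S : Matrix (Fin 6) (Fin 6) F} (hS : SixAlt K S) (hS1 : S.map σ * S = 1)
    (g : GL (Fin 6) F) (hgN : g ∈ subalgebraNormalizer K) (hgU : g ∈ GU 6 F 2)
    (hgS : g ∈ specialLinear (Fin 6) F) :
    ∃ c : F, c ≠ 0 ∧
      (g : Matrix (Fin 6) (Fin 6) F)ᵀ * S * (g : Matrix (Fin 6) (Fin 6) F) = c • S := by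
  classical
  have h2 := six_char_two hF
  have hsq := six_sq hF hK
  obtain ⟨G, hG⟩ : ∃ G : Matrix (Fin 6) (Fin 6) F, G = (g : Matrix (Fin 6) (Fin 6) F) := ⟨_, rfl⟩
  obtain ⟨Gi, hGi⟩ : ∃ Gi : Matrix (Fin 6) (Fin 6) F,
      Gi = ((g⁻¹ : GL (Fin 6) F) : Matrix (Fin 6) (Fin 6) F) := ⟨_, rfl⟩
  have hGGi : G * Gi = 1 := by rw [hG, hGi, val_mul_val_inv]
  have hGiG : Gi * G = 1 := by rw [hG, hGi, val_inv_mul_val]
  have hS0 : S ≠ 0 := by
    rintro rfl
    rw [mul_zero] at hS1
    have h3 := congrFun (congrFun hS1 0) 0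
    simp at h3
  have hU := h.GU_matrix g hgU
  rw [← hG] at hU ⊢
  have hU' : G.map σ * Gᵀ = 1 := mul_eq_one_comm.mp hU
  have hU'' : (G.map σ)ᵀ * G = 1 := by
    have h3 := congrArg Matrix.transpose hU
    rw [Matrix.transpose_mul, Matrix.transpose_transpose, Matrix.transpose_one] at h3
    exact h3
  have hT : SixAlt K (Gᵀ * S * G) := by
    refine ⟨?_, ?_, ?_⟩
    · rw [Matrix.transpose_mul, Matrix.transpose_mul, Matrix.transpose_transpose, hS.symm, mul_assoc]
    · intro x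
      have e1 : x ⬝ᵥ ((Gᵀ * S * G) *ᵥ x) = (G *ᵥ x) ⬝ᵥ (S *ᵥ (G *ᵥ x)) := by
        rw [mul_assoc, ← Matrix.mulVec_mulVec, ← Matrix.mulVec_mulVec, Matrix.dotProduct_mulVec x,
          Matrix.vecMul_transpose]
      rw [e1]
      exact hS.alt _
    · intro k hk
      have hk' : G * k * Gi ∈ K := by
        have h3 := (hgN k).mp hk
        rw [hG, hGi]
        exact h3
      have e1 : G * k = (G * k * Gi) * G := by rw [mul_assoc (G * k), hGiG, mul_one]
      calc kᵀ * (Gᵀ * S * G) = (G * k)ᵀ * S * G := by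
            rw [Matrix.transpose_mul]; simp only [mul_assoc]
        _ = ((G * k * Gi) * G)ᵀ * S * G := by rw [← e1]
        _ = Gᵀ * ((G * k * Gi)ᵀ * S) * G := by
            rw [Matrix.transpose_mul (G * k * Gi) G]; simp only [mul_assoc]
        _ = Gᵀ * (S * (G * k * Gi)) * G := by rw [hS.comp _ hk']
        _ = Gᵀ * S * ((G * k * Gi) * G) := by simp only [mul_assoc]
        _ = Gᵀ * S * G * k := by rw [← e1]; simp only [mul_assoc]
  obtain ⟨d, hd, hTd⟩ := six_eq_mul hK hsq hS hT hS0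
  have hdd : uadj σ d * d = 1 := by
    have h1 : (Gᵀ * S * G).map σ * (Gᵀ * S * G) = 1 := by
      rw [map_mul_equiv, map_mul_equiv]
      calc (Gᵀ).map σ * S.map σ * G.map σ * (Gᵀ * S * G)
          = (Gᵀ).map σ * S.map σ * (G.map σ * Gᵀ) * S * G := by simp only [mul_assoc]
        _ = (Gᵀ).map σ * (S.map σ * S) * G := by rw [hU', mul_one]; simp only [mul_assoc]
        _ = 1 := by rw [hS1, mul_one, Matrix.transpose_map, hU'']
    rw [hTd, map_mul_equiv] at h1
    calc uadj σ d * d = (S.map σ * S) * (uadj σ d * d) := by rw [hS1, one_mul]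
      _ = S.map σ * (S * uadj σ d) * d := by simp only [mul_assoc]
      _ = S.map σ * (d.map σ * S) * d := by rw [hS.sigma_mul (hbar d hd)]
      _ = S.map σ * d.map σ * (S * d) := by simp only [mul_assoc]
      _ = 1 := h1
  obtain ⟨e, hedef⟩ : ∃ e : Matrix (Fin 6) (Fin 6) F, e = d ^ 32 := ⟨_, rfl⟩
  have heK : e ∈ K := hedef ▸ K.pow_mem hd 32
  have hee : e * e = d := by rw [hedef, ← pow_add]; exact six_pow64 hF hK hd
  have hebar : uadj σ e * e = 1 := by
    rw [hedef, un_adj_pow,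
      ← (show Commute (uadj σ d) d from hK.comm _ (hbar d hd) _ hd).mul_pow, hdd, one_pow]
  have hee' : e * uadj σ e = 1 := by rw [hK.comm e heK _ (hbar e heK)]; exact hebar
  obtain ⟨eg, heg⟩ : ∃ eg : GL (Fin 6) F, (eg : Matrix (Fin 6) (Fin 6) F) = e :=
    ⟨⟨e, uadj σ e, hee', hebar⟩, rfl⟩
  have hegU : eg ∈ GU 6 F 2 := by
    rw [IsSigma.mem_GU_iff]
    intro u v
    rw [heg, un_adj_spec h, Matrix.mulVec_mulVec, hebar, Matrix.one_mulVec]
  have hTe : Gᵀ * S * G = eᵀ * S * e := by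
    rw [hTd, ← hee, ← mul_assoc, ← hS.comp e heK]
  have hdetS : S.det ≠ 0 := by
    intro h0
    have h3 := congrArg Matrix.det hS1
    rw [Matrix.det_mul, h0, mul_zero, Matrix.det_one] at h3
    exact zero_ne_one h3
  have hdetG : G.det = 1 := by rw [hG]; exact (mem_specialLinear_iff g).mp hgS
  have hdete : e.det = 1 := by
    have h1 := congrArg Matrix.det hTe
    rw [Matrix.det_mul, Matrix.det_mul, Matrix.det_transpose, hdetG, Matrix.det_mul, Matrix.det_mul,
      Matrix.det_transpose, one_mul, mul_one] at h1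
    have h3 : (e.det * e.det - 1) * S.det = 0 := by linear_combination -h1
    have h4 : e.det * e.det = 1 := sub_eq_zero.mp ((mul_eq_zero.mp h3).resolve_right hdetS)
    have h5 : (e.det - 1) * (e.det - 1) = 0 := by linear_combination h4 + (1 - e.det) * h2
    exact sub_eq_zero.mp (mul_self_eq_zero.mp h5)
  have hegS : eg ∈ specialLinear (Fin 6) F := by
    rw [mem_specialLinear_iff, heg]
    exact hdete
  have hsc := hE2 eg (by rw [heg]; exact heK) hegU hegS
  obtain ⟨c, hc⟩ := (mem_scalars_iff eg).mp hsc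
  rw [heg] at hc
  refine ⟨(c : F) * (c : F), mul_ne_zero c.ne_zero c.ne_zero, ?_⟩
  rw [hTd, ← hee, hc, Matrix.smul_mul, one_mul, Matrix.mul_smul, Matrix.mul_smul, mul_one, smul_smul]

end Cfsg.Agent.Helper35
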