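-- helper35 library: the normaliser in SU_6(2) of an adjoint-closed field subalgebra of degree three
-- lies in a subfield group of symplectic type (final statement).
import Cfsg.Agent.Helper35.UnSix2

set_option autoImplicit false
set_option linter.unusedSectionVars false
set_option linter.unusedVariables false
open Cfsg Cfsg.Geo Matrix

namespace Cfsg.Agent.Helper35

open Cfsg.Agent.Helper97

variable {F : Type*} [Field F] {n : ℕ} {q : ℕ} {σ : F ≃+* F}

/-- Lang's theorem for the general linear group and the involution `σ`. -/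
theorem six_lang (h : IsSigma q σ) [NeZero n] (C : Matrix (Fin n) (Fin n) F)
    (hC1 : C * C.map σ = 1) :
    ∃ P : GL (Fin n) F, C * (P : Matrix (Fin n) (Fin n) F).map σ = (P : Matrix (Fin n) (Fin n) F) := by
  classical
  obtain ⟨J, hJ⟩ : ∃ J : (Fin n → F) → (Fin n → F), ∀ v, J v = C *ᵥ (fun i => σ (v i)) :=
    ⟨_, fun _ => rfl⟩
  have hJJ : ∀ v, J (J v) = v := by
    intro v
    rw [hJ, hJ, sigma_mulVec, Matrix.mulVec_mulVec, hC1]
    simp [h.inv]
  have hJadd : ∀ v w, J (v + w) = J v + J w := by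
    intro v w
    rw [hJ, hJ, hJ, ← Matrix.mulVec_add]
    congr 1
    funext i
    simp
  have hJsmul : ∀ (a : F) v, J (a • v) = σ a • J v := by
    intro a v
    rw [hJ, hJ, ← Matrix.mulVec_smul]
    congr 1
    funext i
    simp
  obtain ⟨θ, hθ⟩ := h.exists_ne
  obtain ⟨Vfix, hVfix⟩ : ∃ Vfix : Set (Fin n → F), ∀ v, v ∈ Vfix ↔ J v = v :=
    ⟨{v | J v = v}, fun _ => Iff.rfl⟩
  have hspan : Submodule.span F Vfix = ⊤ := by
    rw [eq_top_iff]
    intro v _
    have ha : v + J v ∈ Vfix := by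
      rw [hVfix, hJadd, hJJ, add_comm]
    have hb : θ • v + σ θ • J v ∈ Vfix := by
      rw [hVfix, hJadd, hJsmul, hJsmul, hJJ, h.inv, add_comm]
    have hne : σ θ - θ ≠ 0 := sub_ne_zero.mpr hθ
    have e : v = (σ θ - θ)⁻¹ • (σ θ • (v + J v) - (θ • v + σ θ • J v)) := by
      have e1 : σ θ • (v + J v) - (θ • v + σ θ • J v) = (σ θ - θ) • v := by
        rw [smul_add, sub_smul]
        abel
      rw [e1, smul_smul, inv_mul_cancel₀ hne, one_smul]
    rw [e]
    exact Submodule.smul_mem _ _ (Submodule.sub_mem _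
      (Submodule.smul_mem _ _ (Submodule.subset_span ha)) (Submodule.subset_span hb))
  obtain ⟨f, hf, -, hli⟩ := Submodule.exists_fun_fin_finrank_span_eq F Vfix
  have hd : Module.finrank F (Submodule.span F Vfix) = n := by
    rw [hspan, finrank_top, Module.finrank_fin_fun]
  obtain ⟨f', hf'⟩ : ∃ f' : Fin n → (Fin n → F), f' = fun i => f (Fin.cast hd.symm i) := ⟨_, rfl⟩
  have hli' : LinearIndependent F f' := by
    rw [hf']
    exact hli.comp _ (Fin.cast_injective _)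
  have hf'fix : ∀ j, J (f' j) = f' j := by
    intro j
    have h1 := (hVfix _).mp (hf (Fin.cast hd.symm j))
    rw [hf']
    exact h1
  obtain ⟨Pmat, hPmat⟩ : ∃ Pmat : Matrix (Fin n) (Fin n) F, Pmat = Matrix.of (fun i j => f' j i) :=
    ⟨_, rfl⟩
  have hcol : Pmat.col = f' := by
    funext j i
    rw [hPmat]
    rfl
  have hPu : IsUnit Pmat := by
    rw [← Matrix.linearIndependent_cols_iff_isUnit, hcol]
    exact hli'
  have hPdet : Pmat.det ≠ 0 := ((Matrix.isUnit_iff_isUnit_det Pmat).mp hPu).ne_zero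
  refine ⟨Matrix.GeneralLinearGroup.mkOfDetNeZero Pmat hPdet, ?_⟩
  show C * Pmat.map σ = Pmat
  ext i j
  have h1 := congrFun (hf'fix j) i
  rw [hJ] at h1
  have e : (C * Pmat.map σ) i j = (C *ᵥ (fun k => σ (f' j k))) i := by
    rw [hPmat]
    rfl
  rw [e, h1, hPmat]
  rfl

/-- An element whose conjugate has all entries in the subfield lies in the subfield group. -/
theorem six_mem_subfield (F₁ : Subfield F) (P g : GL (Fin n) F)
    (h : ∀ i j, ((P⁻¹ * g * P : GL (Fin n) F) : Matrix (Fin n) (Fin n) F) i j ∈ F₁) :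
    g ∈ subfieldSubgroup F₁ P := by
  obtain ⟨X₁, hX₁⟩ : ∃ X₁ : Matrix (Fin n) (Fin n) F₁,
      ((P⁻¹ * g * P : GL (Fin n) F) : Matrix (Fin n) (Fin n) F) = X₁.map F₁.subtype :=
    ⟨Matrix.of (fun i j => (⟨_, h i j⟩ : F₁)), by ext i j; rfl⟩
  have hdetX : ((P⁻¹ * g * P : GL (Fin n) F) : Matrix (Fin n) (Fin n) F).det ≠ 0 := by
    have h1 := congrArg Matrix.det (val_mul_val_inv (P⁻¹ * g * P))
    rw [Matrix.det_mul, Matrix.det_one] at h1
    exact left_ne_zero_of_mul_eq_one h1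
  have hdet1 : X₁.det ≠ 0 := by
    intro h0
    apply hdetX
    have : (X₁.map F₁.subtype).det = F₁.subtype X₁.det := (RingHom.map_det F₁.subtype X₁).symm
    rw [hX₁, this, h0, map_zero]
  obtain ⟨g₀, hg₀⟩ : ∃ g₀ : GL (Fin n) F₁, (g₀ : Matrix (Fin n) (Fin n) F₁) = X₁ :=
    ⟨Matrix.GeneralLinearGroup.mkOfDetNeZero X₁ hdet1, rfl⟩
  have hprod : P⁻¹ * g * P = Matrix.GeneralLinearGroup.map (F₁.subtype : F₁ →+* F) g₀ := by
    apply Units.ext
    rw [hX₁, ← hg₀]
    rfl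
  rw [subfieldSubgroup, Subgroup.mem_map]
  refine ⟨P⁻¹ * g * P, ?_, ?_⟩
  · rw [hprod]
    exact Subgroup.mem_sup_left ⟨g₀, rfl⟩
  · simp only [MulEquiv.coe_toMonoidHom, MulAut.conj_apply]
    group

/-- Scalars lie in every subfield group. -/
theorem six_scalar_mem_subfield (F₁ : Subfield F) (P z : GL (Fin n) F) (hz : z ∈ scalars (Fin n) F) :
    z ∈ subfieldSubgroup F₁ P := by
  rw [subfieldSubgroup, Subgroup.mem_map]
  refine ⟨z, Subgroup.mem_sup_right hz, ?_⟩
  simp only [MulEquiv.coe_toMonoidHom, MulAut.conj_apply]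
  have h2 : z * P⁻¹ = P⁻¹ * z := Helper97.scalars_comm hz P⁻¹
  rw [mul_assoc, h2, ← mul_assoc, mul_inv_cancel, one_mul]

/-- In `SU_6(2)`, the normaliser of an adjoint-closed field subalgebra of degree three lies in a
subfield group of symplectic type (given that the elements of the field subalgebra lying in the special
unitary group are scalars). -/
theorem six_field_le_subfield [Fintype F] (hF : Fintype.card F = 2 ^ 2)
    (K : Subalgebra F (Matrix (Fin 6) (Fin 6) F)) (hK : IsFieldSubalgebra 3 K)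
    (hadj : IsAdjointClosedFor (hermForm 6 F 2) K)
    (hE2 : ∀ x : GL (Fin 6) F, (x : Matrix (Fin 6) (Fin 6) F) ∈ K → x ∈ GU 6 F 2 →
      x ∈ specialLinear (Fin 6) F → x ∈ scalars (Fin 6) F) :
    ∃ (F₀ : Subfield F) (P : GL (Fin 6) F) (ζ : F), Fintype.card F = Nat.card F₀ ^ 2 ∧ ζ ≠ 0 ∧
      ζ + ζ ^ 2 = 0 ∧ IsFormRationalStructure (hermForm 6 F 2) F₀ ζ P ∧
      (∀ u : Fin 6 → F, (∀ i, u i ∈ F₀) →
        hermForm 6 F 2 ((P : Matrix (Fin 6) (Fin 6) F) *ᵥ u)
          ((P : Matrix (Fin 6) (Fin 6) F) *ᵥ u) = 0) ∧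
      subalgebraNormalizer K ⊓ (GU 6 F 2 ⊓ specialLinear (Fin 6) F) ≤ subfieldSubgroup F₀ P := by
  classical
  obtain ⟨σ, h⟩ := exists_sigma hF
  have hch := six_charP hF
  have h2 := six_char_two hF
  have : Fact (Nat.Prime 2) := ⟨Nat.prime_two⟩
  have hbar := six_bar h hadj
  obtain ⟨S, hS, hS1⟩ := six_normalise h hF hK hbar
  have hC1 : S.map σ * (S.map σ).map σ = 1 := by rw [h.map_sigma_sigma]; exact hS1
  obtain ⟨P, hP⟩ := six_lang h (S.map σ) hC1
  obtain ⟨Pm, hPm⟩ : ∃ Pm : Matrix (Fin 6) (Fin 6) F, Pm = (P : Matrix (Fin 6) (Fin 6) F) :=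
    ⟨_, rfl⟩
  obtain ⟨Pi, hPi⟩ : ∃ Pi : Matrix (Fin 6) (Fin 6) F,
      Pi = ((P⁻¹ : GL (Fin 6) F) : Matrix (Fin 6) (Fin 6) F) := ⟨_, rfl⟩
  rw [← hPm] at hP
  have hPσ : Pm.map σ = S * Pm := by
    have h1 := congrArg (fun X : Matrix (Fin 6) (Fin 6) F => X.map σ) hP
    simp only [map_mul_equiv, h.map_sigma_sigma] at h1
    exact h1.symm
  have hPiP : Pi * Pm = 1 := by rw [hPi, hPm, val_inv_mul_val]
  have hPPi : Pm * Pi = 1 := by rw [hPi, hPm, val_mul_val_inv]
  have hσ1 : (1 : Matrix (Fin 6) (Fin 6) F).map σ = 1 := Matrix.map_one _ (map_zero σ) (map_one σ)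
  have hPiσ : Pi.map σ * S = Pi := by
    have h1 : Pi.map σ * (S * Pm) = 1 := by rw [← hPσ, ← map_mul_equiv, hPiP, hσ1]
    calc Pi.map σ * S = Pi.map σ * S * (Pm * Pi) := by rw [hPPi, mul_one]
      _ = (Pi.map σ * (S * Pm)) * Pi := by simp only [mul_assoc]
      _ = Pi := by rw [h1, one_mul]
  have hmem : ∀ x : F, x ∈ (⊥ : Subfield F) ↔ σ x = x := by
    intro x
    rw [Subfield.mem_bot_iff_pow_eq_self F 2, h.pow]
  have hcard : Nat.card (⊥ : Subfield F) = 2 := Subfield.card_bot F 2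
  have hform : ∀ u v : Fin 6 → F, (∀ i, v i ∈ (⊥ : Subfield F)) →
      hermForm 6 F 2 (Pm *ᵥ u) (Pm *ᵥ v) = (Pm *ᵥ u) ⬝ᵥ (S *ᵥ (Pm *ᵥ v)) := by
    intro u v hv
    have hv' : (fun i => σ (v i)) = v := funext fun i => (hmem _).mp (hv i)
    rw [h.herm_eq]
    have h1 := sigma_mulVec σ Pm v
    rw [hv', hPσ] at h1
    show (Pm *ᵥ u) ⬝ᵥ (fun i => σ ((Pm *ᵥ v) i)) = _
    rw [h1, Matrix.mulVec_mulVec]
  refine ⟨⊥, P, 1, ?_, one_ne_zero, ?_, ?_, ?_, ?_⟩
  · rw [hcard, hF]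
  · rw [one_pow, one_add_one_eq_two]
    exact h2
  · intro u v hu hv
    rw [one_mul, hmem, ← hPm, ← h.herm_symm, hform v u hu, hform u v hv, hS.form_symm]
  · intro u hu
    rw [← hPm, hform u u hu]
    exact hS.alt _
  · rintro g ⟨hgN, hgU, hgS⟩
    obtain ⟨c, hc0, hgc⟩ := six_action h hF hK hbar hE2 hS hS1 g hgN hgU hgS
    obtain ⟨G, hG⟩ : ∃ G : Matrix (Fin 6) (Fin 6) F, G = (g : Matrix (Fin 6) (Fin 6) F) :=
      ⟨_, rfl⟩
    rw [← hG] at hgc
    have hU := h.GU_matrix g hgU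
    rw [← hG] at hU
    have hU' : G.map σ * Gᵀ = 1 := mul_eq_one_comm.mp hU
    have hSG : S * G = c • (G.map σ * S) := by
      calc S * G = (G.map σ * Gᵀ) * S * G := by rw [hU', one_mul]
        _ = G.map σ * (Gᵀ * S * G) := by simp only [mul_assoc]
        _ = c • (G.map σ * S) := by rw [hgc, Matrix.mul_smul]
    obtain ⟨z, hz⟩ : ∃ z : GL (Fin 6) F, z = Units.map
        (Matrix.scalar (Fin 6) : F →+* Matrix (Fin 6) (Fin 6) F).toMonoidHom (Units.mk0 c hc0) :=
      ⟨_, rfl⟩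
    have hzs : z ∈ scalars (Fin 6) F := by
      rw [hz]
      exact ⟨Units.mk0 c hc0, rfl⟩
    have hzval : (z : Matrix (Fin 6) (Fin 6) F) = c • (1 : Matrix (Fin 6) (Fin 6) F) := by
      rw [hz]
      show Matrix.scalar (Fin 6) c = c • (1 : Matrix (Fin 6) (Fin 6) F)
      rw [Matrix.scalar_apply, Matrix.smul_one_eq_diagonal]
    have hgz : g * z ∈ subfieldSubgroup (⊥ : Subfield F) P := by
      apply six_mem_subfield
      intro i j
      have hY : ((P⁻¹ * (g * z) * P : GL (Fin 6) F) : Matrix (Fin 6) (Fin 6) F)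
          = c • (Pi * G * Pm) := by
        rw [Units.val_mul, Units.val_mul, Units.val_mul, hzval, ← hPi, ← hPm, ← hG,
          Matrix.mul_smul, mul_one, Matrix.mul_smul, Matrix.smul_mul]
      rw [hY, hmem]
      have hYσ : (c • (Pi * G * Pm)).map σ = c • (Pi * G * Pm) := by
        rw [map_smul_sigma, map_mul_equiv, map_mul_equiv, hPσ]
        have hGσ : G.map σ * S = c⁻¹ • (S * G) := by
          rw [hSG, smul_smul, inv_mul_cancel₀ hc0, one_smul]
        calc σ c • (Pi.map σ * G.map σ * (S * Pm))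
            = σ c • (Pi.map σ * (G.map σ * S) * Pm) := by simp only [mul_assoc]
          _ = σ c • (Pi.map σ * (c⁻¹ • (S * G)) * Pm) := by rw [hGσ]
          _ = (σ c * c⁻¹) • ((Pi.map σ * S) * G * Pm) := by
              rw [Matrix.mul_smul, Matrix.smul_mul, smul_smul]
              simp only [mul_assoc]
          _ = c • (Pi * G * Pm) := by
              rw [hPiσ, h.pow, pow_two, mul_assoc, mul_inv_cancel₀ hc0, mul_one]
      have h3 := congrFun (congrFun hYσ i) j
      rw [Matrix.map_apply] at h3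
      exact h3
    have hzm := six_scalar_mem_subfield (⊥ : Subfield F) P z hzs
    have e : g = (g * z) * z⁻¹ := by group
    rw [e]
    exact Subgroup.mul_mem _ hgz (Subgroup.inv_mem _ hzm)

end Cfsg.Agent.Helper35
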