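-- helper35 library: the fixed subfield of the involution; unitary groups of similarities of a
-- normalised symmetric bilinear form lie in subfield groups.
import Cfsg.Agent.Helper35.UnG5
import Cfsg.Agent.Helper35.UnSix3

set_option autoImplicit false
set_option linter.unusedSectionVars false
set_option linter.unusedVariables false
open Cfsg Cfsg.Geo Matrix
open scoped Kronecker

namespace Cfsg.Agent.Helper35

open Cfsg.Agent.Helper97

variable {F : Type*} [Field F] {n : ℕ} {q : ℕ} {σ : F ≃+* F}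

/-- The fixed subfield of the involution has index two. -/
theorem un_exists_fixed_subfield [Fintype F] (h : IsSigma q σ) (hF : Fintype.card F = q ^ 2) :
    ∃ F₀ : Subfield F, (∀ x, x ∈ F₀ ↔ σ x = x) ∧ Fintype.card F = Nat.card F₀ ^ 2 := by
  classical
  obtain ⟨p, hchar⟩ := CharP.exists F
  have hp : p.Prime :=
    (CharP.char_is_prime_or_zero F p).resolve_right (CharP.char_ne_zero_of_finite F p)
  have hfact : Fact p.Prime := ⟨hp⟩
  obtain ⟨a, ha⟩ := un_q_eq_pow hF p
  have hbot : ∀ x : F, x ∈ (⊥ : Subfield F) → σ x = x := by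
    intro x hx
    rw [Subfield.mem_bot_iff_pow_eq_self F p] at hx
    rw [h.pow, ha]
    clear ha
    induction a with
    | zero => rw [pow_zero, pow_one]
    | succ a ih => rw [pow_succ, pow_mul, ih, hx]
  obtain ⟨τ, hτ⟩ : ∃ τ : F ≃ₐ[(⊥ : Subfield F)] F, ∀ x, τ x = σ x :=
    ⟨{ σ with commutes' := fun x => hbot _ x.2 }, fun x => rfl⟩
  have hτ2 : τ ^ 2 = 1 := by
    ext x
    rw [pow_two, AlgEquiv.mul_apply, hτ, hτ, h.inv]
    rfl
  have hτ1 : τ ≠ 1 := by
    intro h1
    obtain ⟨d, hd⟩ := h.exists_ne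
    apply hd
    rw [← hτ, h1]
    rfl
  haveI : Fact (Nat.Prime 2) := ⟨Nat.prime_two⟩
  have hord : orderOf τ = 2 := orderOf_eq_prime hτ2 hτ1
  obtain ⟨H, hH⟩ : ∃ H : Subgroup (F ≃ₐ[(⊥ : Subfield F)] F), H = Subgroup.zpowers τ := ⟨_, rfl⟩
  have hHcard : Nat.card H = 2 := by rw [hH, Nat.card_zpowers, hord]
  obtain ⟨E, hE⟩ : ∃ E : IntermediateField (⊥ : Subfield F) F, E = IntermediateField.fixedField H :=
    ⟨_, rfl⟩
  have hfin : Module.finrank E F = 2 := by
    rw [hE, IntermediateField.finrank_fixedField_eq_card, hHcard]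
  refine ⟨E.toSubfield, ?_, ?_⟩
  · intro x
    have h1 : x ∈ E.toSubfield ↔ x ∈ E := Iff.rfl
    rw [h1, hE, IntermediateField.mem_fixedField_iff]
    constructor
    · intro hx
      rw [← hτ]
      exact hx τ (by rw [hH]; exact Subgroup.mem_zpowers τ)
    · intro hx g hg
      rw [hH, Subgroup.mem_zpowers_iff] at hg
      obtain ⟨k, rfl⟩ := hg
      have hτx : τ x = x := by rw [hτ]; exact hx
      have hτix : τ⁻¹ x = x := by
        have : τ⁻¹ (τ x) = x := by
          rw [← AlgEquiv.mul_apply, inv_mul_cancel]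
          rfl
        rw [hτx] at this
        exact this
      induction k using Int.induction_on with
      | zero => rfl
      | succ k ih => rw [_root_.zpow_add_one, AlgEquiv.mul_apply, hτx, ih]
      | pred k ih => rw [_root_.zpow_sub_one, AlgEquiv.mul_apply, hτix, ih]
  · haveI : Fintype E := Fintype.ofFinite _
    have h1 : Fintype.card F = Fintype.card E ^ Module.finrank E F := Module.card_eq_pow_finrank
    rw [h1, hfin, ← Nat.card_eq_fintype_card]
    rfl

/-- Hilbert 90 for the involution. -/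
theorem un_hilbert90 (h : IsSigma q σ) (c : F) (hc : c * σ c = 1) : ∃ μ : F, μ ≠ 0 ∧ σ μ = c * μ := by
  by_cases hc1 : c = -1
  · obtain ⟨μ, hμ0, hμ⟩ := h.exists_trace_zero
    exact ⟨μ, hμ0, by rw [hμ, hc1]; ring⟩
  · refine ⟨1 + σ c, ?_, ?_⟩
    · intro h0
      apply hc1
      have h1 : σ c = -1 := by linear_combination h0
      have h2 : σ (σ c) = σ (-1) := by rw [h1]
      rw [h.inv, map_neg, map_one] at h2
      exact h2
    · rw [map_add, map_one, h.inv]
      linear_combination -hc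

/-- A unitary group of similarities of a normalised symmetric bilinear form (alternating in
characteristic two) lies in a subfield group carrying the form. -/
theorem un_sim_sub [Fintype F] [NeZero n] (h : IsSigma q σ) (hF : Fintype.card F = q ^ 2)
    (S : Matrix (Fin n) (Fin n) F) (hS1 : S.map σ * S = 1) (hsym : Sᵀ = S)
    (halt : (2 : F) = 0 → ∀ x : Fin n → F, x ⬝ᵥ (S *ᵥ x) = 0)
    (H : Subgroup (GL (Fin n) F)) (hH : H ≤ GU n F q)
    (hsim : ∀ g ∈ H, ∃ c : F,
      (g : Matrix (Fin n) (Fin n) F)ᵀ * S * (g : Matrix (Fin n) (Fin n) F) = c • S) :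
    UnSubOut n F q H := by
  classical
  obtain ⟨F₀, hmem, hcard⟩ := un_exists_fixed_subfield h hF
  have hC1 : S.map σ * (S.map σ).map σ = 1 := by rw [h.map_sigma_sigma]; exact hS1
  have hS2 : S * S.map σ = 1 := mul_eq_one_comm.mp hS1
  obtain ⟨P, hP⟩ := six_lang h (S.map σ) hC1
  obtain ⟨Pm, hPm⟩ : ∃ Pm : Matrix (Fin n) (Fin n) F, Pm = (P : Matrix (Fin n) (Fin n) F) :=
    ⟨_, rfl⟩
  obtain ⟨Pi, hPi⟩ : ∃ Pi : Matrix (Fin n) (Fin n) F,
      Pi = ((P⁻¹ : GL (Fin n) F) : Matrix (Fin n) (Fin n) F) := ⟨_, rfl⟩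
  rw [← hPm] at hP
  have hPσ : Pm.map σ = S * Pm := by
    have h1 := congrArg (fun X : Matrix (Fin n) (Fin n) F => X.map σ) hP
    simp only [map_mul_equiv, h.map_sigma_sigma] at h1
    exact h1.symm
  have hPiP : Pi * Pm = 1 := by rw [hPi, hPm, val_inv_mul_val]
  have hPPi : Pm * Pi = 1 := by rw [hPi, hPm, val_mul_val_inv]
  have hσ1 : (1 : Matrix (Fin n) (Fin n) F).map σ = 1 := Matrix.map_one _ (map_zero σ) (map_one σ)
  have hPiσ : Pi.map σ * S = Pi := by
    have h1 : Pi.map σ * (S * Pm) = 1 := by rw [← hPσ, ← map_mul_equiv, hPiP, hσ1]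
    calc Pi.map σ * S = Pi.map σ * S * (Pm * Pi) := by rw [hPPi, mul_one]
      _ = (Pi.map σ * (S * Pm)) * Pi := by simp only [mul_assoc]
      _ = Pi := by rw [h1, one_mul]
  have hform : ∀ u v : Fin n → F, (∀ i, v i ∈ F₀) →
      hermForm n F q (Pm *ᵥ u) (Pm *ᵥ v) = (Pm *ᵥ u) ⬝ᵥ (S *ᵥ (Pm *ᵥ v)) := by
    intro u v hv
    have hv' : (fun i => σ (v i)) = v := funext fun i => (hmem _).mp (hv i)
    rw [h.herm_eq]
    have h1 := sigma_mulVec σ Pm v
    rw [hv', hPσ] at h1
    show (Pm *ᵥ u) ⬝ᵥ (fun i => σ ((Pm *ᵥ v) i)) = _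
    rw [h1, Matrix.mulVec_mulVec]
  have hSsymm : ∀ x y : Fin n → F, x ⬝ᵥ (S *ᵥ y) = y ⬝ᵥ (S *ᵥ x) := by
    intro x y
    rw [Matrix.dotProduct_mulVec, ← Matrix.mulVec_transpose, hsym, dotProduct_comm]
  have hrat : IsFormRationalStructure (hermForm n F q) F₀ 1 P := by
    intro u v hu hv
    rw [one_mul, hmem, ← hPm, ← h.herm_symm, hform v u hu, hform u v hv]
    exact hSsymm _ _
  have hle : H ≤ subfieldSubgroup F₀ P := by
    intro g hg
    obtain ⟨c, hgc⟩ := hsim g hg
    obtain ⟨G, hG⟩ : ∃ G : Matrix (Fin n) (Fin n) F, G = (g : Matrix (Fin n) (Fin n) F) :=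
      ⟨_, rfl⟩
    rw [← hG] at hgc
    have hU := h.GU_matrix g (hH hg)
    rw [← hG] at hU
    have hU' : G.map σ * Gᵀ = 1 := mul_eq_one_comm.mp hU
    have hSG : S * G = c • (G.map σ * S) := by
      calc S * G = (G.map σ * Gᵀ) * S * G := by rw [hU', one_mul]
        _ = G.map σ * (Gᵀ * S * G) := by simp only [mul_assoc]
        _ = c • (G.map σ * S) := by rw [hgc, Matrix.mul_smul]
    have hGdet : G.det ≠ 0 := by
      rw [hG]
      exact (Matrix.GeneralLinearGroup.det g).ne_zero
    have hG0 : G ≠ 0 := by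
      intro h0
      apply hGdet
      rw [h0]
      haveI : Nonempty (Fin n) := ⟨0⟩
      exact Matrix.det_zero
    have hc0 : c ≠ 0 := by
      rintro rfl
      rw [zero_smul] at hSG
      apply hG0
      calc G = (S.map σ * S) * G := by rw [hS1, one_mul]
        _ = S.map σ * (S * G) := by rw [mul_assoc]
        _ = 0 := by rw [hSG, mul_zero]
    have hcc : c * σ c = 1 := by
      have h1 : (S * G).map σ = (c • (G.map σ * S)).map σ := by rw [hSG]
      rw [map_mul_equiv, map_smul_sigma, map_mul_equiv, h.map_sigma_sigma] at h1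
      have h2 : S.map σ * (S * G) = G := by rw [← mul_assoc, hS1, one_mul]
      have h3 : S * (S.map σ * G.map σ) = G.map σ := by rw [← mul_assoc, hS2, one_mul]
      have h4 : G.map σ = σ c • (S * G * S.map σ) := by
        rw [← h3, h1, Matrix.mul_smul]
        simp only [mul_assoc]
      have h5 : S * G * S.map σ = c • G.map σ := by
        rw [hSG, Matrix.smul_mul, mul_assoc, hS2, mul_one]
      rw [h5, smul_smul] at h4
      have hGσ0 : G.map σ ≠ 0 := by
        intro h0
        apply hG0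
        rw [← h.map_sigma_sigma G, h0]
        ext i j
        simp
      obtain ⟨i, j, hij⟩ : ∃ i j, (G.map σ) i j ≠ 0 := by
        by_contra hcon
        push Not at hcon
        exact hGσ0 (by ext i j; exact hcon i j)
      have h6 := congrFun (congrFun h4 i) j
      rw [Matrix.smul_apply, smul_eq_mul] at h6
      have h7 : (σ c * c - 1) * (G.map σ) i j = 0 := by linear_combination -h6
      rcases mul_eq_zero.mp h7 with h8 | h8
      · linear_combination h8
      · exact absurd h8 hij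
    have hcc' : c⁻¹ * σ c⁻¹ = 1 := by
      rw [map_inv₀, ← mul_inv, hcc, inv_one]
    obtain ⟨μ, hμ0, hμ⟩ := un_hilbert90 h c hcc
    obtain ⟨z, hz⟩ : ∃ z : GL (Fin n) F, z = Units.map
        (Matrix.scalar (Fin n) : F →+* Matrix (Fin n) (Fin n) F).toMonoidHom (Units.mk0 μ hμ0) :=
      ⟨_, rfl⟩
    have hzs : z ∈ scalars (Fin n) F := by
      rw [hz]
      exact ⟨Units.mk0 μ hμ0, rfl⟩
    have hzval : (z : Matrix (Fin n) (Fin n) F) = μ • (1 : Matrix (Fin n) (Fin n) F) := by
      rw [hz]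
      show Matrix.scalar (Fin n) μ = μ • (1 : Matrix (Fin n) (Fin n) F)
      rw [Matrix.scalar_apply, Matrix.smul_one_eq_diagonal]
    have hgz : g * z ∈ subfieldSubgroup F₀ P := by
      apply six_mem_subfield
      intro i j
      have hY : ((P⁻¹ * (g * z) * P : GL (Fin n) F) : Matrix (Fin n) (Fin n) F)
          = μ • (Pi * G * Pm) := by
        rw [Units.val_mul, Units.val_mul, Units.val_mul, hzval, ← hPi, ← hPm, ← hG,
          Matrix.mul_smul, mul_one, Matrix.mul_smul, Matrix.smul_mul]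
      rw [hY, hmem]
      have hYσ : (μ • (Pi * G * Pm)).map σ = μ • (Pi * G * Pm) := by
        rw [map_smul_sigma, map_mul_equiv, map_mul_equiv, hPσ]
        have hGσ : G.map σ * S = c⁻¹ • (S * G) := by
          rw [hSG, smul_smul, inv_mul_cancel₀ hc0, one_smul]
        calc σ μ • (Pi.map σ * G.map σ * (S * Pm))
            = σ μ • (Pi.map σ * (G.map σ * S) * Pm) := by simp only [mul_assoc]
          _ = σ μ • (Pi.map σ * (c⁻¹ • (S * G)) * Pm) := by rw [hGσ]
          _ = (σ μ * c⁻¹) • ((Pi.map σ * S) * G * Pm) := by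
              rw [Matrix.mul_smul, Matrix.smul_mul, smul_smul]
              simp only [mul_assoc]
          _ = μ • (Pi * G * Pm) := by
              rw [hPiσ, hμ, mul_comm c μ, mul_assoc, mul_inv_cancel₀ hc0, mul_one]
      have h3 := congrFun (congrFun hYσ i) j
      rw [Matrix.map_apply] at h3
      exact h3
    have hzm := six_scalar_mem_subfield F₀ P z hzs
    have e : g = (g * z) * z⁻¹ := by group
    rw [e]
    exact Subgroup.mul_mem _ hgz (Subgroup.inv_mem _ hzm)
  refine ⟨F₀, 2, P, Nat.prime_two, hcard, hle, ?_⟩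
  by_cases h2 : (2 : F) = 0
  · right
    refine ⟨rfl, 1, one_ne_zero, ?_, hrat, ?_⟩
    · rw [one_pow, one_add_one_eq_two]
      exact h2
    · intro u hu
      rw [← hPm, hform u u hu]
      exact halt h2 _
  · left
    refine ⟨hrat, Or.inr ⟨rfl, ?_⟩⟩
    obtain ⟨p, hchar⟩ := CharP.exists F
    have hp : p.Prime :=
      (CharP.char_is_prime_or_zero F p).resolve_right (CharP.char_ne_zero_of_finite F p)
    have hfact : Fact p.Prime := ⟨hp⟩
    obtain ⟨a, ha⟩ := un_q_eq_pow hF p
    rw [ha]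
    apply Odd.pow
    rcases hp.eq_two_or_odd' with h' | h'
    · exfalso
      apply h2
      have h3 := CharP.cast_eq_zero F p
      rw [h'] at h3
      exact_mod_cast h3
    · exact h'

end Cfsg.Agent.Helper35
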