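-- helper35 library: tensor decompositions of the standard unitary form: standard coordinates,
-- unitary factors, tensor squares and the case of two planes.
import Cfsg.Agent.Helper35.UnG6
import Cfsg.Agent.Helper96.TensorTwo
import Cfsg.Agent.Helper96.TensorWreath

set_option autoImplicit false
set_option linter.unusedSectionVars false
set_option linter.unusedVariables false
open Cfsg Cfsg.Geo Matrix
open scoped Kronecker

namespace Cfsg.Agent.Helper35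

open Cfsg.Agent.Helper97

variable {F : Type*} [Field F] {n : ℕ} {q : ℕ} {σ : F ≃+* F}

/-- Tensor coordinates can be changed so that the coordinate change is unitary. -/
theorem un_tensor_std [Fintype F] (h : IsSigma q σ) (hF : Fintype.card F = q ^ 2) {n₁ n₂ : ℕ}
    (e : Fin n ≃ Fin n₁ × Fin n₂) (P : GL (Fin n) F)
    (A : Matrix (Fin n₁) (Fin n₁) F) (S : Matrix (Fin n₂) (Fin n₂) F)
    (hA : Aᵀ = A.map σ) (hS : Sᵀ = S.map σ) (hAdet : A.det ≠ 0) (hSdet : S.det ≠ 0)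
    (hG : Matrix.reindexAlgEquiv F F e
      ((P : Matrix (Fin n) (Fin n) F)ᵀ * (P : Matrix (Fin n) (Fin n) F).map σ) = A ⊗ₖ S) :
    ∃ P' : GL (Fin n) F, P' ∈ GU n F q ∧
      tensorProductSubgroup n₁ n₂ e P ≤ tensorProductSubgroup n₁ n₂ e P' := by
  classical
  obtain ⟨C₁, hC₁⟩ := un_orthonormalise h hF A hA hAdet
  obtain ⟨C₂, hC₂⟩ := un_orthonormalise h hF S hS hSdet
  obtain ⟨c₁, hc₁⟩ : ∃ c₁ : Matrix (Fin n₁) (Fin n₁) F, c₁ = (C₁ : Matrix (Fin n₁) (Fin n₁) F) :=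
    ⟨_, rfl⟩
  obtain ⟨c₂, hc₂⟩ : ∃ c₂ : Matrix (Fin n₂) (Fin n₂) F, c₂ = (C₂ : Matrix (Fin n₂) (Fin n₂) F) :=
    ⟨_, rfl⟩
  obtain ⟨d₁, hd₁⟩ : ∃ d₁ : Matrix (Fin n₁) (Fin n₁) F,
      d₁ = ((C₁⁻¹ : GL (Fin n₁) F) : Matrix (Fin n₁) (Fin n₁) F) := ⟨_, rfl⟩
  obtain ⟨d₂, hd₂⟩ : ∃ d₂ : Matrix (Fin n₂) (Fin n₂) F,
      d₂ = ((C₂⁻¹ : GL (Fin n₂) F) : Matrix (Fin n₂) (Fin n₂) F) := ⟨_, rfl⟩
  rw [← hc₁] at hC₁
  rw [← hc₂] at hC₂
  have hcd₁ : c₁ * d₁ = 1 := by rw [hc₁, hd₁, ← Units.val_mul, mul_inv_cancel, Units.val_one]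
  have hdc₁ : d₁ * c₁ = 1 := by rw [hc₁, hd₁, ← Units.val_mul, inv_mul_cancel, Units.val_one]
  have hcd₂ : c₂ * d₂ = 1 := by rw [hc₂, hd₂, ← Units.val_mul, mul_inv_cancel, Units.val_one]
  have hdc₂ : d₂ * c₂ = 1 := by rw [hc₂, hd₂, ← Units.val_mul, inv_mul_cancel, Units.val_one]
  obtain ⟨K, hK, hKi⟩ : ∃ K : GL (Fin n) F,
      (K : Matrix (Fin n) (Fin n) F) = Matrix.reindexAlgEquiv F F e.symm (c₁ ⊗ₖ c₂) ∧
      ((K⁻¹ : GL (Fin n) F) : Matrix (Fin n) (Fin n) F) =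
        Matrix.reindexAlgEquiv F F e.symm (d₁ ⊗ₖ d₂) :=
    ⟨⟨Matrix.reindexAlgEquiv F F e.symm (c₁ ⊗ₖ c₂), Matrix.reindexAlgEquiv F F e.symm (d₁ ⊗ₖ d₂),
      by rw [← map_mul, ← Matrix.mul_kronecker_mul, hcd₁, hcd₂, Matrix.one_kronecker_one, map_one],
      by rw [← map_mul, ← Matrix.mul_kronecker_mul, hdc₁, hdc₂, Matrix.one_kronecker_one, map_one]⟩,
      rfl, rfl⟩
  have hG' : (P : Matrix (Fin n) (Fin n) F)ᵀ * (P : Matrix (Fin n) (Fin n) F).map σ =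
      Matrix.reindexAlgEquiv F F e.symm (A ⊗ₖ S) := by
    rw [← hG, un_reindex_reindex]
  refine ⟨P * K, ?_, ?_⟩
  · apply un_mem_GU_of_matrix h
    rw [Units.val_mul, Matrix.transpose_mul, un_map_mul, hK]
    calc (Matrix.reindexAlgEquiv F F e.symm (c₁ ⊗ₖ c₂))ᵀ * (P : Matrix (Fin n) (Fin n) F)ᵀ *
          ((P : Matrix (Fin n) (Fin n) F).map σ * (Matrix.reindexAlgEquiv F F e.symm (c₁ ⊗ₖ c₂)).map σ)
        = (Matrix.reindexAlgEquiv F F e.symm (c₁ ⊗ₖ c₂))ᵀ *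
            ((P : Matrix (Fin n) (Fin n) F)ᵀ * (P : Matrix (Fin n) (Fin n) F).map σ) *
            (Matrix.reindexAlgEquiv F F e.symm (c₁ ⊗ₖ c₂)).map σ := by
          simp only [Matrix.mul_assoc]
      _ = Matrix.reindexAlgEquiv F F e.symm ((c₁ᵀ * A * c₁.map σ) ⊗ₖ (c₂ᵀ * S * c₂.map σ)) := by
          rw [hG', Helper96.reindex_transpose, un_reindex_map, ← map_mul, ← map_mul,
            Helper96.kron_transpose, un_kron_map, ← Matrix.mul_kronecker_mul,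
            ← Matrix.mul_kronecker_mul]
      _ = 1 := by rw [hC₁, hC₂, Matrix.one_kronecker_one, map_one]
  · intro g hg
    obtain ⟨a, b, hab⟩ := Helper98.mem_tensorProductSubgroup hg
    have hdet₁ : (d₁ * (a : Matrix (Fin n₁) (Fin n₁) F) * c₁).det ≠ 0 := by
      have : d₁ * (a : Matrix (Fin n₁) (Fin n₁) F) * c₁ =
          ((C₁⁻¹ * a * C₁ : GL (Fin n₁) F) : Matrix (Fin n₁) (Fin n₁) F) := by
        rw [Units.val_mul, Units.val_mul, hd₁, hc₁]
      rw [this]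
      exact (Matrix.GeneralLinearGroup.det (C₁⁻¹ * a * C₁)).ne_zero
    have hdet₂ : (d₂ * (b : Matrix (Fin n₂) (Fin n₂) F) * c₂).det ≠ 0 := by
      have : d₂ * (b : Matrix (Fin n₂) (Fin n₂) F) * c₂ =
          ((C₂⁻¹ * b * C₂ : GL (Fin n₂) F) : Matrix (Fin n₂) (Fin n₂) F) := by
        rw [Units.val_mul, Units.val_mul, hd₂, hc₂]
      rw [this]
      exact (Matrix.GeneralLinearGroup.det (C₂⁻¹ * b * C₂)).ne_zero
    apply Helper96.mem_tensorProductSubgroup_of_eq e (P * K) g _ _ hdet₁ hdet₂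
    rw [hab, Helper98.conjReindex_apply, Helper98.conjReindex_apply, Units.val_mul,
      _root_.mul_inv_rev, Units.val_mul, hK, hKi]
    have hmid : Matrix.reindexAlgEquiv F F e.symm (c₁ ⊗ₖ c₂) *
        Matrix.reindexAlgEquiv F F e.symm ((d₁ * (a : Matrix (Fin n₁) (Fin n₁) F) * c₁) ⊗ₖ
          (d₂ * (b : Matrix (Fin n₂) (Fin n₂) F) * c₂)) *
        Matrix.reindexAlgEquiv F F e.symm (d₁ ⊗ₖ d₂) =
        Matrix.reindexAlgEquiv F F e.symm
          ((a : Matrix (Fin n₁) (Fin n₁) F) ⊗ₖ (b : Matrix (Fin n₂) (Fin n₂) F)) := by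
      rw [← map_mul, ← map_mul, ← Matrix.mul_kronecker_mul, ← Matrix.mul_kronecker_mul]
      congr 2
      · calc c₁ * (d₁ * (a : Matrix (Fin n₁) (Fin n₁) F) * c₁) * d₁
            = (c₁ * d₁) * (a : Matrix (Fin n₁) (Fin n₁) F) * (c₁ * d₁) := by
              simp only [Matrix.mul_assoc]
          _ = (a : Matrix (Fin n₁) (Fin n₁) F) := by rw [hcd₁, Matrix.one_mul, Matrix.mul_one]
      · calc c₂ * (d₂ * (b : Matrix (Fin n₂) (Fin n₂) F) * c₂) * d₂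
            = (c₂ * d₂) * (b : Matrix (Fin n₂) (Fin n₂) F) * (c₂ * d₂) := by
              simp only [Matrix.mul_assoc]
          _ = (b : Matrix (Fin n₂) (Fin n₂) F) := by rw [hcd₂, Matrix.one_mul, Matrix.mul_one]
    rw [← hmid]
    simp only [Matrix.mul_assoc]

/-- A unitary element of a tensor product group in unitary coordinates is the Kronecker product
of two unitary matrices. -/
theorem un_tensor_unitary [Fintype F] (h : IsSigma q σ) (hF : Fintype.card F = q ^ 2) {n₁ n₂ : ℕ}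
    (hn₁ : 0 < n₁) (hn₂ : 0 < n₂) (e : Fin n ≃ Fin n₁ × Fin n₂) (P : GL (Fin n) F)
    (hP : P ∈ GU n F q) (g : GL (Fin n) F) (hg : g ∈ tensorProductSubgroup n₁ n₂ e P)
    (hgU : g ∈ GU n F q) :
    ∃ (a : GL (Fin n₁) F) (b : GL (Fin n₂) F), a ∈ GU n₁ F q ∧ b ∈ GU n₂ F q ∧
      (g : Matrix (Fin n) (Fin n) F) = Helper98.conjReindex e P
        ((a : Matrix (Fin n₁) (Fin n₁) F) ⊗ₖ (b : Matrix (Fin n₂) (Fin n₂) F)) := by
  classical
  obtain ⟨a, b, hab⟩ := Helper98.mem_tensorProductSubgroup hg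
  obtain ⟨am, ham⟩ : ∃ am : Matrix (Fin n₁) (Fin n₁) F, am = (a : Matrix (Fin n₁) (Fin n₁) F) :=
    ⟨_, rfl⟩
  obtain ⟨bm, hbm⟩ : ∃ bm : Matrix (Fin n₂) (Fin n₂) F, bm = (b : Matrix (Fin n₂) (Fin n₂) F) :=
    ⟨_, rfl⟩
  rw [← ham, ← hbm] at hab
  have h1 := h.GU_matrix g hgU
  rw [hab] at h1
  have h2 := un_conj_fix e P _ h1
  rw [h.GU_matrix P hP, map_one, Matrix.mul_one, Helper96.kron_transpose, un_kron_map,
    ← Matrix.mul_kronecker_mul] at h2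
  obtain ⟨X, hX⟩ : ∃ X : Matrix (Fin n₁) (Fin n₁) F, X = amᵀ * am.map σ := ⟨_, rfl⟩
  obtain ⟨Y, hY⟩ : ∃ Y : Matrix (Fin n₂) (Fin n₂) F, Y = bmᵀ * bm.map σ := ⟨_, rfl⟩
  rw [← hX, ← hY] at h2
  have hent : ∀ i i' j j', X i i' * Y j j' = if (i, j) = (i', j') then 1 else 0 := by
    intro i i' j j'
    have h3 := congrFun (congrFun h2 (i, j)) (i', j')
    rw [Matrix.kronecker_apply, Matrix.one_apply] at h3
    exact h3
  obtain ⟨i₀, hi₀⟩ : ∃ i₀ : Fin n₁, i₀ = ⟨0, hn₁⟩ := ⟨_, rfl⟩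
  obtain ⟨j₀, hj₀⟩ : ∃ j₀ : Fin n₂, j₀ = ⟨0, hn₂⟩ := ⟨_, rfl⟩
  obtain ⟨x, hx⟩ : ∃ x : F, x = X i₀ i₀ := ⟨_, rfl⟩
  obtain ⟨y, hy⟩ : ∃ y : F, y = Y j₀ j₀ := ⟨_, rfl⟩
  have hxy : x * y = 1 := by
    have := hent i₀ i₀ j₀ j₀
    rw [if_pos rfl] at this
    rw [hx, hy]
    exact this
  have hx0 : x ≠ 0 := left_ne_zero_of_mul_eq_one hxy
  have hy0 : y ≠ 0 := right_ne_zero_of_mul_eq_one hxy
  have hXs : X = x • (1 : Matrix (Fin n₁) (Fin n₁) F) := by
    ext i i'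
    have h3 := hent i i' j₀ j₀
    rw [← hy] at h3
    rw [Matrix.smul_apply, Matrix.one_apply, smul_eq_mul]
    by_cases hii : i = i'
    · rw [if_pos (by rw [hii])] at h3
      rw [if_pos hii, mul_one]
      calc X i i' = X i i' * (x * y) := by rw [hxy, mul_one]
        _ = (X i i' * y) * x := by ring
        _ = x := by rw [h3, one_mul]
    · rw [if_neg (by intro h'; exact hii (Prod.ext_iff.mp h').1)] at h3
      rw [if_neg hii, mul_zero]
      exact (mul_eq_zero.mp h3).resolve_right hy0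
  have hYs : Y = y • (1 : Matrix (Fin n₂) (Fin n₂) F) := by
    ext j j'
    have h3 := hent i₀ i₀ j j'
    rw [← hx] at h3
    rw [Matrix.smul_apply, Matrix.one_apply, smul_eq_mul]
    by_cases hjj : j = j'
    · rw [if_pos (by rw [hjj])] at h3
      rw [if_pos hjj, mul_one]
      calc Y j j' = (x * y) * Y j j' := by rw [hxy, one_mul]
        _ = y * (x * Y j j') := by ring
        _ = y := by rw [h3, mul_one]
    · rw [if_neg (by intro h'; exact hjj (Prod.ext_iff.mp h').2)] at h3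
      rw [if_neg hjj, mul_zero]
      exact (mul_eq_zero.mp h3).resolve_left hx0
  have hXherm : Xᵀ = X.map σ := by
    rw [hX, Matrix.transpose_mul, Matrix.transpose_transpose, un_map_mul, un_map_map h.inv,
      Matrix.transpose_map]
  have hσx : σ x = x := by
    have h3 := congrFun (congrFun hXherm i₀) i₀
    rw [Matrix.transpose_apply, Matrix.map_apply, ← hx] at h3
    exact h3.symm
  have hσxi : σ x⁻¹ = x⁻¹ := by rw [map_inv₀, hσx]
  obtain ⟨μ, hμ⟩ := h.exists_norm_eq hF x⁻¹ hσxi (inv_ne_zero hx0)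
  have hμ0 : μ ≠ 0 := by
    rintro rfl
    rw [zero_mul] at hμ
    exact inv_ne_zero hx0 hμ.symm
  have hσμ0 : σ μ ≠ 0 := (map_ne_zero σ).mpr hμ0
  have hadet : (μ • am).det ≠ 0 := by
    rw [Matrix.det_smul, ham]
    exact mul_ne_zero (pow_ne_zero _ hμ0) (Matrix.GeneralLinearGroup.det a).ne_zero
  have hbdet : (μ⁻¹ • bm).det ≠ 0 := by
    rw [Matrix.det_smul, hbm]
    exact mul_ne_zero (pow_ne_zero _ (inv_ne_zero hμ0)) (Matrix.GeneralLinearGroup.det b).ne_zero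
  refine ⟨Matrix.GeneralLinearGroup.mkOfDetNeZero (μ • am) hadet,
    Matrix.GeneralLinearGroup.mkOfDetNeZero (μ⁻¹ • bm) hbdet, ?_, ?_, ?_⟩
  · apply un_mem_GU_of_matrix h
    show (μ • am)ᵀ * (μ • am).map σ = 1
    rw [Matrix.transpose_smul, un_map_smul, Matrix.smul_mul, Matrix.mul_smul, smul_smul, ← hX, hXs,
      smul_smul, hμ, inv_mul_cancel₀ hx0, one_smul]
  · apply un_mem_GU_of_matrix h
    show (μ⁻¹ • bm)ᵀ * (μ⁻¹ • bm).map σ = 1
    rw [Matrix.transpose_smul, un_map_smul, Matrix.smul_mul, Matrix.mul_smul, smul_smul, ← hY, hYs,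
      smul_smul]
    have h4 : μ⁻¹ * σ μ⁻¹ * y = 1 := by
      rw [map_inv₀]
      have h5 : y = x⁻¹ := eq_inv_of_mul_eq_one_right hxy
      rw [h5, ← hμ]
      field_simp
    rw [h4, one_smul]
  · rw [hab]
    congr 1
    show am ⊗ₖ bm = (μ • am) ⊗ₖ (μ⁻¹ • bm)
    rw [Matrix.smul_kronecker, Matrix.kronecker_smul, smul_smul, mul_inv_cancel₀ hμ0, one_smul]

/-- Tensor squares: the tensor-power form structure and the tensor-wreath group. -/
theorem un_tensor_square [Fintype F] (h : IsSigma q σ) {k : ℕ} (H : Subgroup (GL (Fin n) F))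
    (e : Fin n ≃ Fin k × Fin k) (P : GL (Fin n) F) (hP : P ∈ GU n F q)
    (hle : H ≤ tensorProductSubgroup k k e P) :
    ∃ (e' : Fin n ≃ (Fin 2 → Fin k)) (f₁ : (Fin k → F) → (Fin k → F) → F),
      IsUnitaryFormPow q f₁ ∧
      IsTensorPowerFormStructure (fun x : F => x ^ q) (hermForm n F q) f₁ e' P ∧
      H ≤ tensorWreathSubgroup k 2 e' P := by
  classical
  refine ⟨e.trans (Helper96.eps k), formOfGram (fun x : F => x ^ q) 1,
    un_fog_unitary h 1 (by rw [Matrix.transpose_one, un_map_one])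
      (by rw [Matrix.det_one]; exact one_ne_zero), ?_, hle.trans (Helper96.tensor_le_wreath e P)⟩
  apply un_tensor_power_form_structure h (e.trans (Helper96.eps k)) P 1 1 one_ne_zero
  rw [h.GU_matrix P hP, map_one, one_smul, Helper96.ptM_one]

/-- The tensor product of two planes: a subfield group carrying the form. -/
theorem un_tensor_two_two [Fintype F] [NeZero n] (h : IsSigma q σ) (hF : Fintype.card F = q ^ 2)
    (H : Subgroup (GL (Fin n) F)) (hH : H ≤ GU n F q) (e : Fin n ≃ Fin 2 × Fin 2) (P : GL (Fin n) F)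
    (hP : P ∈ GU n F q) (hle : H ≤ tensorProductSubgroup 2 2 e P) : UnSubOut n F q H := by
  classical
  obtain ⟨Pm, hPm⟩ : ∃ Pm : Matrix (Fin n) (Fin n) F, Pm = (P : Matrix (Fin n) (Fin n) F) :=
    ⟨_, rfl⟩
  obtain ⟨Pi, hPi⟩ : ∃ Pi : Matrix (Fin n) (Fin n) F,
      Pi = ((P⁻¹ : GL (Fin n) F) : Matrix (Fin n) (Fin n) F) := ⟨_, rfl⟩
  have hPiP : Pi * Pm = 1 := by rw [hPi, hPm, ← Units.val_mul, inv_mul_cancel, Units.val_one]
  have hPPi : Pm * Pi = 1 := by rw [hPi, hPm, ← Units.val_mul, mul_inv_cancel, Units.val_one]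
  have hU : Pmᵀ * Pm.map σ = 1 := by rw [hPm]; exact h.GU_matrix P hP
  have hU' : Pm.map σ * Pmᵀ = 1 := mul_eq_one_comm.mp hU
  have hPiσ : Pi.map σ = Pmᵀ := by
    have h1 : Pi.map σ * Pm.map σ = 1 := by rw [← un_map_mul, hPiP, un_map_one]
    calc Pi.map σ = Pi.map σ * (Pm.map σ * Pmᵀ) := by rw [hU', Matrix.mul_one]
      _ = (Pi.map σ * Pm.map σ) * Pmᵀ := by rw [Matrix.mul_assoc]
      _ = Pmᵀ := by rw [h1, Matrix.one_mul]
  obtain ⟨J', hJ'⟩ : ∃ J' : Matrix (Fin n) (Fin n) F,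
      J' = Matrix.reindexAlgEquiv F F e.symm (Helper96.J2 F ⊗ₖ Helper96.J2 F) := ⟨_, rfl⟩
  have hJσ : (Helper96.J2 F).map σ = Helper96.J2 F := by
    ext i j
    fin_cases i <;> fin_cases j <;> simp [Helper96.J2]
  have hJ'σ : J'.map σ = J' := by
    rw [hJ', un_reindex_map, un_kron_map, hJσ]
  have hJ'J' : J' * J' = 1 := by
    rw [hJ', ← map_mul, ← Matrix.mul_kronecker_mul, Helper96.J2_mul_J2, Helper96.kron_neg_left,
      Helper96.kron_neg_right, neg_neg, Matrix.one_kronecker_one, map_one]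
  obtain ⟨S, hS⟩ : ∃ S : Matrix (Fin n) (Fin n) F,
      S = Helper96.formOf e P (Helper96.J2 F ⊗ₖ Helper96.J2 F) := ⟨_, rfl⟩
  have hSeq : S = Piᵀ * J' * Pi := by
    rw [hS, Helper96.formOf, ← hPi, ← hJ']
  have hS1 : S.map σ * S = 1 := by
    have h1 : S.map σ = Pm * J' * Pmᵀ := by
      rw [hSeq, un_map_mul, un_map_mul, hJ'σ, hPiσ, Matrix.transpose_map, hPiσ,
        Matrix.transpose_transpose]
    have h2 : Pmᵀ * Piᵀ = 1 := by rw [← Matrix.transpose_mul, hPiP, Matrix.transpose_one]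
    rw [h1, hSeq]
    calc Pm * J' * Pmᵀ * (Piᵀ * J' * Pi) = Pm * J' * (Pmᵀ * Piᵀ) * J' * Pi := by
          simp only [Matrix.mul_assoc]
      _ = Pm * (J' * J') * Pi := by rw [h2, Matrix.mul_one]; simp only [Matrix.mul_assoc]
      _ = 1 := by rw [hJ'J', Matrix.mul_one, hPPi]
  have hJJt : (Helper96.J2 F ⊗ₖ Helper96.J2 F)ᵀ = Helper96.J2 F ⊗ₖ Helper96.J2 F := by
    rw [Helper96.kron_transpose, Helper96.J2_transpose, Helper96.kron_neg_left,
      Helper96.kron_neg_right, neg_neg]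
  have hsym : Sᵀ = S := by
    rw [hS, Helper96.formOf_transpose, hJJt]
  have hJJ : Helper96.J2 F ⊗ₖ Helper96.J2 F =
      Helper96.U2 F ⊗ₖ Helper96.J2 F + (Helper96.U2 F ⊗ₖ Helper96.J2 F)ᵀ := by
    rw [Helper96.kron_transpose, Helper96.J2_transpose, Helper96.kron_neg_right,
      ← Helper96.kron_neg_left, ← Matrix.add_kronecker, Helper96.U2_add]
  have halt : (2 : F) = 0 → ∀ x : Fin n → F, x ⬝ᵥ (S *ᵥ x) = 0 := by
    intro h2 x
    obtain ⟨V, hV⟩ : ∃ V : Matrix (Fin n) (Fin n) F,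
        V = Helper96.formOf e P (Helper96.U2 F ⊗ₖ Helper96.J2 F) := ⟨_, rfl⟩
    have hSV : S = V + Vᵀ := by
      rw [hS, hV, Helper96.formOf_transpose, ← Helper96.formOf_add, ← hJJ]
    have h3 : x ⬝ᵥ (Vᵀ *ᵥ x) = x ⬝ᵥ (V *ᵥ x) := by
      rw [Matrix.mulVec_transpose, Matrix.dotProduct_mulVec, dotProduct_comm]
    rw [hSV, Matrix.add_mulVec, dotProduct_add, h3]
    linear_combination (x ⬝ᵥ (V *ᵥ x)) * h2
  have hsim : ∀ g ∈ H, ∃ c : F,
      (g : Matrix (Fin n) (Fin n) F)ᵀ * S * (g : Matrix (Fin n) (Fin n) F) = c • S := by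
    intro g hg
    obtain ⟨a, b, hab⟩ := Helper98.mem_tensorProductSubgroup (hle hg)
    refine ⟨(a : Matrix (Fin 2) (Fin 2) F).det * (b : Matrix (Fin 2) (Fin 2) F).det, ?_⟩
    rw [hab, hS]
    apply Helper96.formOf_sim
    rw [Helper96.kron_transpose, ← Matrix.mul_kronecker_mul, ← Matrix.mul_kronecker_mul,
      Helper96.transpose_J2_mul, Helper96.transpose_J2_mul, Matrix.smul_kronecker,
      Matrix.kronecker_smul, smul_smul]
  exact un_sim_sub h hF S hS1 hsym halt H hH hsim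

end Cfsg.Agent.Helper35
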