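-- helper35 library: alternating rational structures force even dimension, unitary reflections,
-- and the structure of the unitary group of degree three over the field of four elements.
import Cfsg.Agent.Helper35.UnG7
import Cfsg.Agent.Helper35.UnSix2

set_option autoImplicit false
set_option linter.unusedSectionVars false
set_option linter.unusedVariables false
open Cfsg Cfsg.Geo Matrix
open scoped Kronecker

namespace Cfsg.Agent.Helper35

open Cfsg.Agent.Helper97

variable {F : Type*} [Field F] {n : ℕ} {q : ℕ} {σ : F ≃+* F}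

/-- A rational structure on which the hermitian form is alternating exists only in even
dimension. -/
theorem un_even_of_alt (h : IsSigma q σ) (F₀ : Subfield F) (P : GL (Fin n) F)
    (halt : ∀ u : Fin n → F, (∀ i, u i ∈ F₀) →
      hermForm n F q ((P : Matrix (Fin n) (Fin n) F) *ᵥ u)
        ((P : Matrix (Fin n) (Fin n) F) *ᵥ u) = 0) : Even n := by
  classical
  by_contra hodd
  rw [Nat.not_even_iff_odd] at hodd
  have hS := h.isSesq (n := n)
  obtain ⟨Pm, hPm⟩ : ∃ Pm : Matrix (Fin n) (Fin n) F, Pm = (P : Matrix (Fin n) (Fin n) F) :=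
    ⟨_, rfl⟩
  obtain ⟨M, hM⟩ : ∃ M : Matrix (Fin n) (Fin n) F, M = Pmᵀ * Pm.map σ := ⟨_, rfl⟩
  have hMij : ∀ i j, M i j = hermForm n F q (Pm *ᵥ Pi.single i 1) (Pm *ᵥ Pi.single j 1) := by
    intro i j
    have h1 := hS.gram_mul Pm i j
    rw [h.gram_herm, Matrix.mul_one] at h1
    rw [hM, h1]
  have hmem : ∀ i k : Fin n, (Pi.single i (1 : F) : Fin n → F) k ∈ F₀ := by
    intro i k
    by_cases hk : k = i
    · subst hk; rw [Pi.single_eq_same]; exact F₀.one_mem
    · rw [Pi.single_eq_of_ne hk]; exact F₀.zero_mem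
  have hdiag : ∀ i, M i i = 0 := by
    intro i
    rw [hMij, hPm]
    exact halt _ (hmem i)
  have hskew : ∀ i j, M i j = - M j i := by
    intro i j
    have h1 := halt (Pi.single i 1 + Pi.single j 1) (fun k => by
      rw [Pi.add_apply]
      exact F₀.add_mem (hmem i k) (hmem j k))
    rw [← hPm, Matrix.mulVec_add, hS.add_left, hS.add_right, hS.add_right, ← hMij, ← hMij,
      ← hMij, ← hMij, hdiag, hdiag] at h1
    linear_combination h1
  have hdet0 := Helper97.det_eq_zero_of_alt_odd M hskew hdiag hodd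
  have hPdet : Pm.det ≠ 0 := by
    rw [hPm]
    exact (Matrix.GeneralLinearGroup.det P).ne_zero
  rw [hM, Matrix.det_mul, Matrix.det_transpose, un_det_map] at hdet0
  rcases mul_eq_zero.mp hdet0 with h0 | h0
  · exact hPdet h0
  · exact hPdet ((map_eq_zero σ).mp h0)

/-- Unitary reflections: `v ↦ v + a f(v, w) w` for `f(w, w) = 1` and `a + σ a + a σ a = 0`. -/
theorem un_exists_reflection (h : IsSigma q σ) (w : Fin n → F) (hw : hermForm n F q w w = 1)
    (a : F) (ha : a + σ a + a * σ a = 0) :
    ∃ g : GL (Fin n) F, g ∈ GU n F q ∧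
      ∀ v, (g : Matrix (Fin n) (Fin n) F) *ᵥ v = v + (a * hermForm n F q v w) • w := by
  classical
  have hS := h.isSesq (n := n)
  obtain ⟨R, hR⟩ : ∃ R : Matrix (Fin n) (Fin n) F,
      R = 1 + Matrix.of (fun i j => w i * (a * σ (w j))) := ⟨_, rfl⟩
  have hRv : ∀ v, R *ᵥ v = v + (a * hermForm n F q v w) • w := by
    intro v
    rw [hR, Matrix.add_mulVec, Matrix.one_mulVec]
    congr 1
    funext i
    rw [Pi.smul_apply, smul_eq_mul, h.herm_eq, Matrix.mulVec, dotProduct, Finset.mul_sum,
      Finset.sum_mul]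
    apply Finset.sum_congr rfl
    intro j _
    rw [Matrix.of_apply]
    ring
  have hform : ∀ u v, hermForm n F q (R *ᵥ u) (R *ᵥ v) = hermForm n F q u v := by
    intro u v
    rw [hRv, hRv, hS.add_left, hS.add_right, hS.add_right, hS.smul_left, hS.smul_right,
      hS.smul_right, hS.smul_left, hw, map_mul, h.herm_symm w v]
    linear_combination (hermForm n F q u w * σ (hermForm n F q v w)) * ha
  have hgram := hS.gram_of_similar R 1 (fun u v => by rw [one_mul]; exact hform u v)
  rw [h.gram_herm, Matrix.mul_one, one_smul] at hgram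
  have hdet : R.det ≠ 0 := by
    intro h0
    have h1 := congrArg Matrix.det hgram
    rw [Matrix.det_mul, Matrix.det_transpose, h0, zero_mul, Matrix.det_one] at h1
    exact zero_ne_one h1
  exact ⟨Matrix.GeneralLinearGroup.mkOfDetNeZero R hdet, un_mem_GU_of_matrix h _ hgram, hRv⟩

/-- Over the field of four elements the full unitary group stabilises no decomposition into at
least three nondegenerate lines. -/
theorem un_notGU_decomp_two [Fintype F] (h : IsSigma 2 σ) (hF : Fintype.card F = 2 ^ 2) {t : ℕ}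
    (ht : 3 ≤ t) (D : Fin t → Submodule F (Fin n → F))
    (hD : IsNondegenerateMDecomposition (hermForm n F 2) 1 D) :
    ¬ GU n F 2 ≤ decompositionStabilizer D := by
  classical
  intro hle
  have hS := h.isSesq (n := n)
  have h2 : (2 : F) = 0 := six_char_two hF
  have hex : ∀ i, ∃ d : Fin n → F, d ∈ D i ∧ hermForm n F 2 d d ≠ 0 := by
    intro i
    have hfr := hD.decomp.finrank_eq i
    obtain ⟨d, hd0, hd⟩ := finrank_eq_one_iff'.mp hfr
    have hd0' : (d : Fin n → F) ≠ 0 := fun h0 => hd0 (Subtype.ext h0)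
    obtain ⟨⟨x, hx, hxd⟩, -⟩ := hD.nondegenerate i d d.2 hd0'
    obtain ⟨a, ha⟩ := hd ⟨x, hx⟩
    refine ⟨d, d.2, ?_⟩
    intro h0
    apply hxd
    have e : x = a • (d : Fin n → F) := (congrArg Subtype.val ha).symm
    rw [e, hS.smul_left, h0, mul_zero]
  choose d hdD hdd using hex
  obtain ⟨i0, hi0⟩ : ∃ i : Fin t, i = ⟨0, by omega⟩ := ⟨_, rfl⟩
  obtain ⟨i1, hi1⟩ : ∃ i : Fin t, i = ⟨1, by omega⟩ := ⟨_, rfl⟩
  obtain ⟨i2, hi2⟩ : ∃ i : Fin t, i = ⟨2, by omega⟩ := ⟨_, rfl⟩
  have hort : ∀ i j, i ≠ j → hermForm n F 2 (d i) (d j) = 0 :=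
    fun i j hij => hD.orthogonal i j hij _ (hdD i) _ (hdD j)
  have h01 : i0 ≠ i1 := by simp [hi0, hi1, Fin.ext_iff]
  have h02 : i0 ≠ i2 := by simp [hi0, hi2, Fin.ext_iff]
  have h12 : i1 ≠ i2 := by simp [hi1, hi2, Fin.ext_iff]
  have o01 := hort i0 i1 h01
  have o02 := hort i0 i2 h02
  have o12 := hort i1 i2 h12
  have o10 := hort i1 i0 h01.symm
  have o20 := hort i2 i0 h02.symm
  have o21 := hort i2 i1 h12.symm
  have hk : ∀ i, hermForm n F 2 (d i) (d i) = 1 := by
    intro i
    have h1 := h.herm_self_fixed (d i)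
    rw [h.pow] at h1
    have h3 : hermForm n F 2 (d i) (d i) * (hermForm n F 2 (d i) (d i) - 1) = 0 := by
      linear_combination h1
    rcases mul_eq_zero.mp h3 with h4 | h4
    · exact absurd h4 (hdd i)
    · exact sub_eq_zero.mp h4
  obtain ⟨m, hm, hm1, hm0⟩ := h.exists_norm_one
  obtain ⟨a, ha⟩ : ∃ a : F, a = m - 1 := ⟨_, rfl⟩
  have ha0 : a ≠ 0 := by rw [ha]; exact sub_ne_zero.mpr hm1
  have haa : a + σ a + a * σ a = 0 := by
    rw [ha, map_sub, map_one]
    linear_combination hm
  obtain ⟨w, hwdef⟩ : ∃ w : Fin n → F, w = d i0 + d i1 + d i2 := ⟨_, rfl⟩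
  have hww : hermForm n F 2 w w = 1 := by
    simp only [hwdef, hS.add_left, hS.add_right, o01, o02, o12, o10, o20, o21, hk, add_zero,
      zero_add]
    linear_combination h2
  have hd0w : hermForm n F 2 (d i0) w = 1 := by
    simp only [hwdef, hS.add_right, o01, o02, hk, add_zero]
  have hwd1 : hermForm n F 2 w (d i1) = 1 := by
    simp only [hwdef, hS.add_left, o01, o21, hk, add_zero, zero_add]
  have hwd2 : hermForm n F 2 w (d i2) = 1 := by
    simp only [hwdef, hS.add_left, o02, o12, hk, add_zero, zero_add]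
  obtain ⟨g, hgG, hg⟩ := un_exists_reflection h w hww a haa
  obtain ⟨π, hπ⟩ := (mem_decompositionStabilizer_iff D g).mp (hle hgG)
  have hw : (g : Matrix (Fin n) (Fin n) F) *ᵥ d i0 ∈ D (π i0) := by
    rw [← hπ i0]
    exact ⟨d i0, hdD i0, by rw [Matrix.toLin'_apply]⟩
  rw [hg, hd0w, mul_one] at hw
  have e1 : π i0 = i1 := by
    by_contra hne
    have h1 := hD.orthogonal (π i0) i1 hne _ hw _ (hdD i1)
    rw [hS.add_left, hS.smul_left, o01, hwd1, zero_add, mul_one] at h1
    exact ha0 h1
  have e2 : π i0 = i2 := by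
    by_contra hne
    have h1 := hD.orthogonal (π i0) i2 hne _ hw _ (hdD i2)
    rw [hS.add_left, hS.smul_left, o02, hwd2, zero_add, mul_one] at h1
    exact ha0 h1
  exact h12 (e1.symm.trans e2)

/-- A perfect subgroup of a solvable group is trivial. -/
theorem un_perfect_trivial {G : Type*} [Group G] (K S : Subgroup G) (hK : Group.IsSolvable K)
    (hS : S ≤ K) (hperf : ⁅S, S⁆ = S) : S = ⊥ := by
  haveI := hK
  haveI : Group.IsSolvable S := solvable_of_solvable_injective (Subgroup.inclusion_injective hS)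
  have htop : _root_.commutator S = ⊤ := by
    have h1 : (_root_.commutator S).map S.subtype = ⁅S, S⁆ := Subgroup.map_subtype_commutator S
    apply Subgroup.map_injective S.subtype_injective
    rw [h1, hperf, ← MonoidHom.range_eq_map, Subgroup.range_subtype]
  by_cases hnt : Nontrivial S
  · exact absurd htop (IsSolvable.commutator_lt_top_of_nontrivial S).ne
  · haveI hss : Subsingleton S := not_nontrivial_iff_subsingleton.mp hnt
    exact Subgroup.eq_bot_of_subsingleton S

/-- The unitary group of degree three over the field of four elements has a class-two minimal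
normal subgroup. -/
theorem un_GU32_c2 [Fintype F] (h : IsSigma 2 σ) (hF : Fintype.card F = 2 ^ 2) :
    ∃ E : Subgroup (GL (Fin 3) F), Helper96.C2Data (GU 3 F 2) E := by
  classical
  have hsolv : Group.IsSolvable (GU 3 F 2) := un_GU32_solvable hF
  rcases un_core2 h hF (by norm_num) (GU 3 F 2) le_rfl with
    ⟨W, hW0, hW1, hts, hle⟩ | ⟨W, hW0, hW1, hnd, hlt, hle⟩ | ⟨t, k, D, hD, hle⟩ |
    ⟨k, D, hD, hts, hle⟩ | ⟨r, K, hr, hodd, hK, hac, hle⟩ |
    ⟨n₁, n₂, e, P, A, S, hn₁, hn₁₂, hA, hS, hAdet, hSdet, hG, hle⟩ |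
    hsub | hres | hc2 | ⟨N, S, d, k, e, Pm, ρ, hCP⟩
  · exact absurd (inf_le_left.trans hle) (h.notSU_subspace hF (by norm_num) W hW0 hW1)
  · exact absurd (inf_le_left.trans hle) (h.notSU_subspace hF (by norm_num) W hW0 hW1)
  · exfalso
    have hcard := Helper97.isMDecomposition_card D hD.decomp
    have ht2 := hD.decomp.two_le
    have hk0 := hD.decomp.pos
    have ht3 : t = 3 := by
      have h1 : t ∣ 3 := Dvd.intro k hcard
      have h2 : t ≤ 3 := Nat.le_of_dvd (by norm_num) h1
      interval_cases t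
      · omega
      · rfl
    subst ht3
    have hk1 : k = 1 := by omega
    subst hk1
    exact un_notGU_decomp_two h hF (le_refl 3) D hD hle
  · exfalso
    have hcard := Helper97.isMDecomposition_card D hD
    omega
  · exfalso
    exact h.notSU_fieldNormalizer hF (le_refl 3) K hK.inv
      (Helper97.not_all_scalar_of_finrank K (by rw [hK.finrank_eq]; exact hr.two_le))
      (inf_le_left.trans hle)
  · exfalso
    have hcard := Fintype.card_congr e
    rw [Fintype.card_fin, Fintype.card_prod, Fintype.card_fin, Fintype.card_fin] at hcard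
    nlinarith
  · exfalso
    obtain ⟨F₀, r, P, hr, hcard, hle, hcase⟩ := hsub
    rcases hcase with ⟨-, hodd | ⟨-, hodd⟩⟩ | ⟨-, ζ, -, -, -, halt⟩
    · rw [hF] at hcard
      have hr3 : 3 ≤ r := by
        rcases hr.eq_two_or_odd' with h2 | h2
        · rw [h2] at hodd
          exact absurd hodd (by decide)
        · have := hr.two_le
          obtain ⟨j, hj⟩ := h2
          omega
      obtain ⟨c, hc⟩ : ∃ c : ℕ, c = Nat.card F₀ := ⟨_, rfl⟩
      rw [← hc] at hcard
      have hc2 : c < 2 := by
        by_contra hge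
        have h4 : 2 ^ 3 ≤ c ^ r :=
          (Nat.pow_le_pow_left (not_lt.mp hge) 3).trans (Nat.pow_le_pow_right (by omega) hr3)
        omega
      interval_cases c
      · rw [zero_pow (by omega)] at hcard
        omega
      · rw [one_pow] at hcard
        omega
    · exact absurd hodd (by decide)
    · have := un_even_of_alt h F₀ P halt
      exact absurd this (by decide)
  · exfalso
    obtain ⟨P, hcore, -, -⟩ := hres
    have hbot := un_perfect_trivial (GU 3 F 2) P hsolv hcore.le hcore.perfect
    apply hcore.nonabelian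
    haveI : Subsingleton P := by
      rw [hbot]
      infer_instance
    refine ⟨⟨fun a b => ?_⟩⟩
    induction a using QuotientGroup.induction_on with
    | H a =>
      induction b using QuotientGroup.induction_on with
      | H b =>
        have ha : a = 1 := Subsingleton.elim _ _
        have hb : b = 1 := Subsingleton.elim _ _
        rw [ha, hb]
  · exact hc2
  · exfalso
    have hbot := un_perfect_trivial (GU 3 F 2) N hsolv hCP.le hCP.perfect
    apply hCP.notScalar
    intro x hx
    have h1 : x ∈ N := hCP.sub hx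
    rw [hbot, Subgroup.mem_bot] at h1
    rw [h1]
    exact Subgroup.one_mem _

end Cfsg.Agent.Helper35
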