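-- helper35 library: Kronecker products of two matrix groups in tensor coordinates, and the tensor
-- product of two unitary spaces of degree three over the field of four elements.
import Cfsg.Agent.Helper35.UnG8

set_option autoImplicit false
set_option linter.unusedSectionVars false
set_option linter.unusedVariables false
open Cfsg Cfsg.Geo Matrix
open scoped Kronecker

namespace Cfsg.Agent.Helper35

open Cfsg.Agent.Helper97

variable {F : Type*} [Field F] {n : ℕ} {q : ℕ} {σ : F ≃+* F}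

/-- Kronecker products in tensor coordinates, as a homomorphism. -/
noncomputable def unKr {n₁ n₂ : ℕ} (e : Fin n ≃ Fin n₁ × Fin n₂) (P : GL (Fin n) F) :
    GL (Fin n₁) F × GL (Fin n₂) F →* GL (Fin n) F where
  toFun p := ⟨Helper98.conjReindex e P
      ((p.1 : Matrix (Fin n₁) (Fin n₁) F) ⊗ₖ (p.2 : Matrix (Fin n₂) (Fin n₂) F)),
    Helper98.conjReindex e P (((p.1⁻¹ : GL (Fin n₁) F) : Matrix (Fin n₁) (Fin n₁) F) ⊗ₖ
      ((p.2⁻¹ : GL (Fin n₂) F) : Matrix (Fin n₂) (Fin n₂) F)),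
    by rw [← map_mul, ← Matrix.mul_kronecker_mul, Units.mul_inv, Units.mul_inv,
        Matrix.one_kronecker_one, map_one],
    by rw [← map_mul, ← Matrix.mul_kronecker_mul, Units.inv_mul, Units.inv_mul,
        Matrix.one_kronecker_one, map_one]⟩
  map_one' := by
    apply Units.ext
    show Helper98.conjReindex e P
      ((((1 : GL (Fin n₁) F × GL (Fin n₂) F).1 : GL (Fin n₁) F) : Matrix (Fin n₁) (Fin n₁) F) ⊗ₖ
        (((1 : GL (Fin n₁) F × GL (Fin n₂) F).2 : GL (Fin n₂) F) : Matrix (Fin n₂) (Fin n₂) F)) = 1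
    rw [Prod.fst_one, Prod.snd_one, Units.val_one, Units.val_one, Matrix.one_kronecker_one,
      map_one]
  map_mul' p p' := by
    apply Units.ext
    show Helper98.conjReindex e P
      ((((p * p').1 : GL (Fin n₁) F) : Matrix (Fin n₁) (Fin n₁) F) ⊗ₖ
        (((p * p').2 : GL (Fin n₂) F) : Matrix (Fin n₂) (Fin n₂) F)) =
      Helper98.conjReindex e P
        ((p.1 : Matrix (Fin n₁) (Fin n₁) F) ⊗ₖ (p.2 : Matrix (Fin n₂) (Fin n₂) F)) *
      Helper98.conjReindex e P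
        ((p'.1 : Matrix (Fin n₁) (Fin n₁) F) ⊗ₖ (p'.2 : Matrix (Fin n₂) (Fin n₂) F))
    rw [← map_mul, ← Matrix.mul_kronecker_mul, Prod.fst_mul, Prod.snd_mul, Units.val_mul,
      Units.val_mul]

theorem unKr_val {n₁ n₂ : ℕ} (e : Fin n ≃ Fin n₁ × Fin n₂) (P : GL (Fin n) F)
    (p : GL (Fin n₁) F × GL (Fin n₂) F) :
    ((unKr e P p : GL (Fin n) F) : Matrix (Fin n) (Fin n) F) = Helper98.conjReindex e P
      ((p.1 : Matrix (Fin n₁) (Fin n₁) F) ⊗ₖ (p.2 : Matrix (Fin n₂) (Fin n₂) F)) := rfl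

/-- A unitary matrix in unitary tensor coordinates is unitary. -/
theorem un_conj_unitary (h : IsSigma q σ) {κ : Type} [Fintype κ] [DecidableEq κ] (e : Fin n ≃ κ)
    (P : GL (Fin n) F) (hP : P ∈ GU n F q) (Y : Matrix κ κ F) (hY : Yᵀ * Y.map σ = 1) :
    (Helper98.conjReindex e P Y)ᵀ * (Helper98.conjReindex e P Y).map σ = 1 := by
  obtain ⟨Pm, hPm⟩ : ∃ Pm : Matrix (Fin n) (Fin n) F, Pm = (P : Matrix (Fin n) (Fin n) F) :=
    ⟨_, rfl⟩
  obtain ⟨Pi, hPi⟩ : ∃ Pi : Matrix (Fin n) (Fin n) F,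
      Pi = ((P⁻¹ : GL (Fin n) F) : Matrix (Fin n) (Fin n) F) := ⟨_, rfl⟩
  have hPiP : Pi * Pm = 1 := by rw [hPi, hPm, ← Units.val_mul, inv_mul_cancel, Units.val_one]
  have hPPi : Pm * Pi = 1 := by rw [hPi, hPm, ← Units.val_mul, mul_inv_cancel, Units.val_one]
  have hU : Pmᵀ * Pm.map σ = 1 := by rw [hPm]; exact h.GU_matrix P hP
  have hU' : Pm.map σ * Pmᵀ = 1 := mul_eq_one_comm.mp hU
  have hPiσ : Pi.map σ = Pmᵀ := by
    have h1 : Pi.map σ * Pm.map σ = 1 := by rw [← un_map_mul, hPiP, un_map_one]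
    calc Pi.map σ = Pi.map σ * (Pm.map σ * Pmᵀ) := by rw [hU', Matrix.mul_one]
      _ = (Pi.map σ * Pm.map σ) * Pmᵀ := by rw [Matrix.mul_assoc]
      _ = Pmᵀ := by rw [h1, Matrix.one_mul]
  obtain ⟨Y', hY'⟩ : ∃ Y' : Matrix (Fin n) (Fin n) F,
      Y' = Matrix.reindexAlgEquiv F F e.symm Y := ⟨_, rfl⟩
  have hYY : Y'ᵀ * Y'.map σ = 1 := by
    rw [hY', Helper96.reindex_transpose, un_reindex_map, ← map_mul, hY, map_one]
  rw [Helper98.conjReindex_apply, ← hPm, ← hPi, ← hY']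
  calc (Pm * Y' * Pi)ᵀ * (Pm * Y' * Pi).map σ
      = Piᵀ * (Y'ᵀ * (Pmᵀ * Pm.map σ) * Y'.map σ) * Pi.map σ := by
        rw [Matrix.transpose_mul, Matrix.transpose_mul, un_map_mul, un_map_mul]
        simp only [Matrix.mul_assoc]
    _ = Piᵀ * Pi.map σ := by rw [hU, Matrix.mul_one, hYY, Matrix.mul_one]
    _ = 1 := by rw [hPiσ, ← Matrix.transpose_mul, hPPi, Matrix.transpose_one]

/-- Kronecker products of unitary matrices in unitary tensor coordinates are unitary. -/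
theorem un_kr_mem_GU (h : IsSigma q σ) {n₁ n₂ : ℕ} (e : Fin n ≃ Fin n₁ × Fin n₂)
    (P : GL (Fin n) F) (hP : P ∈ GU n F q) (p : GL (Fin n₁) F × GL (Fin n₂) F)
    (h1 : p.1 ∈ GU n₁ F q) (h2 : p.2 ∈ GU n₂ F q) : unKr e P p ∈ GU n F q := by
  apply un_mem_GU_of_matrix h
  rw [unKr_val]
  apply un_conj_unitary h e P hP
  rw [Helper96.kron_transpose, un_kron_map, ← Matrix.mul_kronecker_mul, h.GU_matrix _ h1,
    h.GU_matrix _ h2, Matrix.one_kronecker_one]

/-- The swap of the two tensor factors, in tensor coordinates. -/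
noncomputable def unSw {d : ℕ} (e : Fin n ≃ Fin d × Fin d) (P : GL (Fin n) F) : GL (Fin n) F :=
  ⟨Helper98.conjReindex e P (Helper96.swapMat d F), Helper98.conjReindex e P (Helper96.swapMat d F),
    by rw [← map_mul, Helper96.swapMat_mul_self, map_one],
    by rw [← map_mul, Helper96.swapMat_mul_self, map_one]⟩

theorem un_sw_mul {d : ℕ} (e : Fin n ≃ Fin d × Fin d) (P : GL (Fin n) F)
    (x y : GL (Fin d) F) : unSw e P * unKr e P (x, y) = unKr e P (y, x) * unSw e P := by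
  apply Units.ext
  show Helper98.conjReindex e P (Helper96.swapMat d F) * Helper98.conjReindex e P
      ((x : Matrix (Fin d) (Fin d) F) ⊗ₖ (y : Matrix (Fin d) (Fin d) F)) =
    Helper98.conjReindex e P ((y : Matrix (Fin d) (Fin d) F) ⊗ₖ (x : Matrix (Fin d) (Fin d) F)) *
      Helper98.conjReindex e P (Helper96.swapMat d F)
  rw [← map_mul, ← map_mul, Helper96.swapMat_mul_kron]

theorem un_sw_conj {d : ℕ} (e : Fin n ≃ Fin d × Fin d) (P : GL (Fin n) F)
    (x y : GL (Fin d) F) : unSw e P * unKr e P (x, y) * (unSw e P)⁻¹ = unKr e P (y, x) := by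
  rw [un_sw_mul, mul_inv_cancel_right]

theorem un_sw_mem_GU (h : IsSigma q σ) {d : ℕ} (e : Fin n ≃ Fin d × Fin d) (P : GL (Fin n) F)
    (hP : P ∈ GU n F q) : unSw e P ∈ GU n F q := by
  apply un_mem_GU_of_matrix h
  show (Helper98.conjReindex e P (Helper96.swapMat d F))ᵀ *
    (Helper98.conjReindex e P (Helper96.swapMat d F)).map σ = 1
  apply un_conj_unitary h e P hP
  have h1 : (Helper96.swapMat d F).map σ = Helper96.swapMat d F := by
    ext p q
    simp only [Matrix.map_apply, Helper96.swapMat, Matrix.of_apply]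
    split_ifs
    · exact map_one σ
    · exact map_zero σ
  have h2 : (Helper96.swapMat d F)ᵀ = Helper96.swapMat d F := by
    ext p q
    simp only [Matrix.transpose_apply, Helper96.swapMat, Matrix.of_apply]
    by_cases hpq : q = (p.2, p.1)
    · rw [if_pos hpq, if_pos (by rw [hpq])]
    · rw [if_neg hpq, if_neg (fun h' => hpq (by rw [h']))]
  rw [h1, h2, Helper96.swapMat_mul_self]

/-- Kronecker products of scalar matrices are scalar. -/
theorem un_kr_scalar {n₁ n₂ : ℕ} (e : Fin n ≃ Fin n₁ × Fin n₂) (P : GL (Fin n) F)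
    (p : GL (Fin n₁) F × GL (Fin n₂) F) (h1 : p.1 ∈ scalars (Fin n₁) F)
    (h2 : p.2 ∈ scalars (Fin n₂) F) : unKr e P p ∈ scalars (Fin n) F := by
  obtain ⟨c, hc⟩ := (Helper97.scalar_mem_scalars_iff _).mp h1
  obtain ⟨c', hc'⟩ := (Helper97.scalar_mem_scalars_iff _).mp h2
  refine (Helper97.scalar_mem_scalars_iff _).mpr ⟨c * c', ?_⟩
  rw [unKr_val, hc, hc', Matrix.smul_kronecker, Matrix.kronecker_smul, Matrix.one_kronecker_one,
    smul_smul, map_smul, map_one]

/-- If `x ⊗ 1` is scalar then so is `x`. -/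
theorem un_kr_scalar_left {n₁ n₂ : ℕ} (hn₂ : 0 < n₂) (e : Fin n ≃ Fin n₁ × Fin n₂)
    (P : GL (Fin n) F) (x : GL (Fin n₁) F) (hx : unKr e P (x, 1) ∈ scalars (Fin n) F) :
    x ∈ scalars (Fin n₁) F := by
  obtain ⟨c, hc⟩ := (Helper97.scalar_mem_scalars_iff _).mp hx
  refine (Helper97.scalar_mem_scalars_iff _).mpr ⟨c, ?_⟩
  rw [unKr_val] at hc
  have h1 : c • (1 : Matrix (Fin n) (Fin n) F) = Helper98.conjReindex e P
      ((c • (1 : Matrix (Fin n₁) (Fin n₁) F)) ⊗ₖ (1 : Matrix (Fin n₂) (Fin n₂) F)) := by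
    rw [Matrix.smul_kronecker, Matrix.one_kronecker_one, map_smul, map_one]
  rw [h1] at hc
  have h2 := Helper98.conjReindex_injective e P hc
  exact Helper96.kron_one_injective hn₂ h2

/-- The key step: a subgroup invariant under the first tensor factor and containing `a ⊗ b` with
`a` non-scalar in a minimal normal subgroup `E` contains `E ⊗ 1`. -/
theorem un_kr_key {d : ℕ} (G E : Subgroup (GL (Fin d) F)) (hE : Helper96.C2Data G E)
    (e : Fin n ≃ Fin d × Fin d) (P : GL (Fin n) F) (N' : Subgroup (GL (Fin n) F))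
    (hinv : ∀ g ∈ G, ∀ x ∈ N', unKr e P (g, 1) * x * (unKr e P (g, 1))⁻¹ ∈ N')
    (a b : GL (Fin d) F) (ha : a ∈ E) (haZ : a ∉ scalars (Fin d) F)
    (hab : unKr e P (a, b) ∈ N') : ∀ x ∈ E, unKr e P (x, 1) ∈ N' := by
  obtain ⟨N₁, hN₁⟩ : ∃ N₁ : Subgroup (GL (Fin d) F),
      N₁ = E ⊓ N'.comap ((unKr e P).comp (MonoidHom.inl (GL (Fin d) F) (GL (Fin d) F))) :=
    ⟨_, rfl⟩
  have hmem : ∀ x, x ∈ N₁ ↔ x ∈ E ∧ unKr e P (x, 1) ∈ N' := by
    intro x
    rw [hN₁, Subgroup.mem_inf, Subgroup.mem_comap]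
    rfl
  have hN₁inv : ∀ g ∈ G, ∀ x ∈ N₁, g * x * g⁻¹ ∈ N₁ := by
    intro g hg x hx
    rw [hmem] at hx ⊢
    refine ⟨hE.normal g hg x hx.1, ?_⟩
    have h1 := hinv g hg _ hx.2
    rw [← map_inv, ← map_mul, ← map_mul] at h1
    have h2 : ((g, 1) * (x, 1) * (g, 1)⁻¹ : GL (Fin d) F × GL (Fin d) F) = (g * x * g⁻¹, 1) := by
      simp
    rwa [h2] at h1
  rcases hE.minimal N₁ (by rw [hN₁]; exact inf_le_left) hN₁inv with hsc | hEq
  · exfalso
    have hcomm : ∀ g ∈ G, g * a * g⁻¹ * a⁻¹ ∈ scalars (Fin d) F := by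
      intro g hg
      apply hsc
      rw [hmem]
      refine ⟨E.mul_mem (hE.normal g hg a ha) (E.inv_mem ha), ?_⟩
      have h1 := N'.mul_mem (hinv g hg _ hab) (N'.inv_mem hab)
      rw [← map_inv, ← map_mul, ← map_mul, ← map_inv, ← map_mul] at h1
      have h2 : ((g, 1) * (a, b) * (g, 1)⁻¹ * (a, b)⁻¹ : GL (Fin d) F × GL (Fin d) F) =
          (g * a * g⁻¹ * a⁻¹, 1) := by
        simp
      rwa [h2] at h1
    obtain ⟨C, hC⟩ : ∃ C : Subgroup (GL (Fin d) F), C = E ⊓ Subgroup.centralizer {a} := ⟨_, rfl⟩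
    have hCmem : ∀ x, x ∈ C ↔ x ∈ E ∧ a * x = x * a := by
      intro x
      rw [hC, Subgroup.mem_inf, Subgroup.mem_centralizer_iff]
      constructor
      · rintro ⟨h1, h2⟩
        exact ⟨h1, h2 a rfl⟩
      · rintro ⟨h1, h2⟩
        refine ⟨h1, ?_⟩
        rintro _ rfl
        exact h2
    have hCinv : ∀ g ∈ G, ∀ x ∈ C, g * x * g⁻¹ ∈ C := by
      intro g hg x hx
      rw [hCmem] at hx ⊢
      refine ⟨hE.normal g hg x hx.1, ?_⟩
      have hs := hcomm g⁻¹ (G.inv_mem hg)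
      rw [inv_inv] at hs
      obtain ⟨s, hsdef⟩ : ∃ s : GL (Fin d) F, s = g⁻¹ * a * g * a⁻¹ := ⟨_, rfl⟩
      rw [← hsdef] at hs
      have h1 : g⁻¹ * a * g = s * a := by rw [hsdef]; group
      have h2 : s * x = x * s := Helper97.scalars_comm hs x
      have h3 : a * (g * x * g⁻¹) = g * (g⁻¹ * a * g) * x * g⁻¹ := by group
      have h4 : g * x * g⁻¹ * a = g * x * (g⁻¹ * a * g) * g⁻¹ := by group
      rw [h3, h4, h1]
      have h5 : s * a * x = x * (s * a) := by
        rw [mul_assoc, hx.2, ← mul_assoc, h2, mul_assoc]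
      rw [mul_assoc g (s * a) x, h5, ← mul_assoc]
    rcases hE.minimal C (by rw [hC]; exact inf_le_left) hCinv with hCsc | hCE
    · exact haZ (hCsc ((hCmem a).mpr ⟨ha, rfl⟩))
    · apply haZ
      rw [Helper97.scalar_mem_scalars_iff]
      apply hE.absIrred.2
      rintro _ ⟨x, hx, rfl⟩
      have hxC : x ∈ C := by rw [hCE]; exact hx
      have h1 := ((hCmem x).mp hxC).2
      rw [← Units.val_mul, ← Units.val_mul, h1]
  · intro x hx
    have hxN : x ∈ N₁ := by rw [hEq]; exact hx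
    exact ((hmem x).mp hxN).2

/-- Minimality of `E ⊗ E` under the tensor factors and the swap. -/
theorem un_kr_minimal {d : ℕ} (G E : Subgroup (GL (Fin d) F)) (hE : Helper96.C2Data G E)
    (e : Fin n ≃ Fin d × Fin d) (P : GL (Fin n) F) (N' : Subgroup (GL (Fin n) F))
    (hle : N' ≤ (E.prod E).map (unKr e P))
    (hinv : ∀ g ∈ G, ∀ x ∈ N', unKr e P (g, 1) * x * (unKr e P (g, 1))⁻¹ ∈ N')
    (hsw : ∀ x ∈ N', unSw e P * x * (unSw e P)⁻¹ ∈ N') :
    N' ≤ scalars (Fin n) F ∨ N' = (E.prod E).map (unKr e P) := by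
  by_cases hsc : N' ≤ scalars (Fin n) F
  · exact Or.inl hsc
  right
  apply le_antisymm hle
  have key : ∀ a b : GL (Fin d) F, a ∈ E → b ∈ E → a ∉ scalars (Fin d) F →
      unKr e P (a, b) ∈ N' → (E.prod E).map (unKr e P) ≤ N' := by
    intro a b ha hb haZ hab
    have h1 := un_kr_key G E hE e P N' hinv a b ha haZ hab
    rintro _ ⟨⟨x, y⟩, hxy, rfl⟩
    have hx : x ∈ E := (Subgroup.mem_prod.mp hxy).1
    have hy : y ∈ E := (Subgroup.mem_prod.mp hxy).2
    have h2 := hsw _ (h1 y hy)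
    rw [un_sw_conj] at h2
    have h3 := N'.mul_mem (h1 x hx) h2
    rw [← map_mul] at h3
    have h4 : ((x, 1) * (1, y) : GL (Fin d) F × GL (Fin d) F) = (x, y) := by simp
    rwa [h4] at h3
  obtain ⟨u, huN, huZ⟩ := SetLike.not_le_iff_exists.mp hsc
  obtain ⟨⟨a, b⟩, hab, rfl⟩ := hle huN
  have ha : a ∈ E := (Subgroup.mem_prod.mp hab).1
  have hb : b ∈ E := (Subgroup.mem_prod.mp hab).2
  by_cases haZ : a ∈ scalars (Fin d) F
  · have hbZ : b ∉ scalars (Fin d) F := fun hbZ => huZ (un_kr_scalar e P (a, b) haZ hbZ)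
    have h1 := hsw _ huN
    rw [un_sw_conj] at h1
    exact key b a hb ha hbZ h1
  · exact key a b ha hb haZ huN

/-- The Kronecker product of two absolutely irreducible groups is absolutely irreducible. -/
theorem un_kr_absIrred {d : ℕ} (E : Subgroup (GL (Fin d) F))
    (habs : ActsAbsolutelyIrreducibly (matrixSet E)) (e : Fin n ≃ Fin d × Fin d)
    (P : GL (Fin n) F) :
    ActsAbsolutelyIrreducibly (matrixSet ((E.prod E).map (unKr e P))) := by
  classical
  apply Helper96.absIrred_of_adjoin_eq_top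
  have htop := Helper96.adjoin_eq_top_of_absIrred _ habs
  obtain ⟨A, hA⟩ : ∃ A : Subalgebra F (Matrix (Fin n) (Fin n) F),
      A = Algebra.adjoin F (matrixSet ((E.prod E).map (unKr e P))) := ⟨_, rfl⟩
  rw [← hA]
  have hone : (1 : Matrix (Fin d) (Fin d) F) ∈ matrixSet E := ⟨1, E.one_mem, rfl⟩
  have h1 : ∀ x ∈ matrixSet E, ∀ y ∈ matrixSet E, Helper98.conjReindex e P (x ⊗ₖ y) ∈ A := by
    rintro _ ⟨x, hx, rfl⟩ _ ⟨y, hy, rfl⟩
    rw [hA]
    apply Algebra.subset_adjoin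
    exact ⟨unKr e P (x, y), Subgroup.mem_map_of_mem _ (Subgroup.mem_prod.mpr ⟨hx, hy⟩), rfl⟩
  have h2 : ∀ x : Matrix (Fin d) (Fin d) F, ∀ y ∈ matrixSet E,
      Helper98.conjReindex e P (x ⊗ₖ y) ∈ A := by
    intro x
    have hx : x ∈ Algebra.adjoin F (matrixSet E) := by rw [htop]; exact Algebra.mem_top
    induction hx using Algebra.adjoin_induction with
    | mem x hx => exact h1 x hx
    | algebraMap c =>
      intro y hy
      rw [Algebra.algebraMap_eq_smul_one, Matrix.smul_kronecker, map_smul]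
      exact Subalgebra.smul_mem _ (h1 1 hone y hy) c
    | add x x' _ _ hx hx' =>
      intro y hy
      rw [Matrix.add_kronecker, map_add]
      exact Subalgebra.add_mem _ (hx y hy) (hx' y hy)
    | mul x x' _ _ hx hx' =>
      intro y hy
      have : (x * x') ⊗ₖ y = (x ⊗ₖ y) * (x' ⊗ₖ (1 : Matrix (Fin d) (Fin d) F)) := by
        rw [← Matrix.mul_kronecker_mul, mul_one]
      rw [this, map_mul]
      exact Subalgebra.mul_mem _ (hx y hy) (hx' 1 hone)
  have h3 : ∀ y : Matrix (Fin d) (Fin d) F, ∀ x : Matrix (Fin d) (Fin d) F,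
      Helper98.conjReindex e P (x ⊗ₖ y) ∈ A := by
    intro y
    have hy : y ∈ Algebra.adjoin F (matrixSet E) := by rw [htop]; exact Algebra.mem_top
    induction hy using Algebra.adjoin_induction with
    | mem y hy => exact fun x => h2 x y hy
    | algebraMap c =>
      intro x
      rw [Algebra.algebraMap_eq_smul_one, Matrix.kronecker_smul, map_smul]
      exact Subalgebra.smul_mem _ (h2 x 1 hone) c
    | add y y' _ _ hy hy' =>
      intro x
      rw [Matrix.kronecker_add, map_add]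
      exact Subalgebra.add_mem _ (hy x) (hy' x)
    | mul y y' _ _ hy hy' =>
      intro x
      have : x ⊗ₖ (y * y') = (x ⊗ₖ y) * ((1 : Matrix (Fin d) (Fin d) F) ⊗ₖ y') := by
        rw [← Matrix.mul_kronecker_mul, mul_one]
      rw [this, map_mul]
      exact Subalgebra.mul_mem _ (hy x) (hy' 1)
  rw [eq_top_iff]
  intro M _
  obtain ⟨Y, rfl⟩ := Helper96.conjReindex_surjective e P M
  rw [Matrix.matrix_eq_sum_single Y, map_sum]
  apply Subalgebra.sum_mem
  intro p _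
  rw [map_sum]
  apply Subalgebra.sum_mem
  intro p' _
  have : Matrix.single p p' (Y p p') =
      Matrix.single p.1 p'.1 (Y p p') ⊗ₖ Matrix.single p.2 p'.2 (1 : F) := by
    rw [Matrix.single_kronecker_single, mul_one]
  rw [this]
  exact h3 _ _

/-- Monotonicity of the subfield outcome. -/
theorem un_subOut_mono [Fintype F] {H H' : Subgroup (GL (Fin n) F)} (hle : H ≤ H')
    (h' : UnSubOut n F q H') : UnSubOut n F q H := by
  obtain ⟨F₀, r, P, hr, hcard, hle', hcase⟩ := h'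
  exact ⟨F₀, r, P, hr, hcard, hle.trans hle', hcase⟩

/-- Monotonicity of the class-six outcome. -/
theorem un_c6Out_mono [Fintype F] {H H' : Subgroup (GL (Fin n) F)} (hle : H ≤ H')
    (h' : UnC6Out n F q H') : UnC6Out n F q H := by
  obtain ⟨r, R, p, e, k, h1, h2, h3, h4, h5, h6, hle'⟩ := h'
  exact ⟨r, R, p, e, k, h1, h2, h3, h4, h5, h6, hle.trans hle'⟩

/-- The tensor product of two unitary spaces of degree three over the field of four elements:
the group normalises a symplectic-type group, or lies in a subfield group. -/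
theorem un_three_three [Fintype F] (h : IsSigma 2 σ) (hF : Fintype.card F = 2 ^ 2)
    (H : Subgroup (GL (Fin n) F)) (hH : H ≤ GU n F 2) (e : Fin n ≃ Fin 3 × Fin 3)
    (P : GL (Fin n) F) (hP : P ∈ GU n F 2) (hle : H ≤ tensorProductSubgroup 3 3 e P) :
    UnSubOut n F 2 H ∨ UnC6Out n F 2 H := by
  classical
  obtain ⟨E, hE⟩ := un_GU32_c2 h hF
  have hn : n = 3 ^ 2 := by
    have hcard := Fintype.card_congr e
    rw [Fintype.card_fin, Fintype.card_prod, Fintype.card_fin] at hcard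
    rw [hcard]
    norm_num
  obtain ⟨R, hR⟩ : ∃ R : Subgroup (GL (Fin n) F), R = (E.prod E).map (unKr e P) := ⟨_, rfl⟩
  obtain ⟨H₁, hH₁⟩ : ∃ H₁ : Subgroup (GL (Fin n) F),
      H₁ = ((GU 3 F 2).prod (GU 3 F 2)).map (unKr e P) := ⟨_, rfl⟩
  obtain ⟨H', hH'⟩ : ∃ H' : Subgroup (GL (Fin n) F), H' = subgroupNormalizer R ⊓ GU n F 2 :=
    ⟨_, rfl⟩
  have hH₁GU : H₁ ≤ GU n F 2 := by
    rw [hH₁]
    rintro _ ⟨p, hp, rfl⟩
    exact un_kr_mem_GU h e P hP p (Subgroup.mem_prod.mp hp).1 (Subgroup.mem_prod.mp hp).2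
  have hH₁R : ∀ g ∈ H₁, ∀ x ∈ R, g * x * g⁻¹ ∈ R := by
    rw [hH₁, hR]
    rintro _ ⟨p, hp, rfl⟩ _ ⟨x, hx, rfl⟩
    rw [← map_inv, ← map_mul, ← map_mul]
    apply Subgroup.mem_map_of_mem
    have hp' := Subgroup.mem_prod.mp hp
    have hx' := Subgroup.mem_prod.mp hx
    exact Subgroup.mem_prod.mpr ⟨hE.normal p.1 hp'.1 x.1 hx'.1, hE.normal p.2 hp'.2 x.2 hx'.2⟩
  have hH₁H' : H₁ ≤ H' := by
    rw [hH']
    exact le_inf (Helper97.le_subgroupNormalizer H₁ R hH₁R) hH₁GU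
  have hRH₁ : R ≤ H₁ := by
    rw [hR, hH₁]
    exact Subgroup.map_mono (Subgroup.prod_mono hE.le hE.le)
  have hHH₁ : H ≤ H₁ := by
    intro g hg
    obtain ⟨a, b, ha, hb, hgab⟩ := un_tensor_unitary h hF (by norm_num) (by norm_num) e P hP g
      (hle hg) (hH hg)
    rw [hH₁]
    refine ⟨(a, b), Subgroup.mem_prod.mpr ⟨ha, hb⟩, ?_⟩
    apply Units.ext
    rw [hgab]
    rfl
  have hswR : ∀ x ∈ R, unSw e P * x * (unSw e P)⁻¹ ∈ R := by
    rw [hR]
    rintro _ ⟨⟨x, y⟩, hx, rfl⟩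
    rw [un_sw_conj]
    apply Subgroup.mem_map_of_mem
    have hx' := Subgroup.mem_prod.mp hx
    exact Subgroup.mem_prod.mpr ⟨hx'.2, hx'.1⟩
  have hswH' : unSw e P ∈ H' := by
    rw [hH']
    refine ⟨?_, un_sw_mem_GU h e P hP⟩
    show unSw e P ∈ Subgroup.normalizer (R : Set (GL (Fin n) F))
    rw [Subgroup.mem_normalizer_iff]
    intro x
    constructor
    · exact hswR x
    · intro hx
      have h4 : unSw e P * unSw e P = 1 := by
        apply Units.ext
        show Helper98.conjReindex e P (Helper96.swapMat 3 F) *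
          Helper98.conjReindex e P (Helper96.swapMat 3 F) = 1
        rw [← map_mul, Helper96.swapMat_mul_self, map_one]
      have h1 : (unSw e P)⁻¹ = unSw e P := inv_eq_of_mul_eq_one_right h4
      have h2 := hswR _ hx
      have h3 : unSw e P * (unSw e P * x * (unSw e P)⁻¹) * (unSw e P)⁻¹ = x := by
        rw [h1]
        calc unSw e P * (unSw e P * x * unSw e P) * unSw e P
            = (unSw e P * unSw e P) * x * (unSw e P * unSw e P) := by group
          _ = x := by rw [h4, one_mul, mul_one]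
      rwa [h3] at h2
  have hH'n : ∀ g ∈ H', ∀ x ∈ R, g * x * g⁻¹ ∈ R := by
    intro g hg x hx
    rw [hH'] at hg
    have h1 : g ∈ Subgroup.normalizer (R : Set (GL (Fin n) F)) := hg.1
    rw [Subgroup.mem_normalizer_iff] at h1
    exact (h1 x).mp hx
  obtain ⟨r, j, hr, hrj, hpowE⟩ := hE.pow
  have hr3 : r = 3 := by
    have hj : j ≠ 0 := by
      rintro rfl
      rw [pow_zero] at hrj
      omega
    have h1 : r ∣ 3 * 3 := by
      rw [hrj]
      exact dvd_pow_self r hj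
    rcases (Nat.Prime.dvd_mul hr).mp h1 with h2 | h2
    · exact (Nat.prime_dvd_prime_iff_eq hr Nat.prime_three).mp h2
    · exact (Nat.prime_dvd_prime_iff_eq hr Nat.prime_three).mp h2
  subst hr3
  have hRZ : ¬ R ≤ scalars (Fin n) F := by
    intro hle'
    apply hE.notScalar
    intro x hx
    apply un_kr_scalar_left (by norm_num : 0 < 3) e P x
    apply hle'
    rw [hR]
    exact Subgroup.mem_map_of_mem _ (Subgroup.mem_prod.mpr ⟨hx, E.one_mem⟩)
  have hRmin : ∀ N' : Subgroup (GL (Fin n) F), N' ≤ R →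
      (∀ g ∈ H', ∀ x ∈ N', g * x * g⁻¹ ∈ N') → N' ≤ scalars (Fin n) F ∨ N' = R := by
    intro N' hN'R hN'inv
    rw [hR] at hN'R ⊢
    apply un_kr_minimal (GU 3 F 2) E hE e P N' hN'R
    · intro g hg x hx
      apply hN'inv _ _ x hx
      apply hH₁H'
      rw [hH₁]
      exact Subgroup.mem_map_of_mem _ (Subgroup.mem_prod.mpr ⟨hg, Subgroup.one_mem _⟩)
    · intro x hx
      exact hN'inv _ hswH' x hx
  have hab : ∀ a ∈ R, ∀ b ∈ R, a * b * a⁻¹ * b⁻¹ ∈ scalars (Fin n) F := by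
    rw [hR]
    rintro _ ⟨p, hp, rfl⟩ _ ⟨p', hp', rfl⟩
    rw [← map_inv, ← map_mul, ← map_mul, ← map_inv, ← map_mul]
    have hp1 := Subgroup.mem_prod.mp hp
    have hp2 := Subgroup.mem_prod.mp hp'
    exact un_kr_scalar e P _ (hE.comm p.1 hp1.1 p'.1 hp2.1) (hE.comm p.2 hp1.2 p'.2 hp2.2)
  have habs : ActsAbsolutelyIrreducibly (matrixSet R) := by
    rw [hR]
    exact un_kr_absIrred E hE.absIrred e P
  have hpow : ∀ x ∈ R, x ^ 3 ∈ scalars (Fin n) F := by
    rw [hR]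
    rintro _ ⟨p, hp, rfl⟩
    rw [← map_pow]
    have hp1 := Subgroup.mem_prod.mp hp
    exact un_kr_scalar e P _ (hpowE p.1 hp1.1) (hpowE p.2 hp1.2)
  haveI : CharP F 2 := six_charP hF
  haveI : Fact (Nat.Prime 2) := ⟨Nat.prime_two⟩
  have hHH' : H ≤ H' := hHH₁.trans hH₁H'
  have hfin := un_c2_odd (p := 2) h hF (by omega : 2 ≤ n) Nat.prime_three (by decide : Odd 3)
    (by norm_num : 1 ≤ 2) hn H' R (by rw [hH']; exact inf_le_right) (hRH₁.trans hH₁H') hH'n hRZ
    hRmin hab habs hpow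
  rcases hfin with h1 | h1
  · exact Or.inl (un_subOut_mono hHH' h1)
  · exact Or.inr (un_c6Out_mono hHH' h1)

end Cfsg.Agent.Helper35
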