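-- helper35 library: Aschbacher's theorem for the unitary groups, containment form.
import Cfsg.Agent.Helper35.UnG9

set_option autoImplicit false
set_option linter.unusedSectionVars false
set_option linter.unusedVariables false
open Cfsg Cfsg.Geo Matrix
open scoped Kronecker

namespace Cfsg.Agent.Helper35

open Cfsg.Agent.Helper97

variable {F : Type*} [Field F] {n : ℕ} {q : ℕ} {σ : F ≃+* F}

/-- The subfield outcome gives a member of class 5. -/
theorem un_sub_class [Fintype F] (h : IsSigma q σ) (H : Subgroup (GL (Fin n) F))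
    (hH : H ≤ GU n F q) (hs : UnSubOut n F q H) :
    ∃ M : Subgroup (GL (Fin n) F), InUnitaryClass n F q M ∧ H ≤ M := by
  obtain ⟨F₀, r, P, hr, hcard, hle, hcase⟩ := hs
  rcases hcase with ⟨hrat, hodd | ⟨hr2, hodd⟩⟩ | ⟨hr2, ζ, hζ0, hζ, hrat, halt⟩
  · exact ⟨_, Or.inl (Or.inr (Or.inr (Or.inr (Or.inr (Or.inl
      ⟨F₀, r, P, hr, hodd, hcard, hrat, rfl⟩))))), le_inf hle hH⟩
  · subst hr2
    exact ⟨_, Or.inl (Or.inr (Or.inr (Or.inr (Or.inr (Or.inr (Or.inl
      ⟨F₀, P, hodd, hcard, hrat, rfl⟩)))))), le_inf hle hH⟩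
  · subst hr2
    exact ⟨_, Or.inl (Or.inr (Or.inr (Or.inr (Or.inr (Or.inr (Or.inr (Or.inl
      ⟨F₀, P, ζ, un_even_of_alt h F₀ P halt, hcard, hζ0, hζ, hrat, halt, rfl⟩))))))),
      le_inf hle hH⟩

/-- The class-six outcome gives a member of class 6. -/
theorem un_c6_class [Fintype F] (H : Subgroup (GL (Fin n) F)) (hH : H ≤ GU n F q)
    (hs : UnC6Out n F q H) :
    ∃ M : Subgroup (GL (Fin n) F), InUnitaryClass n F q M ∧ H ≤ M := by
  obtain ⟨r, R, p, e, k, h1, h2, h3, h4, h5, h6, hle⟩ := hs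
  exact ⟨_, Or.inl (Or.inr (Or.inr (Or.inr (Or.inr (Or.inr (Or.inr (Or.inr
    ⟨r, R, p, e, k, h1, h2, h3, h4, h5, h6, rfl⟩))))))), le_inf hle hH⟩

/-- Aschbacher's theorem for the unitary groups, containment form. -/
theorem un_le_class [Fintype F] (q : ℕ) (hF : Fintype.card F = q ^ 2) (hn : 3 ≤ n)
    (H : Subgroup (GL (Fin n) F)) (hH : H ≤ GU n F q) :
    (∃ M : Subgroup (GL (Fin n) F), InUnitaryClass n F q M ∧ H ≤ M) ∨
      InUnitaryResidualClass H := by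
  classical
  obtain ⟨σ, h⟩ := Helper97.exists_sigma hF
  have hnz : NeZero n := ⟨by omega⟩
  have hout := un_core2 h hF (by omega) H hH
  unfold UnOutcome2 at hout
  rcases hout with ⟨W, hW0, hW1, hts, hle⟩ | ⟨W, hW0, hW1, hnd, hdim, hle⟩ | ⟨t, k, D, hD, hle⟩ |
    ⟨k, D, hD, hts, hle⟩ | ⟨r, K, hr, hrodd, hK, hac, hle⟩ |
    ⟨n₁, n₂, e, P, A, S, hn₁, hn₁₂, hA, hSh, hAdet, hSdet, hG, hle⟩ |
    hsub | hres | ⟨N, hc2⟩ | ⟨N, S, d, k, e, Pm, ρ, hCP⟩
  · exact Or.inl ⟨_, Or.inl (Or.inl ⟨W, hW0, hts, rfl⟩), le_inf hle hH⟩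
  · exact Or.inl ⟨_, Or.inl (Or.inr (Or.inl ⟨W, hW0, hnd, hdim, rfl⟩)), le_inf hle hH⟩
  · exact Or.inl ⟨_, Or.inl (Or.inr (Or.inr (Or.inl ⟨t, k, D, hD, rfl⟩))), le_inf hle hH⟩
  · have hk : 2 * k = n := Helper97.isMDecomposition_card D hD
    exact Or.inl ⟨_, Or.inl (Or.inr (Or.inr (Or.inr (Or.inl ⟨k, D, hk, hD, hts, rfl⟩)))),
      le_inf hle hH⟩
  · exact Or.inl ⟨_, Or.inr (Or.inl ⟨r, K, hr, hrodd, hK, hac, rfl⟩), le_inf hle hH⟩
  · -- a tensor decomposition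
    by_cases hlt : n₁ < n₂
    · exact Or.inl ⟨_, Or.inr (Or.inr (Or.inl ⟨n₁, n₂, e, P, _, _, hn₁, hlt,
        un_fog_unitary h A hA hAdet, un_fog_unitary h S hSh hSdet,
        un_tensor_form_structure h e P A S hG, rfl⟩)), le_inf hle hH⟩
    · have heq : n₁ = n₂ := by omega
      subst heq
      obtain ⟨P', hP', hle'⟩ := un_tensor_std h hF e P A S hA hSh hAdet hSdet hG
      have hle2 : H ≤ tensorProductSubgroup n₁ n₁ e P' := hle.trans hle'
      by_cases h2 : n₁ = 2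
      · subst h2
        exact Or.inl (un_sub_class h H hH (un_tensor_two_two h hF H hH e P' hP' hle2))
      by_cases h23 : q = 2 ∧ n₁ = 3
      · obtain ⟨hq, hn3⟩ := h23
        subst hq
        subst hn3
        rcases un_three_three h hF H hH e P' hP' hle2 with h1 | h1
        · exact Or.inl (un_sub_class h H hH h1)
        · exact Or.inl (un_c6_class H hH h1)
      · obtain ⟨e', f₁, hf₁, hT, hle3⟩ := un_tensor_square h H e P' hP' hle2
        exact Or.inl ⟨_, Or.inr (Or.inr (Or.inr ⟨n₁, 2, e', P', f₁, by omega, le_refl 2, h23, hf₁,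
          hT, rfl⟩)), le_inf hle3 hH⟩
  · exact Or.inl (un_sub_class h H hH hsub)
  · exact Or.inr hres
  · rcases un_c2_cases h hF (by omega) H N hH hc2 with h1 | h1
    · exact Or.inl (un_sub_class h H hH h1)
    · exact Or.inl (un_c6_class H hH h1)
  · have hd2 := hCP.two_le
    by_cases hd : d = 2
    · subst hd
      exact Or.inl (un_sub_class h H hH (un_cp_two h hF (by omega) H N S hH e Pm ρ hCP))
    · obtain ⟨t, e', P', f₁, ht, hex, hf₁, hT, hle⟩ := un_cp_power h hF H N S hH e Pm ρ hCP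
      exact Or.inl ⟨_, Or.inr (Or.inr (Or.inr ⟨d, t, e', P', f₁, by omega, ht, hex, hf₁, hT,
        rfl⟩)), le_inf hle hH⟩

end Cfsg.Agent.Helper35
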