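-- helper35 library: the special unitary group is not contained in the geometric subgroups.
import Cfsg.Agent.Helper35.UnCore

set_option autoImplicit false
set_option linter.unusedSectionVars false
set_option linter.unusedVariables false
open Cfsg Cfsg.Geo Matrix
open scoped Kronecker

namespace Cfsg.Agent.Helper35

open Cfsg.Agent.Helper97

variable {F : Type*} [Field F] {n : ℕ} {q : ℕ} {σ : F ≃+* F}

/-- A non-degenerate subspace has a non-isotropic vector. -/
theorem un_exists_nonisotropic (h : IsSigma q σ) (W : Submodule F (Fin n → F)) (hW0 : W ≠ ⊥)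
    (hnd : IsNondegenerateOn (hermForm n F q) W) : ∃ a ∈ W, hermForm n F q a a ≠ 0 := by
  by_contra hcon
  push Not at hcon
  have hS := h.isSesq (n := n)
  obtain ⟨w, hw, hw0⟩ := Submodule.exists_mem_ne_zero_of_ne_bot hW0
  obtain ⟨⟨x, hx, hxw⟩, -⟩ := hnd w hw hw0
  obtain ⟨θ, hθ⟩ := h.exists_ne
  have key : ∀ c : F, σ c * hermForm n F q x w + c * σ (hermForm n F q x w) = 0 := by
    intro c
    have e : hermForm n F q (x + c • w) (x + c • w) = hermForm n F q x x + σ c * hermForm n F q x w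
        + c * (hermForm n F q w x + σ c * hermForm n F q w w) := by
      rw [hS.add_left, hS.smul_left, hS.add_right, hS.add_right, hS.smul_right, hS.smul_right]
    have h1 := hcon (x + c • w) (W.add_mem hx (W.smul_mem c hw))
    rw [e, hcon x hx, hcon w hw, h.herm_symm w x] at h1
    linear_combination h1
  have h1 := key 1
  have h2 := key θ
  rw [map_one, one_mul, one_mul] at h1
  have h3 : (σ θ - θ) * hermForm n F q x w = 0 := by linear_combination h2 - θ * h1
  rcases mul_eq_zero.mp h3 with h4 | h4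
  · exact hθ (sub_eq_zero.mp h4)
  · exact hxw h4

theorem un_exists_not_mem_span (W : Submodule F (Fin n → F)) (hW : 2 ≤ Module.finrank F W)
    (a : Fin n → F) : ∃ x ∈ W, x ∉ Submodule.span F {a} := by
  classical
  by_contra hcon
  push Not at hcon
  have hle : W ≤ Submodule.span F {a} := fun x hx => hcon x hx
  have h1 := Submodule.finrank_mono hle
  have h2 : Module.finrank F (Submodule.span F {a}) ≤ 1 := by
    have := finrank_span_le_card (R := F) ({a} : Set (Fin n → F))
    simpa using this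
  omega

theorem un_stab_maps {t : ℕ} (D : Fin t → Submodule F (Fin n → F)) (g : GL (Fin n) F)
    (π : Equiv.Perm (Fin t))
    (hπ : ∀ i, (D i).map (Matrix.toLin' (g : Matrix (Fin n) (Fin n) F)) = D (π i)) :
    ∀ i, ∀ x ∈ D i, (g : Matrix (Fin n) (Fin n) F) *ᵥ x ∈ D (π i) := by
  intro i x hx
  rw [← hπ i]
  exact ⟨x, hx, by rw [Matrix.toLin'_apply]⟩

/-- Non-degenerate decompositions into subspaces of dimension at least two. -/
theorem un_notSU_ndecomp [Fintype F] (h : IsSigma q σ) (hF : Fintype.card F = q ^ 2) {t k : ℕ}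
    (hk : 2 ≤ k) (D : Fin t → Submodule F (Fin n → F))
    (hD : IsNondegenerateMDecomposition (hermForm n F q) k D) :
    ¬ GU n F q ⊓ specialLinear (Fin n) F ≤ decompositionStabilizer D := by
  classical
  intro hle
  have hS := h.isSesq (n := n)
  have ht := hD.decomp.two_le
  obtain ⟨i0, hi0⟩ : ∃ i : Fin t, i = ⟨0, by omega⟩ := ⟨_, rfl⟩
  obtain ⟨i1, hi1⟩ : ∃ i : Fin t, i = ⟨1, by omega⟩ := ⟨_, rfl⟩
  have h01 : i0 ≠ i1 := by
    rw [hi0, hi1]
    simp [Fin.ext_iff]
  have hne : ∀ i, D i ≠ ⊥ := by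
    intro i hb
    have h1 := hD.decomp.finrank_eq i
    rw [hb, finrank_bot] at h1
    omega
  obtain ⟨a, ha, haa⟩ := un_exists_nonisotropic h (D i0) (hne i0) (hD.nondegenerate i0)
  obtain ⟨b₀, hb₀, hbb₀⟩ := un_exists_nonisotropic h (D i1) (hne i1) (hD.nondegenerate i1)
  obtain ⟨α, hα⟩ : ∃ α, α = hermForm n F q a a := ⟨_, rfl⟩
  obtain ⟨β, hβ⟩ : ∃ β, β = hermForm n F q b₀ b₀ := ⟨_, rfl⟩
  have hα0 : α ≠ 0 := hα ▸ haa
  have hβ0 : β ≠ 0 := hβ ▸ hbb₀
  have hασ : σ α = α := by
    rw [hα]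
    exact h.herm_self_fixed a
  have hβσ : σ β = β := by
    rw [hβ]
    exact h.herm_self_fixed b₀
  obtain ⟨lam, hlam⟩ := h.exists_norm_eq hF (-α / β) (by rw [map_div₀, map_neg, hασ, hβσ])
    (div_ne_zero (neg_ne_zero.mpr hα0) hβ0)
  obtain ⟨b, hb⟩ : ∃ b, b = lam • b₀ := ⟨_, rfl⟩
  have hbD : b ∈ D i1 := hb ▸ (D i1).smul_mem lam hb₀
  have hbb : hermForm n F q b b = -α := by
    rw [hb, hS.smul_left, hS.smul_right, ← hβ, ← mul_assoc, hlam]
    field_simp
  have hab : hermForm n F q a b = 0 := hD.orthogonal i0 i1 h01 a ha b hbD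
  have hba : hermForm n F q b a = 0 := hD.orthogonal i1 i0 h01.symm b hbD a ha
  obtain ⟨u, hu⟩ : ∃ u, u = a + b := ⟨_, rfl⟩
  have huu : hermForm n F q u u = 0 := by
    rw [hu, hS.add_left, hS.add_right, hS.add_right, hab, hba, hbb, ← hα]
    ring
  obtain ⟨c, hc0, hc⟩ := h.exists_trace_zero
  obtain ⟨tv, htG, htv, -⟩ := h.exists_utv u huu c hc
  obtain ⟨π, hπ⟩ := (mem_decompositionStabilizer_iff D tv).mp (hle htG)
  have hmap := un_stab_maps D tv π hπ
  have hau : hermForm n F q a u = α := by rw [hu, hS.add_right, hab, add_zero, hα]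
  have hπ0 : π i0 = i1 := by
    by_contra hne1
    have h1 := hmap i0 a ha
    rw [htv, hau] at h1
    have h2 := hD.orthogonal (π i0) i1 hne1 _ h1 b hbD
    rw [hS.add_left, hS.smul_left, hab, hu, hS.add_left, hab, hbb] at h2
    have h3 : c * α * α = 0 := by linear_combination -h2
    exact mul_ne_zero (mul_ne_zero hc0 hα0) hα0 h3
  obtain ⟨w, hw, hw0, hwa⟩ : ∃ w ∈ D i0, w ≠ 0 ∧ hermForm n F q w a = 0 := by
    obtain ⟨x, hx, hxs⟩ := un_exists_not_mem_span (D i0)
      (by rw [hD.decomp.finrank_eq]; exact hk) a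
    refine ⟨x - (hermForm n F q x a / α) • a, (D i0).sub_mem hx ((D i0).smul_mem _ ha), ?_, ?_⟩
    · intro h1
      apply hxs
      rw [sub_eq_zero.mp h1]
      exact Submodule.smul_mem _ _ (Submodule.mem_span_singleton_self _)
    · rw [un_herm_sub_left h, hS.smul_left, ← hα]
      field_simp
      ring
  have h1 := hmap i0 w hw
  have hwu : hermForm n F q w u = 0 := by
    rw [hu, hS.add_right, hwa, hD.orthogonal i0 i1 h01 w hw b hbD, add_zero]
  rw [htv, hwu, mul_zero, zero_smul, add_zero, hπ0] at h1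
  obtain ⟨⟨x, hx, hxw⟩, -⟩ := hD.nondegenerate i0 w hw hw0
  exact hxw (hD.orthogonal i0 i1 h01 x hx w h1)

/-- Decompositions into two totally singular subspaces of dimension at least two. -/
theorem un_notSU_tsdecomp [Fintype F] (h : IsSigma q σ) {k : ℕ} (hk : 2 ≤ k)
    (D : Fin 2 → Submodule F (Fin n → F)) (hD : IsMDecomposition k D)
    (hts : ∀ i, IsTotallySingularFor (hermForm n F q) (D i)) :
    ¬ GU n F q ⊓ specialLinear (Fin n) F ≤ decompositionStabilizer D := by
  classical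
  intro hle
  have hS := h.isSesq (n := n)
  have hne : ∀ i, D i ≠ ⊥ := by
    intro i hb
    have h1 := hD.finrank_eq i
    rw [hb, finrank_bot] at h1
    omega
  obtain ⟨a, ha, ha0⟩ := Submodule.exists_mem_ne_zero_of_ne_bot (hne 0)
  obtain ⟨b, hb, hb0, hba⟩ : ∃ b ∈ D 1, b ≠ 0 ∧ hermForm n F q b a = 0 := by
    obtain ⟨b₁, hb₁, hb₁0⟩ := Submodule.exists_mem_ne_zero_of_ne_bot (hne 1)
    by_cases h0 : hermForm n F q b₁ a = 0
    · exact ⟨b₁, hb₁, hb₁0, h0⟩
    · obtain ⟨x, hx, hxs⟩ := un_exists_not_mem_span (D 1) (by rw [hD.finrank_eq]; exact hk) b₁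
      refine ⟨x - (hermForm n F q x a / hermForm n F q b₁ a) • b₁,
        (D 1).sub_mem hx ((D 1).smul_mem _ hb₁), ?_, ?_⟩
      · intro h1
        apply hxs
        rw [sub_eq_zero.mp h1]
        exact Submodule.smul_mem _ _ (Submodule.mem_span_singleton_self _)
      · rw [un_herm_sub_left h, hS.smul_left]
        field_simp
        ring
  have hab : hermForm n F q a b = 0 := by rw [h.herm_symm, hba, map_zero]
  obtain ⟨u, hu⟩ : ∃ u, u = a + b := ⟨_, rfl⟩
  have huu : hermForm n F q u u = 0 := by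
    rw [hu, hS.add_left, hS.add_right, hS.add_right, hab, hba, hts 0 a ha a ha, hts 1 b hb b hb]
    ring
  obtain ⟨c, hc0, hc⟩ := h.exists_trace_zero
  obtain ⟨tv, htG, htv, -⟩ := h.exists_utv u huu c hc
  obtain ⟨π, hπ⟩ := (mem_decompositionStabilizer_iff D tv).mp (hle htG)
  have hmap := un_stab_maps D tv π hπ
  obtain ⟨w, hw, hwb⟩ : ∃ w ∈ D 0, hermForm n F q w b ≠ 0 := by
    by_contra hcon
    push Not at hcon
    obtain ⟨⟨y, hy⟩, -⟩ := h.isUnitaryForm.nondegenerate b hb0
    apply hy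
    have hy' : y ∈ D 0 ⊔ D 1 := by
      have h1 : (⨆ i, D i) ≤ D 0 ⊔ D 1 := by
        refine iSup_le (fun i => ?_)
        rcases Helper96.Sy.fin2_cases i with rfl | rfl
        · exact le_sup_left
        · exact le_sup_right
      exact h1 (by rw [hD.iSup_eq_top]; trivial)
    obtain ⟨y₀, hy₀, y₁, hy₁, rfl⟩ := Submodule.mem_sup.mp hy'
    rw [hS.add_left, hcon y₀ hy₀, hts 1 y₁ hy₁ b hb, add_zero]
  have hdisj : ∀ x, x ∈ D 0 → x ∈ D 1 → x = 0 := by
    intro x hx0 hx1
    have hd : Disjoint (D 0) (D 1) := hD.indep.pairwiseDisjoint (by decide : (0 : Fin 2) ≠ 1)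
    exact (Submodule.disjoint_def.mp hd) x hx0 hx1
  have hau : hermForm n F q a u = 0 := by rw [hu, hS.add_right, hts 0 a ha a ha, hab, add_zero]
  have h1 := hmap 0 a ha
  rw [htv, hau, mul_zero, zero_smul, add_zero] at h1
  have hπ0 : π 0 = 0 := by
    rcases Helper96.Sy.fin2_cases (π 0) with h2 | h2
    · exact h2
    · exfalso
      rw [h2] at h1
      exact ha0 (hdisj a ha h1)
  have h3 := hmap 0 w hw
  have hwu : hermForm n F q w u = hermForm n F q w b := by
    rw [hu, hS.add_right, hts 0 w hw a ha, zero_add]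
  rw [htv, hwu, hπ0, hu, smul_add] at h3
  have h4 : (c * hermForm n F q w b) • b ∈ D 0 := by
    have h5 : (c * hermForm n F q w b) • b = (w + ((c * hermForm n F q w b) • a
        + (c * hermForm n F q w b) • b)) - w - (c * hermForm n F q w b) • a := by abel
    rw [h5]
    exact (D 0).sub_mem ((D 0).sub_mem h3 hw) ((D 0).smul_mem _ ha)
  have h6 := hdisj _ h4 ((D 1).smul_mem _ hb)
  rcases smul_eq_zero.mp h6 with h7 | h7
  · exact (mul_ne_zero hc0 hwb) h7
  · exact hb0 h7

end Cfsg.Agent.Helper35
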