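-- helper35 library: the special unitary group is not contained in tensor product subgroups or in
-- subfield groups of symplectic type.
import Cfsg.Agent.Helper35.UnNot
import Cfsg.Agent.Helper96.SpNot

set_option autoImplicit false
set_option linter.unusedSectionVars false
set_option linter.unusedVariables false
open Cfsg Cfsg.Geo Matrix
open scoped Kronecker

namespace Cfsg.Agent.Helper35

open Cfsg.Agent.Helper97

variable {F : Type*} [Field F] {n : ℕ} {q : ℕ} {σ : F ≃+* F}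

/-- The action of a reindexed Kronecker product on a pure tensor. -/
theorem un_kron_pure {n₁ n₂ : ℕ} (e : Fin n ≃ Fin n₁ × Fin n₂)
    (a : Matrix (Fin n₁) (Fin n₁) F) (b : Matrix (Fin n₂) (Fin n₂) F)
    (x : Fin n₁ → F) (y : Fin n₂ → F) :
    Matrix.reindexAlgEquiv F F e.symm (a ⊗ₖ b) *ᵥ (fun i => x (e i).1 * y (e i).2)
      = fun i => (a *ᵥ x) (e i).1 * (b *ᵥ y) (e i).2 := by
  funext i
  simp only [Matrix.mulVec, dotProduct, Matrix.coe_reindexAlgEquiv, Matrix.reindex_apply,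
    Matrix.submatrix_apply, Equiv.symm_symm, Matrix.kronecker_apply]
  rw [← Equiv.sum_comp e.symm, Fintype.sum_prod_type, Finset.sum_mul_sum]
  apply Finset.sum_congr rfl
  intro i' _
  apply Finset.sum_congr rfl
  intro j' _
  rw [Matrix.kroneckerMap_apply, Equiv.apply_symm_apply]
  ring

/-- Tensor product subgroups. -/
theorem un_notSU_tensor [Fintype F] (h : IsSigma q σ) (hF : Fintype.card F = q ^ 2) (hn : 2 ≤ n)
    {n₁ n₂ : ℕ} (h1 : 2 ≤ n₁) (h2 : 2 ≤ n₂) (e : Fin n ≃ Fin n₁ × Fin n₂) (P : GL (Fin n) F) :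
    ¬ GU n F q ⊓ specialLinear (Fin n) F ≤ tensorProductSubgroup n₁ n₂ e P := by
  classical
  intro hle
  have hS := h.isSesq (n := n)
  obtain ⟨c, hc0, hc⟩ := h.exists_trace_zero
  obtain ⟨u, hu0, huu⟩ := h.exists_isotropic hF hn
  obtain ⟨tv, htG, htv, -⟩ := h.exists_utv u huu c hc
  obtain ⟨a, b, hab⟩ := Helper98.mem_tensorProductSubgroup (hle htG)
  obtain ⟨T, hT⟩ : ∃ T : (Fin n₁ → F) → (Fin n₂ → F) → (Fin n → F),
      T = fun x y => (P : Matrix (Fin n) (Fin n) F) *ᵥ (fun i => x (e i).1 * y (e i).2) := ⟨_, rfl⟩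
  have hact : ∀ x y, (tv : Matrix (Fin n) (Fin n) F) *ᵥ T x y
      = T ((a : Matrix (Fin n₁) (Fin n₁) F) *ᵥ x) ((b : Matrix (Fin n₂) (Fin n₂) F) *ᵥ y) := by
    intro x y
    rw [hab, Helper98.conjReindex_apply, hT]
    simp only
    rw [Matrix.mulVec_mulVec, mul_assoc, mul_assoc, ← Units.val_mul, inv_mul_cancel, Units.val_one,
      mul_one, ← Matrix.mulVec_mulVec, un_kron_pure]
  have hTaddr : ∀ x y y', T x (y + y') = T x y + T x y' := by
    intro x y y'
    rw [hT]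
    simp only
    rw [← Matrix.mulVec_add]
    congr 1
    funext i
    simp [mul_add]
  have hTsmulr : ∀ x (s : F) y, T x (s • y) = s • T x y := by
    intro x s y
    rw [hT]
    simp only
    rw [← Matrix.mulVec_smul]
    congr 1
    funext i
    simp [mul_left_comm]
  have hTaddl : ∀ x x' y, T (x + x') y = T x y + T x' y := by
    intro x x' y
    rw [hT]
    simp only
    rw [← Matrix.mulVec_add]
    congr 1
    funext i
    simp [add_mul]
  have hTsmull : ∀ (s : F) x y, T (s • x) y = s • T x y := by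
    intro s x y
    rw [hT]
    simp only
    rw [← Matrix.mulVec_smul]
    congr 1
    funext i
    simp [mul_assoc]
  have hexy : ∀ x, ∃ y, y ≠ 0 ∧ hermForm n F q (T x y) u = 0 := by
    intro x
    obtain ⟨L, hL⟩ : ∃ L : (Fin n₂ → F) →ₗ[F] F, ∀ y, L y = hermForm n F q (T x y) u :=
      ⟨IsLinearMap.mk' (fun y => hermForm n F q (T x y) u)
        ⟨fun y y' => by rw [hTaddr, hS.add_left],
          fun s y => by rw [hTsmulr, hS.smul_left]; rfl⟩, fun _ => rfl⟩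
    have hker : LinearMap.ker L ≠ ⊥ := LinearMap.ker_ne_bot_of_finrank_lt
      (by rw [Module.finrank_self, Module.finrank_fin_fun]; omega)
    obtain ⟨y, hy, hy0⟩ := Submodule.exists_mem_ne_zero_of_ne_bot hker
    exact ⟨y, hy0, by rw [← hL]; exact LinearMap.mem_ker.mp hy⟩
  have hexx : ∀ y, ∃ x, x ≠ 0 ∧ hermForm n F q (T x y) u = 0 := by
    intro y
    obtain ⟨L, hL⟩ : ∃ L : (Fin n₁ → F) →ₗ[F] F, ∀ x, L x = hermForm n F q (T x y) u :=
      ⟨IsLinearMap.mk' (fun x => hermForm n F q (T x y) u)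
        ⟨fun x x' => by rw [hTaddl, hS.add_left],
          fun s x => by rw [hTsmull, hS.smul_left]; rfl⟩, fun _ => rfl⟩
    have hker : LinearMap.ker L ≠ ⊥ := LinearMap.ker_ne_bot_of_finrank_lt
      (by rw [Module.finrank_self, Module.finrank_fin_fun]; omega)
    obtain ⟨x, hx, hx0⟩ := Submodule.exists_mem_ne_zero_of_ne_bot hker
    exact ⟨x, hx0, by rw [← hL]; exact LinearMap.mem_ker.mp hx⟩
  have hfixed : ∀ x y, hermForm n F q (T x y) u = 0 → ∀ i j,
      ((a : Matrix (Fin n₁) (Fin n₁) F) *ᵥ x) i * ((b : Matrix (Fin n₂) (Fin n₂) F) *ᵥ y) j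
        = x i * y j := by
    intro x y hxy i j
    have h3 := hact x y
    rw [htv, hxy, mul_zero, zero_smul, add_zero, hT] at h3
    simp only at h3
    have h4 := Helper97.mulVec_injective P h3
    have h5 := congrFun h4 (e.symm (i, j))
    simp only [Equiv.apply_symm_apply] at h5
    exact h5.symm
  have haeig : ∀ x : Fin n₁ → F, ∃ s : F, (a : Matrix (Fin n₁) (Fin n₁) F) *ᵥ x = s • x := by
    intro x
    by_cases hx0 : x = 0
    · exact ⟨0, by rw [hx0, Matrix.mulVec_zero, smul_zero]⟩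
    obtain ⟨y, hy0, hy⟩ := hexy x
    have hfix := hfixed x y hy
    obtain ⟨j, hj⟩ := exists_ne_zero_coord hy0
    obtain ⟨i₀, hi₀⟩ := exists_ne_zero_coord hx0
    have hbj : ((b : Matrix (Fin n₂) (Fin n₂) F) *ᵥ y) j ≠ 0 := by
      intro h0
      have := hfix i₀ j
      rw [h0, mul_zero] at this
      exact mul_ne_zero hi₀ hj this.symm
    refine ⟨y j / ((b : Matrix (Fin n₂) (Fin n₂) F) *ᵥ y) j, ?_⟩
    funext i
    have := hfix i j
    rw [Pi.smul_apply, smul_eq_mul]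
    field_simp
    linear_combination this
  have hbeig : ∀ y : Fin n₂ → F, ∃ s : F, (b : Matrix (Fin n₂) (Fin n₂) F) *ᵥ y = s • y := by
    intro y
    by_cases hy0 : y = 0
    · exact ⟨0, by rw [hy0, Matrix.mulVec_zero, smul_zero]⟩
    obtain ⟨x, hx0, hx⟩ := hexx y
    have hfix := hfixed x y hx
    obtain ⟨i, hi⟩ := exists_ne_zero_coord hx0
    obtain ⟨j₀, hj₀⟩ := exists_ne_zero_coord hy0
    have hai : ((a : Matrix (Fin n₁) (Fin n₁) F) *ᵥ x) i ≠ 0 := by
      intro h0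
      have := hfix i j₀
      rw [h0, zero_mul] at this
      exact mul_ne_zero hi hj₀ this.symm
    refine ⟨x i / ((a : Matrix (Fin n₁) (Fin n₁) F) *ᵥ x) i, ?_⟩
    funext j
    have := hfix i j
    rw [Pi.smul_apply, smul_eq_mul]
    field_simp
    linear_combination this
  obtain ⟨α, hα⟩ := Helper96.Sy.scalar_of_eigen _ haeig
  obtain ⟨β, hβ⟩ := Helper96.Sy.scalar_of_eigen _ hbeig
  have htsc : (tv : Matrix (Fin n) (Fin n) F) = (α * β) • (1 : Matrix (Fin n) (Fin n) F) := by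
    rw [hab, hα, hβ, Matrix.smul_kronecker, Matrix.kronecker_smul, Matrix.one_kronecker_one,
      smul_smul, map_smul, map_one]
  have h3 := htv u
  rw [huu, mul_zero, zero_smul, add_zero, htsc, Matrix.smul_mulVec, Matrix.one_mulVec] at h3
  have hαβ : α * β = 1 := by
    have h4 : (α * β - 1) • u = 0 := by rw [sub_smul, one_smul, h3, sub_self]
    rcases smul_eq_zero.mp h4 with h5 | h5
    · exact sub_eq_zero.mp h5
    · exact absurd h5 hu0
  obtain ⟨⟨v, hv⟩, -⟩ := h.isUnitaryForm.nondegenerate u hu0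
  have h6 := htv v
  rw [htsc, hαβ, one_smul, Matrix.one_mulVec] at h6
  have h7 : (c * hermForm n F q v u) • u = 0 := by
    have := sub_eq_zero.mpr h6.symm
    simpa using this
  rcases smul_eq_zero.mp h7 with h8 | h8
  · exact mul_ne_zero hc0 hv h8
  · exact hu0 h8

/-- Subfield groups of index two and symplectic type, in dimension at least three. -/
theorem un_notSU_subfield_symp [Fintype F] (h : IsSigma q σ) (hF : Fintype.card F = q ^ 2)
    (hn : 3 ≤ n) (F₀ : Subfield F) (hcard : Fintype.card F = Nat.card F₀ ^ 2) (P : GL (Fin n) F)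
    (ζ : F) (hζ : ζ ≠ 0) (hform : IsFormRationalStructure (hermForm n F q) F₀ ζ P)
    (hiso : ∀ u : Fin n → F, (∀ i, u i ∈ F₀) →
      hermForm n F q ((P : Matrix (Fin n) (Fin n) F) *ᵥ u) ((P : Matrix (Fin n) (Fin n) F) *ᵥ u) = 0) :
    ¬ GU n F q ⊓ specialLinear (Fin n) F ≤ subfieldSubgroup F₀ P := by
  classical
  intro hle
  have : NeZero n := ⟨by omega⟩
  have hS := h.isSesq (n := n)
  have hsq : Nat.card F₀ = q := by
    have h1 : Nat.card F₀ ^ 2 = q ^ 2 := by rw [← hcard, hF]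
    exact Nat.pow_left_injective (by norm_num : (2 : ℕ) ≠ 0) h1
  have hfixF₀ : ∀ x ∈ F₀, σ x = x := by
    intro x hx
    rw [h.pow, ← hsq]
    exact subfield_pow_card F₀ x hx
  obtain ⟨c, hc0, hc⟩ := h.exists_trace_zero
  have hR : ∀ u : Fin n → F, hermForm n F q u u = 0 → u ≠ 0 → ∃ (α : F) (x₀ : Fin n → F), α ≠ 0 ∧
      (∀ i, x₀ i ∈ F₀) ∧ u = α • ((P : Matrix (Fin n) (Fin n) F) *ᵥ x₀) := by
    intro u hu hu0
    obtain ⟨j, hj⟩ := h.exists_herm_ne P hu0
    refine ⟨(c * hermForm n F q ((P : Matrix (Fin n) (Fin n) F) *ᵥ Pi.single j 1) u)⁻¹,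
      (c * hermForm n F q ((P : Matrix (Fin n) (Fin n) F) *ᵥ Pi.single j 1) u)
        • (((P⁻¹ : GL (Fin n) F) : Matrix (Fin n) (Fin n) F) *ᵥ u),
      inv_ne_zero (mul_ne_zero hc0 hj), ?_, ?_⟩
    · intro i
      exact h.subfield_entries F₀ P hle u hu c hc i j
    · rw [Matrix.mulVec_smul, mulVec_cancel_inv, smul_smul, inv_mul_cancel₀ (mul_ne_zero hc0 hj),
        one_smul]
  obtain ⟨i0, hi0⟩ : ∃ i : Fin n, i = ⟨0, by omega⟩ := ⟨_, rfl⟩
  obtain ⟨i1, hi1⟩ : ∃ i : Fin n, i = ⟨1, by omega⟩ := ⟨_, rfl⟩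
  obtain ⟨i2, hi2⟩ : ∃ i : Fin n, i = ⟨2, by omega⟩ := ⟨_, rfl⟩
  have h01 : i0 ≠ i1 := by rw [hi0, hi1]; simp [Fin.ext_iff]
  have h02 : i0 ≠ i2 := by rw [hi0, hi2]; simp [Fin.ext_iff]
  have h12 : i1 ≠ i2 := by rw [hi1, hi2]; simp [Fin.ext_iff]
  have hsingle : ∀ i : Fin n, ∀ k, (Pi.single i 1 : Fin n → F) k ∈ F₀ := by
    intro i k
    rw [Pi.single_apply]
    split_ifs
    · exact F₀.one_mem
    · exact F₀.zero_mem
  obtain ⟨g, hg⟩ : ∃ g : (Fin n → F) → F, ∀ y, g y =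
      hermForm n F q ((P : Matrix (Fin n) (Fin n) F) *ᵥ Pi.single i0 1)
        ((P : Matrix (Fin n) (Fin n) F) *ᵥ y) := ⟨_, fun _ => rfl⟩
  have hgF : ∀ y : Fin n → F, (∀ k, y k ∈ F₀) → σ (ζ * g y) = ζ * g y := by
    intro y hy
    rw [hg]
    exact hfixF₀ _ (hform _ y (hsingle i0) hy)
  obtain ⟨y, hyF, hy0, ⟨j, hj⟩, hgy⟩ : ∃ y : Fin n → F, (∀ k, y k ∈ F₀) ∧ y i0 = 0 ∧
      (∃ j, y j ≠ 0) ∧ g y = 0 := by
    by_cases h0 : g (Pi.single i1 1) = 0
    · refine ⟨Pi.single i1 1, hsingle i1, ?_, ⟨i1, ?_⟩, h0⟩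
      · rw [Pi.single_apply, if_neg h01]
      · rw [Pi.single_eq_same]
        exact one_ne_zero
    · obtain ⟨a₁, ha₁⟩ : ∃ a₁, a₁ = g (Pi.single i1 1) := ⟨_, rfl⟩
      obtain ⟨a₂, ha₂⟩ : ∃ a₂, a₂ = g (Pi.single i2 1) := ⟨_, rfl⟩
      have hσ1 : σ (ζ * a₁) = ζ * a₁ := ha₁ ▸ hgF _ (hsingle i1)
      have hσ2 : σ (ζ * a₂) = ζ * a₂ := ha₂ ▸ hgF _ (hsingle i2)
      have hm1 : ζ * a₁ ∈ F₀ := by
        rw [ha₁, hg]
        exact hform _ _ (hsingle i0) (hsingle i1)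
      have hm2 : ζ * a₂ ∈ F₀ := by
        rw [ha₂, hg]
        exact hform _ _ (hsingle i0) (hsingle i2)
      refine ⟨(ζ * a₂) • Pi.single i1 1 - (ζ * a₁) • Pi.single i2 1, ?_, ?_, ⟨i2, ?_⟩, ?_⟩
      · intro k
        rw [Pi.sub_apply, Pi.smul_apply, Pi.smul_apply, smul_eq_mul, smul_eq_mul]
        exact F₀.sub_mem (F₀.mul_mem hm2 (hsingle i1 k)) (F₀.mul_mem hm1 (hsingle i2 k))
      · simp [Pi.single_apply, h01, h02]
      · simp only [Pi.sub_apply, Pi.smul_apply, smul_eq_mul, Pi.single_eq_same,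
          Pi.single_eq_of_ne h12.symm, mul_zero, mul_one, zero_sub]
        exact neg_ne_zero.mpr (mul_ne_zero hζ (ha₁ ▸ h0))
      · rw [hg, Matrix.mulVec_sub, Matrix.mulVec_smul, Matrix.mulVec_smul, un_herm_sub_right h,
          hS.smul_right, hS.smul_right, hσ1, hσ2, ← hg, ← hg, ← ha₁, ← ha₂]
        ring
  obtain ⟨θ, hθ⟩ := h.exists_ne
  obtain ⟨E, hE⟩ : ∃ E : Fin n → F, E = (P : Matrix (Fin n) (Fin n) F) *ᵥ Pi.single i0 1 := ⟨_, rfl⟩
  obtain ⟨Y, hY⟩ : ∃ Y : Fin n → F, Y = (P : Matrix (Fin n) (Fin n) F) *ᵥ y := ⟨_, rfl⟩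
  have hEE : hermForm n F q E E = 0 := by rw [hE]; exact hiso _ (hsingle i0)
  have hYY : hermForm n F q Y Y = 0 := by rw [hY]; exact hiso _ hyF
  have hEY : hermForm n F q E Y = 0 := by rw [hE, hY, ← hg]; exact hgy
  have hYE : hermForm n F q Y E = 0 := by rw [h.herm_symm, hEY, map_zero]
  obtain ⟨W, hW⟩ : ∃ W : Fin n → F, W = E + θ • Y := ⟨_, rfl⟩
  have hWW : hermForm n F q W W = 0 := by
    rw [hW, hS.add_left, hS.smul_left, hS.add_right, hS.add_right, hS.smul_right, hS.smul_right,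
      hEE, hYY, hEY, hYE]
    ring
  have hWP : W = (P : Matrix (Fin n) (Fin n) F) *ᵥ (Pi.single i0 1 + θ • y) := by
    rw [hW, hE, hY, Matrix.mulVec_add, Matrix.mulVec_smul]
  have hW0 : W ≠ 0 := by
    intro h0
    rw [hWP] at h0
    have h1 : (P : Matrix (Fin n) (Fin n) F) *ᵥ (Pi.single i0 1 + θ • y)
        = (P : Matrix (Fin n) (Fin n) F) *ᵥ 0 := by rw [h0, Matrix.mulVec_zero]
    have h2 := congrFun (Helper97.mulVec_injective P h1) i0
    simp [hy0] at h2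
  obtain ⟨α, w₀, hα0, hw₀, hWw⟩ := hR W hWW hW0
  rw [hWP, ← Matrix.mulVec_smul] at hWw
  have h3 := Helper97.mulVec_injective P hWw
  have h4 := congrFun h3 i0
  have h5 := congrFun h3 j
  simp only [Pi.add_apply, Pi.smul_apply, smul_eq_mul, Pi.single_eq_same, hy0, mul_zero, add_zero]
    at h4
  have hj0 : j ≠ i0 := by
    rintro rfl
    exact hj hy0
  simp only [Pi.add_apply, Pi.smul_apply, smul_eq_mul, Pi.single_eq_of_ne hj0, zero_add] at h5
  have hw0 : w₀ i0 ≠ 0 := by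
    intro h0
    rw [h0, mul_zero] at h4
    exact one_ne_zero h4
  have hαF : α ∈ F₀ := by
    have : α = (w₀ i0)⁻¹ := by
      field_simp
      exact h4.symm
    rw [this]
    exact F₀.inv_mem (hw₀ i0)
  have hθF : θ ∈ F₀ := by
    have : θ = α * w₀ j / y j := by
      field_simp
      exact h5
    rw [this]
    exact F₀.div_mem (F₀.mul_mem hαF (hw₀ j)) (hyF j)
  exact hθ (hfixF₀ θ hθF)

end Cfsg.Agent.Helper35
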