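-- helper35 library: hermitian planes over the field with four elements; refining a decomposition
-- into non-degenerate planes to a decomposition into non-degenerate lines when q = 2.
import Cfsg.Agent.Helper35.UnNot2

set_option autoImplicit false
set_option linter.unusedSectionVars false
set_option linter.unusedVariables false
open Cfsg Cfsg.Geo Matrix
open scoped Kronecker

namespace Cfsg.Agent.Helper35

open Cfsg.Agent.Helper97

variable {F : Type*} [Field F] {n : ℕ} {q : ℕ} {σ : F ≃+* F}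

theorem un_four_facts [Fintype F] (h : IsSigma 2 σ) (hF : Fintype.card F = 2 ^ 2) :
    (2 : F) = 0 ∧ (∀ x : F, x ≠ 0 → x * σ x = 1) ∧ (∀ x : F, σ x = x → x ≠ 0 → x = 1) := by
  have h2 : (2 : F) = 0 := by
    have h1 : Fintype.card F % 2 = 0 := by
      rw [hF]
      norm_num
    have hc : ringChar F = 2 := FiniteField.even_card_iff_char_two.mpr h1
    have : CharP F 2 := ringChar.of_eq hc
    exact_mod_cast CharP.cast_eq_zero F 2
  refine ⟨h2, ?_, ?_⟩
  · intro x hx
    rw [h.pow]
    have h3 := FiniteField.pow_card_sub_one_eq_one x hx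
    rw [hF] at h3
    have e : x * x ^ 2 = x ^ (2 ^ 2 - 1) := by
      norm_num
      ring
    rw [e, h3]
  · intro x hx hx0
    rw [h.pow] at hx
    have h3 : x * (x - 1) = 0 := by linear_combination hx
    rcases mul_eq_zero.mp h3 with h1 | h1
    · exact absurd h1 hx0
    · exact sub_eq_zero.mp h1

/-- A non-degenerate subspace for a hermitian form has a non-isotropic vector. -/
theorem un_exists_nonisotropic_gen (h : IsSigma q σ) {m : ℕ} (φ : (Fin m → F) → (Fin m → F) → F)
    (hS : IsSesq σ φ) (hherm : ∀ v w, φ v w = σ (φ w v))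
    (W : Submodule F (Fin m → F)) (hW0 : W ≠ ⊥) (hnd : IsNondegenerateOn φ W) :
    ∃ a ∈ W, φ a a ≠ 0 := by
  by_contra hcon
  push Not at hcon
  obtain ⟨w, hw, hw0⟩ := Submodule.exists_mem_ne_zero_of_ne_bot hW0
  obtain ⟨⟨x, hx, hxw⟩, -⟩ := hnd w hw hw0
  obtain ⟨θ, hθ⟩ := h.exists_ne
  have key : ∀ c : F, σ c * φ x w + c * σ (φ x w) = 0 := by
    intro c
    have e : φ (x + c • w) (x + c • w) = φ x x + σ c * φ x w + c * (φ w x + σ c * φ w w) := by
      rw [hS.add_left, hS.smul_left, hS.add_right, hS.add_right, hS.smul_right, hS.smul_right]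
    have h1 := hcon (x + c • w) (W.add_mem hx (W.smul_mem c hw))
    rw [e, hcon x hx, hcon w hw, hherm w x] at h1
    linear_combination h1
  have h1 := key 1
  have h2 := key θ
  rw [map_one, one_mul, one_mul] at h1
  have h3 : (σ θ - θ) * φ x w = 0 := by linear_combination h2 - θ * h1
  rcases mul_eq_zero.mp h3 with h4 | h4
  · exact hθ (sub_eq_zero.mp h4)
  · exact hxw h4

theorem un_exists_not_mem_span' {m : ℕ} (W : Submodule F (Fin m → F))
    (hW : 2 ≤ Module.finrank F W) (a : Fin m → F) : ∃ x ∈ W, x ∉ Submodule.span F {a} :=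
  un_exists_not_mem_span W hW a

/-- A non-degenerate hermitian plane over the field with four elements has exactly two lines of
non-isotropic vectors, and they are orthogonal. -/
theorem un_two_frame [Fintype F] (h : IsSigma 2 σ) (hF : Fintype.card F = 2 ^ 2) {m : ℕ}
    (φ : (Fin m → F) → (Fin m → F) → F) (hS : IsSesq σ φ) (hherm : ∀ v w, φ v w = σ (φ w v))
    (W : Submodule F (Fin m → F)) (hW : Module.finrank F W = 2) (hnd : IsNondegenerateOn φ W) :
    ∃ w₁ ∈ W, ∃ w₂ ∈ W, φ w₁ w₁ ≠ 0 ∧ φ w₂ w₂ ≠ 0 ∧ φ w₁ w₂ = 0 ∧ φ w₂ w₁ = 0 ∧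
      (∀ v ∈ W, ∃ s t : F, v = s • w₁ + t • w₂) ∧
      (∀ v ∈ W, φ v v ≠ 0 → (∃ s : F, v = s • w₁) ∨ (∃ t : F, v = t • w₂)) := by
  classical
  obtain ⟨h2, hN, hfix1⟩ := un_four_facts h hF
  have hW0 : W ≠ ⊥ := by
    intro hb
    rw [hb, finrank_bot] at hW
    omega
  obtain ⟨w₁, hw₁, h11⟩ := un_exists_nonisotropic_gen h φ hS hherm W hW0 hnd
  obtain ⟨x, hx, hxs⟩ := un_exists_not_mem_span W (by omega) w₁
  obtain ⟨w₂, hw₂def⟩ : ∃ w₂, w₂ = x + (-(φ x w₁ / φ w₁ w₁)) • w₁ := ⟨_, rfl⟩
  have hw₂ : w₂ ∈ W := hw₂def ▸ W.add_mem hx (W.smul_mem _ hw₁)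
  have hw₂0 : w₂ ≠ 0 := by
    intro h0
    apply hxs
    rw [hw₂def] at h0
    have h1 : x = (φ x w₁ / φ w₁ w₁) • w₁ := by
      have := eq_neg_of_add_eq_zero_left h0
      rw [neg_smul, neg_neg] at this
      exact this
    rw [h1]
    exact Submodule.smul_mem _ _ (Submodule.mem_span_singleton_self _)
  have h21 : φ w₂ w₁ = 0 := by
    rw [hw₂def, hS.add_left, hS.smul_left]
    field_simp
    ring
  have h12 : φ w₁ w₂ = 0 := by rw [hherm, h21, map_zero]
  have hrep : ∀ v ∈ W, ∃ s t : F, v = s • w₁ + t • w₂ := by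
    have hlt : Submodule.span F {w₂} < Submodule.span F {w₂} ⊔ Submodule.span F {w₁} := by
      refine lt_of_le_of_ne le_sup_left (fun heq => ?_)
      have h3 : w₁ ∈ Submodule.span F {w₂} := by
        rw [heq]
        exact Submodule.mem_sup_right (Submodule.mem_span_singleton_self _)
      obtain ⟨c, hc⟩ := Submodule.mem_span_singleton.mp h3
      apply h11
      nth_rewrite 1 [← hc]
      rw [hS.smul_left, h21, mul_zero]
    have h1 := Submodule.finrank_lt_finrank_of_lt hlt
    have h3 : Module.finrank F (Submodule.span F {w₂}) = 1 := finrank_span_singleton hw₂0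
    have hle : Submodule.span F {w₂} ⊔ Submodule.span F {w₁} ≤ W :=
      sup_le ((Submodule.span_singleton_le_iff_mem _ _).mpr hw₂)
        ((Submodule.span_singleton_le_iff_mem _ _).mpr hw₁)
    have h4 := Submodule.finrank_mono hle
    have heq : Submodule.span F {w₂} ⊔ Submodule.span F {w₁} = W :=
      Submodule.eq_of_le_of_finrank_eq hle (by omega)
    intro v hv
    rw [← heq] at hv
    obtain ⟨y, hy, z, hz, rfl⟩ := Submodule.mem_sup.mp hv
    obtain ⟨t, rfl⟩ := Submodule.mem_span_singleton.mp hy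
    obtain ⟨s, rfl⟩ := Submodule.mem_span_singleton.mp hz
    exact ⟨s, t, add_comm _ _⟩
  have h22 : φ w₂ w₂ ≠ 0 := by
    obtain ⟨⟨z, hz, hzw⟩, -⟩ := hnd w₂ hw₂ hw₂0
    obtain ⟨s, t, rfl⟩ := hrep z hz
    intro h0
    apply hzw
    rw [hS.add_left, hS.smul_left, hS.smul_left, h12, h0, mul_zero, mul_zero, add_zero]
  have hα₁ : φ w₁ w₁ = 1 := hfix1 _ (hherm w₁ w₁).symm h11
  have hα₂ : φ w₂ w₂ = 1 := hfix1 _ (hherm w₂ w₂).symm h22
  refine ⟨w₁, hw₁, w₂, hw₂, h11, h22, h12, h21, hrep, ?_⟩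
  intro v hv hvv
  obtain ⟨s, t, rfl⟩ := hrep v hv
  have e : φ (s • w₁ + t • w₂) (s • w₁ + t • w₂) = s * σ s + t * σ t := by
    rw [hS.add_left, hS.smul_left, hS.smul_left, hS.add_right, hS.add_right, hS.smul_right,
      hS.smul_right, hS.smul_right, hS.smul_right, hα₁, hα₂, h12, h21]
    ring
  rw [e] at hvv
  by_cases hs : s = 0
  · right
    exact ⟨t, by rw [hs, zero_smul, zero_add]⟩
  · by_cases ht : t = 0
    · left
      exact ⟨s, by rw [ht, zero_smul, add_zero]⟩
    · exfalso
      apply hvv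
      rw [hN s hs, hN t ht, one_add_one_eq_two]
      exact h2

/-- A matrix mapping each member of a decomposition into some member stabilises it. -/
theorem un_stab_of_forall_exists {t k : ℕ} (D : Fin t → Submodule F (Fin n → F))
    (hD : IsMDecomposition k D) (g : GL (Fin n) F)
    (hg : ∀ i, ∃ j, ∀ x ∈ D i, (g : Matrix (Fin n) (Fin n) F) *ᵥ x ∈ D j) :
    g ∈ decompositionStabilizer D := by
  classical
  have heq : ∀ i, ∃ j, (D i).map (Matrix.toLin' (g : Matrix (Fin n) (Fin n) F)) = D j := by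
    intro i
    obtain ⟨j, hj⟩ := hg i
    refine ⟨j, ?_⟩
    apply Submodule.eq_of_le_of_finrank_eq
    · rintro _ ⟨x, hx, rfl⟩
      rw [Matrix.toLin'_apply]
      exact hj x hx
    · rw [← (Submodule.equivMapOfInjective _ (toLin'_val_injective g) (D i)).finrank_eq,
        hD.finrank_eq, hD.finrank_eq]
  choose τ hτ' using heq
  have hτinj : Function.Injective τ := by
    intro i j hij
    have h1 := hτ' i
    have h2 := hτ' j
    rw [hij] at h1
    have h3 : (D i).map (Matrix.toLin' (g : Matrix (Fin n) (Fin n) F))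
        = (D j).map (Matrix.toLin' (g : Matrix (Fin n) (Fin n) F)) := h1.trans h2.symm
    have h4 : D i = D j := Submodule.map_injective_of_injective (toLin'_val_injective g) h3
    by_contra hne
    have hdis := hD.indep.pairwiseDisjoint hne
    rw [Function.onFun, h4, disjoint_self] at hdis
    have h5 := hD.finrank_eq j
    rw [hdis, finrank_bot] at h5
    have := hD.pos
    omega
  exact (mem_decompositionStabilizer_iff _ g).mpr
    ⟨Equiv.ofBijective τ (Finite.injective_iff_bijective.mp hτinj), fun i => hτ' i⟩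

/-- For `q = 2` a decomposition into non-degenerate planes refines to a decomposition into
non-degenerate lines preserved by the unitary matrices preserving the decomposition. -/
theorem un_two_refine [Fintype F] (h : IsSigma 2 σ) (hF : Fintype.card F = 2 ^ 2) {t : ℕ}
    (D : Fin t → Submodule F (Fin n → F))
    (hD : IsNondegenerateMDecomposition (hermForm n F 2) 2 D) :
    ∃ D' : Fin n → Submodule F (Fin n → F), IsNondegenerateMDecomposition (hermForm n F 2) 1 D' ∧
      decompositionStabilizer D ⊓ GU n F 2 ≤ decompositionStabilizer D' := by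
  classical
  have hS := h.isSesq (n := n)
  have hcard : t * 2 = n := isMDecomposition_card D hD.decomp
  have ht := hD.decomp.two_le
  have hfr := fun i => un_two_frame h hF (hermForm n F 2) hS (fun v w => h.herm_symm v w) (D i)
    (hD.decomp.finrank_eq i) (hD.nondegenerate i)
  choose w₁ hw₁ w₂ hw₂ h11 h22 h12 h21 hrep hnon using hfr
  obtain ⟨e⟩ : Nonempty (Fin n ≃ Fin t × Fin 2) := ⟨Fintype.equivOfCardEq (by
    rw [Fintype.card_fin, Fintype.card_prod, Fintype.card_fin, Fintype.card_fin, hcard])⟩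
  obtain ⟨w, hw⟩ : ∃ w : Fin t × Fin 2 → (Fin n → F),
      w = fun p => if p.2 = 0 then w₁ p.1 else w₂ p.1 := ⟨_, rfl⟩
  have hw0 : ∀ i, w (i, 0) = w₁ i := by
    intro i
    rw [hw]
    simp
  have hw1 : ∀ i, w (i, 1) = w₂ i := by
    intro i
    rw [hw]
    simp
  have hwD : ∀ p, w p ∈ D p.1 := by
    rintro ⟨i, a⟩
    rcases Helper96.Sy.fin2_cases a with rfl | rfl
    · rw [hw0]
      exact hw₁ i
    · rw [hw1]
      exact hw₂ i
  have hwn : ∀ p, hermForm n F 2 (w p) (w p) ≠ 0 := by
    rintro ⟨i, a⟩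
    rcases Helper96.Sy.fin2_cases a with rfl | rfl
    · rw [hw0]
      exact h11 i
    · rw [hw1]
      exact h22 i
  have hworth : ∀ p p', p ≠ p' → hermForm n F 2 (w p) (w p') = 0 := by
    rintro ⟨i, a⟩ ⟨i', a'⟩ hne
    by_cases hii : i = i'
    · subst hii
      rcases Helper96.Sy.fin2_cases a with rfl | rfl <;>
        rcases Helper96.Sy.fin2_cases a' with rfl | rfl
      · exact absurd rfl hne
      · rw [hw0, hw1]
        exact h12 i
      · rw [hw0, hw1]
        exact h21 i
      · exact absurd rfl hne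
    · exact hD.orthogonal i i' hii _ (hwD (i, a)) _ (hwD (i', a'))
  have hwne : ∀ p, w p ≠ 0 := by
    intro p h0
    apply hwn p
    rw [h0]
    exact hS.zero_left _
  obtain ⟨D', hD'⟩ : ∃ D' : Fin n → Submodule F (Fin n → F),
      D' = fun j => Submodule.span F {w (e j)} := ⟨_, rfl⟩
  have hD'mem : ∀ j x, x ∈ D' j ↔ ∃ c : F, c • w (e j) = x := by
    intro j x
    rw [hD']
    exact Submodule.mem_span_singleton
  have hdec : IsMDecomposition 1 D' := by
    refine ⟨by omega, Nat.one_pos, ?_, ?_, ?_⟩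
    · intro j
      rw [hD']
      exact finrank_span_singleton (hwne (e j))
    · intro j
      rw [Submodule.disjoint_def]
      intro x hx hx'
      have hperp : (⨆ j', ⨆ (_ : j' ≠ j), D' j') ≤ h.perp (D' j) := by
        refine iSup_le (fun j' => iSup_le (fun hj' => ?_))
        intro y hy
        rw [h.mem_perp]
        intro v hv
        obtain ⟨c, rfl⟩ := (hD'mem j' y).mp hy
        obtain ⟨c', rfl⟩ := (hD'mem j v).mp hv
        rw [hS.smul_left, hS.smul_right, hworth _ _ (fun hee => hj' (e.injective hee)), mul_zero,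
          mul_zero]
      have h1 := (h.mem_perp _ _).mp (hperp hx') x hx
      obtain ⟨c, rfl⟩ := (hD'mem j x).mp hx
      rw [hS.smul_left, hS.smul_right] at h1
      by_contra hne
      have hc : c ≠ 0 := fun hc => hne (by rw [hc, zero_smul])
      exact mul_ne_zero hc (mul_ne_zero ((map_ne_zero σ).mpr hc) (hwn (e j))) h1
    · rw [eq_top_iff, ← hD.decomp.iSup_eq_top]
      refine iSup_le (fun i => ?_)
      intro v hv
      obtain ⟨s, t', rfl⟩ := hrep i v hv
      refine Submodule.add_mem _ (Submodule.smul_mem _ _ ?_) (Submodule.smul_mem _ _ ?_)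
      · have h1 : w₁ i ∈ D' (e.symm (i, 0)) := by
          rw [hD'mem]
          exact ⟨1, by rw [one_smul, Equiv.apply_symm_apply, hw0]⟩
        exact (le_iSup D' _) h1
      · have h1 : w₂ i ∈ D' (e.symm (i, 1)) := by
          rw [hD'mem]
          exact ⟨1, by rw [one_smul, Equiv.apply_symm_apply, hw1]⟩
        exact (le_iSup D' _) h1
  have hnd' : IsNondegenerateMDecomposition (hermForm n F 2) 1 D' := by
    refine ⟨hdec, ?_, ?_⟩
    · intro j x hx hx0
      obtain ⟨c, rfl⟩ := (hD'mem j x).mp hx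
      have hc : c ≠ 0 := fun hc => hx0 (by rw [hc, zero_smul])
      have hmem : w (e j) ∈ D' j := (hD'mem j _).mpr ⟨1, one_smul _ _⟩
      refine ⟨⟨w (e j), hmem, ?_⟩, ⟨w (e j), hmem, ?_⟩⟩
      · rw [hS.smul_right]
        exact mul_ne_zero ((map_ne_zero σ).mpr hc) (hwn _)
      · rw [hS.smul_left]
        exact mul_ne_zero hc (hwn _)
    · intro j j' hjj' u hu v hv
      obtain ⟨c, rfl⟩ := (hD'mem j u).mp hu
      obtain ⟨c', rfl⟩ := (hD'mem j' v).mp hv
      rw [hS.smul_left, hS.smul_right, hworth _ _ (fun hee => hjj' (e.injective hee)), mul_zero,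
        mul_zero]
  refine ⟨D', hnd', ?_⟩
  rintro g ⟨hgD, hgU⟩
  obtain ⟨π, hπ⟩ := (mem_decompositionStabilizer_iff D g).mp hgD
  have hmap := un_stab_maps D g π hπ
  apply un_stab_of_forall_exists D' hdec g
  intro j
  have h1 : (g : Matrix (Fin n) (Fin n) F) *ᵥ w (e j) ∈ D (π (e j).1) := hmap _ _ (hwD (e j))
  have h2 : hermForm n F 2 ((g : Matrix (Fin n) (Fin n) F) *ᵥ w (e j))
      ((g : Matrix (Fin n) (Fin n) F) *ᵥ w (e j)) ≠ 0 := by
    rw [(IsSigma.mem_GU_iff g).mp hgU]
    exact hwn _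
  rcases hnon _ _ h1 h2 with ⟨s, hs⟩ | ⟨t', ht'⟩
  · refine ⟨e.symm (π (e j).1, 0), ?_⟩
    intro x hx
    obtain ⟨c, rfl⟩ := (hD'mem j x).mp hx
    rw [Matrix.mulVec_smul, hs, hD'mem, Equiv.apply_symm_apply, hw0]
    exact ⟨c * s, by rw [smul_smul]⟩
  · refine ⟨e.symm (π (e j).1, 1), ?_⟩
    intro x hx
    obtain ⟨c, rfl⟩ := (hD'mem j x).mp hx
    rw [Matrix.mulVec_smul, ht', hD'mem, Equiv.apply_symm_apply, hw1]
    exact ⟨c * t', by rw [smul_smul]⟩

end Cfsg.Agent.Helper35
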