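-- helper35 library: for q = 2 a tensor decomposition of the standard unitary form with a factor of
-- dimension two gives a decomposition into two non-degenerate subspaces.
import Cfsg.Agent.Helper35.UnTwo

set_option autoImplicit false
set_option linter.unusedSectionVars false
set_option linter.unusedVariables false
open Cfsg Cfsg.Geo Matrix
open scoped Kronecker

namespace Cfsg.Agent.Helper35

open Cfsg.Agent.Helper97

variable {F : Type*} [Field F] {n : ℕ} {q : ℕ} {σ : F ≃+* F}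

/-- The pure tensors in tensor coordinates. -/
def unT {n₁ n₂ : ℕ} (e : Fin n ≃ Fin n₁ × Fin n₂) (P : GL (Fin n) F) (x : Fin n₁ → F)
    (y : Fin n₂ → F) : Fin n → F :=
  (P : Matrix (Fin n) (Fin n) F) *ᵥ (fun i => x (e i).1 * y (e i).2)

theorem unT_add_right {n₁ n₂ : ℕ} (e : Fin n ≃ Fin n₁ × Fin n₂) (P : GL (Fin n) F)
    (x : Fin n₁ → F) (y y' : Fin n₂ → F) : unT e P x (y + y') = unT e P x y + unT e P x y' := by
  rw [unT, unT, unT, ← Matrix.mulVec_add]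
  congr 1
  funext i
  simp [mul_add]

theorem unT_smul_right {n₁ n₂ : ℕ} (e : Fin n ≃ Fin n₁ × Fin n₂) (P : GL (Fin n) F)
    (x : Fin n₁ → F) (s : F) (y : Fin n₂ → F) : unT e P x (s • y) = s • unT e P x y := by
  rw [unT, unT, ← Matrix.mulVec_smul]
  congr 1
  funext i
  simp [mul_left_comm]

theorem unT_smul_left {n₁ n₂ : ℕ} (e : Fin n ≃ Fin n₁ × Fin n₂) (P : GL (Fin n) F)
    (s : F) (x : Fin n₁ → F) (y : Fin n₂ → F) : unT e P (s • x) y = s • unT e P x y := by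
  rw [unT, unT, ← Matrix.mulVec_smul]
  congr 1
  funext i
  simp [mul_assoc]

theorem unT_act {n₁ n₂ : ℕ} (e : Fin n ≃ Fin n₁ × Fin n₂) (P : GL (Fin n) F)
    (g : Matrix (Fin n) (Fin n) F) (a : Matrix (Fin n₁) (Fin n₁) F) (b : Matrix (Fin n₂) (Fin n₂) F)
    (hab : g = Helper98.conjReindex e P (a ⊗ₖ b)) (x : Fin n₁ → F) (y : Fin n₂ → F) :
    g *ᵥ unT e P x y = unT e P (a *ᵥ x) (b *ᵥ y) := by
  rw [hab, Helper98.conjReindex_apply, unT, unT, Matrix.mulVec_mulVec, mul_assoc, mul_assoc,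
    ← Units.val_mul, inv_mul_cancel, Units.val_one, mul_one, ← Matrix.mulVec_mulVec, un_kron_pure]

theorem unT_inj {n₁ n₂ : ℕ} (e : Fin n ≃ Fin n₁ × Fin n₂) (P : GL (Fin n) F)
    (x : Fin n₁ → F) (y : Fin n₂ → F) (hx0 : x ≠ 0) (hxy : unT e P x y = 0) : y = 0 := by
  obtain ⟨i₀, hi₀⟩ := exists_ne_zero_coord hx0
  rw [unT] at hxy
  have h1 : (P : Matrix (Fin n) (Fin n) F) *ᵥ (fun i => x (e i).1 * y (e i).2)
      = (P : Matrix (Fin n) (Fin n) F) *ᵥ 0 := by rw [hxy, Matrix.mulVec_zero]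
  have h2 := Helper97.mulVec_injective P h1
  funext j
  have h3 := congrFun h2 (e.symm (i₀, j))
  simp only [Equiv.apply_symm_apply, Pi.zero_apply] at h3
  exact (mul_eq_zero.mp h3).resolve_left hi₀

/-- The standard unitary form in conjugated coordinates. -/
theorem un_form_coords (h : IsSigma q σ) {κ : Type} [Fintype κ] [DecidableEq κ] (e : Fin n ≃ κ)
    (P : GL (Fin n) F) (X : Matrix κ κ F)
    (hG : Matrix.reindexAlgEquiv F F e
      ((P : Matrix (Fin n) (Fin n) F)ᵀ * (P : Matrix (Fin n) (Fin n) F).map σ) = X) (v w : κ → F) :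
    hermForm n F q ((P : Matrix (Fin n) (Fin n) F) *ᵥ (v ∘ e))
      ((P : Matrix (Fin n) (Fin n) F) *ᵥ (w ∘ e)) = formOfGram (σ : F → F) X v w := by
  classical
  rw [← hG]
  have h1 := h.isSesq.apply_mulVec (P : Matrix (Fin n) (Fin n) F) (v ∘ e) (w ∘ e)
  rw [h1, h.gram_herm, Matrix.mul_one]
  simp only [formOfGram, dotProduct, Matrix.mulVec, Matrix.coe_reindexAlgEquiv, Matrix.reindex_apply,
    Matrix.submatrix_apply, Function.comp_apply]
  rw [← Equiv.sum_comp e]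
  apply Finset.sum_congr rfl
  intro i _
  rw [Finset.mul_sum, ← Equiv.sum_comp e]
  apply Finset.sum_congr rfl
  intro j _
  simp only [Equiv.symm_apply_apply]
  ring

theorem un_fog_kron {n₁ n₂ : ℕ} (A : Matrix (Fin n₁) (Fin n₁) F) (S : Matrix (Fin n₂) (Fin n₂) F)
    (x x' : Fin n₁ → F) (y y' : Fin n₂ → F) :
    formOfGram (σ : F → F) (A ⊗ₖ S) (fun p => x p.1 * y p.2) (fun p => x' p.1 * y' p.2)
      = formOfGram (σ : F → F) A x x' * formOfGram (σ : F → F) S y y' := by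
  simp only [formOfGram, Fintype.sum_prod_type, Matrix.kroneckerMap_apply, map_mul]
  rw [Finset.sum_mul_sum]
  apply Finset.sum_congr rfl
  intro a _
  apply Finset.sum_congr rfl
  intro b _
  rw [Finset.sum_mul_sum]
  apply Finset.sum_congr rfl
  intro a' _
  apply Finset.sum_congr rfl
  intro b' _
  ring

/-- The form on pure tensors. -/
theorem unT_form (h : IsSigma q σ) {n₁ n₂ : ℕ} (e : Fin n ≃ Fin n₁ × Fin n₂) (P : GL (Fin n) F)
    (A : Matrix (Fin n₁) (Fin n₁) F) (S : Matrix (Fin n₂) (Fin n₂) F)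
    (hG : Matrix.reindexAlgEquiv F F e
      ((P : Matrix (Fin n) (Fin n) F)ᵀ * (P : Matrix (Fin n) (Fin n) F).map σ) = A ⊗ₖ S)
    (x x' : Fin n₁ → F) (y y' : Fin n₂ → F) :
    hermForm n F q (unT e P x y) (unT e P x' y')
      = formOfGram (σ : F → F) A x x' * formOfGram (σ : F → F) S y y' := by
  have e1 : (fun i => x (e i).1 * y (e i).2) = (fun p : Fin n₁ × Fin n₂ => x p.1 * y p.2) ∘ e := rfl
  have e2 : (fun i => x' (e i).1 * y' (e i).2)
      = (fun p : Fin n₁ × Fin n₂ => x' p.1 * y' p.2) ∘ e := rfl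
  rw [unT, unT, e1, e2, un_form_coords h e P _ hG, un_fog_kron]

/-- The form attached to a non-singular hermitian matrix is sesquilinear, hermitian and
non-degenerate. -/
theorem un_fog_sesq (h : IsSigma q σ) {m : ℕ} (G : Matrix (Fin m) (Fin m) F)
    (hG : Gᵀ = G.map σ) (hdet : G.det ≠ 0) :
    IsSesq σ (formOfGram (σ : F → F) G) ∧
    (∀ v w, formOfGram (σ : F → F) G v w = σ (formOfGram (σ : F → F) G w v)) ∧
    IsNondegenerateForm (formOfGram (σ : F → F) G) := by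
  have hpow : (fun x : F => x ^ q) = σ := by
    funext x
    exact (h.pow x).symm
  have hu := un_fog_unitary h G hG hdet
  rw [hpow] at hu
  have hherm : ∀ v w, formOfGram (σ : F → F) G v w = σ (formOfGram (σ : F → F) G w v) := by
    intro v w
    rw [h.pow]
    exact hu.herm v w
  refine ⟨⟨hu.add_left, hu.smul_left, ?_, ?_⟩, hherm, hu.nondegenerate⟩
  · intro v x y
    rw [hherm v (x + y), hu.add_left, map_add, ← hherm, ← hherm]
  · intro c v x
    rw [hherm v (c • x), hu.smul_left, map_mul, ← hherm]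

/-- For `q = 2`, a tensor decomposition of the unitary form with first factor of dimension two gives
a pair of orthogonal non-degenerate subspaces permuted by the unitary matrices of the tensor
product subgroup. -/
theorem un_two_tensor [Fintype F] (h : IsSigma 2 σ) (hF : Fintype.card F = 2 ^ 2) {m : ℕ}
    (hm : 0 < m) (e : Fin n ≃ Fin 2 × Fin m) (P : GL (Fin n) F) (A : Matrix (Fin 2) (Fin 2) F)
    (S : Matrix (Fin m) (Fin m) F) (hA : Aᵀ = A.map σ) (hSh : Sᵀ = S.map σ) (hAdet : A.det ≠ 0)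
    (hSdet : S.det ≠ 0)
    (hG : Matrix.reindexAlgEquiv F F e
      ((P : Matrix (Fin n) (Fin n) F)ᵀ * (P : Matrix (Fin n) (Fin n) F).map σ) = A ⊗ₖ S) :
    ∃ D : Fin 2 → Submodule F (Fin n → F), IsNondegenerateMDecomposition (hermForm n F 2) m D ∧
      tensorProductSubgroup 2 m e P ⊓ GU n F 2 ≤ decompositionStabilizer D := by
  classical
  have hS := h.isSesq (n := n)
  obtain ⟨φ, hφ⟩ : ∃ φ, φ = formOfGram (σ : F → F) A := ⟨_, rfl⟩
  obtain ⟨ψ, hψ⟩ : ∃ ψ, ψ = formOfGram (σ : F → F) S := ⟨_, rfl⟩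
  obtain ⟨hφS, hφh, hφnd⟩ := un_fog_sesq h A hA hAdet
  obtain ⟨hψS, hψh, hψnd⟩ := un_fog_sesq h S hSh hSdet
  rw [← hφ] at hφS hφh hφnd
  rw [← hψ] at hψS hψh hψnd
  have htop : Module.finrank F (⊤ : Submodule F (Fin 2 → F)) = 2 := by
    rw [finrank_top, Module.finrank_fin_fun]
  have hndtop : IsNondegenerateOn φ ⊤ := by
    intro w _ hw0
    obtain ⟨⟨x, hx⟩, ⟨y, hy⟩⟩ := hφnd w hw0
    exact ⟨⟨x, trivial, hx⟩, ⟨y, trivial, hy⟩⟩
  obtain ⟨v₁, -, v₂, -, h11, h22, h12, h21, hrep, hnon⟩ :=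
    un_two_frame h hF φ hφS hφh ⊤ htop hndtop
  have hv₁0 : v₁ ≠ 0 := by
    rintro rfl
    exact h11 (hφS.zero_left _)
  have hv₂0 : v₂ ≠ 0 := by
    rintro rfl
    exact h22 (hφS.zero_left _)
  have hTform : ∀ x x' y y', hermForm n F 2 (unT e P x y) (unT e P x' y') = φ x x' * ψ y y' := by
    intro x x' y y'
    rw [unT_form h e P A S hG, hφ, hψ]
  obtain ⟨L₁, hL₁⟩ : ∃ L : (Fin m → F) →ₗ[F] (Fin n → F), ∀ y, L y = unT e P v₁ y :=
    ⟨IsLinearMap.mk' (fun y => unT e P v₁ y)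
      ⟨fun y y' => unT_add_right e P v₁ y y', fun s y => unT_smul_right e P v₁ s y⟩, fun _ => rfl⟩
  obtain ⟨L₂, hL₂⟩ : ∃ L : (Fin m → F) →ₗ[F] (Fin n → F), ∀ y, L y = unT e P v₂ y :=
    ⟨IsLinearMap.mk' (fun y => unT e P v₂ y)
      ⟨fun y y' => unT_add_right e P v₂ y y', fun s y => unT_smul_right e P v₂ s y⟩, fun _ => rfl⟩
  have hinj₁ : Function.Injective L₁ := by
    rw [← LinearMap.ker_eq_bot, LinearMap.ker_eq_bot']
    intro y hy
    rw [hL₁] at hy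
    exact unT_inj e P v₁ y hv₁0 hy
  have hinj₂ : Function.Injective L₂ := by
    rw [← LinearMap.ker_eq_bot, LinearMap.ker_eq_bot']
    intro y hy
    rw [hL₂] at hy
    exact unT_inj e P v₂ y hv₂0 hy
  obtain ⟨D₁, hD₁⟩ : ∃ D₁, D₁ = LinearMap.range L₁ := ⟨_, rfl⟩
  obtain ⟨D₂, hD₂⟩ : ∃ D₂, D₂ = LinearMap.range L₂ := ⟨_, rfl⟩
  have hmem₁ : ∀ x, x ∈ D₁ ↔ ∃ y, unT e P v₁ y = x := by
    intro x
    rw [hD₁, LinearMap.mem_range]
    constructor
    · rintro ⟨y, hy⟩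
      exact ⟨y, by rw [← hL₁]; exact hy⟩
    · rintro ⟨y, hy⟩
      exact ⟨y, by rw [hL₁]; exact hy⟩
  have hmem₂ : ∀ x, x ∈ D₂ ↔ ∃ y, unT e P v₂ y = x := by
    intro x
    rw [hD₂, LinearMap.mem_range]
    constructor
    · rintro ⟨y, hy⟩
      exact ⟨y, by rw [← hL₂]; exact hy⟩
    · rintro ⟨y, hy⟩
      exact ⟨y, by rw [hL₂]; exact hy⟩
  have hfr₁ : Module.finrank F D₁ = m := by
    rw [hD₁, LinearMap.finrank_range_of_inj hinj₁, Module.finrank_fin_fun]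
  have hfr₂ : Module.finrank F D₂ = m := by
    rw [hD₂, LinearMap.finrank_range_of_inj hinj₂, Module.finrank_fin_fun]
  have hzero₁ : unT e P v₁ 0 = 0 := by rw [← hL₁, map_zero]
  have hzero₂ : unT e P v₂ 0 = 0 := by rw [← hL₂, map_zero]
  have hbot : D₁ ⊓ D₂ = ⊥ := by
    rw [eq_bot_iff]
    rintro x ⟨hx1, hx2⟩
    obtain ⟨y, rfl⟩ := (hmem₁ x).mp hx1
    obtain ⟨y', hy'⟩ := (hmem₂ _).mp hx2
    rw [Submodule.mem_bot]
    by_contra hne
    have hy0 : y ≠ 0 := by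
      rintro rfl
      exact hne hzero₁
    obtain ⟨⟨z, hz⟩, -⟩ := hψnd y hy0
    have h1 : hermForm n F 2 (unT e P v₁ z) (unT e P v₁ y) ≠ 0 := by
      rw [hTform]
      exact mul_ne_zero h11 hz
    apply h1
    rw [← hy', hTform, h12, zero_mul]
  have hn : n = 2 * m := by
    have := Fintype.card_congr e
    rw [Fintype.card_fin, Fintype.card_prod, Fintype.card_fin, Fintype.card_fin] at this
    exact this
  have hsup : D₁ ⊔ D₂ = ⊤ := by
    apply Submodule.eq_top_of_finrank_eq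
    have h2 := Submodule.finrank_sup_add_finrank_inf_eq D₁ D₂
    rw [hbot, finrank_bot, add_zero, hfr₁, hfr₂] at h2
    rw [Module.finrank_fin_fun, h2, hn]
    ring
  have hdec := Helper96.Sy.pair_decomp D₁ D₂ hbot hsup m hfr₁ hfr₂ hm
  have hnd₁ : IsNondegenerateOn (hermForm n F 2) D₁ := by
    intro w hw hw0
    obtain ⟨y, rfl⟩ := (hmem₁ w).mp hw
    have hy0 : y ≠ 0 := by
      rintro rfl
      exact hw0 hzero₁
    obtain ⟨⟨z, hz⟩, -⟩ := hψnd y hy0
    have hzm : unT e P v₁ z ∈ D₁ := (hmem₁ _).mpr ⟨z, rfl⟩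
    refine ⟨⟨_, hzm, ?_⟩, ⟨_, hzm, ?_⟩⟩
    · rw [hTform]
      exact mul_ne_zero h11 hz
    · rw [h.herm_symm, hTform]
      exact (map_ne_zero σ).mpr (mul_ne_zero h11 hz)
  have hnd₂ : IsNondegenerateOn (hermForm n F 2) D₂ := by
    intro w hw hw0
    obtain ⟨y, rfl⟩ := (hmem₂ w).mp hw
    have hy0 : y ≠ 0 := by
      rintro rfl
      exact hw0 hzero₂
    obtain ⟨⟨z, hz⟩, -⟩ := hψnd y hy0
    have hzm : unT e P v₂ z ∈ D₂ := (hmem₂ _).mpr ⟨z, rfl⟩
    refine ⟨⟨_, hzm, ?_⟩, ⟨_, hzm, ?_⟩⟩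
    · rw [hTform]
      exact mul_ne_zero h22 hz
    · rw [h.herm_symm, hTform]
      exact (map_ne_zero σ).mpr (mul_ne_zero h22 hz)
  have hnd : IsNondegenerateMDecomposition (hermForm n F 2) m (Helper96.Sy.pairD D₁ D₂) := by
    refine ⟨hdec, ?_, ?_⟩
    · intro i
      rcases Helper96.Sy.fin2_cases i with rfl | rfl
      · exact hnd₁
      · exact hnd₂
    · intro i j hij
      rcases Helper96.Sy.fin2_cases i with rfl | rfl <;>
        rcases Helper96.Sy.fin2_cases j with rfl | rfl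
      · exact absurd rfl hij
      · intro u hu v hv
        obtain ⟨y, rfl⟩ := (hmem₁ u).mp hu
        obtain ⟨z, rfl⟩ := (hmem₂ v).mp hv
        rw [hTform, h12, zero_mul]
      · intro u hu v hv
        obtain ⟨y, rfl⟩ := (hmem₂ u).mp hu
        obtain ⟨z, rfl⟩ := (hmem₁ v).mp hv
        rw [hTform, h21, zero_mul]
      · exact absurd rfl hij
  refine ⟨Helper96.Sy.pairD D₁ D₂, hnd, ?_⟩
  rintro g ⟨hgT, hgU⟩
  obtain ⟨a, b, hab⟩ := Helper98.mem_tensorProductSubgroup hgT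
  have hact := unT_act e P (g : Matrix (Fin n) (Fin n) F) _ _ hab
  obtain ⟨y₀, z₀, hyz⟩ : ∃ y₀ z₀, ψ y₀ z₀ ≠ 0 := by
    have hne : (Pi.single (⟨0, hm⟩ : Fin m) (1 : F) : Fin m → F) ≠ 0 := by
      intro h0
      have := congrFun h0 ⟨0, hm⟩
      simp at this
    obtain ⟨⟨z, hz⟩, -⟩ := hψnd _ hne
    exact ⟨z, _, hz⟩
  have hsim : ∀ x x', φ ((a : Matrix (Fin 2) (Fin 2) F) *ᵥ x) ((a : Matrix (Fin 2) (Fin 2) F) *ᵥ x')
      * ψ ((b : Matrix (Fin m) (Fin m) F) *ᵥ y₀) ((b : Matrix (Fin m) (Fin m) F) *ᵥ z₀)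
      = φ x x' * ψ y₀ z₀ := by
    intro x x'
    rw [← hTform, ← hTform, ← hact, ← hact, (IsSigma.mem_GU_iff g).mp hgU]
  have hκ : ψ ((b : Matrix (Fin m) (Fin m) F) *ᵥ y₀) ((b : Matrix (Fin m) (Fin m) F) *ᵥ z₀) ≠ 0 := by
    intro h0
    have := hsim v₁ v₁
    rw [h0, mul_zero] at this
    exact mul_ne_zero h11 hyz this.symm
  have hani : ∀ x, φ x x ≠ 0 → φ ((a : Matrix (Fin 2) (Fin 2) F) *ᵥ x)
      ((a : Matrix (Fin 2) (Fin 2) F) *ᵥ x) ≠ 0 := by
    intro x hx h0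
    have := hsim x x
    rw [h0, zero_mul] at this
    exact mul_ne_zero hx hyz this.symm
  have hav₁ := hnon _ trivial (hani v₁ h11)
  have hav₂ := hnon _ trivial (hani v₂ h22)
  have horth : φ ((a : Matrix (Fin 2) (Fin 2) F) *ᵥ v₁) ((a : Matrix (Fin 2) (Fin 2) F) *ᵥ v₂) = 0 := by
    have := hsim v₁ v₂
    rw [h12, zero_mul] at this
    exact (mul_eq_zero.mp this).resolve_right hκ
  have hne0 : ∀ (v v' : Fin 2 → F) (s : F), φ v v ≠ 0 →
      (a : Matrix (Fin 2) (Fin 2) F) *ᵥ v = s • v' → s ≠ 0 := by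
    intro v v' s hv hs
    rintro rfl
    apply hani v hv
    rw [hs, zero_smul]
    exact hφS.zero_left _
  rcases hav₁ with ⟨s, hs⟩ | ⟨s, hs⟩
  · rcases hav₂ with ⟨t, ht⟩ | ⟨t, ht⟩
    · exfalso
      rw [hs, ht, hφS.smul_left, hφS.smul_right] at horth
      exact mul_ne_zero (hne0 v₁ v₁ s h11 hs)
        (mul_ne_zero ((map_ne_zero σ).mpr (hne0 v₂ v₁ t h22 ht)) h11) horth
    · refine Helper96.Sy.pair_stab_fix D₁ D₂ m hfr₁ hfr₂ g ?_ ?_
      · intro x hx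
        obtain ⟨y, rfl⟩ := (hmem₁ x).mp hx
        rw [hact, hs, unT_smul_left, ← unT_smul_right]
        exact (hmem₁ _).mpr ⟨_, rfl⟩
      · intro x hx
        obtain ⟨y, rfl⟩ := (hmem₂ x).mp hx
        rw [hact, ht, unT_smul_left, ← unT_smul_right]
        exact (hmem₂ _).mpr ⟨_, rfl⟩
  · rcases hav₂ with ⟨t, ht⟩ | ⟨t, ht⟩
    · refine Helper96.Sy.pair_stab_swap D₁ D₂ m hfr₁ hfr₂ g ?_ ?_
      · intro x hx
        obtain ⟨y, rfl⟩ := (hmem₁ x).mp hx
        rw [hact, hs, unT_smul_left, ← unT_smul_right]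
        exact (hmem₂ _).mpr ⟨_, rfl⟩
      · intro x hx
        obtain ⟨y, rfl⟩ := (hmem₂ x).mp hx
        rw [hact, ht, unT_smul_left, ← unT_smul_right]
        exact (hmem₁ _).mpr ⟨_, rfl⟩
    · exfalso
      rw [hs, ht, hφS.smul_left, hφS.smul_right] at horth
      exact mul_ne_zero (hne0 v₁ v₂ s h11 hs)
        (mul_ne_zero ((map_ne_zero σ).mpr (hne0 v₂ v₂ t h22 ht)) h22) horth

end Cfsg.Agent.Helper35
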