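-- helper35 library: the refined list for a maximal subgroup of the special unitary group.
import Cfsg.Agent.Helper35.UnTwoTensor
import Cfsg.Agent.Helper96.SpField

set_option autoImplicit false
set_option linter.unusedSectionVars false
set_option linter.unusedVariables false
open Cfsg Cfsg.Geo Matrix
open scoped Kronecker

namespace Cfsg.Agent.Helper35

open Cfsg.Agent.Helper97

variable {F : Type*} [Field F] {n : ℕ} {q : ℕ} {σ : F ≃+* F}

/-- The refined list for a maximal subgroup of the special unitary group. -/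
def UnMax (n : ℕ) (F : Type*) [Field F] [Fintype F] (q : ℕ) (H : Subgroup (GL (Fin n) F)) : Prop :=
  (∃ W : Submodule F (Fin n → F), W ≠ ⊥ ∧ IsTotallySingularFor (hermForm n F q) W ∧
    H = subspaceStabilizer W ⊓ (GU n F q ⊓ specialLinear (Fin n) F)) ∨
  (∃ W : Submodule F (Fin n → F), W ≠ ⊥ ∧ IsNondegenerateOn (hermForm n F q) W ∧
    2 * Module.finrank F W < n ∧
    H = subspaceStabilizer W ⊓ (GU n F q ⊓ specialLinear (Fin n) F)) ∨
  (∃ (t k : ℕ) (D : Fin t → Submodule F (Fin n → F)), t * k = n ∧ (k = 2 → 3 ≤ q) ∧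
    IsNondegenerateMDecomposition (hermForm n F q) k D ∧
    H = decompositionStabilizer D ⊓ (GU n F q ⊓ specialLinear (Fin n) F)) ∨
  (∃ (k : ℕ) (D : Fin 2 → Submodule F (Fin n → F)), 2 * k = n ∧ IsMDecomposition k D ∧
    (∀ i, IsTotallySingularFor (hermForm n F q) (D i)) ∧
    H = decompositionStabilizer D ⊓ (GU n F q ⊓ specialLinear (Fin n) F)) ∨
  (∃ (r : ℕ) (K : Subalgebra F (Matrix (Fin n) (Fin n) F)), r.Prime ∧ Odd r ∧ r ∣ n ∧
    IsFieldSubalgebra r K ∧ IsAdjointClosedFor (hermForm n F q) K ∧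
    H = subalgebraNormalizer K ⊓ (GU n F q ⊓ specialLinear (Fin n) F)) ∨
  (∃ (n₁ n₂ : ℕ) (e : Fin n ≃ Fin n₁ × Fin n₂) (P : GL (Fin n) F)
    (f₁ : (Fin n₁ → F) → (Fin n₁ → F) → F) (f₂ : (Fin n₂ → F) → (Fin n₂ → F) → F),
    2 ≤ n₁ ∧ n₁ ≤ n₂ ∧ n₁ * n₂ = n ∧ (n₁ = 2 → 3 ≤ q) ∧ IsUnitaryFormPow q f₁ ∧
    IsUnitaryFormPow q f₂ ∧
    IsTensorFormStructure (fun x : F => x ^ q) (hermForm n F q) f₁ f₂ e P ∧
    H = tensorProductSubgroup n₁ n₂ e P ⊓ (GU n F q ⊓ specialLinear (Fin n) F)) ∨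
  (∃ (F₀ : Subfield F) (r : ℕ) (P : GL (Fin n) F), r.Prime ∧ Odd r ∧
    Fintype.card F = Nat.card F₀ ^ r ∧ IsFormRationalStructure (hermForm n F q) F₀ 1 P ∧
    H = subfieldSubgroup F₀ P ⊓ (GU n F q ⊓ specialLinear (Fin n) F)) ∨
  (∃ (F₀ : Subfield F) (P : GL (Fin n) F) (ζ : F), Fintype.card F = Nat.card F₀ ^ 2 ∧ ζ ≠ 0 ∧
    ζ + ζ ^ q = 0 ∧ IsFormRationalStructure (hermForm n F q) F₀ ζ P ∧
    (∀ u : Fin n → F, (∀ i, u i ∈ F₀) →
      hermForm n F q ((P : Matrix (Fin n) (Fin n) F) *ᵥ u)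
        ((P : Matrix (Fin n) (Fin n) F) *ᵥ u) = 0) ∧
    H = subfieldSubgroup F₀ P ⊓ (GU n F q ⊓ specialLinear (Fin n) F)) ∨
  (Odd q ∧ ∃ (F₀ : Subfield F) (P : GL (Fin n) F), Fintype.card F = Nat.card F₀ ^ 2 ∧
    IsFormRationalStructure (hermForm n F q) F₀ 1 P ∧
    H = subfieldSubgroup F₀ P ⊓ (GU n F q ⊓ specialLinear (Fin n) F)) ∨
  InUnitaryResidualClass H ∨
  (∃ r j : ℕ, r.Prime ∧ n * n = r ^ j) ∨
  (∃ d t : ℕ, 2 ≤ d ∧ 2 ≤ t ∧ n = d ^ t)

/-- A non-degenerate decomposition stabilised by a maximal subgroup. -/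
theorem un_ndecomp_case [Fintype F] (h : IsSigma q σ) (hF : Fintype.card F = q ^ 2) (hn : 4 ≤ n)
    {H : Subgroup (GL (Fin n) F)} (hH : IsMaximalIn (GU n F q ⊓ specialLinear (Fin n) F) H)
    {t k : ℕ} (D : Fin t → Submodule F (Fin n → F))
    (hD : IsNondegenerateMDecomposition (hermForm n F q) k D)
    (hle : H ≤ decompositionStabilizer D) : UnMax n F q H := by
  have htk : t * k = n := isMDecomposition_card D hD.decomp
  have hkpos := hD.decomp.pos
  have hq2 := two_le_of_card hF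
  by_cases hc : k = 2 → 3 ≤ q
  · by_cases hk1 : k = 1
    · subst hk1
      have ht4 : 4 ≤ t := by omega
      exact Or.inr (Or.inr (Or.inl ⟨t, 1, D, htk, hc, hD,
        eq_inf_of_isMaximalIn_gen hH hle (h.notSU_decomp hF ht4 D hD)⟩))
    · exact Or.inr (Or.inr (Or.inl ⟨t, k, D, htk, hc, hD,
        eq_inf_of_isMaximalIn_gen hH hle (un_notSU_ndecomp h hF (by omega) D hD)⟩))
  · push Not at hc
    obtain ⟨hk2, hq3⟩ := hc
    subst hk2
    have hq : q = 2 := by omega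
    subst hq
    obtain ⟨D', hD', hst⟩ := un_two_refine h hF D hD
    have hle' : H ≤ decompositionStabilizer D' := fun g hg => hst ⟨hle hg, (hH.1.le hg).1⟩
    exact Or.inr (Or.inr (Or.inl ⟨n, 1, D', mul_one n, fun h12 => absurd h12 (by norm_num), hD',
      eq_inf_of_isMaximalIn_gen hH hle' (h.notSU_decomp hF hn D' hD')⟩))

/-- Every maximal subgroup of the special unitary group in dimension at least four is of one of the
listed types. -/
theorem un_max_cases [Fintype F] (hn : 4 ≤ n) (q : ℕ) (hF : Fintype.card F = q ^ 2)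
    (H : Subgroup (GL (Fin n) F))
    (hH : IsMaximalIn (GU n F q ⊓ specialLinear (Fin n) F) H) : UnMax n F q H := by
  classical
  obtain ⟨σ, h⟩ := exists_sigma hF
  have hHG : H ≤ GU n F q ⊓ specialLinear (Fin n) F := hH.1.le
  have hHGU : H ≤ GU n F q := hHG.trans inf_le_left
  have hq2 := two_le_of_card hF
  have hout := un_core h hF (by omega) H hHGU
  unfold UnOutcome at hout
  rcases hout with ⟨W, hW0, hW1, hts, hle⟩ | ⟨W, hW0, hW1, hnd, hdim, hle⟩ | ⟨t, k, D, hD, hle⟩ |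
    ⟨k, D, hD, hts, hle⟩ | ⟨r, K, hr, hrodd, hK, hac, hle⟩ |
    ⟨n₁, n₂, e, P, A, S, hn₁, hn₁₂, hA, hSh, hAdet, hSdet, hG, hle⟩ |
    ⟨F₀, r, P, hr, hcard, hle, hrat⟩ | hres | ⟨r, j, hr, hcard⟩ | ⟨d, t, hd, ht, hcard⟩
  · exact Or.inl ⟨W, hW0, hts,
      eq_inf_of_isMaximalIn_gen hH hle (h.notSU_subspace hF (by omega) W hW0 hW1)⟩
  · exact Or.inr (Or.inl ⟨W, hW0, hnd, hdim,
      eq_inf_of_isMaximalIn_gen hH hle (h.notSU_subspace hF (by omega) W hW0 hW1)⟩)
  · exact un_ndecomp_case h hF hn hH D hD hle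
  · -- a pair of totally singular subspaces
    have hk : 2 * k = n := isMDecomposition_card D hD
    exact Or.inr (Or.inr (Or.inr (Or.inl ⟨k, D, hk, hD, hts,
      eq_inf_of_isMaximalIn_gen hH hle (un_notSU_tsdecomp h (by omega) D hD hts)⟩)))
  · -- an extension field
    have hdvd : r ∣ n := by
      have h1 := Helper96.Sy.dvd_finrank_of_inv K hK.inv ⊤ (fun _ _ _ _ => Submodule.mem_top)
      rw [hK.finrank_eq, finrank_top, Module.finrank_fin_fun] at h1
      exact h1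
    exact Or.inr (Or.inr (Or.inr (Or.inr (Or.inl ⟨r, K, hr, hrodd, hdvd, hK, hac,
      eq_inf_of_isMaximalIn_gen hH hle (h.notSU_fieldNormalizer hF (by omega) K hK.inv
        (not_all_scalar_of_finrank K (by rw [hK.finrank_eq]; exact hr.two_le)))⟩))))
  · -- a tensor decomposition
    have hprod : n₁ * n₂ = n := by
      have := Fintype.card_congr e
      rw [Fintype.card_fin, Fintype.card_prod, Fintype.card_fin, Fintype.card_fin] at this
      exact this.symm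
    by_cases hc : n₁ = 2 → 3 ≤ q
    · exact Or.inr (Or.inr (Or.inr (Or.inr (Or.inr (Or.inl ⟨n₁, n₂, e, P, _, _, hn₁, hn₁₂, hprod, hc,
        un_fog_unitary h A hA hAdet, un_fog_unitary h S hSh hSdet,
        un_tensor_form_structure h e P A S hG,
        eq_inf_of_isMaximalIn_gen hH hle (un_notSU_tensor h hF (by omega) hn₁ (by omega) e P)⟩)))))
    · push Not at hc
      obtain ⟨hn₁2, hq3⟩ := hc
      subst hn₁2
      have hq : q = 2 := by omega
      subst hq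
      obtain ⟨D, hD, hst⟩ := un_two_tensor h hF (by omega) e P A S hA hSh hAdet hSdet hG
      exact un_ndecomp_case h hF hn hH D hD (fun g hg => hst ⟨hle hg, hHGU hg⟩)
  · -- a subfield
    rcases hrat with ⟨hform, hro | ⟨rfl, hqodd⟩⟩ | ⟨rfl, ζ, hζ, hζq, hform, hiso⟩
    · have hr3 : 3 ≤ r := by
        have := hr.two_le
        obtain ⟨m, hm⟩ := hro
        omega
      exact Or.inr (Or.inr (Or.inr (Or.inr (Or.inr (Or.inr (Or.inl ⟨F₀, r, P, hr, hro, hcard, hform,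
        eq_inf_of_isMaximalIn_gen hH hle
          (h.notSU_subfield_odd hF (by omega) F₀ r hr3 hcard P)⟩))))))
    · exact Or.inr (Or.inr (Or.inr (Or.inr (Or.inr (Or.inr (Or.inr (Or.inr (Or.inl ⟨hqodd, F₀, P,
        hcard, hform, eq_inf_of_isMaximalIn_gen hH hle
          (h.notSU_subfield_two hF (by omega) hqodd F₀ hcard P hform)⟩))))))))
    · exact Or.inr (Or.inr (Or.inr (Or.inr (Or.inr (Or.inr (Or.inr (Or.inl ⟨F₀, P, ζ, hcard, hζ,
        hζq, hform, hiso, eq_inf_of_isMaximalIn_gen hH hle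
          (un_notSU_subfield_symp h hF (by omega) F₀ hcard P ζ hζ hform hiso)⟩)))))))
  · exact Or.inr (Or.inr (Or.inr (Or.inr (Or.inr (Or.inr (Or.inr (Or.inr (Or.inr (Or.inl hres)))))))))
  · exact Or.inr (Or.inr (Or.inr (Or.inr (Or.inr (Or.inr (Or.inr (Or.inr (Or.inr (Or.inr
      (Or.inl ⟨r, j, hr, hcard⟩))))))))))
  · exact Or.inr (Or.inr (Or.inr (Or.inr (Or.inr (Or.inr (Or.inr (Or.inr (Or.inr (Or.inr
      (Or.inr ⟨d, t, hd, ht, hcard⟩))))))))))

end Cfsg.Agent.Helper35
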