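-- helper35 library: subfield structures for absolutely irreducible unitary groups in any dimension
-- (adapted from helper97's odd-dimensional version).
import Cfsg.Agent.Helper35.UnBasic
import Cfsg.Agent.Helper97.USubfield2

set_option autoImplicit false
set_option linter.unusedSectionVars false
set_option linter.unusedVariables false
open Cfsg Cfsg.Geo Matrix

namespace Cfsg.Agent.Helper35

open Cfsg.Agent.Helper97

variable {F : Type*} [Field F] {n : ℕ} {q : ℕ} {σ : F ≃+* F}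

/-- In characteristic two, a symmetric bilinear form preserved (after a change of basis) by an
irreducible group in dimension at least two is alternating. -/
theorem un_symm_char_two_alt [Finite F] (hn2 : 2 ≤ n) (h2 : (2 : F) = 0)
    (A : Matrix (Fin n) (Fin n) F) (hA : Aᵀ = A) (hdet : A.det ≠ 0)
    (N : Subgroup (GL (Fin n) F)) (hirr : ActsIrreducibly (matrixSet N)) (B : GL (Fin n) F)
    (hinv : ∀ g ∈ N, ((B * g * B⁻¹ : GL (Fin n) F) : Matrix (Fin n) (Fin n) F)ᵀ * A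
      * ((B * g * B⁻¹ : GL (Fin n) F) : Matrix (Fin n) (Fin n) F) = A) :
    ∀ x : Fin n → F, x ⬝ᵥ (A *ᵥ x) = 0 := by
  classical
  have hneg : ∀ x : F, -x = x := by
    intro x
    have h1 : x + x = 0 := by rw [← two_mul, h2, zero_mul]
    exact neg_eq_of_add_eq_zero_left h1
  obtain ⟨Q, hQ⟩ : ∃ Q : (Fin n → F) → F, ∀ x, Q x = x ⬝ᵥ (A *ᵥ x) := ⟨_, fun _ => rfl⟩
  have hcross : ∀ x y : Fin n → F, y ⬝ᵥ (A *ᵥ x) = x ⬝ᵥ (A *ᵥ y) := by
    intro x y
    rw [Matrix.dotProduct_mulVec, ← hA, Matrix.vecMul_transpose, hA, dotProduct_comm]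
  have hQadd : ∀ x y, Q (x + y) = Q x + Q y := by
    intro x y
    rw [hQ, hQ, hQ, Matrix.mulVec_add, dotProduct_add, add_dotProduct, add_dotProduct, hcross x y]
    have h1 : x ⬝ᵥ (A *ᵥ y) + x ⬝ᵥ (A *ᵥ y) = 0 := by rw [← two_mul, h2, zero_mul]
    linear_combination h1
  have hQsmul : ∀ (c : F) x, Q (c • x) = c ^ 2 * Q x := by
    intro c x
    rw [hQ, hQ, Matrix.mulVec_smul, smul_dotProduct, dotProduct_smul, smul_eq_mul, smul_eq_mul]
    ring
  have hQzero : Q 0 = 0 := by rw [hQ, zero_dotProduct]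
  have hQinv : ∀ g ∈ N, ∀ v, Q ((B : Matrix (Fin n) (Fin n) F) *ᵥ ((g : Matrix (Fin n) (Fin n) F) *ᵥ v))
      = Q ((B : Matrix (Fin n) (Fin n) F) *ᵥ v) := by
    intro g hg v
    obtain ⟨s, hs⟩ : ∃ s : Matrix (Fin n) (Fin n) F,
        s = ((B * g * B⁻¹ : GL (Fin n) F) : Matrix (Fin n) (Fin n) F) := ⟨_, rfl⟩
    have e1 : (B : Matrix (Fin n) (Fin n) F) *ᵥ ((g : Matrix (Fin n) (Fin n) F) *ᵥ v)
        = s *ᵥ ((B : Matrix (Fin n) (Fin n) F) *ᵥ v) := by
      rw [hs, Matrix.mulVec_mulVec, Matrix.mulVec_mulVec, ← Units.val_mul, ← Units.val_mul]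
      congr 2
      group
    have e2 : ∀ w, Q (s *ᵥ w) = Q w := by
      intro w
      have h1 := hinv g hg
      rw [← hs] at h1
      rw [hQ, hQ]
      conv_rhs => rw [← h1]
      rw [← Matrix.mulVec_mulVec, ← Matrix.mulVec_mulVec, Matrix.dotProduct_mulVec w,
        Matrix.vecMul_transpose]
    rw [e1, e2]
  let W' : Submodule F (Fin n → F) :=
    { carrier := {v | Q ((B : Matrix (Fin n) (Fin n) F) *ᵥ v) = 0}
      add_mem' := by
        intro a b ha hb
        show Q ((B : Matrix (Fin n) (Fin n) F) *ᵥ (a + b)) = 0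
        rw [Matrix.mulVec_add, hQadd, ha, hb, add_zero]
      zero_mem' := by
        show Q ((B : Matrix (Fin n) (Fin n) F) *ᵥ 0) = 0
        rw [Matrix.mulVec_zero, hQzero]
      smul_mem' := by
        intro c a ha
        show Q ((B : Matrix (Fin n) (Fin n) F) *ᵥ (c • a)) = 0
        rw [Matrix.mulVec_smul, hQsmul, ha, mul_zero] }
  have hW'mem : ∀ v, v ∈ W' ↔ Q ((B : Matrix (Fin n) (Fin n) F) *ᵥ v) = 0 := fun v => Iff.rfl
  have hW'inv : ∀ s ∈ matrixSet N, W'.map (Matrix.toLin' s) ≤ W' := by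
    rintro _ ⟨g, hg, rfl⟩ _ ⟨v, hv, rfl⟩
    rw [hW'mem, Matrix.toLin'_apply, hQinv g hg]
    exact hv
  have hQe : ∀ i, Q (Pi.single i 1) = A i i := by
    intro i
    rw [hQ, single_one_dotProduct, Matrix.mulVec_single_one]
    rfl
  rcases hirr W' hW'inv with hbot | htop
  · exfalso
    have hQ0 : ∀ x, Q x = 0 → x = 0 := by
      intro x hx
      have h1 : ((B⁻¹ : GL (Fin n) F) : Matrix (Fin n) (Fin n) F) *ᵥ x ∈ W' := by
        rw [hW'mem, mulVec_cancel_inv]
        exact hx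
      rw [hbot] at h1
      have h3 := mulVec_cancel_inv B x
      rw [(Submodule.mem_bot F).mp h1, Matrix.mulVec_zero] at h3
      exact h3.symm
    have hchar : ringChar F = 2 := CharP.ringChar_of_prime_eq_zero Nat.prime_two (by exact_mod_cast h2)
    obtain ⟨i1, hi1⟩ : ∃ i : Fin n, i = ⟨0, by omega⟩ := ⟨_, rfl⟩
    obtain ⟨i2, hi2⟩ : ∃ i : Fin n, i = ⟨1, by omega⟩ := ⟨_, rfl⟩
    have h12 : i1 ≠ i2 := by simp [hi1, hi2, Fin.ext_iff]
    obtain ⟨a, ha⟩ := FiniteField.isSquare_of_char_two hchar (A i2 i2)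
    obtain ⟨b, hb⟩ := FiniteField.isSquare_of_char_two hchar (A i1 i1)
    have hz : Q (a • Pi.single i1 1 + b • Pi.single i2 1) = 0 := by
      rw [hQadd, hQsmul, hQsmul, hQe, hQe, ha, hb]
      have h1 : a * a * (b * b) + a * a * (b * b) = 0 := by rw [← two_mul, h2, zero_mul]
      linear_combination h1
    have hz0 := hQ0 _ hz
    have h1 := congrFun hz0 i2
    simp only [Pi.add_apply, Pi.smul_apply, Pi.single_eq_same, Pi.single_eq_of_ne h12.symm, smul_eq_mul,
      mul_zero, zero_add, mul_one, Pi.zero_apply] at h1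
    have h3 : Q (Pi.single i1 1) = 0 := by rw [hQe, hb, h1, mul_zero]
    have h4 := congrFun (hQ0 _ h3) i1
    simp at h4
  · have hall : ∀ x, Q x = 0 := by
      intro x
      have h1 : ((B⁻¹ : GL (Fin n) F) : Matrix (Fin n) (Fin n) F) *ᵥ x ∈ W' := by
        rw [htop]
        exact Submodule.mem_top
      rwa [hW'mem, mulVec_cancel_inv] at h1
    intro x
    rw [← hQ]
    exact hall x

/-- An absolutely irreducible unitary group realisable over a subfield of prime index: its normaliser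
lies in a subfield group carrying the form, or of symplectic type. -/
theorem un_subfield_structure [Fintype F] (h : IsSigma q σ) (hF : Fintype.card F = q ^ 2)
    (hn3 : 2 ≤ n)
    (N : Subgroup (GL (Fin n) F)) (hNGU : N ≤ GU n F q)
    (habs : ActsAbsolutelyIrreducibly (matrixSet N))
    (F₁ : Subfield F) (r : ℕ) (hr : r.Prime) (hcard : Fintype.card F = Nat.card F₁ ^ r)
    (B : GL (Fin n) F)
    (hB : ∀ s ∈ matrixSet N, ∀ i j,
      ((B : Matrix (Fin n) (Fin n) F) * s * ((B⁻¹ : GL (Fin n) F) : Matrix (Fin n) (Fin n) F)) i j ∈ F₁) :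
    ∃ P' : GL (Fin n) F,
      (∀ g : GL (Fin n) F, (∀ x ∈ N, g * x * g⁻¹ ∈ N) → g ∈ subfieldSubgroup F₁ P') ∧
      ((IsFormRationalStructure (hermForm n F q) F₁ 1 P' ∧ (Odd r ∨ (r = 2 ∧ Odd q))) ∨
       (r = 2 ∧ ∃ ζ : F, ζ ≠ 0 ∧ ζ + ζ ^ q = 0 ∧ IsFormRationalStructure (hermForm n F q) F₁ ζ P' ∧
          ∀ u : Fin n → F, (∀ i, u i ∈ F₁) →
            hermForm n F q ((P' : Matrix (Fin n) (Fin n) F) *ᵥ u)
              ((P' : Matrix (Fin n) (Fin n) F) *ᵥ u) = 0)) := by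
  classical
  have hnz : NeZero n := ⟨by omega⟩
  have hS := h.isSesq (n := n)
  obtain ⟨Pm, hPm⟩ : ∃ Pm : Matrix (Fin n) (Fin n) F,
      Pm = ((B⁻¹ : GL (Fin n) F) : Matrix (Fin n) (Fin n) F) := ⟨_, rfl⟩
  obtain ⟨Bm, hBm⟩ : ∃ Bm : Matrix (Fin n) (Fin n) F, Bm = (B : Matrix (Fin n) (Fin n) F) := ⟨_, rfl⟩
  have hPB : Pm * Bm = 1 := by rw [hPm, hBm, val_inv_mul_val]
  have hBP : Bm * Pm = 1 := by rw [hPm, hBm, val_mul_val_inv]
  have hσ1 : (1 : Matrix (Fin n) (Fin n) F).map σ = 1 := Matrix.map_one _ (map_zero σ) (map_one σ)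
  have hBtPt : Bmᵀ * Pmᵀ = 1 := by rw [← Matrix.transpose_mul, hPB, Matrix.transpose_one]
  have hPtBt : Pmᵀ * Bmᵀ = 1 := by rw [← Matrix.transpose_mul, hBP, Matrix.transpose_one]
  have hPσBσ : Pm.map σ * Bm.map σ = 1 := by rw [← map_mul_equiv, hPB, hσ1]
  have hBσPσ : Bm.map σ * Pm.map σ = 1 := by rw [← map_mul_equiv, hBP, hσ1]
  obtain ⟨M, hM⟩ : ∃ M : Matrix (Fin n) (Fin n) F, M = Pmᵀ * Pm.map σ := ⟨_, rfl⟩
  obtain ⟨Mi, hMi⟩ : ∃ Mi : Matrix (Fin n) (Fin n) F, Mi = Bm.map σ * Bmᵀ := ⟨_, rfl⟩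
  have hM1 : M * Mi = 1 := by
    rw [hM, hMi]
    calc Pmᵀ * Pm.map σ * (Bm.map σ * Bmᵀ) = Pmᵀ * (Pm.map σ * Bm.map σ) * Bmᵀ := by
          simp only [mul_assoc]
      _ = 1 := by rw [hPσBσ, mul_one, hPtBt]
  have hM2 : Mi * M = 1 := by
    rw [hM, hMi]
    calc Bm.map σ * Bmᵀ * (Pmᵀ * Pm.map σ) = Bm.map σ * (Bmᵀ * Pmᵀ) * Pm.map σ := by
          simp only [mul_assoc]
      _ = 1 := by rw [hBtPt, mul_one, hBσPσ]
  have hM0 : M ≠ 0 := by
    intro h0
    rw [h0, zero_mul] at hM1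
    have := congrFun (congrFun hM1 0) 0
    simp at this
  have hσF₁ : ∀ x ∈ F₁, σ x ∈ F₁ := by
    intro x hx
    rw [h.pow]
    exact F₁.pow_mem hx q
  have hs₁ : ∀ g ∈ N, ∀ i j, ((B * g * B⁻¹ : GL (Fin n) F) : Matrix (Fin n) (Fin n) F) i j ∈ F₁ := by
    intro g hg i j
    have := hB _ (coe_mem_matrixSet hg) i j
    simpa only [Units.val_mul] using this
  have hsval : ∀ g : GL (Fin n) F, ((B * g * B⁻¹ : GL (Fin n) F) : Matrix (Fin n) (Fin n) F)
      = Bm * (g : Matrix (Fin n) (Fin n) F) * Pm := by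
    intro g
    rw [Units.val_mul, Units.val_mul, hBm, hPm]
  have hinvM : ∀ g ∈ N, ((B * g * B⁻¹ : GL (Fin n) F) : Matrix (Fin n) (Fin n) F)ᵀ * M
      * ((B * g * B⁻¹ : GL (Fin n) F) : Matrix (Fin n) (Fin n) F).map σ = M := by
    intro g hg
    have hgU := h.GU_matrix g (hNGU hg)
    rw [hsval, Matrix.transpose_mul, Matrix.transpose_mul, map_mul_equiv, map_mul_equiv, hM]
    calc Pmᵀ * ((g : Matrix (Fin n) (Fin n) F)ᵀ * Bmᵀ) * (Pmᵀ * Pm.map σ)
          * (Bm.map σ * (g : Matrix (Fin n) (Fin n) F).map σ * Pm.map σ)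
        = Pmᵀ * (g : Matrix (Fin n) (Fin n) F)ᵀ * (Bmᵀ * Pmᵀ) * (Pm.map σ * Bm.map σ)
          * (g : Matrix (Fin n) (Fin n) F).map σ * Pm.map σ := by simp only [mul_assoc]
      _ = Pmᵀ * ((g : Matrix (Fin n) (Fin n) F)ᵀ * (g : Matrix (Fin n) (Fin n) F).map σ) * Pm.map σ := by
          rw [hBtPt, hPσBσ]
          simp only [mul_one, mul_assoc]
      _ = Pmᵀ * Pm.map σ := by rw [hgU, mul_one]
  obtain ⟨S, hSdef⟩ : ∃ S : Set (Matrix (Fin n) (Fin n) F),
      S = {s | ∃ g ∈ N, s = ((B * g * B⁻¹ : GL (Fin n) F) : Matrix (Fin n) (Fin n) F).map σ} := ⟨_, rfl⟩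
  have hScomm : ∀ C : Matrix (Fin n) (Fin n) F, (∀ s ∈ S, C * s = s * C) →
      ∃ c : F, C = c • (1 : Matrix (Fin n) (Fin n) F) := by
    intro C hC
    have h1 : ∀ g ∈ N, C.map σ * ((B * g * B⁻¹ : GL (Fin n) F) : Matrix (Fin n) (Fin n) F)
        = ((B * g * B⁻¹ : GL (Fin n) F) : Matrix (Fin n) (Fin n) F) * C.map σ := by
      intro g hg
      have h2 := hC _ (by rw [hSdef]; exact ⟨g, hg, rfl⟩)
      have h3 := congrArg (fun X : Matrix (Fin n) (Fin n) F => X.map σ) h2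
      simp only [map_mul_equiv, h.map_sigma_sigma] at h3
      exact h3
    obtain ⟨c, hc⟩ := commutant_conj N habs B _ h1
    refine ⟨σ c, ?_⟩
    have h4 := congrArg (fun X : Matrix (Fin n) (Fin n) F => X.map σ) hc
    simp only [h.map_sigma_sigma, map_smul_sigma, hσ1] at h4
    exact h4
  have hMS : ∀ s ∈ S, (∀ i j, s i j ∈ F₁) ∧
      ∃ s' : Matrix (Fin n) (Fin n) F, (∀ i j, s' i j ∈ F₁) ∧ M * s = s' * M := by
    intro s hs
    rw [hSdef] at hs
    obtain ⟨g, hg, rfl⟩ := hs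
    refine ⟨fun i j => hσF₁ _ (hs₁ g hg i j),
      ((B * g⁻¹ * B⁻¹ : GL (Fin n) F) : Matrix (Fin n) (Fin n) F)ᵀ,
      fun i j => hs₁ g⁻¹ (N.inv_mem hg) j i, ?_⟩
    have h1 := hinvM g hg
    have h2 : ((B * g⁻¹ * B⁻¹ : GL (Fin n) F) : Matrix (Fin n) (Fin n) F)ᵀ
        * ((B * g * B⁻¹ : GL (Fin n) F) : Matrix (Fin n) (Fin n) F)ᵀ = 1 := by
      rw [← Matrix.transpose_mul, ← Units.val_mul]
      have e : B * g * B⁻¹ * (B * g⁻¹ * B⁻¹) = 1 := by group
      rw [e, Units.val_one, Matrix.transpose_one]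
    calc M * ((B * g * B⁻¹ : GL (Fin n) F) : Matrix (Fin n) (Fin n) F).map σ
        = (((B * g⁻¹ * B⁻¹ : GL (Fin n) F) : Matrix (Fin n) (Fin n) F)ᵀ
            * ((B * g * B⁻¹ : GL (Fin n) F) : Matrix (Fin n) (Fin n) F)ᵀ) * M
            * ((B * g * B⁻¹ : GL (Fin n) F) : Matrix (Fin n) (Fin n) F).map σ := by rw [h2, one_mul]
      _ = ((B * g⁻¹ * B⁻¹ : GL (Fin n) F) : Matrix (Fin n) (Fin n) F)ᵀ
            * (((B * g * B⁻¹ : GL (Fin n) F) : Matrix (Fin n) (Fin n) F)ᵀ * M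
            * ((B * g * B⁻¹ : GL (Fin n) F) : Matrix (Fin n) (Fin n) F).map σ) := by
          simp only [mul_assoc]
      _ = _ := by rw [h1]
  obtain ⟨μ, M₁, hμ0, hMμ⟩ := exists_subfield_multiple F₁ S hScomm M Mi hM1 hM2 hM0 hMS
  obtain ⟨A, hA⟩ : ∃ A : Matrix (Fin n) (Fin n) F, A = M₁.map F₁.subtype := ⟨_, rfl⟩
  rw [← hA] at hMμ
  have hAF₁ : ∀ i j, A i j ∈ F₁ := by
    intro i j
    rw [hA]
    exact SetLike.coe_mem _
  have hMherm : Mᵀ = M.map σ := by
    rw [hM, Matrix.transpose_mul, map_mul_equiv, Matrix.transpose_transpose, h.map_sigma_sigma,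
      Matrix.transpose_map]
  have hherm2 : μ • Aᵀ = σ μ • A.map σ := by
    have h1 := hMherm
    rw [hMμ, Matrix.transpose_smul, map_smul_sigma] at h1
    exact h1
  obtain ⟨i0, j0, hij0⟩ : ∃ i j, A i j ≠ 0 := by
    by_contra hcon
    apply hM0
    rw [hMμ]
    ext i j
    have h1 : A i j = 0 := by
      by_contra hne
      exact hcon ⟨i, j, hne⟩
    simp [h1]
  have hentry : μ * A i0 j0 = σ μ * σ (A j0 i0) := by
    have h1 := congrFun (congrFun hherm2 j0) i0
    simpa using h1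
  have hσμ0 : σ μ ≠ 0 := (map_ne_zero σ).mpr hμ0
  have hm2 : σ (A j0 i0) ≠ 0 := by
    intro h0
    rw [h0, mul_zero] at hentry
    exact (mul_ne_zero hμ0 hij0) hentry
  obtain ⟨ε, hε⟩ : ∃ ε : F, ε = σ μ / μ := ⟨_, rfl⟩
  have hεF₁ : ε ∈ F₁ := by
    have h1 : ε = A i0 j0 / σ (A j0 i0) := by
      rw [hε, div_eq_div_iff hμ0 hm2]
      linear_combination -hentry
    rw [h1]
    exact F₁.div_mem (hAF₁ i0 j0) (hσF₁ _ (hAF₁ j0 i0))
  have hε0 : ε ≠ 0 := by
    rw [hε]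
    exact div_ne_zero hσμ0 hμ0
  have hσε : σ ε = ε⁻¹ := by rw [hε, map_div₀, h.inv, inv_div]
  have hAT : Aᵀ = ε • A.map σ := by
    have h1 := congrArg (fun X : Matrix (Fin n) (Fin n) F => μ⁻¹ • X) hherm2
    simp only [smul_smul, inv_mul_cancel₀ hμ0, one_smul] at h1
    rw [h1, hε, div_eq_inv_mul]
  have hdetA : A.det ≠ 0 := by
    intro h0
    have h1 : M.det = 0 := by rw [hMμ, Matrix.det_smul, h0, mul_zero]
    have h2 := congrArg Matrix.det hM1
    rw [Matrix.det_mul, h1, zero_mul, Matrix.det_one] at h2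
    exact zero_ne_one h2
  have hkey : (∃ b t : F, b ∈ F₁ ∧ t ≠ 0 ∧ σ t = t ∧ μ = b * t ∧ (Odd r ∨ (r = 2 ∧ Odd q))) ∨
      (r = 2 ∧ σ μ = -μ ∧ (∀ x ∈ F₁, σ x = x) ∧ ∀ u : Fin n → F, u ⬝ᵥ (A *ᵥ u) = 0) := by
    rcases hr.eq_two_or_odd' with hr2 | hrodd
    · subst hr2
      have hsq : Nat.card F₁ = q := by
        have h1 : Nat.card F₁ ^ 2 = q ^ 2 := by rw [← hcard, hF]
        exact Nat.pow_left_injective (by norm_num : (2 : ℕ) ≠ 0) h1
      have hfix₁ : ∀ x ∈ F₁, σ x = x := by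
        intro x hx
        rw [h.pow, ← hsq]
        exact subfield_pow_card F₁ x hx
      have hAσ : A.map σ = A := by
        ext i j
        rw [Matrix.map_apply, hfix₁ _ (hAF₁ i j)]
      rw [hAσ] at hAT
      have hε2 : ε * ε = 1 := by
        have h1 : A = ε • (ε • A) := by
          have h2 := congrArg Matrix.transpose hAT
          rw [Matrix.transpose_transpose, Matrix.transpose_smul, hAT] at h2
          exact h2
        have h3 := congrFun (congrFun h1 i0) j0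
        simp only [Matrix.smul_apply, smul_eq_mul] at h3
        have h4 : (ε * ε - 1) * A i0 j0 = 0 := by linear_combination -h3
        rcases mul_eq_zero.mp h4 with h5 | h5
        · exact sub_eq_zero.mp h5
        · exact absurd h5 hij0
      have hε1 : ε = 1 ∨ ε = -1 := by
        have h1 : (ε - 1) * (ε + 1) = 0 := by linear_combination hε2
        rcases mul_eq_zero.mp h1 with h3 | h3
        · left
          exact sub_eq_zero.mp h3
        · right
          exact eq_neg_of_add_eq_zero_left h3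
      by_cases h2 : (2 : F) = 0
      · right
        have hε1' : ε = 1 := by
          rcases hε1 with h1 | h1
          · exact h1
          · rw [h1]
            have h3 : (1 : F) + 1 = 0 := by rw [one_add_one_eq_two]; exact h2
            exact neg_eq_of_add_eq_zero_left h3
        rw [hε1', one_smul] at hAT
        have hμμ : σ μ = -μ := by
          have h3 : σ μ = μ := by
            rw [hε] at hε1'
            exact (div_eq_one_iff_eq hμ0).mp hε1'
          have h4 : μ + μ = 0 := by rw [← two_mul, h2, zero_mul]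
          rw [h3]
          exact (neg_eq_of_add_eq_zero_left h4).symm
        refine ⟨rfl, hμμ, hfix₁, un_symm_char_two_alt (by omega) h2 A hAT hdetA N habs.1 B ?_⟩
        intro g hg
        have h1 := hinvM g hg
        have h3 : ((B * g * B⁻¹ : GL (Fin n) F) : Matrix (Fin n) (Fin n) F).map σ
            = ((B * g * B⁻¹ : GL (Fin n) F) : Matrix (Fin n) (Fin n) F) := by
          ext i j
          rw [Matrix.map_apply, hfix₁ _ (hs₁ g hg i j)]
        rw [h3, hMμ, Matrix.mul_smul, Matrix.smul_mul] at h1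
        have h4 := congrArg (fun X : Matrix (Fin n) (Fin n) F => μ⁻¹ • X) h1
        simpa only [smul_smul, inv_mul_cancel₀ hμ0, one_smul] using h4
      · have hqodd : Odd q := by
          by_contra hne
          have heven : Even q := Nat.not_odd_iff_even.mp hne
          apply h2
          obtain ⟨p, hchar⟩ := CharP.exists F
          have hp : p.Prime :=
            (CharP.char_is_prime_or_zero F p).resolve_right (CharP.char_ne_zero_of_finite F p)
          have : Fact p.Prime := ⟨hp⟩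
          obtain ⟨e, -, he⟩ := FiniteField.card F p
          have h3 : 2 ∣ p ^ (e : ℕ) := by
            rw [← he, hF]
            exact dvd_pow (even_iff_two_dvd.mp heven) (by norm_num)
          have h4 : 2 ∣ p := Nat.Prime.dvd_of_dvd_pow Nat.prime_two h3
          have h5 : p = 2 := ((Nat.prime_dvd_prime_iff_eq Nat.prime_two hp).mp h4).symm
          have h6 := CharP.cast_eq_zero F p
          rw [h5] at h6
          exact_mod_cast h6
        rcases hε1 with h1 | h1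
        · left
          refine ⟨1, μ, F₁.one_mem, hμ0, ?_, (one_mul μ).symm, Or.inr ⟨rfl, hqodd⟩⟩
          rw [hε] at h1
          exact (div_eq_one_iff_eq hμ0).mp h1
        · right
          rw [h1] at hAT
          have hμμ : σ μ = -μ := by
            rw [hε] at h1
            field_simp at h1
            linear_combination h1
          refine ⟨rfl, hμμ, hfix₁, ?_⟩
          intro u
          have h3 : u ⬝ᵥ (A *ᵥ u) = -(u ⬝ᵥ (A *ᵥ u)) := by
            calc u ⬝ᵥ (A *ᵥ u) = (Aᵀ *ᵥ u) ⬝ᵥ u := by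
                  rw [Matrix.dotProduct_mulVec, Matrix.mulVec_transpose]
              _ = -(u ⬝ᵥ (A *ᵥ u)) := by
                  rw [hAT, Matrix.smul_mulVec, smul_dotProduct, dotProduct_comm, smul_eq_mul]
                  ring
          have h4 : (2 : F) * (u ⬝ᵥ (A *ᵥ u)) = 0 := by linear_combination h3
          rcases mul_eq_zero.mp h4 with h5 | h5
          · exact absurd h5 h2
          · exact h5
    · obtain ⟨c₁, hc₁F, hc₁⟩ := h.exists_not_fixed hF F₁ r hrodd hcard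
      have hex : ∃ b ∈ F₁, b ≠ 0 ∧ σ b = ε * b := by
        have hform : ∀ c ∈ F₁, c + ε⁻¹ * σ c ∈ F₁ ∧ σ (c + ε⁻¹ * σ c) = ε * (c + ε⁻¹ * σ c) := by
          intro c hc
          refine ⟨F₁.add_mem hc (F₁.mul_mem (F₁.inv_mem hεF₁) (hσF₁ c hc)), ?_⟩
          rw [map_add, map_mul, map_inv₀, hσε, inv_inv, h.inv]
          field_simp
          ring
        by_cases h1 : (1 : F) + ε⁻¹ * σ 1 = 0
        · refine ⟨c₁ + ε⁻¹ * σ c₁, (hform c₁ hc₁F).1, ?_, (hform c₁ hc₁F).2⟩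
          intro h0
          rw [map_one, mul_one] at h1
          have hεi : ε⁻¹ = -1 := eq_neg_of_add_eq_zero_right h1
          rw [hεi] at h0
          apply hc₁
          linear_combination -h0
        · exact ⟨1 + ε⁻¹ * σ 1, (hform 1 F₁.one_mem).1, h1, (hform 1 F₁.one_mem).2⟩
      obtain ⟨b, hbF, hb0, hσb⟩ := hex
      left
      refine ⟨b, μ / b, hbF, div_ne_zero hμ0 hb0, ?_, ?_, Or.inl hrodd⟩
      · rw [map_div₀, hσb, hε]
        field_simp
      · field_simp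
  have hf : ∀ u v : Fin n → F,
      hermForm n F q (Pm *ᵥ u) (Pm *ᵥ v) = u ⬝ᵥ (M *ᵥ (fun j => σ (v j))) := by
    intro u v
    rw [hS.apply_mulVec, h.gram_herm, mul_one, hM]
  rcases hkey with ⟨b, t, hbF, ht0, hσt, hμbt, hrq⟩ | ⟨hr2, hμμ, hfix₁, halt⟩
  swap
  · refine ⟨B⁻¹, fun g hg => normalizer_mem_subfieldSubgroup F₁ N habs B hB g hg, Or.inr ⟨hr2, μ⁻¹,
      inv_ne_zero hμ0, ?_, ?_, ?_⟩⟩
    · rw [← h.pow, map_inv₀, hμμ]
      field_simp
      ring
    · intro u v hu hv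
      rw [← hPm, hf, hMμ, Matrix.smul_mulVec, dotProduct_smul, smul_eq_mul, ← mul_assoc,
        inv_mul_cancel₀ hμ0, one_mul]
      show ∑ i, u i * (A *ᵥ (fun j => σ (v j))) i ∈ F₁
      refine sum_mem (fun i _ => F₁.mul_mem (hu i) ?_)
      show ∑ j, A i j * σ (v j) ∈ F₁
      exact sum_mem (fun j _ => F₁.mul_mem (hAF₁ i j) (hσF₁ _ (hv j)))
    · intro u hu
      have hu' : (fun j => σ (u j)) = u := by
        funext j
        exact hfix₁ _ (hu j)
      rw [← hPm, hf, hMμ, Matrix.smul_mulVec, dotProduct_smul, hu', halt, smul_zero]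
  obtain ⟨lam, hlam⟩ := h.exists_norm_eq hF t⁻¹ (by rw [map_inv₀, hσt]) (inv_ne_zero ht0)
  have hlam0 : lam ≠ 0 := by
    rintro rfl
    rw [zero_mul] at hlam
    exact (inv_ne_zero ht0) hlam.symm
  have hzdet : (lam • (1 : Matrix (Fin n) (Fin n) F)).det ≠ 0 := by
    rw [Matrix.det_smul, Matrix.det_one, mul_one]
    exact pow_ne_zero _ hlam0
  obtain ⟨z, hz⟩ : ∃ z : GL (Fin n) F,
      z = Matrix.GeneralLinearGroup.mkOfDetNeZero (lam • (1 : Matrix (Fin n) (Fin n) F)) hzdet := ⟨_, rfl⟩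
  have hzval : (z : Matrix (Fin n) (Fin n) F) = lam • (1 : Matrix (Fin n) (Fin n) F) := by
    rw [hz]
    rfl
  have hzmem : z ∈ scalars (Fin n) F := (mem_scalars_iff z).mpr ⟨Units.mk0 lam hlam0, hzval⟩
  refine ⟨B⁻¹ * z, ?_, Or.inl ⟨?_, hrq⟩⟩
  · intro g hg
    have h1 := normalizer_mem_subfieldSubgroup F₁ N habs (z⁻¹ * B) ?_ g hg
    · have e : (z⁻¹ * B)⁻¹ = B⁻¹ * z := by group
      rwa [e] at h1
    · rintro _ ⟨x, hx, rfl⟩ i j
      have e : ((z⁻¹ * B : GL (Fin n) F) : Matrix (Fin n) (Fin n) F) * (x : Matrix (Fin n) (Fin n) F)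
          * (((z⁻¹ * B)⁻¹ : GL (Fin n) F) : Matrix (Fin n) (Fin n) F)
          = ((B * x * B⁻¹ : GL (Fin n) F) : Matrix (Fin n) (Fin n) F) := by
        rw [← Units.val_mul, ← Units.val_mul]
        congr 1
        have hc := scalars_comm hzmem (B * x * B⁻¹)
        calc z⁻¹ * B * x * (z⁻¹ * B)⁻¹ = z⁻¹ * ((B * x * B⁻¹) * z) := by group
          _ = z⁻¹ * (z * (B * x * B⁻¹)) := by rw [hc]
          _ = B * x * B⁻¹ := by group
      rw [e]
      exact hs₁ x hx i j
  · intro u v hu hv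
    rw [one_mul]
    have hP' : ((B⁻¹ * z : GL (Fin n) F) : Matrix (Fin n) (Fin n) F) = lam • Pm := by
      rw [Units.val_mul, hzval, Matrix.mul_smul, Matrix.mul_one, hPm]
    rw [hP', Matrix.smul_mulVec, Matrix.smul_mulVec, hS.smul_left, hS.smul_right]
    rw [hf, hMμ, Matrix.smul_mulVec, dotProduct_smul, smul_eq_mul]
    have e : lam * (σ lam * (μ * (u ⬝ᵥ (A *ᵥ (fun j => σ (v j))))))
        = b * (u ⬝ᵥ (A *ᵥ (fun j => σ (v j)))) := by
      rw [hμbt]
      have h1 : lam * σ lam * t = 1 := by rw [hlam, inv_mul_cancel₀ ht0]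
      linear_combination (b * (u ⬝ᵥ (A *ᵥ (fun j => σ (v j))))) * h1
    rw [e]
    refine F₁.mul_mem hbF ?_
    show ∑ i, u i * (A *ᵥ (fun j => σ (v j))) i ∈ F₁
    refine sum_mem (fun i _ => F₁.mul_mem (hu i) ?_)
    show ∑ j, A i j * σ (v j) ∈ F₁
    exact sum_mem (fun j _ => F₁.mul_mem (hAF₁ i j) (hσF₁ _ (hv j)))

end Cfsg.Agent.Helper35
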