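-- helper35 library: the centre of the centraliser of a normal subgroup of an irreducible unitary
-- group, and the structures it yields (decompositions, extension fields).
import Cfsg.Agent.Helper35.UnQuad

set_option autoImplicit false
set_option linter.unusedSectionVars false
set_option linter.unusedVariables false
open Cfsg Cfsg.Geo Matrix

namespace Cfsg.Agent.Helper35

open Cfsg.Agent.Helper97 Cfsg.Agent.Helper96

variable {F : Type*} [Field F] {n : ℕ} {q : ℕ} {σ : F ≃+* F}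

/-- Every member of `T` is the matrix of a unitary transformation whose inverse is again in `T`. -/
def UIsoSet (q : ℕ) (T : Set (Matrix (Fin n) (Fin n) F)) : Prop :=
  ∀ s ∈ T, ∃ g : GL (Fin n) F, g ∈ GU n F q ∧ (g : Matrix (Fin n) (Fin n) F) = s ∧
    ((g⁻¹ : GL (Fin n) F) : Matrix (Fin n) (Fin n) F) ∈ T

theorem un_cent_adj (h : IsSigma q σ) {T : Set (Matrix (Fin n) (Fin n) F)} (hT : UIsoSet q T)
    {c : Matrix (Fin n) (Fin n) F} (hc : Cent T c) : Cent T (uadj σ c) := by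
  intro s hs
  obtain ⟨g, hg, rfl, hginv⟩ := hT s hs
  have h1 := congrArg (uadj σ) (hc _ hginv)
  have h2 := un_adj_GU h ((GU n F q).inv_mem hg)
  rw [inv_inv] at h2
  rw [un_adj_mul, un_adj_mul, h2] at h1
  exact h1.symm

theorem un_zcent_adj (h : IsSigma q σ) {T : Set (Matrix (Fin n) (Fin n) F)} (hT : UIsoSet q T)
    {a : Matrix (Fin n) (Fin n) F} (ha : ZCent T a) : ZCent T (uadj σ a) := by
  refine ⟨un_cent_adj h hT ha.1, fun c hc => ?_⟩
  have h1 := congrArg (uadj σ) (ha.2 _ (un_cent_adj h hT hc))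
  rw [un_adj_mul, un_adj_mul, un_adj_adj h] at h1
  exact h1.symm

/-- A commutative conjugation-stable family of self-adjoint matrices containing a non-zero singular
matrix yields a non-degenerate decomposition. -/
theorem un_nondeg_decomp [Finite F] (h : IsSigma q σ) (H : Subgroup (GL (Fin n) F))
    (hH : H ≤ GU n F q) (hirr : ActsIrreducibly (matrixSet H))
    (S : Set (Matrix (Fin n) (Fin n) F)) (hcomm : ∀ a ∈ S, ∀ b ∈ S, a * b = b * a)
    (hstab : ∀ g ∈ H, ∀ a ∈ S, (g : Matrix (Fin n) (Fin n) F) * a *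
      ((g⁻¹ : GL (Fin n) F) : Matrix (Fin n) (Fin n) F) ∈ S)
    (hsa : ∀ a ∈ S, uadj σ a = a)
    (a : Matrix (Fin n) (Fin n) F) (haS : a ∈ S) (ha0 : a ≠ 0) (v : Fin n → F) (hv0 : v ≠ 0)
    (hav : a *ᵥ v = 0) :
    ∃ (t k : ℕ) (D : Fin t → Submodule F (Fin n → F)),
      IsNondegenerateMDecomposition (hermForm n F q) k D ∧ H ≤ decompositionStabilizer D := by
  classical
  have hS := h.isSesq (n := n)
  haveI : Fact (Fintype.card (Fin n) = n) := ⟨Fintype.card_fin n⟩
  obtain ⟨t, m, D, hD, hHD, hpres, hsep⟩ :=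
    Helper97.Gen.exists_decomp_of_comm_stable_sep H hirr S hcomm hstab a haS ha0 v hv0 hav
  have orth : ∀ i j, i ≠ j → AreOrthogonalFor (hermForm n F q) (D i) (D j) := by
    intro i j hij u hu w hw
    obtain ⟨s, hs, hkill, hinj⟩ := hsep i j hij
    obtain ⟨w', hw', rfl⟩ := Helper96.Sy.surj_of_inj_on s (D j) (hpres s hs j) hinj w hw
    rw [un_adj_spec' h, hsa s hs, hkill u hu, hS.zero_left]
  refine ⟨t, m, D, ⟨hD, ?_, orth⟩, hHD⟩
  intro i w hw hw0
  have key : ∃ x ∈ D i, hermForm n F q x w ≠ 0 := by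
    by_contra hcon
    push Not at hcon
    obtain ⟨⟨x, hx⟩, -⟩ := h.isUnitaryForm.nondegenerate w hw0
    apply hx
    have hxtop : x ∈ ⨆ i, D i := by
      rw [hD.iSup_eq_top]
      exact Submodule.mem_top
    refine Submodule.iSup_induction D (motive := fun x => hermForm n F q x w = 0) hxtop ?_ ?_ ?_
    · intro j y hy
      by_cases hji : j = i
      · subst hji
        exact hcon y hy
      · exact orth j i hji y hy w hw
    · exact hS.zero_left _
    · intro a b ha hb
      rw [hS.add_left, ha, hb, add_zero]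
  obtain ⟨x, hx, hxw⟩ := key
  refine ⟨⟨x, hx, hxw⟩, ⟨x, hx, ?_⟩⟩
  rw [h.herm_symm]
  exact (map_ne_zero σ).mpr hxw

/-- The dimension of a totally singular subspace with a totally singular complement. -/
theorem un_finrank_ts_pair (h : IsSigma q σ) (A B : Submodule F (Fin n → F))
    (hA : IsTotallySingularFor (hermForm n F q) A) (hB : IsTotallySingularFor (hermForm n F q) B)
    (hsup : A ⊔ B = ⊤) : n ≤ 2 * Module.finrank F A := by
  have hS := h.isSesq (n := n)
  have h1 := h.finrank_perp_ge A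
  have hdis : h.perp A ⊓ B = ⊥ := by
    rw [Submodule.eq_bot_iff]
    rintro b ⟨hbA, hbB⟩
    by_contra hb0
    obtain ⟨-, ⟨x, hx⟩⟩ := h.isUnitaryForm.nondegenerate b hb0
    apply hx
    have hxtop : x ∈ A ⊔ B := by
      rw [hsup]
      exact Submodule.mem_top
    obtain ⟨x₁, hx₁, x₂, hx₂, rfl⟩ := Submodule.mem_sup.mp hxtop
    rw [hS.add_right, hbA x₁ hx₁, hB b hbB x₂ hx₂, add_zero]
  have h2 := Submodule.finrank_sup_add_finrank_inf_eq (h.perp A) B
  rw [hdis, finrank_bot, add_zero] at h2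
  have h3 : Module.finrank F (h.perp A ⊔ B : Submodule F (Fin n → F)) ≤ n := by
    have := Submodule.finrank_le (h.perp A ⊔ B)
    rwa [Module.finrank_fin_fun] at this
  have h4 := Submodule.finrank_sup_add_finrank_inf_eq A B
  have h5 : Module.finrank F (A ⊔ B : Submodule F (Fin n → F)) = n := by
    rw [hsup, finrank_top, Module.finrank_fin_fun]
  have h6 : Module.finrank F (A ⊓ B : Submodule F (Fin n → F)) ≤ Module.finrank F B :=
    Submodule.finrank_mono inf_le_right
  omega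

/-- An idempotent `e` with `e* = 1 - e`, conjugated to itself or its complement, gives a pair of
complementary totally singular subspaces. -/
theorem un_ts_pair_of_idem (hn : 0 < n) (h : IsSigma q σ) (H : Subgroup (GL (Fin n) F))
    (hH : H ≤ GU n F q) (e : Matrix (Fin n) (Fin n) F) (he1 : e + uadj σ e = 1)
    (he2 : uadj σ e * e = 0)
    (hconj : ∀ h ∈ H,
      (h : Matrix (Fin n) (Fin n) F) * e * ((h⁻¹ : GL (Fin n) F) : Matrix (Fin n) (Fin n) F) = e ∨
      (h : Matrix (Fin n) (Fin n) F) * e * ((h⁻¹ : GL (Fin n) F) : Matrix (Fin n) (Fin n) F) = 1 - e) :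
    ∃ (k : ℕ) (D : Fin 2 → Submodule F (Fin n → F)), IsMDecomposition k D ∧
      (∀ i, IsTotallySingularFor (hermForm n F q) (D i)) ∧ H ≤ decompositionStabilizer D := by
  have hS := h.isSesq (n := n)
  have hadj : uadj σ e = 1 - e := eq_sub_of_add_eq' he1
  have hidem : e * e = e := by
    rw [hadj, Matrix.sub_mul, Matrix.one_mul] at he2
    exact (sub_eq_zero.mp he2).symm
  obtain ⟨A, hA⟩ : ∃ A : Submodule F (Fin n → F), A = LinearMap.range (Matrix.toLin' e) := ⟨_, rfl⟩
  obtain ⟨B, hB⟩ : ∃ B : Submodule F (Fin n → F), B = LinearMap.ker (Matrix.toLin' e) := ⟨_, rfl⟩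
  have memA : ∀ x, x ∈ A ↔ ∃ y, e *ᵥ y = x := by
    intro x
    rw [hA, LinearMap.mem_range]
    simp only [Matrix.toLin'_apply]
  have memB : ∀ x, x ∈ B ↔ e *ᵥ x = 0 := by
    intro x
    rw [hB, LinearMap.mem_ker, Matrix.toLin'_apply]
  have hAts : IsTotallySingularFor (hermForm n F q) A := by
    intro u hu v hv
    obtain ⟨y, rfl⟩ := (memA u).mp hu
    obtain ⟨z, rfl⟩ := (memA v).mp hv
    rw [un_adj_spec h, Matrix.mulVec_mulVec, he2, Matrix.zero_mulVec, hS.zero_right]
  have hBts : IsTotallySingularFor (hermForm n F q) B := by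
    intro u hu v hv
    have h1 : uadj σ e *ᵥ u = u := by
      rw [hadj, Matrix.sub_mulVec, Matrix.one_mulVec, (memB u).mp hu, sub_zero]
    rw [← h1, ← un_adj_spec' h, (memB v).mp hv, hS.zero_right]
  have hinf : A ⊓ B = ⊥ := by
    rw [Submodule.eq_bot_iff]
    rintro x ⟨hxA, hxB⟩
    obtain ⟨y, rfl⟩ := (memA x).mp hxA
    have h1 := (memB _).mp hxB
    rwa [Matrix.mulVec_mulVec, hidem] at h1
  have hsup : A ⊔ B = ⊤ := by
    rw [eq_top_iff]
    intro x _
    have h1 : x = e *ᵥ x + (x - e *ᵥ x) := by abel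
    rw [h1]
    refine Submodule.add_mem_sup ((memA _).mpr ⟨x, rfl⟩) ((memB _).mpr ?_)
    rw [Matrix.mulVec_sub, Matrix.mulVec_mulVec, hidem, sub_self]
  have hrn := LinearMap.finrank_range_add_finrank_ker (Matrix.toLin' e)
  rw [← hA, ← hB, Module.finrank_fintype_fun_eq_card, Fintype.card_fin] at hrn
  have hA2 := un_finrank_ts_pair h A B hAts hBts hsup
  have hB2 := un_finrank_ts_pair h B A hBts hAts (by rw [sup_comm]; exact hsup)
  obtain ⟨k, hk⟩ : ∃ k, Module.finrank F A = k := ⟨_, rfl⟩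
  have hkB : Module.finrank F B = k := by omega
  have hkpos : 0 < k := by omega
  refine ⟨k, Helper96.Sy.pairD A B, Helper96.Sy.pair_decomp A B hinf hsup k hk hkB hkpos, ?_, ?_⟩
  · intro i
    rcases Helper96.Sy.fin2_cases i with rfl | rfl
    · exact hAts
    · exact hBts
  · intro h hh
    rcases hconj h hh with hc | hc
    · have hcm : (h : Matrix (Fin n) (Fin n) F) * e = e * (h : Matrix (Fin n) (Fin n) F) := by
        have h1 := congrArg (fun M => M * (h : Matrix (Fin n) (Fin n) F)) hc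
        simp only [mul_assoc, Units.inv_mul, mul_one] at h1
        exact h1
      refine Helper96.Sy.pair_stab_fix A B k hk hkB h ?_ ?_
      · intro x hx
        obtain ⟨y, rfl⟩ := (memA x).mp hx
        rw [Matrix.mulVec_mulVec, hcm, ← Matrix.mulVec_mulVec]
        exact (memA _).mpr ⟨_, rfl⟩
      · intro x hx
        rw [memB, Matrix.mulVec_mulVec, ← hcm, ← Matrix.mulVec_mulVec, (memB x).mp hx,
          Matrix.mulVec_zero]
    · have hcm : (h : Matrix (Fin n) (Fin n) F) * e = (1 - e) * (h : Matrix (Fin n) (Fin n) F) := by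
        have h1 := congrArg (fun M => M * (h : Matrix (Fin n) (Fin n) F)) hc
        simp only [mul_assoc, Units.inv_mul, mul_one] at h1
        exact h1
      refine Helper96.Sy.pair_stab_swap A B k hk hkB h ?_ ?_
      · intro x hx
        obtain ⟨y, rfl⟩ := (memA x).mp hx
        have h5 : (h : Matrix (Fin n) (Fin n) F) *ᵥ (e *ᵥ y)
            = (1 - e) *ᵥ ((h : Matrix (Fin n) (Fin n) F) *ᵥ y) := by
          rw [Matrix.mulVec_mulVec, hcm, ← Matrix.mulVec_mulVec]
        rw [memB, h5, Matrix.mulVec_mulVec, Matrix.mul_sub, mul_one, hidem, sub_self,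
          Matrix.zero_mulVec]
      · intro x hx
        rw [memA]
        refine ⟨(h : Matrix (Fin n) (Fin n) F) *ᵥ x, ?_⟩
        have h1 : e * (h : Matrix (Fin n) (Fin n) F)
            = (h : Matrix (Fin n) (Fin n) F) - (h : Matrix (Fin n) (Fin n) F) * e := by
          rw [hcm, Matrix.sub_mul, Matrix.one_mul, sub_sub_cancel]
        rw [Matrix.mulVec_mulVec, h1, Matrix.sub_mulVec, ← Matrix.mulVec_mulVec, (memB x).mp hx,
          Matrix.mulVec_zero, sub_zero]

/-- The analysis of the centre `Z` of the centraliser of a normal subgroup `N` of an irreducible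
group `H` of isometries of the standard unitary form. -/
theorem un_z_analysis [Fintype F] (h : IsSigma q σ) (hF : Fintype.card F = q ^ 2) (hn : 0 < n)
    (H N : Subgroup (GL (Fin n) F))
    (hH : H ≤ GU n F q) (hirr : ActsIrreducibly (matrixSet H)) (hNH : N ≤ H)
    (hNn : ∀ h ∈ H, ∀ x ∈ N, h * x * h⁻¹ ∈ N) :
    (∃ (t k : ℕ) (D : Fin t → Submodule F (Fin n → F)),
      IsNondegenerateMDecomposition (hermForm n F q) k D ∧ H ≤ decompositionStabilizer D) ∨
    (∃ (k : ℕ) (D : Fin 2 → Submodule F (Fin n → F)), IsMDecomposition k D ∧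
      (∀ i, IsTotallySingularFor (hermForm n F q) (D i)) ∧ H ≤ decompositionStabilizer D) ∨
    (∃ (r : ℕ) (K : Subalgebra F (Matrix (Fin n) (Fin n) F)), r.Prime ∧ Odd r ∧
      IsFieldSubalgebra r K ∧ IsAdjointClosedFor (hermForm n F q) K ∧
      H ≤ subalgebraNormalizer K) ∨
    (∀ k, ZCent (matrixSet N) k → ∃ c : F, k = c • (1 : Matrix (Fin n) (Fin n) F)) := by
  classical
  have hne : NeZero n := ⟨hn.ne'⟩
  obtain ⟨T, hT⟩ : ∃ T, T = matrixSet N := ⟨_, rfl⟩
  rw [← hT]
  have hconj1 : ∀ g ∈ H, ∀ s ∈ T, (g : Matrix (Fin n) (Fin n) F) * s *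
      ((g⁻¹ : GL (Fin n) F) : Matrix (Fin n) (Fin n) F) ∈ T := by
    intro g hg
    rw [hT]
    exact matrixSet_conj N g (hNn g hg)
  have hconj2 : ∀ g ∈ H, ∀ s ∈ T, ((g⁻¹ : GL (Fin n) F) : Matrix (Fin n) (Fin n) F) * s *
      (g : Matrix (Fin n) (Fin n) F) ∈ T := by
    intro g hg
    rw [hT]
    have := matrixSet_conj N g⁻¹ (hNn g⁻¹ (H.inv_mem hg))
    simpa using this
  have hiso : UIsoSet q T := by
    intro s hs
    rw [hT] at hs ⊢
    obtain ⟨x, hx, rfl⟩ := hs
    exact ⟨x, hH (hNH hx), rfl, Helper97.coe_mem_matrixSet (N.inv_mem hx)⟩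
  have hZconj : ∀ g ∈ H, ∀ a, ZCent T a → ZCent T ((g : Matrix (Fin n) (Fin n) F) * a *
      ((g⁻¹ : GL (Fin n) F) : Matrix (Fin n) (Fin n) F)) :=
    fun g hg a ha => zcent_conj T g (hconj2 g hg) (hconj1 g hg) a ha
  have hZadj : ∀ a, ZCent T a → ZCent T (uadj σ a) := fun a ha => un_zcent_adj h hiso ha
  have hZcomm : ∀ a, ZCent T a → ∀ b, ZCent T b → a * b = b * a := fun a ha b hb => ha.2 b hb.1
  by_cases hD1 : ∃ M, (ZCent T M ∧ uadj σ M = M) ∧ M ≠ 0 ∧ ∃ v : Fin n → F, v ≠ 0 ∧ M *ᵥ v = 0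
  · left
    obtain ⟨M, hM, hM0, v, hv0, hMv⟩ := hD1
    exact un_nondeg_decomp h H hH hirr {M | ZCent T M ∧ uadj σ M = M}
      (fun a ha b hb => hZcomm a ha.1 b hb.1)
      (fun g hg a ha => ⟨hZconj g hg a ha.1, by rw [un_adj_conj h (hH hg), ha.2]⟩)
      (fun a ha => ha.2) M hM hM0 v hv0 hMv
  have hZp : ∀ M, ZCent T M → uadj σ M = M → M ≠ 0 → ∀ v : Fin n → F, M *ᵥ v = 0 → v = 0 := by
    intro M hM hM' hM0 v hv
    by_contra hv0
    exact hD1 ⟨M, ⟨hM, hM'⟩, hM0, v, hv0, hv⟩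
  -- self-adjoint elements of `Z` are zero or invertible in `Z` with self-adjoint inverse
  have hZpinv : ∀ M, ZCent T M → uadj σ M = M → M ≠ 0 →
      ZCent T M⁻¹ ∧ uadj σ M⁻¹ = M⁻¹ ∧ M⁻¹ * M = 1 ∧ M * M⁻¹ = 1 := by
    intro x hx hx' hx0
    have hdet : x.det ≠ 0 := Helper97.det_ne_zero_of_injective x (hZp x hx hx' hx0)
    have hu : IsUnit x.det := isUnit_iff_ne_zero.mpr hdet
    refine ⟨⟨fun s hs => inv_comm_of_comm x s hdet (hx.1 s hs),
      fun c hc => inv_comm_of_comm x c hdet (hx.2 c hc)⟩, ?_, Matrix.nonsing_inv_mul x hu,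
      Matrix.mul_nonsing_inv x hu⟩
    have h1 : uadj σ x⁻¹ * x = 1 := by
      have h2 := un_adj_mul (σ := σ) x x⁻¹
      rw [Matrix.mul_nonsing_inv x hu, un_adj_one, hx'] at h2
      exact h2.symm
    exact (Matrix.inv_eq_left_inv h1).symm
  by_cases hsing : ∃ M, ZCent T M ∧ M ≠ 0 ∧ ∃ v : Fin n → F, v ≠ 0 ∧ M *ᵥ v = 0
  · right; left
    obtain ⟨M, hM, hM0, v, hv0, hMv⟩ := hsing
    have : Fact (Fintype.card (Fin n) = n) := ⟨Fintype.card_fin n⟩
    obtain ⟨t, m, D, hD, -, hpres, hsep⟩ :=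
      Helper97.Gen.exists_decomp_of_comm_stable_sep H hirr {M | ZCent T M}
        (fun a ha b hb => hZcomm a ha b hb) (fun g hg a ha => hZconj g hg a ha) M hM hM0 v hv0 hMv
    have ht := hD.two_le
    obtain ⟨a, haZ, hkill, hinj⟩ := hsep ⟨0, by omega⟩ ⟨1, by omega⟩ (by simp [Fin.ext_iff])
    have hex : ∀ i, ∃ w ∈ D i, w ≠ 0 := by
      intro i
      have h1 := hD.finrank_eq i
      have h2' := hD.pos
      by_contra hcon
      push Not at hcon
      have h3 : D i = ⊥ := (Submodule.eq_bot_iff _).mpr hcon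
      rw [h3, finrank_bot] at h1
      omega
    obtain ⟨w0, hw0, hw00⟩ := hex ⟨0, by omega⟩
    obtain ⟨w1, hw1, hw10⟩ := hex ⟨1, by omega⟩
    -- `a* a = 0`
    have haa : uadj σ a * a = 0 := by
      by_contra hne0
      have h3 : (uadj σ a * a) *ᵥ w0 = 0 := by
        rw [← Matrix.mulVec_mulVec, hkill w0 hw0, Matrix.mulVec_zero]
      exact hw00 (hZp _ ((zc T).mul_mem (hZadj a haZ) haZ) (by rw [un_adj_mul, un_adj_adj h]) hne0
        w0 h3)
    obtain ⟨c, hcdef⟩ : ∃ c, c = a + uadj σ a := ⟨_, rfl⟩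
    have hcZ : ZCent T c := hcdef ▸ (zc T).add_mem haZ (hZadj a haZ)
    have hcsa : uadj σ c = c := by rw [hcdef, un_adj_add, un_adj_adj h, add_comm]
    have hc0 : c ≠ 0 := by
      intro h0
      rw [hcdef] at h0
      have h3 : uadj σ a = -a := eq_neg_of_add_eq_zero_right h0
      rw [h3, neg_mul, neg_eq_zero] at haa
      have h4 : a *ᵥ (a *ᵥ w1) = 0 := by rw [Matrix.mulVec_mulVec, haa, Matrix.zero_mulVec]
      exact hw10 (hinj w1 hw1 (hinj _ (hpres a haZ _ w1 hw1) h4))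
    obtain ⟨hciZ, hcisa, hci1, hci2⟩ := hZpinv c hcZ hcsa hc0
    obtain ⟨e, hedef⟩ : ∃ e, e = c⁻¹ * a := ⟨_, rfl⟩
    have heZ : ZCent T e := hedef ▸ (zc T).mul_mem hciZ haZ
    have he1 : e + uadj σ e = 1 := by
      rw [hedef, un_adj_mul, hcisa, hZcomm _ (hZadj a haZ) _ hciZ, ← mul_add, ← hcdef, hci1]
    have he2 : uadj σ e * e = 0 := by
      rw [hedef, un_adj_mul, hcisa]
      calc uadj σ a * c⁻¹ * (c⁻¹ * a) = c⁻¹ * c⁻¹ * (uadj σ a * a) := by
            rw [hZcomm _ (hZadj a haZ) _ hciZ, mul_assoc, ← mul_assoc (uadj σ a),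
              hZcomm _ (hZadj a haZ) _ hciZ]
            simp only [mul_assoc]
        _ = 0 := by rw [haa, mul_zero]
    have hadj : uadj σ e = 1 - e := eq_sub_of_add_eq' he1
    have hidem : e * e = e := by
      have h3 := he2
      rw [hadj, Matrix.sub_mul, Matrix.one_mul] at h3
      exact (sub_eq_zero.mp h3).symm
    apply un_ts_pair_of_idem hn h H hH e he1 he2
    intro g hg
    obtain ⟨e', he'def⟩ : ∃ e', e' = (g : Matrix (Fin n) (Fin n) F) * e *
        ((g⁻¹ : GL (Fin n) F) : Matrix (Fin n) (Fin n) F) := ⟨_, rfl⟩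
    rw [← he'def]
    have he'Z : ZCent T e' := he'def ▸ hZconj g hg e heZ
    have hadj' : uadj σ e' = 1 - e' := by
      rw [he'def, un_adj_conj h (hH hg), hadj, Matrix.mul_sub, Matrix.sub_mul, mul_one, Units.mul_inv]
    have hidem' : e' * e' = e' := by
      rw [he'def]
      calc (g : Matrix (Fin n) (Fin n) F) * e * ((g⁻¹ : GL (Fin n) F) : Matrix (Fin n) (Fin n) F) *
            ((g : Matrix (Fin n) (Fin n) F) * e * ((g⁻¹ : GL (Fin n) F) : Matrix (Fin n) (Fin n) F))
          = (g : Matrix (Fin n) (Fin n) F) * (e * (((g⁻¹ : GL (Fin n) F) : Matrix (Fin n) (Fin n) F) *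
            (g : Matrix (Fin n) (Fin n) F)) * e) * ((g⁻¹ : GL (Fin n) F) : Matrix (Fin n) (Fin n) F) := by
            simp only [mul_assoc]
        _ = _ := by rw [Units.inv_mul, mul_one, hidem]
    have hcm : e * e' = e' * e := hZcomm e heZ e' he'Z
    obtain ⟨pm, hpm⟩ : ∃ pm, pm = e * e' + (1 - e) * (1 - e') := ⟨_, rfl⟩
    have hpmZ : ZCent T pm := hpm ▸ (zc T).add_mem ((zc T).mul_mem heZ he'Z)
      ((zc T).mul_mem ((zc T).sub_mem (zc T).one_mem heZ) ((zc T).sub_mem (zc T).one_mem he'Z))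
    have hpmadj : uadj σ pm = pm := by
      have h3 : (1 - e') * (1 - e) = (1 - e) * (1 - e') := by
        simp only [mul_sub, sub_mul, mul_one, one_mul, hcm]
        abel
      rw [hpm, un_adj_add, un_adj_mul, un_adj_mul, un_adj_sub, un_adj_sub, un_adj_one, hadj, hadj',
        sub_sub_cancel, sub_sub_cancel, h3, ← hcm, add_comm]
    letI : CommRing ↥(zc T) :=
      { (inferInstance : Ring ↥(zc T)) with
        mul_comm := fun x y => Subtype.ext (x.2.2 y.1 y.2.1) }
    have hres := Helper96.Sy.idem_dichotomy (⟨e, heZ⟩ : ↥(zc T)) ⟨e', he'Z⟩ ⟨pm, hpmZ⟩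
      (Subtype.ext hidem) (Subtype.ext hidem') (Subtype.ext hpm.symm) (by
        by_cases hl : pm = 0
        · left
          exact Subtype.ext hl
        · right
          obtain ⟨hiZ, -, hi1, -⟩ := hZpinv pm hpmZ hpmadj hl
          exact ⟨⟨pm⁻¹, hiZ⟩, Subtype.ext hi1⟩)
    rcases hres with h3 | h3
    · left
      exact congrArg Subtype.val h3
    · right
      exact congrArg Subtype.val h3
  -- every non-zero element of `Z` is invertible: a field
  have hZinj : ∀ M, ZCent T M → M ≠ 0 → ∀ v : Fin n → F, M *ᵥ v = 0 → v = 0 := by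
    intro M hM hM0 v hv
    by_contra hv0
    exact hsing ⟨M, hM, hM0, v, hv0, hv⟩
  have hFS := isFS_zc T hZinj
  by_cases hB : ∃ k₀, ZCent T k₀ ∧ ∀ c : F, k₀ ≠ c • (1 : Matrix (Fin n) (Fin n) F)
  swap
  · right; right; right
    intro k hk
    by_contra hcon
    exact hB ⟨k, hk, fun c hc => hcon ⟨c, hc⟩⟩
  right; right; left
  obtain ⟨k₀, hk₀, hk₀ns⟩ := hB
  obtain ⟨r, K₀, hr, hK₀, hle, hnorm, hstar⟩ := un_exists_prime_subfield (zc T) hFS
    ⟨k₀, hk₀, hk₀ns⟩ (uadj σ) (fun x hx => hZadj x hx) (fun x m => un_adj_pow x m)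
  have hodd : Odd r := by
    rcases hr.eq_two_or_odd' with h2 | h2
    · exfalso
      subst h2
      exact un_no_quadratic h hF K₀ hK₀ hstar
    · exact h2
  refine ⟨r, K₀, hr, hodd, hK₀, fun k hk => ⟨uadj σ k, hstar k hk, fun u v => un_adj_spec h k u v⟩,
    ?_⟩
  have := le_normalizer_zc H N hNn
  rw [← hT] at this
  exact this.trans hnorm

end Cfsg.Agent.Helper35
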