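-- helper35 library: the tensor case for irreducible groups of isometries of the standard unitary form.
import Cfsg.Agent.Helper35.UnZ
import Cfsg.Agent.Helper96.SpTensor3

set_option autoImplicit false
set_option linter.unusedSectionVars false
set_option linter.unusedVariables false
open Cfsg Cfsg.Geo Matrix
open scoped Kronecker

namespace Cfsg.Agent.Helper35

open Cfsg.Agent.Helper97

variable {F : Type*} [Field F] {n : ℕ} {q : ℕ} {σ : F ≃+* F}

theorem un_map_map {m : Type*} (hσ : ∀ x : F, σ (σ x) = x) (M : Matrix m m F) :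
    (M.map σ).map σ = M := by
  ext i j
  simp [hσ]

theorem un_map_mul {m : Type*} [Fintype m] (L M : Matrix m m F) :
    (L * M).map σ = L.map σ * M.map σ :=
  Matrix.map_mul (f := (σ : F →+* F))

theorem un_map_one {m : Type*} [DecidableEq m] : (1 : Matrix m m F).map σ = 1 :=
  Matrix.map_one σ (map_zero σ) (map_one σ)

theorem un_map_smul {m : Type*} (c : F) (M : Matrix m m F) : (c • M).map σ = σ c • M.map σ := by
  ext i j
  simp

theorem un_det_map {m : Type*} [Fintype m] [DecidableEq m] (M : Matrix m m F) :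
    (M.map σ).det = σ M.det :=
  (RingHom.map_det (σ : F →+* F) M).symm

/-- The entries of `(x ⊗ 1)ᵀ X (y ⊗ 1)`. -/
theorem un_block_apply {d k : ℕ} (x y : Matrix (Fin d) (Fin d) F)
    (X₀ : Matrix (Fin d × Fin k) (Fin d × Fin k) F) (a a' : Fin d) (b b' : Fin k) :
    ((x ⊗ₖ (1 : Matrix (Fin k) (Fin k) F))ᵀ * X₀ * (y ⊗ₖ (1 : Matrix (Fin k) (Fin k) F))) (a, b) (a', b')
      = (xᵀ * (Matrix.of fun a a' => X₀ (a, b) (a', b') : Matrix (Fin d) (Fin d) F) * y) a a' := by
  rw [Helper96.kron_transpose, Matrix.transpose_one, Helper96.mul_kron_one_apply, Matrix.mul_apply]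
  apply Finset.sum_congr rfl
  intro c _
  rw [Helper96.kron_one_mul_apply, Matrix.mul_apply]
  rfl

theorem un_kron_map {d k : ℕ} (x : Matrix (Fin d) (Fin d) F) (y : Matrix (Fin k) (Fin k) F) :
    (x ⊗ₖ y).map σ = x.map σ ⊗ₖ y.map σ := by
  ext ⟨a, j⟩ ⟨a', j'⟩
  simp

theorem un_reindex_map {κ : Type} [Fintype κ] [DecidableEq κ] (e : Fin n ≃ κ) (X : Matrix κ κ F) :
    (Matrix.reindexAlgEquiv F F e.symm X).map σ = Matrix.reindexAlgEquiv F F e.symm (X.map σ) := by
  ext i j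
  simp [Matrix.coe_reindexAlgEquiv, Matrix.reindex_apply]

theorem un_reindex_reindex {κ : Type} [Fintype κ] [DecidableEq κ] (e : Fin n ≃ κ)
    (M : Matrix (Fin n) (Fin n) F) :
    Matrix.reindexAlgEquiv F F e.symm (Matrix.reindexAlgEquiv F F e M) = M := by
  ext i j
  simp [Matrix.coe_reindexAlgEquiv]

/-- Invariant sesquilinear forms of an absolutely irreducible set of invertible matrices closed under
inverses: a non-zero one is non-degenerate, and all are proportional to it. -/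
theorem un_inv_form_set {d : ℕ} (hσ : ∀ x : F, σ (σ x) = x) (R : Set (Matrix (Fin d) (Fin d) F))
    (habs : ActsAbsolutelyIrreducibly R)
    (hinv : ∀ x ∈ R, ∃ y ∈ R, x * y = 1 ∧ y * x = 1)
    (M : Matrix (Fin d) (Fin d) F) (hM : M ≠ 0) (hfix : ∀ x ∈ R, xᵀ * M * x.map σ = M) :
    M.det ≠ 0 ∧ ∀ M' : Matrix (Fin d) (Fin d) F, (∀ x ∈ R, xᵀ * M' * x.map σ = M') →
      ∃ c : F, M' = c • M := by
  classical
  have key : ∀ M' : Matrix (Fin d) (Fin d) F, (∀ x ∈ R, xᵀ * M' * x.map σ = M') →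
      ∀ x ∈ R, ∀ y : Matrix (Fin d) (Fin d) F, x * y = 1 →
        M'.map σ * x = (y.map σ)ᵀ * M'.map σ := by
    intro M' hfix' x hx y hxy
    have h1 : (x.map σ)ᵀ * M'.map σ * x = M'.map σ := by
      have h2 : (xᵀ * M' * x.map σ).map σ = M'.map σ := by rw [hfix' x hx]
      rw [un_map_mul, un_map_mul, un_map_map hσ, Matrix.transpose_map] at h2
      exact h2
    have h3 : (y.map σ)ᵀ * (x.map σ)ᵀ = 1 := by
      rw [← Matrix.transpose_mul, ← un_map_mul, hxy, un_map_one, Matrix.transpose_one]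
    calc M'.map σ * x = ((y.map σ)ᵀ * (x.map σ)ᵀ) * M'.map σ * x := by rw [h3, one_mul]
      _ = (y.map σ)ᵀ * ((x.map σ)ᵀ * M'.map σ * x) := by simp only [mul_assoc]
      _ = (y.map σ)ᵀ * M'.map σ := by rw [h1]
  obtain ⟨M₂, hM₂⟩ : ∃ M₂ : Matrix (Fin d) (Fin d) F, M₂ = M.map σ := ⟨_, rfl⟩
  have hM₂0 : M₂ ≠ 0 := by
    intro h0
    apply hM
    have h1 := un_map_map hσ M
    rw [← hM₂, h0] at h1
    rw [← h1]
    ext i j
    simp
  have hdet₂ : M₂.det ≠ 0 := by
    intro h0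
    obtain ⟨v, hv0, hv⟩ := Matrix.exists_mulVec_eq_zero_iff.mpr h0
    have hW : ∀ s ∈ R, (LinearMap.ker (Matrix.toLin' M₂)).map (Matrix.toLin' s)
        ≤ LinearMap.ker (Matrix.toLin' M₂) := by
      rintro s hs _ ⟨w, hw, rfl⟩
      obtain ⟨y, -, hxy, -⟩ := hinv s hs
      have hw' : M₂ *ᵥ w = 0 := by
        have := LinearMap.mem_ker.mp hw
        rwa [Matrix.toLin'_apply] at this
      rw [LinearMap.mem_ker, Matrix.toLin'_apply, Matrix.toLin'_apply, Matrix.mulVec_mulVec,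
        hM₂, key M hfix s hs y hxy, ← hM₂, ← Matrix.mulVec_mulVec, hw', Matrix.mulVec_zero]
    rcases habs.1 _ hW with h | h
    · have : v ∈ LinearMap.ker (Matrix.toLin' M₂) := by
        rw [LinearMap.mem_ker, Matrix.toLin'_apply]
        exact hv
      rw [h] at this
      exact hv0 ((Submodule.mem_bot F).mp this)
    · apply hM₂0
      apply Helper97.eq_zero_of_mulVec_eq_zero
      intro w
      have : w ∈ LinearMap.ker (Matrix.toLin' M₂) := by rw [h]; exact Submodule.mem_top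
      rwa [LinearMap.mem_ker, Matrix.toLin'_apply] at this
  have hdet : M.det ≠ 0 := by
    intro h0
    apply hdet₂
    rw [hM₂, un_det_map, h0, map_zero]
  refine ⟨hdet, fun M' hfix' => ?_⟩
  have hu : IsUnit M₂.det := isUnit_iff_ne_zero.mpr hdet₂
  obtain ⟨c, hc⟩ := habs.2 (M₂⁻¹ * M'.map σ) (by
    intro x hx
    obtain ⟨y, -, hxy, -⟩ := hinv x hx
    have h1 := key M hfix x hx y hxy
    have h2 := key M' hfix' x hx y hxy
    rw [← hM₂] at h1
    have h3 : M₂⁻¹ * (y.map σ)ᵀ = x * M₂⁻¹ := by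
      calc M₂⁻¹ * (y.map σ)ᵀ = M₂⁻¹ * ((y.map σ)ᵀ * M₂) * M₂⁻¹ := by
            rw [mul_assoc, mul_assoc, Matrix.mul_nonsing_inv M₂ hu, mul_one]
        _ = M₂⁻¹ * (M₂ * x) * M₂⁻¹ := by rw [h1]
        _ = x * M₂⁻¹ := by rw [← mul_assoc, Matrix.nonsing_inv_mul M₂ hu, one_mul]
    rw [mul_assoc, h2, ← mul_assoc, h3, mul_assoc])
  refine ⟨σ c, ?_⟩
  have h4 : M'.map σ = c • M₂ := by
    calc M'.map σ = M₂ * (M₂⁻¹ * M'.map σ) := by
          rw [← mul_assoc, Matrix.mul_nonsing_inv M₂ hu, one_mul]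
      _ = c • M₂ := by rw [hc, Matrix.mul_smul, mul_one]
  have h5 : (M'.map σ).map σ = (c • M₂).map σ := by rw [h4]
  rw [un_map_map hσ, hM₂, un_map_smul, un_map_map hσ] at h5
  exact h5

/-- A non-zero invariant sesquilinear form has a hermitian multiple. -/
theorem un_inv_form_herm {d : ℕ} (h : IsSigma q σ) (R : Set (Matrix (Fin d) (Fin d) F))
    (habs : ActsAbsolutelyIrreducibly R)
    (hinv : ∀ x ∈ R, ∃ y ∈ R, x * y = 1 ∧ y * x = 1)
    (M : Matrix (Fin d) (Fin d) F) (hM : M ≠ 0) (hfix : ∀ x ∈ R, xᵀ * M * x.map σ = M) :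
    ∃ μ : F, μ ≠ 0 ∧ (μ • M)ᵀ = (μ • M).map σ := by
  obtain ⟨hdet, hprop⟩ := un_inv_form_set h.inv R habs hinv M hM hfix
  obtain ⟨c, hc⟩ := hprop (Mᵀ.map σ) (by
    intro x hx
    have h1 : ((xᵀ * M * x.map σ)ᵀ).map σ = xᵀ * Mᵀ.map σ * x.map σ := by
      rw [Matrix.transpose_mul, Matrix.transpose_mul, Matrix.transpose_transpose, un_map_mul,
        un_map_mul, Matrix.transpose_map, un_map_map h.inv, mul_assoc]
    rw [← h1, hfix x hx])
  have hent : ∀ i j, σ (M j i) = c * M i j := by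
    intro i j
    have := congrFun (congrFun hc i) j
    simpa using this
  obtain ⟨i₀, j₀, hij⟩ : ∃ i j, M i j ≠ 0 := by
    by_contra hcon
    push Not at hcon
    apply hM
    ext i j
    exact hcon i j
  have hcc : σ c * c = 1 := by
    have h1 := hent i₀ j₀
    have h2 := hent j₀ i₀
    have h3 : M i₀ j₀ = σ c * c * M i₀ j₀ := by
      calc M i₀ j₀ = σ (σ (M i₀ j₀)) := (h.inv _).symm
        _ = σ (c * M j₀ i₀) := by rw [h2]
        _ = σ c * σ (M j₀ i₀) := map_mul σ _ _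
        _ = σ c * c * M i₀ j₀ := by rw [h1, mul_assoc]
    have h4 : (σ c * c - 1) * M i₀ j₀ = 0 := by linear_combination -h3
    rcases mul_eq_zero.mp h4 with h5 | h5
    · exact sub_eq_zero.mp h5
    · exact absurd h5 hij
  have hfin : ∀ μ : F, σ μ * c = μ → (μ • M)ᵀ = (μ • M).map σ := by
    intro μ hμ
    ext i j
    simp only [Matrix.transpose_apply, Matrix.smul_apply, Matrix.map_apply, smul_eq_mul, map_mul]
    rw [hent j i, ← mul_assoc, hμ]
  by_cases hc1 : c = -1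
  · obtain ⟨μ, hμ0, hμ⟩ := h.exists_trace_zero
    refine ⟨μ, hμ0, hfin μ ?_⟩
    rw [hμ, hc1]
    ring
  · refine ⟨1 + c, ?_, hfin _ ?_⟩
    · intro h0
      apply hc1
      linear_combination h0
    · rw [map_add, map_one, add_mul, one_mul, hcc, add_comm]

/-- The matrix of the standard unitary form in conjugated coordinates is preserved by a unitary
matrix written in those coordinates. -/
theorem un_conj_fix {κ : Type} [Fintype κ] [DecidableEq κ] (e : Fin n ≃ κ) (P : GL (Fin n) F)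
    (Y : Matrix κ κ F)
    (hY : (Helper98.conjReindex e P Y)ᵀ * (Helper98.conjReindex e P Y).map σ = 1) :
    Yᵀ * Matrix.reindexAlgEquiv F F e
        ((P : Matrix (Fin n) (Fin n) F)ᵀ * (P : Matrix (Fin n) (Fin n) F).map σ) * Y.map σ
      = Matrix.reindexAlgEquiv F F e
        ((P : Matrix (Fin n) (Fin n) F)ᵀ * (P : Matrix (Fin n) (Fin n) F).map σ) := by
  apply (Matrix.reindexAlgEquiv F F e.symm).injective
  rw [map_mul, map_mul, un_reindex_reindex, ← Helper96.reindex_transpose, ← un_reindex_map]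
  rw [Helper98.conjReindex_apply] at hY
  have hPi : ((P⁻¹ : GL (Fin n) F) : Matrix (Fin n) (Fin n) F) * (P : Matrix (Fin n) (Fin n) F) = 1 := by
    rw [← Units.val_mul, inv_mul_cancel, Units.val_one]
  have h1 : (P : Matrix (Fin n) (Fin n) F)ᵀ * ((P⁻¹ : GL (Fin n) F) : Matrix (Fin n) (Fin n) F)ᵀ = 1 := by
    rw [← Matrix.transpose_mul, hPi, Matrix.transpose_one]
  have h2 : ((P⁻¹ : GL (Fin n) F) : Matrix (Fin n) (Fin n) F).map σ *
      (P : Matrix (Fin n) (Fin n) F).map σ = 1 := by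
    rw [← un_map_mul, hPi, un_map_one]
  calc (Matrix.reindexAlgEquiv F F e.symm Y)ᵀ *
        ((P : Matrix (Fin n) (Fin n) F)ᵀ * (P : Matrix (Fin n) (Fin n) F).map σ) *
        (Matrix.reindexAlgEquiv F F e.symm Y).map σ
      = (P : Matrix (Fin n) (Fin n) F)ᵀ *
        (((P : Matrix (Fin n) (Fin n) F) * Matrix.reindexAlgEquiv F F e.symm Y *
          ((P⁻¹ : GL (Fin n) F) : Matrix (Fin n) (Fin n) F))ᵀ *
        ((P : Matrix (Fin n) (Fin n) F) * Matrix.reindexAlgEquiv F F e.symm Y *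
          ((P⁻¹ : GL (Fin n) F) : Matrix (Fin n) (Fin n) F)).map σ) *
        (P : Matrix (Fin n) (Fin n) F).map σ := by
        rw [Matrix.transpose_mul, Matrix.transpose_mul, un_map_mul, un_map_mul]
        simp only [Matrix.mul_assoc]
        rw [h2, Matrix.mul_one, ← Matrix.mul_assoc (P : Matrix (Fin n) (Fin n) F)ᵀ
          ((P⁻¹ : GL (Fin n) F) : Matrix (Fin n) (Fin n) F)ᵀ, h1, Matrix.one_mul]
    _ = (P : Matrix (Fin n) (Fin n) F)ᵀ * (P : Matrix (Fin n) (Fin n) F).map σ := by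
        rw [hY, Matrix.mul_one]

end Cfsg.Agent.Helper35
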