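-- helper35 library: the tensor case for irreducible unitary groups: the factor forms.
import Cfsg.Agent.Helper35.UnTensor

set_option autoImplicit false
set_option linter.unusedSectionVars false
set_option linter.unusedVariables false
open Cfsg Cfsg.Geo Matrix
open scoped Kronecker

namespace Cfsg.Agent.Helper35

open Cfsg.Agent.Helper97

variable {F : Type*} [Field F] {n : ℕ} {q : ℕ} {σ : F ≃+* F}

/-- The matrix of the standard unitary form in tensor coordinates is a Kronecker product of two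
hermitian matrices. -/
theorem un_tensor_gram (h : IsSigma q σ) {N : Subgroup (GL (Fin n) F)} {d k : ℕ}
    {e : Fin n ≃ Fin d × Fin k} {P : GL (Fin n) F}
    {ρ : Matrix (Fin n) (Fin n) F → Matrix (Fin d) (Fin d) F} (D : Helper96.TensorData N d k e P ρ)
    (hN : N ≤ GU n F q) :
    ∃ (B₁ : Matrix (Fin d) (Fin d) F) (C : Matrix (Fin k) (Fin k) F),
      Matrix.reindexAlgEquiv F F e
        ((P : Matrix (Fin n) (Fin n) F)ᵀ * (P : Matrix (Fin n) (Fin n) F).map σ) = B₁ ⊗ₖ C ∧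
      B₁.det ≠ 0 ∧ C.det ≠ 0 ∧ B₁ᵀ = B₁.map σ ∧ Cᵀ = C.map σ := by
  classical
  obtain ⟨M, hM⟩ : ∃ M, M = (P : Matrix (Fin n) (Fin n) F)ᵀ * (P : Matrix (Fin n) (Fin n) F).map σ :=
    ⟨_, rfl⟩
  obtain ⟨X₀, hX₀⟩ : ∃ X₀, X₀ = Matrix.reindexAlgEquiv F F e M := ⟨_, rfl⟩
  rw [← hM, ← hX₀]
  have hX₀apply : ∀ i j, X₀ i j = M (e.symm i) (e.symm j) := by
    intro i j
    rw [hX₀]
    simp [Matrix.coe_reindexAlgEquiv]
  have hMherm : Mᵀ = M.map σ := by
    rw [hM, Matrix.transpose_mul, Matrix.transpose_transpose, un_map_mul, un_map_map h.inv,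
      Matrix.transpose_map]
  have hX₀herm : X₀ᵀ = X₀.map σ := by
    ext i j
    rw [Matrix.transpose_apply, Matrix.map_apply, hX₀apply, hX₀apply]
    have := congrFun (congrFun hMherm (e.symm i)) (e.symm j)
    rw [Matrix.transpose_apply, Matrix.map_apply] at this
    exact this
  obtain ⟨R, hR⟩ : ∃ R, R = ρ '' matrixSet N := ⟨_, rfl⟩
  have habs : ActsAbsolutelyIrreducibly R := hR ▸ D.absIrred_image
  have hinv : ∀ x ∈ R, ∃ y ∈ R, x * y = 1 ∧ y * x = 1 := by
    intro x hx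
    rw [hR] at hx
    obtain ⟨s, hs, rfl⟩ := hx
    obtain ⟨g, hg, rfl⟩ := hs
    have hs' : ((g⁻¹ : GL (Fin n) F) : Matrix (Fin n) (Fin n) F) ∈ matrixSet N :=
      Helper97.coe_mem_matrixSet (N.inv_mem hg)
    refine ⟨ρ ((g⁻¹ : GL (Fin n) F) : Matrix (Fin n) (Fin n) F), by rw [hR]; exact ⟨_, hs', rfl⟩, ?_, ?_⟩
    · apply Helper96.kron_one_injective D.hk
      apply Helper98.conjReindex_injective e P
      rw [← mul_one (1 : Matrix (Fin k) (Fin k) F), Matrix.mul_kronecker_mul, map_mul,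
        ← D.eq _ (Helper97.coe_mem_matrixSet hg), ← D.eq _ hs', mul_one, Matrix.one_kronecker_one,
        map_one, ← Units.val_mul, mul_inv_cancel, Units.val_one]
    · apply Helper96.kron_one_injective D.hk
      apply Helper98.conjReindex_injective e P
      rw [← mul_one (1 : Matrix (Fin k) (Fin k) F), Matrix.mul_kronecker_mul, map_mul,
        ← D.eq _ (Helper97.coe_mem_matrixSet hg), ← D.eq _ hs', mul_one, Matrix.one_kronecker_one,
        map_one, ← Units.val_mul, inv_mul_cancel, Units.val_one]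
  have hXinv : ∀ s ∈ matrixSet N, (ρ s ⊗ₖ (1 : Matrix (Fin k) (Fin k) F))ᵀ * X₀ *
      ((ρ s).map σ ⊗ₖ (1 : Matrix (Fin k) (Fin k) F)) = X₀ := by
    intro s hs
    obtain ⟨g, hg, rfl⟩ := hs
    have h1 := h.GU_matrix g (hN hg)
    have h2 := D.eq _ (Helper97.coe_mem_matrixSet hg)
    rw [h2] at h1
    have h3 := un_conj_fix e P _ h1
    rw [un_kron_map, un_map_one, ← hM, ← hX₀] at h3
    exact h3
  have hblk : ∀ b b' : Fin k, ∀ x ∈ R,
      xᵀ * (Matrix.of fun a a' => X₀ (a, b) (a', b') : Matrix (Fin d) (Fin d) F) * x.map σ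
        = (Matrix.of fun a a' => X₀ (a, b) (a', b') : Matrix (Fin d) (Fin d) F) := by
    intro b b' x hx
    rw [hR] at hx
    obtain ⟨s, hs, rfl⟩ := hx
    ext a a'
    rw [← un_block_apply, hXinv s hs]
    rfl
  have hPdet : (P : Matrix (Fin n) (Fin n) F).det ≠ 0 := (Matrix.GeneralLinearGroup.det P).ne_zero
  have hX₀det : X₀.det ≠ 0 := by
    rw [hX₀, Matrix.det_reindexAlgEquiv, hM, Matrix.det_mul, Matrix.det_transpose, un_det_map]
    exact mul_ne_zero hPdet ((map_ne_zero σ).mpr hPdet)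
  have hex : ∃ b₀ b₀' : Fin k,
      (Matrix.of fun a a' => X₀ (a, b₀) (a', b₀') : Matrix (Fin d) (Fin d) F) ≠ 0 := by
    by_contra hcon
    push Not at hcon
    apply hX₀det
    have h0 : X₀ = 0 := by
      ext ⟨a, b⟩ ⟨a', b'⟩
      exact congrFun (congrFun (hcon b b') a) a'
    rw [h0]
    haveI : Nonempty (Fin d × Fin k) := ⟨(⟨0, D.hd⟩, ⟨0, D.hk⟩)⟩
    exact Matrix.det_zero
  obtain ⟨b₀, b₀', hB₀0⟩ := hex
  obtain ⟨B₀, hB₀⟩ : ∃ B₀ : Matrix (Fin d) (Fin d) F,
      B₀ = Matrix.of fun a a' => X₀ (a, b₀) (a', b₀') := ⟨_, rfl⟩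
  rw [← hB₀] at hB₀0
  have hB₀fix : ∀ x ∈ R, xᵀ * B₀ * x.map σ = B₀ := hB₀ ▸ hblk b₀ b₀'
  obtain ⟨hB₀det, hprop⟩ := un_inv_form_set h.inv R habs hinv B₀ hB₀0 hB₀fix
  obtain ⟨μ, hμ0, hμ⟩ := un_inv_form_herm h R habs hinv B₀ hB₀0 hB₀fix
  choose C₀ hC₀ using fun b b' => hprop _ (hblk b b')
  obtain ⟨B₁, hB₁⟩ : ∃ B₁ : Matrix (Fin d) (Fin d) F, B₁ = μ • B₀ := ⟨_, rfl⟩
  obtain ⟨C, hC⟩ : ∃ C : Matrix (Fin k) (Fin k) F, C = μ⁻¹ • (Matrix.of C₀ : Matrix (Fin k) (Fin k) F) :=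
    ⟨_, rfl⟩
  have hXBC : X₀ = B₁ ⊗ₖ C := by
    ext ⟨a, b⟩ ⟨a', b'⟩
    have h1 := congrFun (congrFun (hC₀ b b') a) a'
    rw [Matrix.kronecker_apply, hB₁, hC, Matrix.smul_apply, Matrix.smul_apply, Matrix.of_apply,
      smul_eq_mul, smul_eq_mul]
    have h2 : X₀ (a, b) (a', b') = C₀ b b' * B₀ a a' := h1
    rw [h2]
    field_simp
  have hB₁det : B₁.det ≠ 0 := by
    rw [hB₁, Matrix.det_smul]
    exact mul_ne_zero (pow_ne_zero _ hμ0) hB₀det
  have hCdet : C.det ≠ 0 := by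
    intro h0
    apply hX₀det
    rw [hXBC, Matrix.det_kronecker, h0, Fintype.card_fin, Fintype.card_fin,
      zero_pow (by have := D.hd; omega), mul_zero]
  have hB₁herm : B₁ᵀ = B₁.map σ := by
    rw [hB₁]
    exact hμ
  have hB₁0 : B₁.map σ ≠ 0 := by
    intro h0
    have h1 := un_map_map h.inv B₁
    rw [h0] at h1
    apply hB₁det
    rw [← h1]
    have : ((0 : Matrix (Fin d) (Fin d) F).map σ) = 0 := by
      ext i j
      simp
    rw [this]
    haveI : Nonempty (Fin d) := ⟨⟨0, D.hd⟩⟩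
    exact Matrix.det_zero
  have hCherm : Cᵀ = C.map σ := by
    have h1 : B₁.map σ ⊗ₖ Cᵀ = B₁.map σ ⊗ₖ C.map σ := by
      rw [← un_kron_map, ← hXBC, ← hX₀herm, hXBC, Helper96.kron_transpose, hB₁herm]
    exact Helper96.Sy.kron_left_cancel _ hB₁0 h1
  exact ⟨B₁, C, hXBC, hB₁det, hCdet, hB₁herm, hCherm⟩

theorem un_fog_eq {m : ℕ} (G : Matrix (Fin m) (Fin m) F) (x y : Fin m → F) :
    formOfGram (σ : F → F) G x y = x ⬝ᵥ (G *ᵥ (fun b => σ (y b))) := by
  simp only [formOfGram, dotProduct, Matrix.mulVec, Finset.mul_sum, mul_assoc]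

theorem un_gram_fog {κ : Type} [Fintype κ] [DecidableEq κ] (G : Matrix κ κ F) :
    gramMatrix (formOfGram (σ : F → F) G) = G := by
  ext a b
  show formOfGram (σ : F → F) G (Pi.single a 1) (Pi.single b 1) = G a b
  simp only [formOfGram]
  rw [Finset.sum_eq_single a]
  · rw [Finset.sum_eq_single b]
    · simp
    · intro b' _ hb'
      simp [Pi.single_eq_of_ne hb']
    · intro hb
      exact absurd (Finset.mem_univ b) hb
  · intro a' _ ha'
    simp [Pi.single_eq_of_ne ha']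
  · intro ha
    exact absurd (Finset.mem_univ a) ha

/-- A non-singular hermitian matrix defines a unitary form. -/
theorem un_fog_unitary (h : IsSigma q σ) {m : ℕ} (G : Matrix (Fin m) (Fin m) F)
    (hG : Gᵀ = G.map σ) (hdet : G.det ≠ 0) :
    IsUnitaryFormPow q (formOfGram (fun x : F => x ^ q) G) := by
  classical
  have hpow : (fun x : F => x ^ q) = σ := by
    funext x
    exact (h.pow x).symm
  rw [hpow]
  have hGent : ∀ a b, σ (G a b) = G b a := by
    intro a b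
    have := congrFun (congrFun hG a) b
    rw [Matrix.transpose_apply, Matrix.map_apply] at this
    exact this.symm
  have hherm : ∀ v w, formOfGram (σ : F → F) G v w = σ (formOfGram (σ : F → F) G w v) := by
    intro v w
    simp only [formOfGram, map_sum, map_mul, h.inv]
    rw [Finset.sum_comm]
    apply Finset.sum_congr rfl
    intro a _
    apply Finset.sum_congr rfl
    intro b _
    rw [hGent]
    ring
  refine ⟨?_, ?_, ?_, ?_⟩
  · intro x y v
    simp only [formOfGram, Pi.add_apply, add_mul, Finset.sum_add_distrib]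
  · intro c x v
    simp only [formOfGram, Pi.smul_apply, smul_eq_mul, Finset.mul_sum, mul_assoc]
  · intro v w
    rw [← h.pow]
    exact hherm v w
  · intro v hv
    have hv' : (fun b => σ (v b)) ≠ 0 := by
      intro h0
      apply hv
      funext b
      have := congrFun h0 b
      exact (map_eq_zero σ).mp this
    have h1 : G *ᵥ (fun b => σ (v b)) ≠ 0 :=
      fun h0 => hdet (Matrix.exists_mulVec_eq_zero_iff.mp ⟨_, hv', h0⟩)
    obtain ⟨i, hi⟩ : ∃ i, (G *ᵥ (fun b => σ (v b))) i ≠ 0 := by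
      by_contra hcon
      push Not at hcon
      exact h1 (funext hcon)
    have h2 : formOfGram (σ : F → F) G (Pi.single i 1) v ≠ 0 := by
      rw [un_fog_eq, single_one_dotProduct]
      exact hi
    refine ⟨⟨Pi.single i 1, h2⟩, ⟨Pi.single i 1, ?_⟩⟩
    rw [hherm]
    exact (map_ne_zero σ).mpr h2

/-- The tensor form structure attached to the matrix of the form in tensor coordinates. -/
theorem un_tensor_form_structure (h : IsSigma q σ) {n₁ n₂ : ℕ} (e : Fin n ≃ Fin n₁ × Fin n₂)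
    (P : GL (Fin n) F) (A : Matrix (Fin n₁) (Fin n₁) F) (S : Matrix (Fin n₂) (Fin n₂) F)
    (hG : Matrix.reindexAlgEquiv F F e
      ((P : Matrix (Fin n) (Fin n) F)ᵀ * (P : Matrix (Fin n) (Fin n) F).map σ) = A ⊗ₖ S) :
    IsTensorFormStructure (fun x : F => x ^ q) (hermForm n F q)
      (formOfGram (fun x : F => x ^ q) A) (formOfGram (fun x : F => x ^ q) S) e P := by
  classical
  have hpow : (fun x : F => x ^ q) = σ := by
    funext x
    exact (h.pow x).symm
  rw [hpow]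
  refine ⟨1, one_ne_zero, fun x y => ?_⟩
  rw [one_mul, un_gram_fog, un_gram_fog, ← hG]
  have h1 := h.isSesq.apply_mulVec (P : Matrix (Fin n) (Fin n) F) (x ∘ e) (y ∘ e)
  rw [h1, h.gram_herm, Matrix.mul_one]
  simp only [formOfGram, dotProduct, Matrix.mulVec, Matrix.coe_reindexAlgEquiv, Matrix.reindex_apply,
    Matrix.submatrix_apply, Function.comp_apply]
  rw [← Equiv.sum_comp e]
  apply Finset.sum_congr rfl
  intro i _
  rw [Finset.mul_sum, ← Equiv.sum_comp e]
  apply Finset.sum_congr rfl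
  intro j _
  simp only [Equiv.symm_symm, Equiv.symm_apply_apply]
  ring

theorem un_reindex_swap {d k : ℕ} (e : Fin n ≃ Fin d × Fin k) (M : Matrix (Fin n) (Fin n) F)
    (a : Matrix (Fin d) (Fin d) F) (b : Matrix (Fin k) (Fin k) F)
    (hM : Matrix.reindexAlgEquiv F F e M = a ⊗ₖ b) :
    Matrix.reindexAlgEquiv F F (e.trans (Equiv.prodComm (Fin d) (Fin k))) M = b ⊗ₖ a := by
  ext ⟨j, i⟩ ⟨j', i'⟩
  have h1 := congrFun (congrFun hM (i, j)) (i', j')
  rw [Matrix.kronecker_apply] at h1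
  rw [Matrix.kronecker_apply, mul_comm, ← h1]
  simp [Matrix.coe_reindexAlgEquiv]

/-- The tensor case: tensor coordinates in which the matrix of the standard unitary form is a
Kronecker product of two non-singular hermitian matrices, with the smaller factor first. -/
theorem un_tensor_cases (h : IsSigma q σ) (H N : Subgroup (GL (Fin n) F))
    (hH : H ≤ GU n F q) (hNH : N ≤ H)
    (hNn : ∀ g ∈ H, ∀ x ∈ N, g * x * g⁻¹ ∈ N) {d k : ℕ} {e : Fin n ≃ Fin d × Fin k}
    {P : GL (Fin n) F} {ρ : Matrix (Fin n) (Fin n) F → Matrix (Fin d) (Fin d) F}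
    (D : Helper96.TensorData N d k e P ρ) (hd : 2 ≤ d) (hk : 2 ≤ k) :
    ∃ (n₁ n₂ : ℕ) (e' : Fin n ≃ Fin n₁ × Fin n₂) (P' : GL (Fin n) F)
      (A : Matrix (Fin n₁) (Fin n₁) F) (S : Matrix (Fin n₂) (Fin n₂) F),
      2 ≤ n₁ ∧ n₁ ≤ n₂ ∧ Aᵀ = A.map σ ∧ Sᵀ = S.map σ ∧ A.det ≠ 0 ∧ S.det ≠ 0 ∧
      Matrix.reindexAlgEquiv F F e'
        ((P' : Matrix (Fin n) (Fin n) F)ᵀ * (P' : Matrix (Fin n) (Fin n) F).map σ) = A ⊗ₖ S ∧
      H ≤ tensorProductSubgroup n₁ n₂ e' P' := by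
  classical
  have hle : H ≤ tensorProductSubgroup d k e P := by
    intro g hg
    refine D.normalizer_mem g (hNn g hg) ?_
    have := hNn g⁻¹ (H.inv_mem hg)
    simpa using this
  obtain ⟨B₁, C, hG, hB₁det, hCdet, hB₁, hC⟩ := un_tensor_gram h D (hNH.trans hH)
  by_cases hdk : d ≤ k
  · exact ⟨d, k, e, P, B₁, C, hd, hdk, hB₁, hC, hB₁det, hCdet, hG, hle⟩
  · exact ⟨k, d, e.trans (Equiv.prodComm (Fin d) (Fin k)), P, C, B₁, hk, by omega, hC, hB₁,
      hCdet, hB₁det, un_reindex_swap e _ B₁ C hG, hle.trans (Helper96.tensor_swap_le e P)⟩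

end Cfsg.Agent.Helper35
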